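import Mathlib
import Cfsg.Prelude.Def_RootSubgroups

set_option autoImplicit false
set_option linter.style.haveILetI false

namespace Cfsg.Agent.Lib.Helper6

open Equiv Equiv.Perm

theorem a6_multiset (m : Multiset ℕ) (h2 : ∀ n ∈ m, 2 ≤ n) (hs : m.sum ≤ 6)
    (he : Even (m.sum + Multiset.card m)) :
    m.lcm = 1 ∨ m.lcm = 2 ∨ m.lcm = 3 ∨ m.lcm = 4 ∨ m.lcm = 5 := by
  have hcard : Multiset.card m • 2 ≤ m.sum := Multiset.card_nsmul_le_sum h2
  have hc3 : Multiset.card m ≤ 3 := by
    rw [smul_eq_mul] at hcard; omega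
  obtain ⟨c, hc⟩ : ∃ c, Multiset.card m = c := ⟨_, rfl⟩
  rw [hc] at hc3 he
  interval_cases c
  · rw [Multiset.card_eq_zero] at hc; subst hc; left; simp
  · obtain ⟨a, rfl⟩ := Multiset.card_eq_one.mp hc
    have ha := h2 a (by simp)
    simp only [Multiset.sum_singleton] at hs he
    simp only [Multiset.lcm_singleton, normalize_eq]
    interval_cases a <;> first | omega | (exfalso; revert he; decide)
  · obtain ⟨a, b, rfl⟩ := Multiset.card_eq_two.mp hc
    have ha := h2 a (by simp)
    have hb := h2 b (by simp)
    have hs' : a + b ≤ 6 := by simpa using hs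
    have he' : Even (a + b + 2) := by simpa using he
    have hl : ({a, b} : Multiset ℕ).lcm = Nat.lcm a b := by
      simp [Multiset.lcm_cons]; rfl
    rw [hl]
    have ha4 : a ≤ 4 := by omega
    have hb4 : b ≤ 4 := by omega
    interval_cases a <;> interval_cases b <;> first | omega | (exfalso; revert he'; decide) | decide
  · obtain ⟨a, b, c, rfl⟩ := Multiset.card_eq_three.mp hc
    have ha := h2 a (by simp)
    have hb := h2 b (by simp)
    have hc' := h2 c (by simp)
    have hs' : a + b + c ≤ 6 := by
      have : a + (b + c) ≤ 6 := by simpa using hs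
      omega
    have he' : Even (a + (b + c) + 3) := by simpa using he
    exfalso
    have : a = 2 ∧ b = 2 ∧ c = 2 := by omega
    obtain ⟨rfl, rfl, rfl⟩ := this
    revert he'; decide

/-- Element orders in `A₆`. -/
theorem a6_order (g : Perm (Fin 6)) (hg : sign g = 1) :
    orderOf g = 1 ∨ orderOf g = 2 ∨ orderOf g = 3 ∨ orderOf g = 4 ∨ orderOf g = 5 := by
  rw [← lcm_cycleType]
  apply a6_multiset
  · intro n hn; exact two_le_of_mem_cycleType hn
  · have := sum_cycleType_le g
    simpa using this
  · rw [sign_of_cycleType] at hg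
    by_contra hodd
    rw [Nat.not_even_iff_odd] at hodd
    rw [Odd.neg_one_pow hodd] at hg
    exact absurd hg (by decide)

theorem a6_cycleType (g : Perm (Fin 6)) (hg : sign g = 1) (h2 : orderOf g = 2) :
    g.cycleType = {2, 2} := by
  have hall : ∀ n ∈ g.cycleType, n = 2 := by
    intro n hn
    have h1 := two_le_of_mem_cycleType hn
    have h3 := dvd_of_mem_cycleType hn
    rw [h2] at h3
    have := Nat.le_of_dvd (by norm_num) h3
    omega
  have hrep := Multiset.eq_replicate_card.mpr hall
  obtain ⟨k, hk⟩ : ∃ k, Multiset.card g.cycleType = k := ⟨_, rfl⟩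
  rw [hk] at hrep
  have hsum := sum_cycleType_le g
  rw [hrep, Multiset.sum_replicate, smul_eq_mul, Fintype.card_fin] at hsum
  have hsign := sign_of_cycleType g
  rw [hg, hrep, Multiset.sum_replicate, Multiset.card_replicate, smul_eq_mul] at hsign
  have hk3 : k ≤ 3 := by omega
  interval_cases k
  · exfalso
    rw [Multiset.replicate_zero, cycleType_eq_zero] at hrep
    rw [hrep, orderOf_one] at h2
    omega
  · exfalso; revert hsign; decide
  · rw [hrep]; rfl
  · exfalso; revert hsign; decide

theorem a6_conj (a b : alternatingGroup (Fin 6)) (ha : orderOf a = 2) (hb : orderOf b = 2) :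
    IsConj a b := by
  have ha' : orderOf (a : Perm (Fin 6)) = 2 := by rw [Subgroup.orderOf_coe]; exact ha
  have hb' : orderOf (b : Perm (Fin 6)) = 2 := by rw [Subgroup.orderOf_coe]; exact hb
  have hca := a6_cycleType a (mem_alternatingGroup.mp a.2) ha'
  have hcb := a6_cycleType b (mem_alternatingGroup.mp b.2) hb'
  apply alternatingGroup.isConj_of (isConj_iff_cycleType_eq.mpr (by rw [hca, hcb]))
  rw [← sum_cycleType, hca]
  decide

theorem a6_order' (g : alternatingGroup (Fin 6)) :
    orderOf g = 1 ∨ orderOf g = 2 ∨ orderOf g = 3 ∨ orderOf g = 4 ∨ orderOf g = 5 := by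
  have := a6_order g (mem_alternatingGroup.mp g.2)
  rw [Subgroup.orderOf_coe] at this
  exact this

theorem a6_rootInvolutions :
    Cfsg.IsRootInvolutionClass {g : ↥(alternatingGroup (Fin 6)) | orderOf g = 2} ∧
    ∀ d ∈ {g : ↥(alternatingGroup (Fin 6)) | orderOf g = 2},
      ∀ e ∈ {g : ↥(alternatingGroup (Fin 6)) | orderOf g = 2}, orderOf (d * e) ≤ 5 := by
  have hd₀m : (swap (0 : Fin 6) 1 * swap 2 3) ∈ alternatingGroup (Fin 6) := by
    rw [mem_alternatingGroup]; decide
  have hd₀ : orderOf (⟨swap (0 : Fin 6) 1 * swap 2 3, hd₀m⟩ : alternatingGroup (Fin 6)) = 2 := by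
    rw [← Subgroup.orderOf_coe]
    show orderOf (swap (0 : Fin 6) 1 * swap 2 3) = 2
    exact orderOf_eq_prime (by decide) (by decide)
  have hconj : ∀ (d : alternatingGroup (Fin 6)) (g : alternatingGroup (Fin 6)),
      orderOf (g * d * g⁻¹) = orderOf d := by
    intro d g
    have h := (MulAut.conj g).orderOf_eq d
    rw [MulAut.conj_apply] at h
    exact h
  refine ⟨⟨⟨fun d hd => hd, ?_, ?_, ?_⟩, ⟨_, hd₀⟩, ?_⟩, ?_⟩
  · -- generation
    haveI : IsSimpleGroup (alternatingGroup (Fin 6)) := alternatingGroup.isSimpleGroup (by simp)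
    have hnc : Subgroup.normalClosure {g : ↥(alternatingGroup (Fin 6)) | orderOf g = 2} =
        Subgroup.closure {g : ↥(alternatingGroup (Fin 6)) | orderOf g = 2} := by
      apply le_antisymm
      · rw [Subgroup.normalClosure, Subgroup.closure_le]
        intro x hx
        rw [Group.mem_conjugatesOfSet_iff] at hx
        obtain ⟨d, hd, hdx⟩ := hx
        obtain ⟨g, rfl⟩ := isConj_iff.mp hdx
        apply Subgroup.subset_closure
        show orderOf (g * d * g⁻¹) = 2
        rw [hconj]; exact hd
      · exact Subgroup.closure_le_normalClosure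
    rw [← hnc]
    rcases (Subgroup.normalClosure_normal
      (s := {g : ↥(alternatingGroup (Fin 6)) | orderOf g = 2})).eq_bot_or_eq_top with h | h
    · exfalso
      have h1 : (⟨swap (0 : Fin 6) 1 * swap 2 3, hd₀m⟩ : alternatingGroup (Fin 6)) ∈
          Subgroup.normalClosure {g : ↥(alternatingGroup (Fin 6)) | orderOf g = 2} :=
        Subgroup.subset_normalClosure hd₀
      rw [h, Subgroup.mem_bot] at h1
      rw [h1, orderOf_one] at hd₀
      omega
    · exact h
  · intro d hd g
    show orderOf (g * d * g⁻¹) = 2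
    rw [hconj]; exact hd
  · intro a ha b hb
    have haa : a * a = 1 := by
      rw [← pow_two, ← (show orderOf a = 2 from ha)]; exact pow_orderOf_eq_one a
    have hbb : b * b = 1 := by
      rw [← pow_two, ← (show orderOf b = 2 from hb)]; exact pow_orderOf_eq_one b
    rcases a6_order' (a * b) with h | h | h | h | h
    · right; left; rw [h]; decide
    · left
      have h1 : (a * b) * (a * b) = 1 := by
        rw [← pow_two, ← h]; exact pow_orderOf_eq_one _
      calc a * b = a * ((a * b) * (a * b)) * b := by rw [h1, mul_one]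
        _ = (a * a) * b * a * (b * b) := by group
        _ = b * a := by rw [haa, hbb]; group
    · right; left; rw [h]; decide
    · right; right
      refine ⟨h, ?_⟩
      show orderOf ((a * b) ^ 2) = 2
      rw [orderOf_pow' _ (by norm_num), h]
      decide
    · right; left; rw [h]; decide
  · intro a ha b hb
    obtain ⟨c, hc⟩ := isConj_iff.mp (a6_conj a b ha hb)
    exact ⟨c, hc.symm⟩
  · intro d _ e _
    rcases a6_order' (d * e) with h | h | h | h | h <;> omega

end Cfsg.Agent.Lib.Helper6
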