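import Mathlib
import Cfsg.Prelude.Def_Blocks

set_option autoImplicit false

namespace Cfsg.Agent.Lib.Helper6

section AlgIntRed

theorem ai_part1 (p : ℕ) [Fact p.Prime] (M : Ideal Cfsg.AlgInt) (hM : Cfsg.IsPModular p M)
    (ε₁ ε₂ : Cfsg.AlgInt) (h1 : ∃ m : ℕ, ¬ p ∣ m ∧ (ε₁ : ℂ) ^ m = 1)
    (h2 : ∃ m : ℕ, ¬ p ∣ m ∧ (ε₂ : ℂ) ^ m = 1) (h : ε₁ - ε₂ ∈ M) : ε₁ = ε₂ := by
  obtain ⟨m₁, hm₁, he₁⟩ := h1
  obtain ⟨m₂, hm₂, he₂⟩ := h2
  have hp : p.Prime := Fact.out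
  haveI := hM.2.1
  letI : Field (Cfsg.AlgInt ⧸ M) := Ideal.Quotient.field M
  by_contra hne
  obtain ⟨m, hm⟩ : ∃ m, m = m₁ * m₂ := ⟨_, rfl⟩
  have hpm : ¬ p ∣ m := fun hd => (hp.dvd_mul.1 (hm ▸ hd)).elim hm₁ hm₂
  have hm0 : m ≠ 0 := by
    rintro h0
    rw [h0] at hpm
    exact hpm (dvd_zero p)
  have e1 : ε₁ ^ m = 1 := by
    apply Subtype.ext
    rw [Subalgebra.coe_pow, hm, pow_mul, he₁, one_pow]; rfl
  have e2 : ε₂ ^ m = 1 := by
    apply Subtype.ext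
    rw [Subalgebra.coe_pow, hm, mul_comm, pow_mul, he₂, one_pow]; rfl
  have hg : (∑ i ∈ Finset.range m, ε₂ ^ i * ε₁ ^ (m - 1 - i)) * (ε₂ - ε₁) = ε₂ ^ m - ε₁ ^ m :=
    (Commute.all ε₂ ε₁).geom_sum₂_mul m
  rw [e1, e2, sub_self] at hg
  have hQ : (∑ i ∈ Finset.range m, ε₂ ^ i * ε₁ ^ (m - 1 - i)) = 0 := by
    rcases mul_eq_zero.1 hg with h0 | h0
    · exact h0
    · exact absurd (sub_eq_zero.1 h0).symm hne
  have hπ : Ideal.Quotient.mk M ε₁ = Ideal.Quotient.mk M ε₂ := Ideal.Quotient.eq.2 h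
  have hQ' := congrArg (Ideal.Quotient.mk M) hQ
  rw [map_sum, map_zero] at hQ'
  have hterm : ∀ i ∈ Finset.range m, Ideal.Quotient.mk M (ε₂ ^ i * ε₁ ^ (m - 1 - i)) =
      (Ideal.Quotient.mk M ε₁) ^ (m - 1) := by
    intro i hi
    rw [map_mul, map_pow, map_pow, ← hπ, ← pow_add]
    congr 1
    have := Finset.mem_range.1 hi
    omega
  rw [Finset.sum_congr rfl hterm, Finset.sum_const, Finset.card_range, nsmul_eq_mul] at hQ'
  have hunit : (Ideal.Quotient.mk M ε₁) ^ m = 1 := by rw [← map_pow, e1, map_one]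
  have hm0' : ((m : ℕ) : Cfsg.AlgInt ⧸ M) = 0 := by
    have h3 := congrArg (fun z => z * Ideal.Quotient.mk M ε₁) hQ'
    simp only [zero_mul, mul_assoc] at h3
    rw [← pow_succ, show m - 1 + 1 = m by omega, hunit, mul_one] at h3
    exact h3
  have hp0 : ((p : ℕ) : Cfsg.AlgInt ⧸ M) = 0 := by
    have h3 := Ideal.Quotient.eq_zero_iff_mem.2 hM.2.2
    simpa using h3
  have hr1 := ringChar.dvd hp0
  have hr2 := ringChar.dvd hm0'
  rcases (Nat.dvd_prime hp).1 hr1 with h1 | h1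
  · exact CharP.ringChar_ne_one h1
  · rw [h1] at hr2; exact hpm hr2

theorem ai_part2 (p : ℕ) [Fact p.Prime] (M : Ideal Cfsg.AlgInt) (hM : Cfsg.IsPModular p M)
    (a : Cfsg.AlgInt) (ha : a ∉ M) :
    ∃ ε : Cfsg.AlgInt, (∃ m : ℕ, ¬ p ∣ m ∧ (ε : ℂ) ^ m = 1) ∧ a - ε ∈ M := by
  classical
  have hp : p.Prime := Fact.out
  haveI := hM.2.1
  letI : Field (Cfsg.AlgInt ⧸ M) := Ideal.Quotient.field M
  have hp0 : ((p : ℕ) : Cfsg.AlgInt ⧸ M) = 0 := by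
    have h3 := Ideal.Quotient.eq_zero_iff_mem.2 hM.2.2
    simpa using h3
  haveI : CharP (Cfsg.AlgInt ⧸ M) p := by
    have hr1 := ringChar.dvd hp0
    rcases (Nat.dvd_prime hp).1 hr1 with h1 | h1
    · exact absurd h1 CharP.ringChar_ne_one
    · exact h1 ▸ ringChar.charP _
  letI : Algebra (ZMod p) (Cfsg.AlgInt ⧸ M) := ZMod.algebra _ p
  obtain ⟨ā, hā⟩ : ∃ ā : Cfsg.AlgInt ⧸ M, ā = Ideal.Quotient.mk M a := ⟨_, rfl⟩
  have hā0 : ā ≠ 0 := fun h => ha (Ideal.Quotient.eq_zero_iff_mem.1 (hā ▸ h))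
  have hint : IsIntegral (ZMod p) ā := by
    have h1 : IsIntegral ℤ a := integralClosure.isIntegral a
    have h2 : IsIntegral ℤ ā := by
      rw [hā]
      exact h1.map (Ideal.Quotient.mkₐ ℤ M)
    exact h2.tower_top
  haveI : FiniteDimensional (ZMod p) (IntermediateField.adjoin (ZMod p) {ā}) :=
    IntermediateField.adjoin.finiteDimensional hint
  haveI : Finite (IntermediateField.adjoin (ZMod p) {ā}) := Module.finite_of_finite (ZMod p)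
  letI : Fintype (IntermediateField.adjoin (ZMod p) {ā}) := Fintype.ofFinite _
  obtain ⟨Nn, hNn⟩ : ∃ Nn, Nn = Fintype.card (IntermediateField.adjoin (ZMod p) {ā}) :=
    ⟨_, rfl⟩
  have hcard : Nn = p ^ Module.finrank (ZMod p) (IntermediateField.adjoin (ZMod p) {ā}) := by
    rw [hNn, Module.card_eq_pow_finrank (K := ZMod p), ZMod.card]
  have hd : 0 < Module.finrank (ZMod p) (IntermediateField.adjoin (ZMod p) {ā}) :=
    Module.finrank_pos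
  have hpN : p ∣ Nn := by rw [hcard]; exact dvd_pow_self p hd.ne'
  have hN2 : 2 ≤ Nn := by rw [hcard]; exact le_trans hp.two_le (Nat.le_self_pow hd.ne' p)
  have hpm : ¬ p ∣ Nn - 1 := by
    intro h
    have h1 : p ∣ 1 := by
      have h2 := Nat.dvd_sub hpN h
      rwa [show Nn - (Nn - 1) = 1 by omega] at h2
    exact hp.one_lt.ne' (Nat.dvd_one.1 h1)
  have hpow : ā ^ (Nn - 1) = 1 := by
    have h1 := FiniteField.pow_card_sub_one_eq_one
      (⟨ā, IntermediateField.mem_adjoin_simple_self (ZMod p) ā⟩ :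
        IntermediateField.adjoin (ZMod p) {ā}) (by
      intro h; exact hā0 (congrArg Subtype.val h))
    rw [← hNn] at h1
    have h2 := congrArg Subtype.val h1
    simpa using h2
  have hm0 : Nn - 1 ≠ 0 := by omega
  obtain ⟨ζ, hζ⟩ : ∃ ζ : ℂ, IsPrimitiveRoot ζ (Nn - 1) :=
    ⟨_, Complex.isPrimitiveRoot_exp _ hm0⟩
  have hζint : ζ ∈ Cfsg.AlgInt := hζ.isIntegral (by omega)
  obtain ⟨ζ', hζ'⟩ : ∃ ζ' : Cfsg.AlgInt, (ζ' : ℂ) = ζ := ⟨⟨ζ, hζint⟩, rfl⟩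
  have hroot : ∀ l : ℕ, ((ζ' ^ l : Cfsg.AlgInt) : ℂ) ^ (Nn - 1) = 1 := by
    intro l
    rw [Subalgebra.coe_pow, hζ', ← pow_mul, mul_comm, pow_mul, hζ.pow_eq_one, one_pow]
  have hprim : IsPrimitiveRoot (Ideal.Quotient.mk M ζ') (Nn - 1) := by
    rw [IsPrimitiveRoot.iff_def]
    constructor
    · rw [← map_pow]
      have h1 : ζ' ^ (Nn - 1) = 1 := Subtype.ext (by
        rw [Subalgebra.coe_pow, hζ']; exact hζ.pow_eq_one)
      rw [h1, map_one]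
    · intro l hl
      rw [← map_pow] at hl
      have h1 : ζ' ^ l - 1 ∈ M := by
        rw [← Ideal.Quotient.eq, hl, map_one]
      have h2 : ζ' ^ l = 1 := ai_part1 p M hM (ζ' ^ l) 1 ⟨Nn - 1, hpm, hroot l⟩
        ⟨1, fun h => hp.one_lt.ne' (Nat.dvd_one.1 h), by simp⟩ h1
      have h3 : ζ ^ l = 1 := by
        have h4 := congrArg Subtype.val h2
        rw [Subalgebra.coe_pow, hζ'] at h4
        exact h4
      exact hζ.dvd_of_pow_eq_one l h3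
  haveI : NeZero (Nn - 1) := ⟨hm0⟩
  obtain ⟨i, hi, hi2⟩ := hprim.eq_pow_of_pow_eq_one hpow
  refine ⟨ζ' ^ i, ⟨Nn - 1, hpm, hroot i⟩, ?_⟩
  rw [← Ideal.Quotient.eq, map_pow, hi2, hā]

end AlgIntRed

end Cfsg.Agent.Lib.Helper6
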