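import Mathlib
import Cfsg.Prelude.Def_Blocks
import Cfsg.Agent.Lib.Helper6.BlockBr2
import Cfsg.Agent.Lib.Helper6.BlockDiv

set_option autoImplicit false

namespace Cfsg.Agent.Lib.Helper6

section BlockBr3

open Cfsg.Agent.Lib.Lead Cfsg.Agent.Lib.Helper2
open scoped ComplexConjugate

/-- A defect group is the largest normal `p`-subgroup of its normalizer. -/
theorem defect_pcore_normalizer {G : Type*} [Group G] [Finite G] (p : ℕ) [Fact p.Prime]
    (M : Ideal Cfsg.AlgInt) (hM : Cfsg.IsPModular p M) (B : Set (Cfsg.IrrCharacter G))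
    (hB : Cfsg.IsPBlock M B) (D : Subgroup G) (hD : Cfsg.IsDefectGroup p M B D) :
    (Cfsg.pCore p (Subgroup.normalizer (D : Set G))).map
      (Subgroup.normalizer (D : Set G)).subtype = D := by
  classical
  haveI := Fintype.ofFinite G
  have hMp := hM.2.1.isPrime
  have hcardD := defect_group_card p M hM B hB D hD
  have hDp : IsPGroup p D := IsPGroup.of_card hcardD
  have hDH : D ≤ Subgroup.normalizer (D : Set G) := Subgroup.le_normalizer
  have hCH : Subgroup.centralizer (D : Set G) ≤ Subgroup.normalizer (D : Set G) :=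
    Subgroup.centralizer_le_normalizer _
  obtain ⟨b, hind⟩ := (brauer_induced_iff_defect p M hM D (Subgroup.normalizer (D : Set G)) hDp
    hDH hCH le_rfl B hB).2 ⟨D, hD, 1, by
      rintro _ ⟨y, hy, rfl⟩
      simpa using hy⟩
  have hb := hind.1
  haveI : Fintype (Subgroup.normalizer (D : Set G)) := Fintype.ofFinite _
  obtain ⟨g, hg⟩ := defect_class_exists p M hM b hb
  obtain ⟨Sy⟩ : Nonempty (Sylow p (Subgroup.centralizer
    ({g} : Set (Subgroup.normalizer (D : Set G))))) := inferInstance
  have hDb : Cfsg.IsDefectGroup p M b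
      ((Sy : Subgroup (Subgroup.centralizer ({g} : Set (Subgroup.normalizer (D : Set G))))).map
        (Subgroup.centralizer ({g} : Set (Subgroup.normalizer (D : Set G)))).subtype) :=
    ⟨g, hg, Sy, rfl⟩
  have h1 := dp_main p M hM b hb _ hDb
  obtain ⟨E, hE, hle⟩ := induced_defect_le p M hM _ b hb B hB hind _ hDb
  have hcardE := defect_group_card p M hM B hB E hE
  haveI hD'n : (D.subgroupOf (Subgroup.normalizer (D : Set G))).Normal :=
    (Subgroup.normal_subgroupOf_iff_le_normalizer hDH).2 le_rfl
  have hD'p : IsPGroup p (D.subgroupOf (Subgroup.normalizer (D : Set G))) := hDp.comap_subtype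
  have h2 : D.subgroupOf (Subgroup.normalizer (D : Set G))
      ≤ Cfsg.pCore p (Subgroup.normalizer (D : Set G)) := le_sSup ⟨hD'n, hD'p⟩
  have hDle : D ≤ (Cfsg.pCore p (Subgroup.normalizer (D : Set G))).map
      (Subgroup.normalizer (D : Set G)).subtype := by
    intro y hy
    exact ⟨⟨y, hDH hy⟩, h2 (Subgroup.mem_subgroupOf.2 hy), rfl⟩
  have hQE : (Cfsg.pCore p (Subgroup.normalizer (D : Set G))).map
      (Subgroup.normalizer (D : Set G)).subtype ≤ E :=
    le_trans (Subgroup.map_mono h1) hle
  have hDE : D = E := by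
    apply Subgroup.eq_of_le_of_card_ge (le_trans hDle hQE)
    rw [hcardD, hcardE]
  rw [← hDE] at hQE
  exact le_antisymm hQE hDle

end BlockBr3

end Cfsg.Agent.Lib.Helper6
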