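import Mathlib
import Cfsg.Prelude.Def_Blocks
import Cfsg.Agent.Lib.Helper6.BlockBr3

set_option autoImplicit false

namespace Cfsg.Agent.Lib.Helper6

section BlockFMT

open Cfsg.Agent.Lib.Lead Cfsg.Agent.Lib.Helper2
open scoped ComplexConjugate

theorem map_conj_normal {G : Type*} [Group G] (K : Subgroup G) [hK : K.Normal] (x : G) :
    K.map (MulAut.conj x).toMonoidHom = K := by
  ext z
  constructor
  · rintro ⟨k, hk, rfl⟩
    simp only [MulEquiv.toMonoidHom_eq_coe, MonoidHom.coe_coe, MulAut.conj_apply]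
    exact hK.conj_mem k hk x
  · intro hz
    refine ⟨x⁻¹ * z * x, ?_, by simp [MulAut.conj_apply, mul_assoc]⟩
    have h := hK.conj_mem z hz x⁻¹
    simpa using h

/-- Key group-theoretic facts for the first main theorem: if `D` is a Sylow `p`-subgroup of
the centralizer in `N_G(D)` of `y`, then `y` centralizes `D`, `D` is a Sylow `p`-subgroup of
`C_G(y)`, and the `G`-conjugates of `y` centralizing `D` are `N_G(D)`-conjugates. -/
theorem fmt_key {G : Type*} [Group G] [Finite G] (p : ℕ) [Fact p.Prime] (D : Subgroup G)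
    (hD : IsPGroup p D) (y : Subgroup.normalizer (D : Set G))
    (Sy : Sylow p (Subgroup.centralizer ({y} : Set (Subgroup.normalizer (D : Set G)))))
    (hSy : D.subgroupOf (Subgroup.normalizer (D : Set G))
      = (Sy : Subgroup (Subgroup.centralizer ({y} : Set (Subgroup.normalizer (D : Set G))))).map
        (Subgroup.centralizer ({y} : Set (Subgroup.normalizer (D : Set G)))).subtype) :
    (y : G) ∈ Subgroup.centralizer (D : Set G) ∧
    (∃ S : Sylow p (Subgroup.centralizer ({(y : G)} : Set G)),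
      (S : Subgroup (Subgroup.centralizer ({(y : G)} : Set G))).map
        (Subgroup.centralizer ({(y : G)} : Set G)).subtype = D) ∧
    (∀ g : G, g * (y : G) * g⁻¹ ∈ Subgroup.centralizer (D : Set G) →
      ∃ n : G, n ∈ Subgroup.normalizer (D : Set G) ∧
        g * (y : G) * g⁻¹ = n * (y : G) * n⁻¹) := by
  classical
  have hDN : D ≤ Subgroup.normalizer (D : Set G) := Subgroup.le_normalizer
  have h1 : (y : G) ∈ Subgroup.centralizer (D : Set G) := by
    rw [Subgroup.mem_centralizer_iff]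
    intro d hd
    have h2 : (⟨d, hDN hd⟩ : Subgroup.normalizer (D : Set G))
        ∈ D.subgroupOf (Subgroup.normalizer (D : Set G)) := Subgroup.mem_subgroupOf.2 hd
    rw [hSy] at h2
    obtain ⟨c, _, hc⟩ := h2
    have h3 := (Subgroup.mem_centralizer_iff.1 c.2) y rfl
    have h4 : (c : Subgroup.normalizer (D : Set G)) = ⟨d, hDN hd⟩ := hc
    rw [h4] at h3
    have h5 := congrArg Subtype.val h3
    exact h5.symm
  have hDle : D ≤ Subgroup.centralizer ({(y : G)} : Set G) := by
    intro d hd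
    rw [Subgroup.mem_centralizer_iff]
    intro h hh
    rw [Set.mem_singleton_iff] at hh
    subst hh
    exact ((Subgroup.mem_centralizer_iff.1 h1) d hd).symm
  have hcardSy : Nat.card Sy = Nat.card D := by
    have e1 : Nat.card ((Sy : Subgroup (Subgroup.centralizer
        ({y} : Set (Subgroup.normalizer (D : Set G))))).map
        (Subgroup.centralizer ({y} : Set (Subgroup.normalizer (D : Set G)))).subtype)
        = Nat.card Sy := Subgroup.card_map_of_injective (Subgroup.subtype_injective _)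
    rw [← e1, ← hSy]
    exact Nat.card_congr (Subgroup.subgroupOfEquivOfLe hDN).toEquiv
  have hA : ∀ R : Subgroup G, IsPGroup p R → R ≤ Subgroup.normalizer (D : Set G) →
      R ≤ Subgroup.centralizer ({(y : G)} : Set G) → Nat.card R ≤ Nat.card D := by
    intro R hR hRN hRC
    have h2 : IsPGroup p (R.subgroupOf (Subgroup.normalizer (D : Set G))) := hR.comap_subtype
    have h3 : R.subgroupOf (Subgroup.normalizer (D : Set G))
        ≤ Subgroup.centralizer ({y} : Set (Subgroup.normalizer (D : Set G))) := by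
      intro r hr
      rw [Subgroup.mem_centralizer_iff]
      intro h hh
      rw [Set.mem_singleton_iff] at hh
      subst hh
      have h4 := (Subgroup.mem_centralizer_iff.1 (hRC (Subgroup.mem_subgroupOf.1 hr)))
        (h : G) rfl
      exact Subtype.ext h4
    have h4 : IsPGroup p ((R.subgroupOf (Subgroup.normalizer (D : Set G))).subgroupOf
        (Subgroup.centralizer ({y} : Set (Subgroup.normalizer (D : Set G))))) :=
      h2.comap_subtype
    obtain ⟨Q, hQ⟩ := h4.exists_le_sylow
    have h5 := Subgroup.card_le_of_le hQ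
    have e1 : Nat.card ((R.subgroupOf (Subgroup.normalizer (D : Set G))).subgroupOf
        (Subgroup.centralizer ({y} : Set (Subgroup.normalizer (D : Set G))))) = Nat.card R := by
      rw [Nat.card_congr (Subgroup.subgroupOfEquivOfLe h3).toEquiv,
        Nat.card_congr (Subgroup.subgroupOfEquivOfLe hRN).toEquiv]
    have e2 : Nat.card Q = Nat.card Sy := by
      rw [Sylow.card_eq_multiplicity, Sylow.card_eq_multiplicity]
    have h6 : Nat.card R ≤ Nat.card Q := by
      rw [← e1]
      exact h5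
    rw [e2, hcardSy] at h6
    exact h6
  obtain ⟨S, hS⟩ := pgroup_le_sylow_map p (Subgroup.centralizer ({(y : G)} : Set G)) D hD hDle
  have hSD : (S : Subgroup (Subgroup.centralizer ({(y : G)} : Set G))).map
      (Subgroup.centralizer ({(y : G)} : Set G)).subtype = D := by
    by_contra hne
    obtain ⟨S₀, hS₀⟩ : ∃ S₀ : Subgroup G, S₀ = (S : Subgroup (Subgroup.centralizer
        ({(y : G)} : Set G))).map (Subgroup.centralizer ({(y : G)} : Set G)).subtype := ⟨_, rfl⟩
    rw [← hS₀] at hS hne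
    have hS₀p : IsPGroup p S₀ := by
      rw [hS₀]
      exact S.2.map _
    have hS₀C : S₀ ≤ Subgroup.centralizer ({(y : G)} : Set G) := by
      rw [hS₀]
      rintro _ ⟨c, _, rfl⟩
      exact c.2
    have hlt : D.subgroupOf S₀ < ⊤ := by
      rw [lt_top_iff_ne_top]
      intro htop
      apply hne
      exact le_antisymm (Subgroup.subgroupOf_eq_top.1 htop) hS
    haveI hnil : Group.IsNilpotent S₀ := IsPGroup.isNilpotent hS₀p
    have hnc := @normalizerCondition_of_isNilpotent S₀ _ hnil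
    have hlt2 := hnc _ hlt
    obtain ⟨u, hu, hunot⟩ := SetLike.exists_of_lt hlt2
    have huN : (u : G) ∈ Subgroup.normalizer (D : Set G) := by
      rw [Subgroup.mem_normalizer_iff]
      intro h
      constructor
      · intro hh
        have h2 := (Subgroup.mem_normalizer_iff.1 hu ⟨h, hS hh⟩).1 (Subgroup.mem_subgroupOf.2 hh)
        exact Subgroup.mem_subgroupOf.1 h2
      · intro hh
        have hh2 : (u : G) * h * (u : G)⁻¹ ∈ S₀ := hS hh
        have hh3 : h ∈ S₀ := by
          have h4 := S₀.mul_mem (S₀.mul_mem (S₀.inv_mem u.2) hh2) u.2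
          simpa [mul_assoc] using h4
        have h2 := (Subgroup.mem_normalizer_iff.1 hu ⟨h, hh3⟩).2 (Subgroup.mem_subgroupOf.2 hh)
        exact Subgroup.mem_subgroupOf.1 h2
    have hR := hA (D ⊔ Subgroup.zpowers (u : G))
      (hS₀p.to_le (sup_le hS ((Subgroup.zpowers_le).2 u.2)))
      (sup_le hDN ((Subgroup.zpowers_le).2 huN))
      (sup_le hDle ((Subgroup.zpowers_le).2 (hS₀C u.2)))
    have hDR : D = D ⊔ Subgroup.zpowers (u : G) := Subgroup.eq_of_le_of_card_ge le_sup_left hR
    apply hunot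
    rw [Subgroup.mem_subgroupOf, hDR]
    exact le_sup_right (a := D) (Subgroup.mem_zpowers (u : G))
  refine ⟨h1, ⟨S, hSD⟩, ?_⟩
  intro g hg
  have hQ : D ≤ Subgroup.centralizer ({g * (y : G) * g⁻¹} : Set G) := by
    intro d hd
    rw [Subgroup.mem_centralizer_iff]
    intro h hh
    rw [Set.mem_singleton_iff] at hh
    subst hh
    exact ((Subgroup.mem_centralizer_iff.1 hg) d hd).symm
  have hD₂le := map_conj_le_centralizer D (y : G) g hQ
  have hD₂p : IsPGroup p (D.map (MulAut.conj g⁻¹).toMonoidHom) := hD.map _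
  obtain ⟨Q₂, hQ₂⟩ := pgroup_le_sylow_map p _ _ hD₂p hD₂le
  have hc1 : Nat.card ((Q₂ : Subgroup (Subgroup.centralizer ({(y : G)} : Set G))).map
      (Subgroup.centralizer ({(y : G)} : Set G)).subtype) = Nat.card Q₂ :=
    Subgroup.card_map_of_injective (Subgroup.subtype_injective _)
  have hc2 : Nat.card (D.map (MulAut.conj g⁻¹).toMonoidHom) = Nat.card D :=
    Subgroup.card_map_of_injective (MulEquiv.injective _)
  have hc3 : Nat.card D = Nat.card S := by
    have h5 : Nat.card ((S : Subgroup (Subgroup.centralizer ({(y : G)} : Set G))).map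
        (Subgroup.centralizer ({(y : G)} : Set G)).subtype) = Nat.card S :=
      Subgroup.card_map_of_injective (Subgroup.subtype_injective _)
    rw [hSD] at h5
    exact h5
  have hc4 : Nat.card Q₂ = Nat.card S := by
    rw [Sylow.card_eq_multiplicity, Sylow.card_eq_multiplicity]
  have hcard2 : Nat.card ((Q₂ : Subgroup (Subgroup.centralizer ({(y : G)} : Set G))).map
      (Subgroup.centralizer ({(y : G)} : Set G)).subtype)
      ≤ Nat.card (D.map (MulAut.conj g⁻¹).toMonoidHom) := by
    rw [hc1, hc2, hc3, hc4]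
  have hD₂eq := Subgroup.eq_of_le_of_card_ge hQ₂ hcard2
  obtain ⟨c, hc, hconj⟩ := sylow_map_conj p (Subgroup.centralizer ({(y : G)} : Set G)) Q₂ S
  rw [hSD, ← hD₂eq, Subgroup.map_map] at hconj
  have hm : c * g⁻¹ ∈ Subgroup.normalizer (D : Set G) := by
    rw [Subgroup.mem_normalizer_iff]
    intro h
    constructor
    · intro hh
      rw [hconj]
      exact ⟨h, hh, by simp [MulAut.conj_apply, mul_assoc]⟩
    · intro hh
      rw [hconj] at hh
      obtain ⟨d, hd, hd2⟩ := hh
      have e : d = h := by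
        simp only [MonoidHom.coe_comp, MulEquiv.toMonoidHom_eq_coe, MonoidHom.coe_coe,
          Function.comp_apply, MulAut.conj_apply] at hd2
        have h5 : c * (g⁻¹ * d * g⁻¹⁻¹) * c⁻¹ = c * g⁻¹ * d * (c * g⁻¹)⁻¹ := by group
        rw [h5] at hd2
        exact mul_left_cancel (mul_right_cancel hd2)
      rw [← e]
      exact hd
  refine ⟨(c * g⁻¹)⁻¹, inv_mem hm, ?_⟩
  have hcy := (Subgroup.mem_centralizer_iff.1 hc) (y : G) rfl
  have e1 : c⁻¹ * (y : G) * c = (y : G) := by
    rw [mul_assoc, hcy, inv_mul_cancel_left]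
  calc g * (y : G) * g⁻¹ = g * (c⁻¹ * (y : G) * c) * g⁻¹ := by rw [e1]
    _ = (c * g⁻¹)⁻¹ * (y : G) * (c * g⁻¹)⁻¹⁻¹ := by group

/-- Under the hypotheses of `fmt_key`, the Brauer central character at `y` is the central
character in the normalizer. -/
theorem fmt_bcc {G : Type*} [Group G] [Finite G] (p : ℕ) [Fact p.Prime] (D : Subgroup G)
    (hD : IsPGroup p D) (y : Subgroup.normalizer (D : Set G))
    (Sy : Sylow p (Subgroup.centralizer ({y} : Set (Subgroup.normalizer (D : Set G)))))
    (hSy : D.subgroupOf (Subgroup.normalizer (D : Set G))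
      = (Sy : Subgroup (Subgroup.centralizer ({y} : Set (Subgroup.normalizer (D : Set G))))).map
        (Subgroup.centralizer ({y} : Set (Subgroup.normalizer (D : Set G)))).subtype)
    (ξ : Cfsg.IrrCharacter (Subgroup.normalizer (D : Set G))) :
    Cfsg.brauerCentralChar D (Subgroup.normalizer (D : Set G))
      (ξ : Subgroup.normalizer (D : Set G) → ℂ) (y : G)
      = Cfsg.centralChar (ξ : Subgroup.normalizer (D : Set G) → ℂ) y := by
  classical
  haveI : Fintype (Subgroup.normalizer (D : Set G)) := Fintype.ofFinite _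
  obtain ⟨h1, -, h3⟩ := fmt_key p D hD y Sy hSy
  have hset : ∀ h : Subgroup.normalizer (D : Set G),
      (IsConj (y : G) (h : G) ∧ (h : G) ∈ Subgroup.centralizer (D : Set G)) ↔ IsConj y h := by
    intro h
    constructor
    · rintro ⟨hc, hcent⟩
      obtain ⟨g, hg⟩ := isConj_iff.1 hc
      rw [← hg] at hcent
      obtain ⟨n, hn, hn2⟩ := h3 g hcent
      refine isConj_iff.2 ⟨⟨n, hn⟩, Subtype.ext ?_⟩
      rw [← hg, hn2]
      rfl
    · intro hc
      obtain ⟨n, hn⟩ := isConj_iff.1 hc
      have e : (h : G) = (n : G) * (y : G) * (n : G)⁻¹ := by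
        rw [← hn]
        rfl
      refine ⟨isConj_iff.2 ⟨(n : G), e.symm⟩, ?_⟩
      rw [e]
      exact conj_mem_centralizer_of_mem_normalizer D n.2 h1
  unfold Cfsg.brauerCentralChar
  rw [finsum_mem_ite, ← Finset.sum_filter]
  have hfil : Finset.univ.filter (fun h : Subgroup.normalizer (D : Set G) =>
      h ∈ {h : Subgroup.normalizer (D : Set G) | IsConj (y : G) (h : G) ∧
        (h : G) ∈ Subgroup.centralizer (D : Set G)}) = classFinset y := by
    ext h
    rw [Finset.mem_filter, mem_classFinset]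
    constructor
    · rintro ⟨_, hh⟩
      exact (hset h).1 hh
    · intro hh
      exact ⟨Finset.mem_univ _, (hset h).2 hh⟩
  rw [hfil]
  have hconst : ∀ h ∈ classFinset y, (ξ : Subgroup.normalizer (D : Set G) → ℂ) h
      / (ξ : Subgroup.normalizer (D : Set G) → ℂ) 1
      = (ξ : Subgroup.normalizer (D : Set G) → ℂ) y
        / (ξ : Subgroup.normalizer (D : Set G) → ℂ) 1 := by
    intro h hh
    obtain ⟨c, rfl⟩ := isConj_iff.1 (mem_classFinset.1 hh)
    rw [isClassFunction_irr ξ y c]
  rw [Finset.sum_congr rfl hconst, Finset.sum_const, nsmul_eq_mul, card_classFinset]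
  unfold Cfsg.centralChar
  ring

/-- First main theorem, part (i): a block of `N_G(D)` with defect group `D` induces a block
of `G` with defect group `D`. -/
theorem fmt_one {G : Type*} [Group G] [Finite G] (p : ℕ) [Fact p.Prime]
    (M : Ideal Cfsg.AlgInt) (hM : Cfsg.IsPModular p M) (D : Subgroup G) (hD : IsPGroup p D)
    (b : Set (Cfsg.IrrCharacter (Subgroup.normalizer (D : Set G)))) (hb : Cfsg.IsPBlock M b)
    (hDb : Cfsg.IsDefectGroup p M b (D.subgroupOf (Subgroup.normalizer (D : Set G)))) :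
    ∃ B : Set (Cfsg.IrrCharacter G), Cfsg.IsPBlock M B ∧ Cfsg.IsDefectGroup p M B D ∧
      Cfsg.IsInducedBlock M (Subgroup.normalizer (D : Set G)) b B := by
  classical
  haveI := Fintype.ofFinite G
  have hMp := hM.2.1.isPrime
  have hDN : D ≤ Subgroup.normalizer (D : Set G) := Subgroup.le_normalizer
  have hCN : Subgroup.centralizer (D : Set G) ≤ Subgroup.normalizer (D : Set G) :=
    Subgroup.centralizer_le_normalizer _
  obtain ⟨ξ₀, hbξ⟩ := hb
  obtain ⟨χ₀, hind⟩ := brauer_induced_defined p M hM D (Subgroup.normalizer (D : Set G)) hD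
    hDN hCN le_rfl ξ₀
  rw [← hbξ] at hind
  have hB : Cfsg.IsPBlock M (Cfsg.blockOf M (χ₀ : G → ℂ)) := ⟨χ₀, rfl⟩
  have hb' : Cfsg.IsPBlock M b := ⟨ξ₀, hbξ⟩
  have hξb : ξ₀ ∈ b := by
    rw [hbξ]
    exact sb_refl hMp _
  have hχB : χ₀ ∈ Cfsg.blockOf M (χ₀ : G → ℂ) := sb_refl hMp _
  refine ⟨_, hB, ?_, hind⟩
  obtain ⟨y, hy, Sy, hSy⟩ := hDb
  obtain ⟨h1, ⟨S, hSD⟩, -⟩ := fmt_key p D hD y Sy hSy
  have hbcc := fmt_bcc p D hD y Sy hSy ξ₀
  have hccy : ¬ Cfsg.MemLocalIdeal M (Cfsg.centralChar (χ₀ : G → ℂ) (y : G)) := by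
    intro hli
    apply hy.2.2 ξ₀ hξb
    have h2 := hind.2.2 ξ₀ hξb χ₀ hχB (y : G)
    have h3 := brauer_cc p M hM D (Subgroup.normalizer (D : Set G)) hD hDN le_rfl ξ₀ (y : G)
    rw [hbcc] at h3
    have h4 := li_add hMp (li_sub hMp h2 h3) hli
    convert h4 using 1
    ring
  have hDb2 : Cfsg.IsDefectGroup p M b (D.subgroupOf (Subgroup.normalizer (D : Set G))) :=
    ⟨y, hy, Sy, hSy⟩
  obtain ⟨E, hE, hle⟩ := induced_defect_le p M hM _ b hb' _ hB hind _ hDb2
  have hDE : D ≤ E := by
    intro d hd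
    exact hle ⟨⟨d, hDN hd⟩, Subgroup.mem_subgroupOf.2 hd, rfl⟩
  obtain ⟨g₁, hg₁, Sy₁, hE1⟩ := hE
  have hEp : IsPGroup p E := by
    rw [hE1]
    exact Sy₁.2.map _
  have hEle : E ≤ Subgroup.centralizer ({g₁} : Set G) := by
    rw [hE1]
    rintro _ ⟨c, _, rfl⟩
    exact c.2
  obtain ⟨x, Q, hxQ⟩ := minmax_b p M hM _ hB g₁ hg₁.2.1 E hEp hEle (y : G) χ₀ hχB hccy
  have hcard : Nat.card E ≤ Nat.card D := by
    have h2 := Subgroup.card_le_of_le hxQ
    rw [Subgroup.card_map_of_injective (MulEquiv.injective _),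
      Subgroup.card_map_of_injective (Subgroup.subtype_injective _)] at h2
    have h3 : Nat.card ((S : Subgroup (Subgroup.centralizer ({(y : G)} : Set G))).map
        (Subgroup.centralizer ({(y : G)} : Set G)).subtype) = Nat.card S :=
      Subgroup.card_map_of_injective (Subgroup.subtype_injective _)
    rw [hSD] at h3
    rw [h3, Sylow.card_eq_multiplicity]
    rw [Sylow.card_eq_multiplicity] at h2
    exact h2
  have hDeq : D = E := Subgroup.eq_of_le_of_card_ge hDE hcard
  rw [hDeq]
  exact ⟨g₁, hg₁, Sy₁, hE1⟩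

/-- First main theorem, existence in part (ii). -/
theorem fmt_two_exists {G : Type*} [Group G] [Finite G] (p : ℕ) [Fact p.Prime]
    (M : Ideal Cfsg.AlgInt) (hM : Cfsg.IsPModular p M) (D : Subgroup G) (hD : IsPGroup p D)
    (B : Set (Cfsg.IrrCharacter G)) (hB : Cfsg.IsPBlock M B)
    (hDB : Cfsg.IsDefectGroup p M B D) :
    ∃ b : Set (Cfsg.IrrCharacter (Subgroup.normalizer (D : Set G))), Cfsg.IsPBlock M b ∧
      Cfsg.IsDefectGroup p M b (D.subgroupOf (Subgroup.normalizer (D : Set G))) ∧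
      Cfsg.IsInducedBlock M (Subgroup.normalizer (D : Set G)) b B := by
  classical
  haveI := Fintype.ofFinite G
  haveI : Fintype (Subgroup.normalizer (D : Set G)) := Fintype.ofFinite _
  have hMp := hM.2.1.isPrime
  have hDN : D ≤ Subgroup.normalizer (D : Set G) := Subgroup.le_normalizer
  have hCN : Subgroup.centralizer (D : Set G) ≤ Subgroup.normalizer (D : Set G) :=
    Subgroup.centralizer_le_normalizer _
  obtain ⟨b, hind⟩ := (brauer_induced_iff_defect p M hM D (Subgroup.normalizer (D : Set G)) hD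
    hDN hCN le_rfl B hB).2 ⟨D, hDB, 1, by
      rintro _ ⟨y, hy, rfl⟩
      simpa using hy⟩
  have hb := hind.1
  refine ⟨b, hb, ?_, hind⟩
  obtain ⟨g, hg⟩ := defect_class_exists p M hM b hb
  obtain ⟨Sy⟩ : Nonempty (Sylow p (Subgroup.centralizer
    ({g} : Set (Subgroup.normalizer (D : Set G))))) := inferInstance
  have hDb : Cfsg.IsDefectGroup p M b
      ((Sy : Subgroup (Subgroup.centralizer ({g} : Set (Subgroup.normalizer (D : Set G))))).map
        (Subgroup.centralizer ({g} : Set (Subgroup.normalizer (D : Set G)))).subtype) :=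
    ⟨g, hg, Sy, rfl⟩
  have h1 := dp_main p M hM b hb _ hDb
  obtain ⟨E, hE, hle⟩ := induced_defect_le p M hM _ b hb B hB hind _ hDb
  have hcardE := defect_group_card p M hM B hB E hE
  have hcardD := defect_group_card p M hM B hB D hDB
  haveI hD'n : (D.subgroupOf (Subgroup.normalizer (D : Set G))).Normal :=
    (Subgroup.normal_subgroupOf_iff_le_normalizer hDN).2 le_rfl
  have hD'p : IsPGroup p (D.subgroupOf (Subgroup.normalizer (D : Set G))) := hD.comap_subtype
  have h2 : D.subgroupOf (Subgroup.normalizer (D : Set G))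
      ≤ Cfsg.pCore p (Subgroup.normalizer (D : Set G)) := le_sSup ⟨hD'n, hD'p⟩
  have h3 := le_trans h2 h1
  have hcard : Nat.card ((Sy : Subgroup (Subgroup.centralizer
      ({g} : Set (Subgroup.normalizer (D : Set G))))).map
        (Subgroup.centralizer ({g} : Set (Subgroup.normalizer (D : Set G)))).subtype)
      ≤ Nat.card (D.subgroupOf (Subgroup.normalizer (D : Set G))) := by
    have h4 := Subgroup.card_le_of_le hle
    rw [Subgroup.card_map_of_injective (Subgroup.subtype_injective _), hcardE, ← hcardD] at h4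
    rw [Nat.card_congr (Subgroup.subgroupOfEquivOfLe hDN).toEquiv]
    exact h4
  have heq := Subgroup.eq_of_le_of_card_ge h3 hcard
  rw [heq]
  exact hDb

/-- First main theorem, uniqueness in part (ii). -/
theorem fmt_two_unique {G : Type*} [Group G] [Finite G] (p : ℕ) [Fact p.Prime]
    (M : Ideal Cfsg.AlgInt) (hM : Cfsg.IsPModular p M) (D : Subgroup G) (hD : IsPGroup p D)
    (B : Set (Cfsg.IrrCharacter G))
    (b₁ b₂ : Set (Cfsg.IrrCharacter (Subgroup.normalizer (D : Set G))))
    (hD₁ : Cfsg.IsDefectGroup p M b₁ (D.subgroupOf (Subgroup.normalizer (D : Set G))))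
    (hD₂ : Cfsg.IsDefectGroup p M b₂ (D.subgroupOf (Subgroup.normalizer (D : Set G))))
    (hi₁ : Cfsg.IsInducedBlock M (Subgroup.normalizer (D : Set G)) b₁ B)
    (hi₂ : Cfsg.IsInducedBlock M (Subgroup.normalizer (D : Set G)) b₂ B) : b₁ = b₂ := by
  classical
  haveI := Fintype.ofFinite G
  haveI : Fintype (Subgroup.normalizer (D : Set G)) := Fintype.ofFinite _
  have hMp := hM.2.1.isPrime
  have hDN : D ≤ Subgroup.normalizer (D : Set G) := Subgroup.le_normalizer
  have hb₁ := hi₁.1
  have hb₂ := hi₂.1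
  have hB := hi₁.2.1
  by_contra hne
  obtain ⟨ξ₁, hbξ₁⟩ := hi₁.1
  obtain ⟨ξ₂, hbξ₂⟩ := hi₂.1
  have hξ₁ : ξ₁ ∈ b₁ := by
    rw [hbξ₁]
    exact sb_refl hMp _
  have hξ₂ : ξ₂ ∈ b₂ := by
    rw [hbξ₂]
    exact sb_refl hMp _
  have hξ₂n : ξ₂ ∉ b₁ := fun h => hne (block_eq_of_mem M hMp b₁ b₂ hb₁ hb₂ ξ₂ h hξ₂)
  obtain ⟨χ, hχB⟩ : ∃ χ : Cfsg.IrrCharacter G, χ ∈ B := by
    obtain ⟨χ₀, hχ₀⟩ := hB
    refine ⟨χ₀, ?_⟩
    rw [hχ₀]
    exact sb_refl hMp _
  have hcl := block_closed M hMp b₁ hb₁
  obtain ⟨E, hE⟩ := good_idem M hMp b₁ hcl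
  have hEc : ∀ g : Subgroup.normalizer (D : Set G),
      ((E.coeff g : lrSub M hMp) : ℂ) = Cfsg.blockCoeff b₁ g := fun g => good_coeff_eq _ b₁ hE g
  have s₁ := good_scalar_sum _ hE ξ₁
  have s₂ := good_scalar_sum _ hE ξ₂
  rw [if_pos hξ₁, bcf_class_sum (fun g => ((E.coeff g : lrSub M hMp) : ℂ))
    (fun r c => by rw [good_coeff_class _ hE]) ξ₁] at s₁
  rw [if_neg hξ₂n, bcf_class_sum (fun g => ((E.coeff g : lrSub M hMp) : ℂ))
    (fun r c => by rw [good_coeff_class _ hE]) ξ₂] at s₂
  have hex : ∃ y : Subgroup.normalizer (D : Set G),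
      ¬ Cfsg.MemLocalIdeal M (((E.coeff y : lrSub M hMp) : ℂ)
        * (Cfsg.centralChar (ξ₁ : Subgroup.normalizer (D : Set G) → ℂ) y
          - Cfsg.centralChar (ξ₂ : Subgroup.normalizer (D : Set G) → ℂ) y)) := by
    by_contra hno
    push Not at hno
    apply li_one M
    have h3 : (1 : ℂ) - 0 = _ := congr (congrArg HSub.hSub s₁) s₂
    rw [sub_zero, ← Finset.sum_sub_distrib] at h3
    rw [h3]
    apply li_sum hMp
    intro C _
    rw [← mul_sub]
    exact hno _
  obtain ⟨y, hy⟩ := hex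
  have hya : ¬ Cfsg.MemLocalIdeal M (Cfsg.blockCoeff b₁ y) := by
    intro h
    apply hy
    rw [hEc, mul_comm]
    exact li_mul hMp ((mem_lrSub hMp _).1 ((lrSub M hMp).sub_mem
      ((mem_lrSub hMp _).2 (lr_int p M hM (cc_isIntegral ξ₁ y)))
      ((mem_lrSub hMp _).2 (lr_int p M hM (cc_isIntegral ξ₂ y))))) h
  have hyd : ¬ Cfsg.MemLocalIdeal M
      (Cfsg.centralChar (ξ₁ : Subgroup.normalizer (D : Set G) → ℂ) y
        - Cfsg.centralChar (ξ₂ : Subgroup.normalizer (D : Set G) → ℂ) y) := by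
    intro h
    apply hy
    exact li_mul hMp (E.coeff y).2 h
  haveI hD'n : (D.subgroupOf (Subgroup.normalizer (D : Set G))).Normal :=
    (Subgroup.normal_subgroupOf_iff_le_normalizer hDN).2 le_rfl
  have hD'p : IsPGroup p (D.subgroupOf (Subgroup.normalizer (D : Set G))) := hD.comap_subtype
  have hkey : ∃ Q : Sylow p (Subgroup.centralizer ({y} : Set (Subgroup.normalizer (D : Set G)))),
      D.subgroupOf (Subgroup.normalizer (D : Set G))
        = (Q : Subgroup (Subgroup.centralizer
            ({y} : Set (Subgroup.normalizer (D : Set G))))).map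
          (Subgroup.centralizer ({y} : Set (Subgroup.normalizer (D : Set G)))).subtype := by
    obtain ⟨g₁, hg₁, Sy₁, hS₁⟩ := hD₁
    have hall : ∀ Q : Sylow p (Subgroup.centralizer
        ({y} : Set (Subgroup.normalizer (D : Set G)))),
        (Q : Subgroup (Subgroup.centralizer
            ({y} : Set (Subgroup.normalizer (D : Set G))))).map
          (Subgroup.centralizer ({y} : Set (Subgroup.normalizer (D : Set G)))).subtype
        ≤ D.subgroupOf (Subgroup.normalizer (D : Set G)) := by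
      intro Q
      obtain ⟨x, hx⟩ := minmax_a p M hM b₁ hb₁ g₁ hg₁ Sy₁ y hya Q
      rw [← hS₁, map_conj_normal] at hx
      exact hx
    have hsome : ∃ Q : Sylow p (Subgroup.centralizer
        ({y} : Set (Subgroup.normalizer (D : Set G)))),
        D.subgroupOf (Subgroup.normalizer (D : Set G))
        ≤ (Q : Subgroup (Subgroup.centralizer
            ({y} : Set (Subgroup.normalizer (D : Set G))))).map
          (Subgroup.centralizer ({y} : Set (Subgroup.normalizer (D : Set G)))).subtype := by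
      have hcase : ¬ Cfsg.MemLocalIdeal M
            (Cfsg.centralChar (ξ₁ : Subgroup.normalizer (D : Set G) → ℂ) y) ∨
          ¬ Cfsg.MemLocalIdeal M
            (Cfsg.centralChar (ξ₂ : Subgroup.normalizer (D : Set G) → ℂ) y) := by
        by_contra hh
        push Not at hh
        exact hyd (li_sub hMp hh.1 hh.2)
      rcases hcase with hc | hc
      · have hD'le : D.subgroupOf (Subgroup.normalizer (D : Set G))
            ≤ Subgroup.centralizer ({g₁} : Set (Subgroup.normalizer (D : Set G))) := by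
          rw [hS₁]
          rintro _ ⟨c, _, rfl⟩
          exact c.2
        obtain ⟨x, Q, hxQ⟩ := minmax_b p M hM b₁ hb₁ g₁ hg₁.2.1 _ hD'p hD'le y ξ₁ hξ₁ hc
        rw [map_conj_normal] at hxQ
        exact ⟨Q, hxQ⟩
      · obtain ⟨g₂, hg₂, Sy₂, hS₂⟩ := hD₂
        have hD'le : D.subgroupOf (Subgroup.normalizer (D : Set G))
            ≤ Subgroup.centralizer ({g₂} : Set (Subgroup.normalizer (D : Set G))) := by
          rw [hS₂]
          rintro _ ⟨c, _, rfl⟩
          exact c.2
        obtain ⟨x, Q, hxQ⟩ := minmax_b p M hM b₂ hb₂ g₂ hg₂.2.1 _ hD'p hD'le y ξ₂ hξ₂ hc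
        rw [map_conj_normal] at hxQ
        exact ⟨Q, hxQ⟩
    obtain ⟨Q, hQ⟩ := hsome
    exact ⟨Q, le_antisymm hQ (hall Q)⟩
  obtain ⟨Q, hQ⟩ := hkey
  have e₁ := fmt_bcc p D hD y Q hQ ξ₁
  have e₂ := fmt_bcc p D hD y Q hQ ξ₂
  apply hyd
  have a1 := hi₁.2.2 ξ₁ hξ₁ χ hχB (y : G)
  have a2 := brauer_cc p M hM D (Subgroup.normalizer (D : Set G)) hD hDN le_rfl ξ₁ (y : G)
  have a3 := hi₂.2.2 ξ₂ hξ₂ χ hχB (y : G)
  have a4 := brauer_cc p M hM D (Subgroup.normalizer (D : Set G)) hD hDN le_rfl ξ₂ (y : G)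
  rw [e₁] at a2
  rw [e₂] at a4
  have a5 := li_sub hMp (li_sub hMp a1 a2) (li_sub hMp a3 a4)
  convert a5 using 1
  ring

end BlockFMT

end Cfsg.Agent.Lib.Helper6
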