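import Mathlib
import Cfsg.Prelude.Def_Blocks
import Cfsg.Agent.Lib.Helper6.BlockCover3

set_option autoImplicit false

namespace Cfsg.Agent.Lib.Helper6

section BlockQC

open Cfsg.Agent.Lib.Lead Cfsg.Agent.Lib.Helper2
open scoped ComplexConjugate

theorem induced_of_cover {G : Type*} [Group G] [Fintype G] (p : ℕ) [Fact p.Prime]
    (M : Ideal Cfsg.AlgInt) (hM : Cfsg.IsPModular p M) (Q : Subgroup G) [Q.Normal]
    (hQ : IsPGroup p Q) (N : Subgroup G) [hNn : N.Normal] [Fintype N]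
    (hCN : Subgroup.centralizer (Q : Set G) ≤ N)
    (b : Set (Cfsg.IrrCharacter N)) (hb : Cfsg.IsPBlock M b)
    (B : Set (Cfsg.IrrCharacter G)) (hB : Cfsg.IsPBlock M B)
    (hcov : ∃ χ ∈ B, ∃ θ ∈ b,
      Cfsg.classInner (fun n : N => (χ : G → ℂ) n) (θ : N → ℂ) ≠ 0) :
    Cfsg.IsInducedBlock M N b B := by
  classical
  have hMp := hM.2.1.isPrime
  have hM1 := lr_one_notMem p M hM
  obtain ⟨χ₁, hχ₁, θ₁, hθ₁, hcon⟩ := hcov
  refine ⟨hb, hB, fun θ hθ χ hχ g => ?_⟩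
  obtain ⟨χ₀, hB0⟩ := hB
  obtain ⟨θ₀, hb0⟩ := hb
  have h1 : Cfsg.SameBlock M (θ : N → ℂ) (θ₁ : N → ℂ) := by
    rw [hb0] at hθ hθ₁
    exact sb_trans hMp (sb_symm hMp hθ) hθ₁
  have h2 : Cfsg.SameBlock M (χ₁ : G → ℂ) (χ : G → ℂ) := by
    rw [hB0] at hχ hχ₁
    exact sb_trans hMp (sb_symm hMp hχ₁) hχ
  have hmid : Cfsg.MemLocalIdeal M (Cfsg.inducedCentralChar N (θ₁ : N → ℂ) g
      - Cfsg.centralChar (χ₁ : G → ℂ) g) := by
    by_cases hg : g ∈ N
    · rw [cover_cc N χ₁ θ₁ θ₁.2 hcon g hg, sub_self]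
      exact li_zero M hM1
    · have hset : {h : N | IsConj g (h : G)} = ∅ := by
        ext h
        simp only [Set.mem_setOf_eq, Set.mem_empty_iff_false, iff_false]
        intro hc
        obtain ⟨c, hc⟩ := isConj_iff.1 hc
        apply hg
        have := hNn.conj_mem h h.2 c⁻¹
        rw [← hc] at this
        simpa [mul_assoc] using this
      have e0 : Cfsg.inducedCentralChar N (θ₁ : N → ℂ) g = 0 := by
        unfold Cfsg.inducedCentralChar
        rw [hset, finsum_mem_empty]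
      rw [e0]
      have hg' : ∀ x, IsConj g x → x ∉ Subgroup.centralizer (Q : Set G) := by
        intro x hx hxc
        obtain ⟨c, rfl⟩ := isConj_iff.1 hx
        apply hg
        have := hNn.conj_mem _ (hCN hxc) c⁻¹
        simpa [mul_assoc] using this
      exact li_sub hMp (li_zero M hM1) (dp_cc_li p M hM Q hQ g hg' χ₁)
  have h3 := li_add hMp (li_add hMp (icc_sb p M hM N θ θ₁ h1 g) hmid) (h2 g)
  rwa [sub_add_sub_cancel, sub_add_sub_cancel] at h3

end BlockQC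

end Cfsg.Agent.Lib.Helper6
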