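import Mathlib
import Cfsg.Prelude.Def_Blocks
import Cfsg.Agent.Lib.Helper6.BlockFMT
import Cfsg.Agent.Lib.Helper6.BlockCover3
import Cfsg.Agent.Lib.Helper6.BlockQC
import Cfsg.Agent.Lib.Helper6.BlockIdem3

set_option autoImplicit false

namespace Cfsg.Agent.Lib.Helper6

section BlockEFMT

open Cfsg.Agent.Lib.Lead Cfsg.Agent.Lib.Helper2
open scoped ComplexConjugate

/-- A block of `H` (with `D ≤ H ≤ N_G(D)`) inducing a block with defect group `D` has defect
group `D`. -/
theorem defect_of_induced {G : Type*} [Group G] [Finite G] (p : ℕ) [Fact p.Prime]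
    (M : Ideal Cfsg.AlgInt) (hM : Cfsg.IsPModular p M) (D H : Subgroup G) (hD : IsPGroup p D)
    (hDH : D ≤ H) (hHN : H ≤ Subgroup.normalizer (D : Set G))
    (b : Set (Cfsg.IrrCharacter H)) (B : Set (Cfsg.IrrCharacter G))
    (hind : Cfsg.IsInducedBlock M H b B) (hDB : Cfsg.IsDefectGroup p M B D) :
    Cfsg.IsDefectGroup p M b (D.subgroupOf H) := by
  classical
  haveI := Fintype.ofFinite G
  haveI : Fintype H := Fintype.ofFinite _
  have hMp := hM.2.1.isPrime
  have hb := hind.1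
  have hB := hind.2.1
  obtain ⟨g, hg⟩ := defect_class_exists p M hM b hb
  obtain ⟨Sy⟩ : Nonempty (Sylow p (Subgroup.centralizer ({g} : Set H))) := inferInstance
  have hDb : Cfsg.IsDefectGroup p M b
      ((Sy : Subgroup (Subgroup.centralizer ({g} : Set H))).map
        (Subgroup.centralizer ({g} : Set H)).subtype) := ⟨g, hg, Sy, rfl⟩
  have h1 := dp_main p M hM b hb _ hDb
  obtain ⟨E, hE, hle⟩ := induced_defect_le p M hM _ b hb B hB hind _ hDb
  have hcardE := defect_group_card p M hM B hB E hE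
  have hcardD := defect_group_card p M hM B hB D hDB
  haveI hD'n : (D.subgroupOf H).Normal :=
    (Subgroup.normal_subgroupOf_iff_le_normalizer hDH).2 hHN
  have hD'p : IsPGroup p (D.subgroupOf H) := hD.comap_subtype
  have h2 : D.subgroupOf H ≤ Cfsg.pCore p H := le_sSup ⟨hD'n, hD'p⟩
  have h3 := le_trans h2 h1
  have hcard : Nat.card ((Sy : Subgroup (Subgroup.centralizer ({g} : Set H))).map
        (Subgroup.centralizer ({g} : Set H)).subtype)
      ≤ Nat.card (D.subgroupOf H) := by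
    have h4 := Subgroup.card_le_of_le hle
    rw [Subgroup.card_map_of_injective (Subgroup.subtype_injective _), hcardE, ← hcardD] at h4
    rw [Nat.card_congr (Subgroup.subgroupOfEquivOfLe hDH).toEquiv]
    exact h4
  have heq := Subgroup.eq_of_le_of_card_ge h3 hcard
  rw [heq]
  exact hDb

theorem equiv_cc {K L : Type*} [Group K] [Group L] (e : K ≃* L) (θ : L → ℂ) (x : K) :
    Cfsg.centralChar (θ ∘ e) x = Cfsg.centralChar θ (e x) := by
  unfold Cfsg.centralChar
  have h : Subgroup.centralizer ({x} : Set K)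
      = (Subgroup.centralizer ({e x} : Set L)).comap e.toMonoidHom := by
    ext y
    rw [Subgroup.mem_comap, Subgroup.mem_centralizer_iff, Subgroup.mem_centralizer_iff]
    simp only [Set.mem_singleton_iff, forall_eq]
    constructor
    · intro h
      show e x * e y = e y * e x
      rw [← map_mul, ← map_mul, h]
    · intro h
      apply e.injective
      rw [map_mul, map_mul]
      exact h
  rw [h, Subgroup.index_comap_of_surjective _ (f := e.toMonoidHom) e.surjective]
  simp only [Function.comp_apply, map_one]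

theorem equiv_sb {K L : Type*} [Group K] [Group L] (M : Ideal Cfsg.AlgInt) (e : K ≃* L)
    (θ φ : L → ℂ) : Cfsg.SameBlock M (θ ∘ e) (φ ∘ e) ↔ Cfsg.SameBlock M θ φ := by
  constructor
  · intro h y
    have h1 := h (e.symm y)
    rw [equiv_cc, equiv_cc, MulEquiv.apply_symm_apply] at h1
    exact h1
  · intro h x
    rw [equiv_cc, equiv_cc]
    exact h _

theorem equiv_irr {K L : Type*} [Group K] [Group L] (e : K ≃* L) (θ : Cfsg.IrrCharacter L) :
    Cfsg.IsIrrCharacter K ((θ : L → ℂ) ∘ e) :=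
  isIrrCharacter_comp_of_surjective θ.2 e.toMonoidHom e.surjective

/-- Transitivity of block induction, in terms of central characters. -/
theorem ind_trans {G : Type*} [Group G] [Finite G] (p : ℕ) (M : Ideal Cfsg.AlgInt)
    (hM : Cfsg.IsPModular p M) (H : Subgroup G) (K : Subgroup H)
    (θ : Cfsg.IrrCharacter K) (χ : Cfsg.IrrCharacter H)
    (h : ∀ x : H, Cfsg.MemLocalIdeal M (Cfsg.inducedCentralChar K (θ : K → ℂ) x
      - Cfsg.centralChar (χ : H → ℂ) x)) (g : G) :
    Cfsg.MemLocalIdeal M ((∑ᶠ k ∈ {k : K | IsConj g ((k : H) : G)},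
        (θ : K → ℂ) k / (θ : K → ℂ) 1)
      - Cfsg.inducedCentralChar H (χ : H → ℂ) g) := by
  classical
  haveI : Fintype H := Fintype.ofFinite _
  haveI : Fintype K := Fintype.ofFinite _
  have hMp := hM.2.1.isPrime
  obtain ⟨F, hFdef⟩ : ∃ F : H → ℂ, F = fun x : H =>
      if IsConj g (x : G) then (1 : ℂ) else 0 := ⟨_, rfl⟩
  have hFc : ∀ r c : H, F (c * r * c⁻¹) = F r := by
    intro r c
    rw [hFdef]
    have h1 : IsConj g ((c * r * c⁻¹ : H) : G) ↔ IsConj g (r : G) := by
      have h2 : IsConj (r : G) ((c * r * c⁻¹ : H) : G) := isConj_iff.2 ⟨(c : G), by simp⟩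
      exact ⟨fun h => h.trans h2.symm, fun h => h.trans h2⟩
    show (if _ then (1 : ℂ) else 0) = if _ then (1 : ℂ) else 0
    by_cases h3 : IsConj g (r : G)
    · rw [if_pos h3, if_pos (h1.2 h3)]
    · rw [if_neg h3, if_neg (fun h4 => h3 (h1.1 h4))]
  have e1 := icc_sum K F hFc (θ : K → ℂ)
  have e2 := bcf_class_sum F hFc χ
  have e3 : (∑ᶠ k ∈ {k : K | IsConj g ((k : H) : G)}, (θ : K → ℂ) k / (θ : K → ℂ) 1)
      = ∑ k : K, F k * ((θ : K → ℂ) k / (θ : K → ℂ) 1) := by
    rw [finsum_mem_ite]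
    apply Finset.sum_congr rfl
    intro k _
    rw [hFdef]
    show _ = (if _ then (1 : ℂ) else 0) * _
    by_cases h3 : IsConj g ((k : H) : G)
    · rw [if_pos h3, if_pos (show k ∈ {k : K | IsConj g ((k : H) : G)} from h3), one_mul]
    · rw [if_neg h3, if_neg (show k ∉ {k : K | IsConj g ((k : H) : G)} from h3), zero_mul]
  have e4 : Cfsg.inducedCentralChar H (χ : H → ℂ) g
      = ∑ x : H, F x * ((χ : H → ℂ) x / (χ : H → ℂ) 1) := by
    unfold Cfsg.inducedCentralChar
    rw [finsum_mem_ite]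
    apply Finset.sum_congr rfl
    intro k _
    rw [hFdef]
    show _ = (if _ then (1 : ℂ) else 0) * _
    by_cases h3 : IsConj g (k : G)
    · rw [if_pos h3, if_pos (show k ∈ {k : H | IsConj g (k : G)} from h3), one_mul]
    · rw [if_neg h3, if_neg (show k ∉ {k : H | IsConj g (k : G)} from h3), zero_mul]
  rw [e3, e4]
  have e5 := congr (congrArg HSub.hSub e1) e2
  rw [e5, ← Finset.sum_sub_distrib]
  apply li_sum hMp
  intro C _
  rw [← mul_sub]
  apply li_mul hMp _ (h _)
  rw [hFdef]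
  show Cfsg.MemLocalRing M (if _ then (1 : ℂ) else 0)
  split_ifs
  · exact (lrSub M hMp).one_mem
  · exact (lrSub M hMp).zero_mem

/-- Extended first main theorem, conjugacy part: two blocks of `L` (with
`P C_G(P) ≤ L ≤ N_G(P)` normalized by `N_G(P)`) inducing the same block with defect group `P`
are conjugate under `N_G(P)`. -/
theorem efmt_core {G : Type*} [Group G] [Finite G] (p : ℕ) [Fact p.Prime]
    (M : Ideal Cfsg.AlgInt) (hM : Cfsg.IsPModular p M) (B : Set (Cfsg.IrrCharacter G))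
    (hB : Cfsg.IsPBlock M B) (P : Subgroup G) (hP : Cfsg.IsDefectGroup p M B P)
    (L : Subgroup G) (hCL : Subgroup.centralizer (P : Set G) ≤ L)
    (hLN : L ≤ Subgroup.normalizer (P : Set G))
    (hNL : Subgroup.normalizer (P : Set G) ≤ Subgroup.normalizer (L : Set G))
    (b b' : Set (Cfsg.IrrCharacter L)) (hi : Cfsg.IsInducedBlock M L b B)
    (hi' : Cfsg.IsInducedBlock M L b' B) :
    ∃ n ∈ Subgroup.normalizer (P : Set G), ∀ θ ∈ b, ∃ θ' ∈ b', ∀ x : L,
      ∀ hx : n * (x : G) * n⁻¹ ∈ L, (θ' : L → ℂ) x = (θ : L → ℂ) ⟨n * (x : G) * n⁻¹, hx⟩ := by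
  classical
  haveI := Fintype.ofFinite G
  have hMp := hM.2.1.isPrime
  have hPp : IsPGroup p P := IsPGroup.of_card (defect_group_card p M hM B hB P hP)
  have hPN : P ≤ Subgroup.normalizer (P : Set G) := Subgroup.le_normalizer
  haveI : Fintype (Subgroup.normalizer (P : Set G)) := Fintype.ofFinite _
  haveI hQn : (P.subgroupOf (Subgroup.normalizer (P : Set G))).Normal :=
    (Subgroup.normal_subgroupOf_iff_le_normalizer hPN).2 le_rfl
  have hQp : IsPGroup p (P.subgroupOf (Subgroup.normalizer (P : Set G))) := hPp.comap_subtype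
  haveI hLNn : (L.subgroupOf (Subgroup.normalizer (P : Set G))).Normal :=
    (Subgroup.normal_subgroupOf_iff_le_normalizer hLN).2 hNL
  haveI : Fintype (L.subgroupOf (Subgroup.normalizer (P : Set G))) := Fintype.ofFinite _
  have hCN : Subgroup.centralizer ((P.subgroupOf (Subgroup.normalizer (P : Set G)) :
      Subgroup (Subgroup.normalizer (P : Set G))) : Set (Subgroup.normalizer (P : Set G)))
      ≤ L.subgroupOf (Subgroup.normalizer (P : Set G)) := by
    intro n hn
    rw [Subgroup.mem_subgroupOf]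
    apply hCL
    rw [Subgroup.mem_centralizer_iff]
    intro u hu
    have h1 := (Subgroup.mem_centralizer_iff.1 hn) ⟨u, hPN hu⟩ (Subgroup.mem_subgroupOf.2 hu)
    exact congrArg Subtype.val h1
  obtain ⟨e, he⟩ : ∃ e : ↥(L.subgroupOf (Subgroup.normalizer (P : Set G))) ≃* ↥L,
      ∀ k, ((e k : L) : G) = ((k : Subgroup.normalizer (P : Set G)) : G) :=
    ⟨Subgroup.subgroupOfEquivOfLe hLN, fun k => rfl⟩
  obtain ⟨tr, htr⟩ : ∃ tr : Cfsg.IrrCharacter L →
      Cfsg.IrrCharacter (L.subgroupOf (Subgroup.normalizer (P : Set G))),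
      ∀ θ, ((tr θ : Cfsg.IrrCharacter (L.subgroupOf (Subgroup.normalizer (P : Set G)))) :
        L.subgroupOf (Subgroup.normalizer (P : Set G)) → ℂ) = (θ : L → ℂ) ∘ e :=
    ⟨fun θ => ⟨_, equiv_irr e θ⟩, fun θ => rfl⟩
  obtain ⟨θ₀, hbθ₀⟩ := hi.1
  obtain ⟨θ₀', hbθ₀'⟩ := hi'.1
  have hθ₀ : θ₀ ∈ b := by
    rw [hbθ₀]
    exact sb_refl hMp _
  have hθ₀' : θ₀' ∈ b' := by
    rw [hbθ₀']
    exact sb_refl hMp _
  have htrsb : ∀ θ φ : Cfsg.IrrCharacter L, Cfsg.SameBlock M (θ : L → ℂ) (φ : L → ℂ) →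
      Cfsg.SameBlock M ((tr θ : Cfsg.IrrCharacter
        (L.subgroupOf (Subgroup.normalizer (P : Set G)))) :
          L.subgroupOf (Subgroup.normalizer (P : Set G)) → ℂ)
        ((tr φ : Cfsg.IrrCharacter (L.subgroupOf (Subgroup.normalizer (P : Set G)))) :
          L.subgroupOf (Subgroup.normalizer (P : Set G)) → ℂ) := by
    intro θ φ h
    rw [htr, htr]
    exact (equiv_sb M e _ _).2 h
  -- blocks of the normalizer
  have hstep : ∀ (θ₁ : Cfsg.IrrCharacter L) (b₁ : Set (Cfsg.IrrCharacter L)),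
      Cfsg.IsInducedBlock M L b₁ B → θ₁ ∈ b₁ →
      ∃ χ₁ : Cfsg.IrrCharacter (Subgroup.normalizer (P : Set G)),
        Cfsg.classInner (fun h : L.subgroupOf (Subgroup.normalizer (P : Set G)) =>
          (χ₁ : Subgroup.normalizer (P : Set G) → ℂ) h)
          ((tr θ₁ : Cfsg.IrrCharacter (L.subgroupOf (Subgroup.normalizer (P : Set G)))) :
            L.subgroupOf (Subgroup.normalizer (P : Set G)) → ℂ) ≠ 0 ∧
        Cfsg.IsInducedBlock M (Subgroup.normalizer (P : Set G))
          (Cfsg.blockOf M (χ₁ : Subgroup.normalizer (P : Set G) → ℂ)) B ∧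
        Cfsg.IsDefectGroup p M (Cfsg.blockOf M (χ₁ : Subgroup.normalizer (P : Set G) → ℂ))
          (P.subgroupOf (Subgroup.normalizer (P : Set G))) := by
    intro θ₁ b₁ hi₁ hθ₁
    obtain ⟨χ₁, hχ₁, -⟩ := exists_irr_over
      (L.subgroupOf (Subgroup.normalizer (P : Set G))) (tr θ₁)
    have hβ : Cfsg.IsPBlock M (Cfsg.blockOf M (χ₁ : Subgroup.normalizer (P : Set G) → ℂ)) :=
      ⟨χ₁, rfl⟩
    have hbN : Cfsg.IsPBlock M (Cfsg.blockOf M ((tr θ₁ : Cfsg.IrrCharacter
        (L.subgroupOf (Subgroup.normalizer (P : Set G)))) :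
          L.subgroupOf (Subgroup.normalizer (P : Set G)) → ℂ)) := ⟨tr θ₁, rfl⟩
    have hind₁ := induced_of_cover p M hM (P.subgroupOf (Subgroup.normalizer (P : Set G))) hQp
      (L.subgroupOf (Subgroup.normalizer (P : Set G))) hCN _ hbN _ hβ
      ⟨χ₁, sb_refl hMp _, tr θ₁, sb_refl hMp _, hχ₁⟩
    have hB₁ : Cfsg.IsInducedBlock M (Subgroup.normalizer (P : Set G))
        (Cfsg.blockOf M (χ₁ : Subgroup.normalizer (P : Set G) → ℂ)) B := by
      refine ⟨hβ, hB, fun ψ hψ χ hχ g => ?_⟩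
      have t1 := ind_trans p M hM (Subgroup.normalizer (P : Set G))
        (L.subgroupOf (Subgroup.normalizer (P : Set G))) (tr θ₁) ψ
        (fun x => hind₁.2.2 (tr θ₁) (sb_refl hMp _) ψ hψ x) g
      have t3 := hi₁.2.2 θ₁ hθ₁ χ hχ g
      have t2 : Cfsg.inducedCentralChar L (θ₁ : L → ℂ) g
          = ∑ᶠ k ∈ {k : L.subgroupOf (Subgroup.normalizer (P : Set G)) |
              IsConj g ((k : Subgroup.normalizer (P : Set G)) : G)},
            ((tr θ₁ : Cfsg.IrrCharacter (L.subgroupOf (Subgroup.normalizer (P : Set G)))) :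
              L.subgroupOf (Subgroup.normalizer (P : Set G)) → ℂ) k
            / ((tr θ₁ : Cfsg.IrrCharacter (L.subgroupOf (Subgroup.normalizer (P : Set G)))) :
              L.subgroupOf (Subgroup.normalizer (P : Set G)) → ℂ) 1 := by
        haveI : Fintype L := Fintype.ofFinite _
        unfold Cfsg.inducedCentralChar
        rw [finsum_mem_ite, finsum_mem_ite, htr]
        have e1 := Equiv.sum_comp e.toEquiv (fun l : L =>
          if l ∈ {h : L | IsConj g (h : G)} then (θ₁ : L → ℂ) l / (θ₁ : L → ℂ) 1 else 0)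
        rw [← e1]
        apply Finset.sum_congr rfl
        intro k _
        have e2 : (e.toEquiv k ∈ {h : L | IsConj g (h : G)}) ↔
            (k ∈ {k : L.subgroupOf (Subgroup.normalizer (P : Set G)) |
              IsConj g ((k : Subgroup.normalizer (P : Set G)) : G)}) := by
          show IsConj g ((e k : L) : G) ↔ IsConj g ((k : Subgroup.normalizer (P : Set G)) : G)
          rw [he]
        by_cases h5 : k ∈ {k : L.subgroupOf (Subgroup.normalizer (P : Set G)) |
              IsConj g ((k : Subgroup.normalizer (P : Set G)) : G)}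
        · rw [if_pos h5, if_pos (e2.2 h5)]
          simp
        · rw [if_neg h5, if_neg (fun h6 => h5 (e2.1 h6))]
      rw [← t2] at t1
      have t4 := li_sub hMp t3 t1
      convert t4 using 1
      ring
    exact ⟨χ₁, hχ₁, hB₁, defect_of_induced p M hM P _ hPp hPN le_rfl _ B hB₁ hP⟩
  obtain ⟨χ₁, hχ₁, hB₁, hd₁⟩ := hstep θ₀ b hi hθ₀
  obtain ⟨χ₂, hχ₂, hB₂, hd₂⟩ := hstep θ₀' b' hi' hθ₀'
  have heq := fmt_two_unique p M hM P hPp B _ _ hd₁ hd₂ hB₁ hB₂
  have hsb : Cfsg.SameBlock M (χ₁ : Subgroup.normalizer (P : Set G) → ℂ)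
      (χ₂ : Subgroup.normalizer (P : Set G) → ℂ) := by
    have h1 : χ₂ ∈ Cfsg.blockOf M (χ₁ : Subgroup.normalizer (P : Set G) → ℂ) := by
      rw [heq]
      exact sb_refl hMp _
    exact h1
  have hbN : Cfsg.IsPBlock M (Cfsg.blockOf M ((tr θ₀ : Cfsg.IrrCharacter
      (L.subgroupOf (Subgroup.normalizer (P : Set G)))) :
        L.subgroupOf (Subgroup.normalizer (P : Set G)) → ℂ)) := ⟨tr θ₀, rfl⟩
  obtain ⟨n, θ'', hθ'', hn⟩ := cover_conj p M hM
    (L.subgroupOf (Subgroup.normalizer (P : Set G))) _ hbN χ₁ χ₂ hsb (tr θ₀) (sb_refl hMp _)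
    hχ₁ (tr θ₀') hχ₂
  refine ⟨(n : G), n.2, fun θ hθ => ?_⟩
  have hθsb : Cfsg.SameBlock M (θ₀ : L → ℂ) (θ : L → ℂ) := by
    rw [hbθ₀] at hθ
    exact hθ
  have hψirr : Cfsg.IsIrrCharacter L
      (((twistIrr (L.subgroupOf (Subgroup.normalizer (P : Set G))) n (tr θ) :
        Cfsg.IrrCharacter (L.subgroupOf (Subgroup.normalizer (P : Set G)))) :
          L.subgroupOf (Subgroup.normalizer (P : Set G)) → ℂ) ∘ e.symm) := equiv_irr e.symm _
  refine ⟨⟨_, hψirr⟩, ?_, ?_⟩
  · rw [hbθ₀']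
    show Cfsg.SameBlock M (θ₀' : L → ℂ) _
    rw [← equiv_sb M e]
    have e1 : (((twistIrr (L.subgroupOf (Subgroup.normalizer (P : Set G))) n (tr θ) :
        Cfsg.IrrCharacter (L.subgroupOf (Subgroup.normalizer (P : Set G)))) :
          L.subgroupOf (Subgroup.normalizer (P : Set G)) → ℂ) ∘ e.symm) ∘ e
        = twist (L.subgroupOf (Subgroup.normalizer (P : Set G))) n
          ((tr θ : Cfsg.IrrCharacter (L.subgroupOf (Subgroup.normalizer (P : Set G)))) :
            L.subgroupOf (Subgroup.normalizer (P : Set G)) → ℂ) := by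
      funext k
      simp only [Function.comp_apply, MulEquiv.symm_apply_apply]
      rfl
    rw [e1, ← htr θ₀', hn]
    apply tw_sb
    exact sb_trans hMp (sb_symm hMp hθ'') (htrsb θ₀ θ hθsb)
  · intro x hx
    show twist (L.subgroupOf (Subgroup.normalizer (P : Set G))) n
      ((tr θ : Cfsg.IrrCharacter (L.subgroupOf (Subgroup.normalizer (P : Set G)))) :
        L.subgroupOf (Subgroup.normalizer (P : Set G)) → ℂ) (e.symm x) = _
    rw [htr]
    show (θ : L → ℂ) (e _) = _
    refine congrArg (θ : L → ℂ) (Subtype.ext ?_)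
    rw [he]
    show (n : G) * ((e.symm x : L.subgroupOf (Subgroup.normalizer (P : Set G))) :
      Subgroup.normalizer (P : Set G)) * ((n : G))⁻¹ = _
    have h7 := he (e.symm x)
    rw [MulEquiv.apply_symm_apply] at h7
    rw [← h7]

theorem normalizer_le_normalizer_sup_centralizer {G : Type*} [Group G] (P : Subgroup G) :
    Subgroup.normalizer (P : Set G)
      ≤ Subgroup.normalizer ((P ⊔ Subgroup.centralizer (P : Set G) : Subgroup G) : Set G) := by
  have hmap : ∀ n : G, n ∈ Subgroup.normalizer (P : Set G) →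
      ∀ h : G, h ∈ P ⊔ Subgroup.centralizer (P : Set G) →
        n * h * n⁻¹ ∈ P ⊔ Subgroup.centralizer (P : Set G) := by
    intro n hn h hh
    have h1 : (P ⊔ Subgroup.centralizer (P : Set G)).map (MulAut.conj n).toMonoidHom
        ≤ P ⊔ Subgroup.centralizer (P : Set G) := by
      rw [Subgroup.map_sup]
      apply sup_le
      · rintro _ ⟨u, hu, rfl⟩
        apply Subgroup.mem_sup_left
        simp only [MulEquiv.toMonoidHom_eq_coe, MonoidHom.coe_coe, MulAut.conj_apply]
        exact (Subgroup.mem_normalizer_iff.1 hn u).1 hu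
      · rintro _ ⟨u, hu, rfl⟩
        apply Subgroup.mem_sup_right
        simp only [MulEquiv.toMonoidHom_eq_coe, MonoidHom.coe_coe, MulAut.conj_apply]
        exact conj_mem_centralizer_of_mem_normalizer P hn hu
    exact h1 ⟨h, hh, by simp [MulAut.conj_apply]⟩
  intro n hn
  rw [Subgroup.mem_normalizer_iff]
  intro h
  constructor
  · exact hmap n hn h
  · intro hh
    have h2 := hmap n⁻¹ (inv_mem hn) _ hh
    have e : n⁻¹ * (n * h * n⁻¹) * n⁻¹⁻¹ = h := by group
    rwa [e] at h2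

/-- The extended first main theorem. -/
theorem efmt {G : Type*} [Group G] [Finite G] (p : ℕ) [Fact p.Prime]
    (M : Ideal Cfsg.AlgInt) (hM : Cfsg.IsPModular p M) (B : Set (Cfsg.IrrCharacter G))
    (hB : Cfsg.IsPBlock M B) (P : Subgroup G) (hP : Cfsg.IsDefectGroup p M B P) :
    (∃ b : Set (Cfsg.IrrCharacter ↥(P ⊔ Subgroup.centralizer (P : Set G))),
      Cfsg.IsDefectGroup p M b (P.subgroupOf (P ⊔ Subgroup.centralizer (P : Set G))) ∧
      Cfsg.IsInducedBlock M (P ⊔ Subgroup.centralizer (P : Set G)) b B) ∧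
    ∀ b b' : Set (Cfsg.IrrCharacter ↥(P ⊔ Subgroup.centralizer (P : Set G))),
      Cfsg.IsInducedBlock M (P ⊔ Subgroup.centralizer (P : Set G)) b B →
      Cfsg.IsInducedBlock M (P ⊔ Subgroup.centralizer (P : Set G)) b' B →
      ∃ n ∈ Subgroup.normalizer (P : Set G), ∀ θ ∈ b, ∃ θ' ∈ b',
        ∀ x : ↥(P ⊔ Subgroup.centralizer (P : Set G)),
        ∀ hx : n * (x : G) * n⁻¹ ∈ P ⊔ Subgroup.centralizer (P : Set G),
          (θ' : ↥(P ⊔ Subgroup.centralizer (P : Set G)) → ℂ) x
            = (θ : ↥(P ⊔ Subgroup.centralizer (P : Set G)) → ℂ) ⟨n * (x : G) * n⁻¹, hx⟩ := by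
  have hPp : IsPGroup p P := IsPGroup.of_card (defect_group_card p M hM B hB P hP)
  have hLN : P ⊔ Subgroup.centralizer (P : Set G) ≤ Subgroup.normalizer (P : Set G) :=
    sup_le Subgroup.le_normalizer (Subgroup.centralizer_le_normalizer _)
  constructor
  · obtain ⟨b, hind⟩ := (brauer_induced_iff_defect p M hM P
      (P ⊔ Subgroup.centralizer (P : Set G)) hPp le_sup_left le_sup_right hLN B hB).2
      ⟨P, hP, 1, by
        rintro _ ⟨y, hy, rfl⟩
        simpa using hy⟩
    exact ⟨b, defect_of_induced p M hM P _ hPp le_sup_left hLN b B hind hP, hind⟩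
  · intro b b' hi hi'
    exact efmt_core p M hM B hB P hP _ le_sup_right hLN
      (normalizer_le_normalizer_sup_centralizer P) b b' hi hi'

end BlockEFMT

end Cfsg.Agent.Lib.Helper6
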