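import Mathlib
import Cfsg.Prelude.Def_Blocks
import Cfsg.Agent.Lib.Helper6.BlockSMT2
import Cfsg.Agent.Lib.Helper6.BlockEFMT
import Cfsg.Agent.Lib.Helper6.BlockPelt

set_option autoImplicit false

namespace Cfsg.Agent.Lib.Helper6

section BlockCenter

open Cfsg.Agent.Lib.Lead Cfsg.Agent.Lib.Helper2
open scoped ComplexConjugate

/-- If the central character of a member of `B` is a local unit at `g`, some conjugate of `g`
centralizes the defect group `P` and has its `p`-part in the centre of `P`. -/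
theorem cc_unit_conj {G : Type*} [Group G] [Finite G] (p : ℕ) [Fact p.Prime]
    (M : Ideal Cfsg.AlgInt) (hM : Cfsg.IsPModular p M) (B : Set (Cfsg.IrrCharacter G))
    (hB : Cfsg.IsPBlock M B) (P : Subgroup G) (hP : Cfsg.IsDefectGroup p M B P) (g : G)
    (hg : ∃ χ ∈ B, ¬ Cfsg.MemLocalIdeal M (Cfsg.centralChar (χ : G → ℂ) g)) :
    ∃ x : G, IsConj g x ∧ x ∈ Subgroup.centralizer (P : Set G) ∧
      ∀ z : G, Cfsg.IsPPart p x z → z ∈ P ∧ ∀ w ∈ P, z * w = w * z := by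
  classical
  have hMp := hM.2.1.isPrime
  have hp1 : ¬ p ∣ 1 := fun hd => (Fact.out : p.Prime).one_lt.ne' (Nat.dvd_one.1 hd)
  have hz0 : Cfsg.MemLocalIdeal M 0 := li_zero M (lr_one_notMem p M hM)
  have hLN : P ⊔ Subgroup.centralizer (P : Set G) ≤ Subgroup.normalizer (P : Set G) :=
    sup_le Subgroup.le_normalizer (Subgroup.centralizer_le_normalizer _)
  obtain ⟨⟨b, hDb, hind⟩, -⟩ := efmt p M hM B hB P hP
  obtain ⟨χ, hχ, hcc⟩ := hg
  obtain ⟨hb, -, hcong⟩ := hind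
  obtain ⟨θ, hθ⟩ : ∃ θ : Cfsg.IrrCharacter ↥(P ⊔ Subgroup.centralizer (P : Set G)), θ ∈ b := by
    obtain ⟨θ₀, rfl⟩ := hb
    exact ⟨θ₀, sb_refl hMp _⟩
  have hicc : ¬ Cfsg.MemLocalIdeal M (Cfsg.inducedCentralChar
      (P ⊔ Subgroup.centralizer (P : Set G)) (θ : ↥(P ⊔ Subgroup.centralizer (P : Set G)) → ℂ) g) := by
    intro h1
    apply hcc
    have h2 := li_sub hMp h1 (hcong θ hθ χ hχ g)
    rwa [sub_sub_cancel] at h2
  obtain ⟨h₁, hconj, hcc₁⟩ := icc_exists_cc p M hM _ θ g hicc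
  haveI hnorm : (P.subgroupOf (P ⊔ Subgroup.centralizer (P : Set G))).Normal :=
    (Subgroup.normal_subgroupOf_iff_le_normalizer le_sup_left).2 hLN
  have hPp : IsPGroup p P := IsPGroup.of_card (defect_group_card p M hM B hB P hP)
  have hPLp : IsPGroup p (P.subgroupOf (P ⊔ Subgroup.centralizer (P : Set G))) :=
    hPp.comap_subtype
  obtain ⟨l₀, hl₀, Sy, hSy⟩ := hDb
  have hDl : P.subgroupOf (P ⊔ Subgroup.centralizer (P : Set G))
      ≤ Subgroup.centralizer ({l₀} : Set ↥(P ⊔ Subgroup.centralizer (P : Set G))) := by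
    rw [hSy]
    exact Subgroup.map_subtype_le _
  obtain ⟨t, Q, hQ⟩ := minmax_b p M hM b hb l₀ hl₀.2.1 _ hPLp hDl h₁ θ hθ hcc₁
  rw [map_conj_normal] at hQ
  have hPh₁ : ∀ a ∈ P, (h₁ : G) * a = a * (h₁ : G) := by
    intro a ha
    have haL : a ∈ P ⊔ Subgroup.centralizer (P : Set G) :=
      (le_sup_left : P ≤ P ⊔ Subgroup.centralizer (P : Set G)) ha
    have h1 : (⟨a, haL⟩ : ↥(P ⊔ Subgroup.centralizer (P : Set G)))
        ∈ P.subgroupOf (P ⊔ Subgroup.centralizer (P : Set G)) := Subgroup.mem_subgroupOf.2 ha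
    obtain ⟨c, hc, hceq⟩ := hQ h1
    have h2 := c.2
    rw [Subgroup.mem_centralizer_iff] at h2
    have h3 := h2 h₁ rfl
    have h4 : (c : ↥(P ⊔ Subgroup.centralizer (P : Set G))) = ⟨a, haL⟩ := hceq
    rw [h4] at h3
    exact congrArg Subtype.val h3
  refine ⟨(h₁ : G), hconj, ?_, ?_⟩
  · rw [Subgroup.mem_centralizer_iff]
    intro a ha
    exact (hPh₁ a ha).symm
  · intro z hz
    obtain ⟨q, hq⟩ := ppart_pow_coprime p hz 1 hp1
    rw [pow_one] at hq
    have hzw : ∀ w ∈ P, z * w = w * z := by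
      intro w hw
      rw [hq]
      exact (Commute.pow_left (show Commute (h₁ : G) w from hPh₁ w hw) q).eq
    refine ⟨?_, hzw⟩
    by_contra hzP
    apply hcc₁
    have hz' : Cfsg.IsPPart p h₁ (h₁ ^ q) := by
      obtain ⟨y, hzy, hc, ⟨k, hk⟩, hy⟩ := hz
      refine ⟨(h₁ ^ q)⁻¹ * h₁, by group, ?_, ⟨k, ?_⟩, ?_⟩
      · show h₁ ^ q * ((h₁ ^ q)⁻¹ * h₁) = (h₁ ^ q)⁻¹ * h₁ * h₁ ^ q
        have e : h₁ * h₁ ^ q = h₁ ^ q * h₁ := by rw [← pow_succ, ← pow_succ']
        rw [mul_inv_cancel_left, mul_assoc, e, inv_mul_cancel_left]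
      · rw [← hk, hq, ← Subgroup.orderOf_coe]
        rfl
      · have e : (((h₁ ^ q)⁻¹ * h₁ : ↥(P ⊔ Subgroup.centralizer (P : Set G))) : G) = y := by
          push_cast
          rw [← hq, ← hzy]
          group
        rw [← Subgroup.orderOf_coe, e]
        exact hy
    have hD' : ∀ D' : Subgroup ↥(P ⊔ Subgroup.centralizer (P : Set G)),
        Cfsg.IsDefectGroup p M b D' → h₁ ^ q ∉ D' := by
      intro D' hD' hmem
      obtain ⟨l', hl', Sy', rfl⟩ := hD'
      obtain ⟨t', ht'⟩ := minmax_a p M hM b hb l₀ hl₀ Sy l' hl'.2.1 Sy'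
      rw [← hSy, map_conj_normal] at ht'
      have h1 := ht' hmem
      have h2 := Subgroup.mem_subgroupOf.1 h1
      apply hzP
      rw [hq]
      simpa using h2
    have h0 := char_vanish_off_defect p M hM b hb h₁ (h₁ ^ q) hz' hD' θ hθ
    unfold Cfsg.centralChar
    rw [h0, mul_zero, zero_div]
    exact hz0

end BlockCenter

end Cfsg.Agent.Lib.Helper6
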