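import Mathlib
import Cfsg.Prelude.Def_Blocks
import Cfsg.Agent.Lib.Helper6.BlockCenter

set_option autoImplicit false

namespace Cfsg.Agent.Lib.Helper6

section BlockCenter2

open Cfsg.Agent.Lib.Lead Cfsg.Agent.Lib.Helper2
open scoped ComplexConjugate

/-- If `b` with defect group `D` induces `B` with defect group `P`, every element of the
centre of `P` is conjugate to an element of the centre of `D`. -/
theorem center_conj_induced {G : Type*} [Group G] [Finite G] (p : ℕ) [Fact p.Prime]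
    (M : Ideal Cfsg.AlgInt) (hM : Cfsg.IsPModular p M) (H : Subgroup G)
    (b : Set (Cfsg.IrrCharacter H)) (B : Set (Cfsg.IrrCharacter G))
    (hind : Cfsg.IsInducedBlock M H b B) (D : Subgroup H) (hD : Cfsg.IsDefectGroup p M b D)
    (P : Subgroup G) (hP : Cfsg.IsDefectGroup p M B P) (x : G) (hx : x ∈ P)
    (hxc : ∀ w ∈ P, x * w = w * x) :
    ∃ g : G, g * x * g⁻¹ ∈ D.map H.subtype ∧
      ∀ w ∈ D.map H.subtype, (g * x * g⁻¹) * w = w * (g * x * g⁻¹) := by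
  classical
  have hMp := hM.2.1.isPrime
  have hpp := (Fact.out : p.Prime)
  have hz0 : Cfsg.MemLocalIdeal M 0 := li_zero M (lr_one_notMem p M hM)
  obtain ⟨hb, hB, hcong⟩ := hind
  have hPp : IsPGroup p P := IsPGroup.of_card (defect_group_card p M hM B hB P hP)
  obtain ⟨g₀, hg₀, Py, hPeq⟩ := hP
  obtain ⟨χ, hχ⟩ : ∃ χ : Cfsg.IrrCharacter G, χ ∈ B := by
    obtain ⟨χ₀, rfl⟩ := hB
    exact ⟨χ₀, sb_refl hMp _⟩
  obtain ⟨θ, hθ⟩ : ∃ θ : Cfsg.IrrCharacter H, θ ∈ b := by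
    obtain ⟨θ₀, rfl⟩ := hb
    exact ⟨θ₀, sb_refl hMp _⟩
  have hx2 := hx
  rw [hPeq] at hx2
  obtain ⟨x', hx', hx'eq⟩ := hx2
  have hx'G : (x' : G) = x := hx'eq
  have hcent : ∀ w ∈ (Py : Subgroup (Subgroup.centralizer ({g₀} : Set G))),
      x' * w = w * x' := by
    intro w hw
    apply Subtype.ext
    push_cast
    rw [hx'G]
    apply hxc
    rw [hPeq]
    exact ⟨w, hw, rfl⟩
  have hunit := defect_cc_unit p M hM B hB g₀ hg₀ Py x' hx' hcent χ hχ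
  rw [hx'G] at hunit
  have hicc : ¬ Cfsg.MemLocalIdeal M (Cfsg.inducedCentralChar H (θ : H → ℂ) (x * g₀)) := by
    intro h1
    apply hunit
    have h2 := li_sub hMp h1 (hcong θ hθ χ hχ (x * g₀))
    rwa [sub_sub_cancel] at h2
  obtain ⟨h₁, hconj₁, hcc₁⟩ := icc_exists_cc p M hM H θ (x * g₀) hicc
  obtain ⟨h₂, hconj₂, -, hpart⟩ := cc_unit_conj p M hM b hb D hD h₁ ⟨θ, hθ, hcc₁⟩
  obtain ⟨z₂, hz₂⟩ := exists_ppart p h₂
  obtain ⟨hz₂D, hz₂c⟩ := hpart z₂ hz₂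
  -- conjugating element
  obtain ⟨s₁, hs₁⟩ := isConj_iff.1 hconj₁
  obtain ⟨c, hc⟩ := isConj_iff.1 hconj₂
  have hs : ((c : G) * s₁) * (x * g₀) * ((c : G) * s₁)⁻¹ = (h₂ : G) := by
    have h1 : (c : G) * (h₁ : G) * (c : G)⁻¹ = (h₂ : G) := by
      rw [← hc]
      push_cast
      rfl
    rw [← h1, ← hs₁]
    group
  -- the p-part of x * g₀ is x
  have hcomm : Commute x g₀ := by
    have h1 := x'.2
    rw [Subgroup.mem_centralizer_iff] at h1
    have h2 := (h1 g₀ rfl).symm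
    rw [hx'G] at h2
    exact h2
  obtain ⟨k, hk⟩ : ∃ k : ℕ, orderOf x = p ^ k := by
    obtain ⟨k, hk⟩ := hPp ⟨x, hx⟩
    have h1 : x ^ p ^ k = 1 := by
      have := congrArg Subtype.val hk
      simpa using this
    obtain ⟨j, -, hj⟩ := (Nat.dvd_prime_pow hpp).1 (orderOf_dvd_of_pow_eq_one h1)
    exact ⟨j, hj⟩
  have hreg : ¬ p ∣ orderOf g₀ := by
    intro hdiv
    apply hg₀.2.1
    rw [blockCoeff_psingular p M hM B (block_closed M hMp B hB) g₀ hdiv]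
    exact hz0
  have hux : Cfsg.IsPPart p (x * g₀) x := ⟨g₀, rfl, hcomm, ⟨k, hk⟩, hreg⟩
  have h3 := ppart_conj p hux ((c : G) * s₁)⁻¹
  rw [inv_inv, hs] at h3
  have h4 : Cfsg.IsPPart p (h₂ : G) (z₂ : G) := by
    obtain ⟨y, hzy, hcy, ⟨j, hj⟩, hy⟩ := hz₂
    refine ⟨(y : G), ?_, ?_, ⟨j, ?_⟩, ?_⟩
    · rw [← hzy]
      rfl
    · have h5 := congrArg Subtype.val hcy.eq
      exact h5
    · rw [Subgroup.orderOf_coe, hj]
    · rw [Subgroup.orderOf_coe]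
      exact hy
  have h5 : (c : G) * s₁ * x * ((c : G) * s₁)⁻¹ = (z₂ : G) := ppart_unique p h3 h4
  refine ⟨(c : G) * s₁, ?_, ?_⟩
  · rw [h5]
    exact ⟨z₂, hz₂D, rfl⟩
  · rintro _ ⟨d, hd, rfl⟩
    rw [h5]
    have h6 := congrArg Subtype.val (hz₂c d hd)
    exact h6

end BlockCenter2

end Cfsg.Agent.Lib.Helper6
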