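import Mathlib
import Cfsg.Prelude.Def_Blocks
import Cfsg.Prelude.Def_BlockRank
import Cfsg.Agent.Lib.Helper6.BlockRank3
import Cfsg.Agent.Lib.Helper6.BlockGreen
import Cfsg.Agent.Lib.Helper6.BlockOrdP
import Cfsg.Agent.Lib.Helper6.BlockProj3
import Cfsg.Agent.Lib.Helper6.BlockOrtho
import Cfsg.Agent.Lib.Helper6.BlockIdem2

set_option autoImplicit false

namespace Cfsg.Agent.Lib.Helper6

open Cfsg.Agent.Lib.Lead Cfsg.Agent.Lib.Helper2
open scoped ComplexConjugate

section BlockCentral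

/-- A central defect group is the only defect group. -/
theorem central_defect_unique {G : Type*} [Group G] [Finite G] (p : ℕ) [Fact p.Prime]
    (M : Ideal Cfsg.AlgInt) (hM : Cfsg.IsPModular p M) (B : Set (Cfsg.IrrCharacter G))
    (hB : Cfsg.IsPBlock M B) (P : Subgroup G) (hP : Cfsg.IsDefectGroup p M B P)
    (hPZ : P ≤ Subgroup.center G) (D : Subgroup G) (hD : Cfsg.IsDefectGroup p M B D) :
    D = P := by
  have hcP := defect_group_card p M hM B hB P hP
  have hcD := defect_group_card p M hM B hB D hD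
  have hPp : IsPGroup p P := IsPGroup.of_card hcP
  obtain ⟨g, hg, Q, rfl⟩ := hD
  symm
  apply Subgroup.eq_of_le_of_card_ge
  · haveI : (P.subgroupOf (Subgroup.centralizer ({g} : Set G))).Normal := by
      constructor
      intro n hn c
      rw [Subgroup.mem_subgroupOf] at hn ⊢
      have h1 := Subgroup.mem_center_iff.1 (hPZ hn) (c : G)
      have h2 : ((c * n * c⁻¹ : Subgroup.centralizer ({g} : Set G)) : G) = (n : G) := by
        push_cast
        rw [h1]
        group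
      rw [h2]
      exact hn
    have hPp' : IsPGroup p (P.subgroupOf (Subgroup.centralizer ({g} : Set G))) :=
      hPp.comap_subtype
    have hle := hPp'.le_sylow_of_normal Q
    intro x hx
    have hxc : x ∈ Subgroup.centralizer ({g} : Set G) := by
      rw [Subgroup.mem_centralizer_iff]
      intro h _
      exact Subgroup.mem_center_iff.1 (hPZ hx) h
    exact ⟨⟨x, hxc⟩, hle (Subgroup.mem_subgroupOf.2 hx), rfl⟩
  · exact (hcD.trans hcP.symm).le

/-- Multiplying by a central element does not change the absolute value of an irreducible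
character. -/
theorem central_norm {G : Type*} [Group G] [Finite G] (χ : Cfsg.IrrCharacter G) (z : G)
    (hz : z ∈ Subgroup.center G) (h : G) :
    (χ : G → ℂ) (h * z) * conj ((χ : G → ℂ) (h * z))
      = (χ : G → ℂ) h * conj ((χ : G → ℂ) h) := by
  obtain ⟨c, hc⟩ := central_mul_char χ z (fun g => (Subgroup.mem_center_iff.1 hz g))
  have hpow : ∀ k : ℕ, (χ : G → ℂ) (z ^ k) = c ^ k * (χ : G → ℂ) 1 := by
    intro k
    induction k with
    | zero => simp
    | succ k ih =>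
      rw [pow_succ, hc, ih]
      ring
  have h1 := hpow (orderOf z)
  rw [pow_orderOf_eq_one] at h1
  have hχ1 : (χ : G → ℂ) 1 ≠ 0 := by
    rw [isIrrCharacter_one_eq_charDegree χ.2]
    exact_mod_cast (charDegree_pos_of_irr χ.2).ne'
  have hc1 : c ^ orderOf z = 1 := by
    have h2 : (c ^ orderOf z - 1) * (χ : G → ℂ) 1 = 0 := by
      rw [sub_mul, ← h1]
      ring
    rcases mul_eq_zero.1 h2 with h3 | h3
    · exact sub_eq_zero.1 h3
    · exact absurd h3 hχ1
  have hnorm : ‖c‖ = 1 := Complex.norm_eq_one_of_pow_eq_one hc1 (orderOf_pos z).ne'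
  rw [hc h, map_mul]
  have h4 : c * conj c = 1 := by
    rw [Complex.mul_conj', hnorm]
    simp
  linear_combination ((χ : G → ℂ) h * conj ((χ : G → ℂ) h)) * h4

open scoped Classical in
/-- For a block with central defect group `P`, the sum of `|χ|²` over the `p`-regular
elements is `|G| / |P|`. -/
theorem central_preg_sum {G : Type*} [Group G] [Fintype G] (p : ℕ) [Fact p.Prime]
    (M : Ideal Cfsg.AlgInt) (hM : Cfsg.IsPModular p M) (B : Set (Cfsg.IrrCharacter G))
    (hB : Cfsg.IsPBlock M B) (P : Subgroup G) (hP : Cfsg.IsDefectGroup p M B P)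
    (hPZ : P ≤ Subgroup.center G) (χ : Cfsg.IrrCharacter G) (hχ : χ ∈ B) :
    (Nat.card P : ℂ) * ∑ x : G, (if p ∣ orderOf x then (0 : ℂ)
      else (χ : G → ℂ) x * conj ((χ : G → ℂ) x)) = (Nat.card G : ℂ) := by
  have hp := (Fact.out : p.Prime)
  letI : Fintype P := Fintype.ofFinite P
  obtain ⟨f, hf⟩ : ∃ f : G → ℂ, ∀ x, f x = (χ : G → ℂ) x * conj ((χ : G → ℂ) x) :=
    ⟨fun x => (χ : G → ℂ) x * conj ((χ : G → ℂ) x), fun _ => rfl⟩
  simp only [← hf]
  have hfz : ∀ (x : G) (z : P), f (x * (z : G)) = f x := by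
    intro x z
    rw [hf, hf]
    exact central_norm χ z (hPZ z.2) x
  have hPp : IsPGroup p P := IsPGroup.of_card (defect_group_card p M hM B hB P hP)
  have hvan : ∀ g u : G, Cfsg.IsPPart p g u → u ∉ P → f g = 0 := by
    intro g u hu huP
    rw [hf, char_vanish_off_defect p M hM B hB g u hu (fun D hD => by
      rw [central_defect_unique p M hM B hB P hP hPZ D hD]
      exact huP) χ hχ, zero_mul]
  have htot : ∑ g : G, f g = (Nat.card G : ℂ) := by
    simp only [hf]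
    rw [irr_sum_conj χ χ, if_pos rfl, mul_one]
  have h1 : ∑ z : P, ∑ x : G, (if p ∣ orderOf x then (0 : ℂ) else f (x * (z : G)))
      = (Nat.card P : ℂ) * ∑ x : G, (if p ∣ orderOf x then (0 : ℂ) else f x) := by
    simp only [hfz]
    rw [Finset.sum_const, Finset.card_univ, nsmul_eq_mul, Nat.card_eq_fintype_card]
  have h2 : ∀ z : P, ∑ x : G, (if p ∣ orderOf x then (0 : ℂ) else f (x * (z : G)))
      = ∑ g : G, (if p ∣ orderOf (g * (z : G)⁻¹) then (0 : ℂ) else f g) := by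
    intro z
    apply Fintype.sum_equiv (Equiv.mulRight (z : G))
    intro x
    simp only [Equiv.coe_mulRight, mul_inv_cancel_right]
  have h3 : ∀ g : G, ∑ z : P, (if p ∣ orderOf (g * (z : G)⁻¹) then (0 : ℂ) else f g)
      = f g := by
    intro g
    by_cases hfg : f g = 0
    · rw [hfg]
      simp
    · obtain ⟨u, hu⟩ := exists_ppart p g
      have huP : u ∈ P := by
        by_contra hnot
        exact hfg (hvan g u hu hnot)
      obtain ⟨y, hy1, hy2, hy3, hy4⟩ := hu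
      have hgy : g * u⁻¹ = y := by
        rw [← hy1, hy2.eq]
        group
      rw [Finset.sum_eq_single (⟨u, huP⟩ : P)]
      · have hreg : ¬ p ∣ orderOf (g * u⁻¹) := by
          rw [hgy]
          exact hy4
        exact if_neg hreg
      · intro z _ hzu
        rw [if_pos]
        by_contra hreg
        apply hzu
        have hw : u * (z : G)⁻¹ ∈ P := P.mul_mem huP (P.inv_mem z.2)
        obtain ⟨j, hj⟩ := (IsPGroup.iff_orderOf.1 hPp) ⟨u * (z : G)⁻¹, hw⟩
        rw [Subgroup.orderOf_mk] at hj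
        have hcomm : Commute y (u * (z : G)⁻¹) := Subgroup.mem_center_iff.1 (hPZ hw) y
        have hcop : (orderOf y).Coprime (orderOf (u * (z : G)⁻¹)) := by
          rw [hj]
          exact ((Nat.Prime.coprime_iff_not_dvd hp).2 hy4).symm.pow_right j
        have hord := hcomm.orderOf_mul_eq_mul_orderOf_of_coprime hcop
        have hgz : g * (z : G)⁻¹ = y * (u * (z : G)⁻¹) := by
          rw [← hy1, hy2.eq]
          group
        rw [hgz, hord, hj] at hreg
        have hj0 : j = 0 := by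
          by_contra hne
          exact hreg (Dvd.dvd.mul_left (dvd_pow_self p hne) _)
        rw [hj0, pow_zero, orderOf_eq_one_iff] at hj
        apply Subtype.ext
        show (z : G) = u
        exact (mul_inv_eq_one.1 hj).symm
      · intro h
        exact absurd (Finset.mem_univ _) h
  rw [← h1, Finset.sum_congr rfl (fun z _ => h2 z), Finset.sum_comm,
    Finset.sum_congr rfl (fun g _ => h3 g), htot]

/-- S4669. -/
theorem central_defect_rank_one {G : Type*} [Group G] [Fintype G] (p : ℕ) [Fact p.Prime]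
    (M : Ideal Cfsg.AlgInt) (hM : Cfsg.IsPModular p M) (B : Set (Cfsg.IrrCharacter G))
    (hB : Cfsg.IsPBlock M B) (P : Subgroup G) (hD : Cfsg.IsDefectGroup p M B P)
    (hPZ : P ≤ Subgroup.center G) : Cfsg.blockRank p B = 1 := by
  classical
  haveI : Finite (Cfsg.IrrCharacter G) := irr_finite'
  letI := Fintype.ofFinite (Cfsg.IrrCharacter G)
  have hp := (Fact.out : p.Prime)
  have hMp := hM.2.1.isPrime
  have hGne : (Nat.card G : ℂ) ≠ 0 := by exact_mod_cast (Nat.card_pos (α := G)).ne'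
  obtain ⟨T, hT⟩ : ∃ T : Finset (Cfsg.IrrCharacter G), T = (Set.toFinite B).toFinset := ⟨_, rfl⟩
  have hTmem : ∀ θ, θ ∈ T ↔ θ ∈ B := by
    intro θ; rw [hT, Set.Finite.mem_toFinset]
  have hPcard := defect_group_card p M hM B hB P hD
  obtain ⟨δ, hδ⟩ : ∃ δ, δ = Cfsg.blockDefect p B := ⟨_, rfl⟩
  rw [← hδ] at hPcard
  have hpδ : ((p ^ δ : ℕ) : ℂ) ≠ 0 := by exact_mod_cast (pow_pos hp.pos δ).ne'
  have hC : ∀ χ ∈ B, ((p ^ δ : ℕ) : ℂ) * ∑ x : G, (if p ∣ orderOf x then (0 : ℂ)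
      else (χ : G → ℂ) x * conj ((χ : G → ℂ) x)) = (Nat.card G : ℂ) := by
    intro χ hχ
    rw [← hPcard]
    exact central_preg_sum p M hM B hB P hD hPZ χ hχ
  -- the trace formula
  have htrace := blockRank_trace p M hM B hB
  have hkl : (Cfsg.blockRank p B : ℂ) * ((p ^ δ : ℕ) : ℂ) = (T.card : ℂ) := by
    have h1 : ∀ x : G, ∑ᶠ χ ∈ B, Cfsg.pRegularPart p (χ : G → ℂ) x * (χ : G → ℂ) x⁻¹
        = ∑ χ ∈ T, (if p ∣ orderOf x then (0 : ℂ)
          else (χ : G → ℂ) x * conj ((χ : G → ℂ) x)) := by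
      intro x
      rw [finsum_mem_eq_finite_toFinset_sum _ (Set.toFinite B), ← hT]
      apply Finset.sum_congr rfl
      intro χ _
      rw [pRegularPart_eq, isCharacter_inv_eq_conj (isCharacter_of_isIrrCharacter χ.2) x]
      split_ifs <;> simp
    rw [Finset.sum_congr rfl (fun x _ => h1 x), Finset.sum_comm] at htrace
    have h2 : ((p ^ δ : ℕ) : ℂ) * ((Nat.card G : ℂ) * (Cfsg.blockRank p B : ℂ))
        = (T.card : ℂ) * (Nat.card G : ℂ) := by
      rw [htrace, Finset.mul_sum,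
        Finset.sum_congr rfl (fun χ hχ => hC χ ((hTmem χ).1 hχ)), Finset.sum_const,
        nsmul_eq_mul]
    apply mul_left_cancel₀ hGne
    linear_combination h2
  -- a height-zero character and its coefficients
  obtain ⟨χ₁, hχ₁, hχ₁e⟩ := exists_height_zero M hMp p B hB
  have hχ₁T := (hTmem χ₁).2 hχ₁
  obtain ⟨a, ha⟩ : ∃ a, a = (Nat.card G).factorization p := ⟨_, rfl⟩
  obtain ⟨b, hb⟩ : ∃ b, b = (Cfsg.charDegree (χ₁ : G → ℂ)).factorization p := ⟨_, rfl⟩
  have hδab : δ = a - b := by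
    rw [hδ]
    unfold Cfsg.blockDefect
    rw [← ha, hb, hχ₁e]
  have hd1 := isIrrCharacter_one_eq_charDegree χ₁.2
  have hdpos := charDegree_pos_of_irr χ₁.2
  have hba : b ≤ a := by
    rw [ha, hb]
    exact (Nat.factorization_le_iff_dvd hdpos.ne' Nat.card_pos.ne').2
      (irr_degree_dvd_card χ₁ _ hd1) p
  obtain ⟨m, hm0, hm⟩ := preg_coeffs p M hM B hB χ₁ hχ₁
  rw [← ha, ← hb, ← hδab] at hm
  have hL : ∀ x : G, (if p ∣ orderOf x then (0 : ℂ)
      else ((p ^ δ : ℕ) : ℂ) * (χ₁ : G → ℂ) x) = ∑ ψ ∈ T, (m ψ : ℂ) * (ψ : G → ℂ) x := by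
    intro x
    rw [hm x, finsum_eq_sum_of_fintype]
    symm
    apply Finset.sum_subset (Finset.subset_univ T)
    intro θ _ hθ
    rw [hm0 θ (fun h => hθ ((hTmem θ).2 h))]
    simp
  have hconjL : ∀ x : G, conj (∑ ψ ∈ T, (m ψ : ℂ) * (ψ : G → ℂ) x)
      = ∑ ψ ∈ T, (m ψ : ℂ) * conj ((ψ : G → ℂ) x) := by
    intro x
    rw [map_sum]
    apply Finset.sum_congr rfl
    intro ψ _
    rw [map_mul, map_intCast]
  have hinner : ∀ ψ ∈ T, ∑ x : G, (∑ θ ∈ T, (m θ : ℂ) * (θ : G → ℂ) x)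
      * conj ((ψ : G → ℂ) x) = (Nat.card G : ℂ) * (m ψ : ℂ) :=
    fun ψ hψ => comb_inner T (fun θ => (m θ : ℂ)) ψ hψ
  have hE1 : ∑ ψ ∈ T, (m ψ : ℂ) * (m ψ : ℂ) = ((p ^ δ : ℕ) : ℂ) := by
    have hA : ∑ x : G, (∑ θ ∈ T, (m θ : ℂ) * (θ : G → ℂ) x)
        * conj (∑ ψ ∈ T, (m ψ : ℂ) * (ψ : G → ℂ) x)
        = (Nat.card G : ℂ) * ∑ ψ ∈ T, (m ψ : ℂ) * (m ψ : ℂ) := by
      have h3 : ∀ x : G, (∑ θ ∈ T, (m θ : ℂ) * (θ : G → ℂ) x)
          * conj (∑ ψ ∈ T, (m ψ : ℂ) * (ψ : G → ℂ) x)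
          = ∑ ψ ∈ T, (m ψ : ℂ) * ((∑ θ ∈ T, (m θ : ℂ) * (θ : G → ℂ) x)
            * conj ((ψ : G → ℂ) x)) := by
        intro x
        rw [hconjL x, Finset.mul_sum]
        apply Finset.sum_congr rfl
        intro ψ _
        ring
      rw [Finset.sum_congr rfl (fun x _ => h3 x), Finset.sum_comm, Finset.mul_sum]
      apply Finset.sum_congr rfl
      intro ψ hψ
      rw [← Finset.mul_sum, hinner ψ hψ]
      ring
    have hBside : ∑ x : G, (∑ θ ∈ T, (m θ : ℂ) * (θ : G → ℂ) x)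
        * conj (∑ ψ ∈ T, (m ψ : ℂ) * (ψ : G → ℂ) x)
        = ((p ^ δ : ℕ) : ℂ) * ((p ^ δ : ℕ) : ℂ) * ∑ x : G, (if p ∣ orderOf x then (0 : ℂ)
          else (χ₁ : G → ℂ) x * conj ((χ₁ : G → ℂ) x)) := by
      rw [Finset.mul_sum]
      apply Finset.sum_congr rfl
      intro x _
      rw [← hL x]
      by_cases hx : p ∣ orderOf x
      · simp [hx]
      · rw [if_neg hx, if_neg hx, map_mul, Complex.conj_natCast]
        ring
    have hC1 := hC χ₁ hχ₁
    apply mul_left_cancel₀ hGne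
    rw [← hA, hBside]
    linear_combination ((p ^ δ : ℕ) : ℂ) * hC1
  -- p'-parts
  obtain ⟨g₀, hg₀⟩ : ∃ g₀, g₀ = Nat.card G / p ^ a := ⟨_, rfl⟩
  obtain ⟨t, ht⟩ : ∃ t, t = Cfsg.charDegree (χ₁ : G → ℂ) / p ^ b := ⟨_, rfl⟩
  have e1 : p ^ a * g₀ = Nat.card G := by
    rw [hg₀, ha]
    exact Nat.ordProj_mul_ordCompl_eq_self (Nat.card G) p
  have e2 : p ^ b * t = Cfsg.charDegree (χ₁ : G → ℂ) := by
    rw [ht, hb]
    exact Nat.ordProj_mul_ordCompl_eq_self _ p
  have hg₀p : ¬ p ∣ g₀ := by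
    rw [hg₀, ha]
    exact Nat.not_dvd_ordCompl hp Nat.card_pos.ne'
  have hab : a = δ + b := by omega
  -- nonvanishing of the coefficients
  have hF : ∀ ψ ∈ T, m ψ ≠ 0 := by
    intro ψ hψ hm0'
    have hψB := (hTmem ψ).1 hψ
    have hS : ∑ x : G, (if p ∣ orderOf x then (0 : ℂ)
        else (χ₁ : G → ℂ) x * conj ((ψ : G → ℂ) x)) = 0 := by
      have h1 := hinner ψ hψ
      rw [hm0', Int.cast_zero, mul_zero] at h1
      simp only [← hL] at h1
      have h2 : ∑ x : G, (if p ∣ orderOf x then (0 : ℂ)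
          else ((p ^ δ : ℕ) : ℂ) * (χ₁ : G → ℂ) x) * conj ((ψ : G → ℂ) x)
          = ((p ^ δ : ℕ) : ℂ) * ∑ x : G, (if p ∣ orderOf x then (0 : ℂ)
            else (χ₁ : G → ℂ) x * conj ((ψ : G → ℂ) x)) := by
        rw [Finset.mul_sum]
        apply Finset.sum_congr rfl
        intro x _
        split_ifs <;> ring
      rw [h2] at h1
      rcases mul_eq_zero.1 h1 with h | h
      · exact absurd h hpδ
      · exact h
    obtain ⟨F, hFdef⟩ : ∃ F : G → ℂ, ∀ x, F x = if p ∣ orderOf x then (0 : ℂ)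
        else (χ₁ : G → ℂ) x⁻¹ := ⟨fun x => _, fun _ => rfl⟩
    have hFcl : ∀ r c : G, F (c * r * c⁻¹) = F r := by
      intro r c
      rw [hFdef, hFdef]
      have hord : orderOf (c * r * c⁻¹) = orderOf r := (MulAut.conj c).orderOf_eq r
      have hinv : (c * r * c⁻¹)⁻¹ = c * r⁻¹ * c⁻¹ := by group
      rw [hord, hinv, isClassFunction_irr χ₁ r⁻¹ c]
    have hFlr : ∀ x : G, Cfsg.MemLocalRing M (F x) := by
      intro x
      rw [hFdef]
      split_ifs
      · exact lr_int p M hM isIntegral_zero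
      · exact lr_int p M hM (bcf_irr_isIntegral χ₁.2 x⁻¹)
    have hsb : Cfsg.SameBlock M (ψ : G → ℂ) (χ₁ : G → ℂ) := by
      obtain ⟨χ₀, h0⟩ := hB
      rw [h0] at hψB hχ₁
      exact sb_trans hMp (sb_symm hMp hψB) hχ₁
    have hW : ∑ g : G, F g * ((ψ : G → ℂ) g / (ψ : G → ℂ) 1) = 0 := by
      have h1 : ∑ g : G, F g * (ψ : G → ℂ) g = 0 := by
        have h2 := congrArg conj hS
        rw [map_sum, map_zero] at h2
        rw [← h2]
        apply Finset.sum_congr rfl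
        intro x _
        rw [hFdef]
        by_cases hx : p ∣ orderOf x
        · simp [hx]
        · rw [if_neg hx, if_neg hx, map_mul, Complex.conj_conj,
            isCharacter_inv_eq_conj (isCharacter_of_isIrrCharacter χ₁.2) x]
      have h3 : ∑ g : G, F g * ((ψ : G → ℂ) g / (ψ : G → ℂ) 1)
          = (∑ g : G, F g * (ψ : G → ℂ) g) / (ψ : G → ℂ) 1 := by
        rw [Finset.sum_div]
        apply Finset.sum_congr rfl
        intro g _
        rw [mul_div_assoc]
      rw [h3, h1, zero_div]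
    obtain ⟨U, hUdef⟩ : ∃ U : ℂ,
        U = ∑ g : G, F g * ((χ₁ : G → ℂ) g / (χ₁ : G → ℂ) 1) := ⟨_, rfl⟩
    have hχ₁ne : (χ₁ : G → ℂ) 1 ≠ 0 := by
      rw [hd1]
      exact_mod_cast hdpos.ne'
    have hU1 : ((p ^ δ : ℕ) : ℂ) * (U * (χ₁ : G → ℂ) 1) = (Nat.card G : ℂ) := by
      rw [← hC χ₁ hχ₁, hUdef, Finset.sum_mul]
      congr 1
      apply Finset.sum_congr rfl
      intro x _
      rw [hFdef]
      by_cases hx : p ∣ orderOf x
      · simp [hx]
      · rw [if_neg hx, if_neg hx,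
          isCharacter_inv_eq_conj (isCharacter_of_isIrrCharacter χ₁.2) x, mul_assoc,
          div_mul_cancel₀ _ hχ₁ne, mul_comm]
    have hUli : Cfsg.MemLocalIdeal M U := by
      have h1 := bcf_class_sum F hFcl ψ
      have h2 := bcf_class_sum F hFcl χ₁
      rw [hW] at h1
      rw [← hUdef] at h2
      have h3 := congrArg₂ (fun a b : ℂ => a - b) h2 h1
      simp only [sub_zero, ← Finset.sum_sub_distrib, ← mul_sub] at h3
      rw [h3]
      apply li_sum hMp
      intro C _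
      exact li_mul hMp (hFlr _) (li_sub_comm hMp (hsb (Quotient.out C)))
    have hUt : (t : ℂ) * U = (g₀ : ℂ) := by
      have h1 : (Nat.card G : ℂ) = (p : ℂ) ^ δ * (p : ℂ) ^ b * (g₀ : ℂ) := by
        rw [← e1, hab, Nat.cast_mul, Nat.cast_pow, pow_add]
      have h2 : (χ₁ : G → ℂ) 1 = (p : ℂ) ^ b * (t : ℂ) := by
        rw [hd1, ← e2, Nat.cast_mul, Nat.cast_pow]
      have hpne : (p : ℂ) ≠ 0 := by exact_mod_cast hp.ne_zero
      have h3 := hU1
      rw [h1, h2] at h3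
      push_cast at h3
      have h4 : (p : ℂ) ^ δ * (p : ℂ) ^ b ≠ 0 :=
        mul_ne_zero (pow_ne_zero _ hpne) (pow_ne_zero _ hpne)
      apply mul_left_cancel₀ h4
      linear_combination h3
    apply hg₀p
    apply li_nat_dvd p M hM g₀
    rw [← hUt]
    exact li_mul hMp (lr_int p M hM (isIntegral_natC t)) hUli
  have hk : T.card ≤ p ^ δ := by
    have h2 : ∀ ψ ∈ T, (1 : ℤ) ≤ m ψ * m ψ := by
      intro ψ hψ
      have h4 : 0 < m ψ * m ψ := mul_self_pos.2 (hF ψ hψ)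
      omega
    have h1 : ((T.card : ℤ)) ≤ ∑ ψ ∈ T, m ψ * m ψ := by
      calc (T.card : ℤ) = ∑ ψ ∈ T, (1 : ℤ) := by simp
        _ ≤ ∑ ψ ∈ T, m ψ * m ψ := Finset.sum_le_sum h2
    have h5 : (∑ ψ ∈ T, m ψ * m ψ : ℤ) = ((p ^ δ : ℕ) : ℤ) := by exact_mod_cast hE1
    rw [h5] at h1
    exact_mod_cast h1
  have hkl' : Cfsg.blockRank p B * p ^ δ = T.card := by exact_mod_cast hkl
  have hpos : 0 < p ^ δ := pow_pos hp.pos δ
  have hkpos : 0 < T.card := Finset.card_pos.2 ⟨χ₁, hχ₁T⟩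
  obtain ⟨l, hl⟩ : ∃ l, l = Cfsg.blockRank p B := ⟨_, rfl⟩
  rw [← hl] at hkl' ⊢
  have hl1 : l ≤ 1 := by
    by_contra hcon
    have h6 : 2 * p ^ δ ≤ l * p ^ δ := Nat.mul_le_mul_right _ (by omega)
    omega
  have hl0 : l ≠ 0 := by
    intro h0
    rw [h0, zero_mul] at hkl'
    omega
  omega

end BlockCentral

end Cfsg.Agent.Lib.Helper6
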