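import Mathlib
import Cfsg.Prelude.Def_Blocks
import Cfsg.Agent.Lib.Helper6.BlockRank3

set_option autoImplicit false

namespace Cfsg.Agent.Lib.Helper6

open Cfsg.Agent.Lib.Lead Cfsg.Agent.Lib.Helper2
open scoped ComplexConjugate

section BlockCyc

/-- The value of a character at an element whose order divides `m` lies in the `m`-th
cyclotomic field. -/
theorem char_mem_cyclotomic {G : Type*} [Group G] [Finite G] (χ : G → ℂ)
    (hχ : Cfsg.IsCharacter G χ) (m : ℕ) (hm : m ≠ 0) (g : G) (hg : orderOf g ∣ m) :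
    χ g ∈ IntermediateField.adjoin ℚ
      ({Complex.exp (2 * Real.pi * Complex.I / (m : ℂ))} : Set ℂ) := by
  obtain ⟨n, ρ, rfl⟩ := hχ
  obtain ⟨ι, _, b, μ, h1, h2⟩ := exists_eigen_data ρ g
  have e1 : ρ.character g = ∑ i, μ i := trace_eq_sum_of_eigenbasis b (ρ g) μ h1
  rw [e1]
  apply sum_mem
  intro i _
  have hprim := Complex.isPrimitiveRoot_exp m hm
  have hμ : μ i ^ m = 1 := by
    obtain ⟨k, hk⟩ := hg
    rw [hk, pow_mul, h2 i, one_pow]
  haveI : NeZero m := ⟨hm⟩
  obtain ⟨j, _, hj⟩ := hprim.eq_pow_of_pow_eq_one hμ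
  rw [← hj]
  exact pow_mem (IntermediateField.subset_adjoin ℚ _ (Set.mem_singleton _)) j

/-- S4664. -/
theorem blockCoeff_mem_cyclotomic {G : Type*} [Group G] [Finite G] (p : ℕ) [Fact p.Prime]
    (M : Ideal Cfsg.AlgInt) (hM : Cfsg.IsPModular p M) (B : Set (Cfsg.IrrCharacter G))
    (hB : Cfsg.IsPBlock M B) (g : G) :
    Cfsg.blockCoeff B g ∈ IntermediateField.adjoin ℚ
      ({Complex.exp (2 * Real.pi * Complex.I
        / ((Nat.card G / p ^ (Nat.card G).factorization p : ℕ) : ℂ))} : Set ℂ) := by
  classical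
  haveI := Fintype.ofFinite G
  haveI : Finite (Cfsg.IrrCharacter G) := irr_finite'
  have hp := (Fact.out : p.Prime)
  have hMp := hM.2.1.isPrime
  by_cases hg : p ∣ orderOf g
  · rw [blockCoeff_psingular p M hM B (block_closed M hMp B hB) g hg]
    exact zero_mem _
  · obtain ⟨m, hm⟩ : ∃ m, m = Nat.card G / p ^ (Nat.card G).factorization p := ⟨_, rfl⟩
    rw [← hm]
    have hGpos : 0 < Nat.card G := Nat.card_pos
    have hsplit : p ^ (Nat.card G).factorization p * m = Nat.card G := by
      rw [hm]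
      exact Nat.ordProj_mul_ordCompl_eq_self (Nat.card G) p
    have hm0 : m ≠ 0 := by
      intro h0
      rw [h0, mul_zero] at hsplit
      omega
    have hgm : ∀ x : G, orderOf x = orderOf g → orderOf x ∣ m := by
      intro x hx
      have h1 : orderOf x ∣ p ^ (Nat.card G).factorization p * m := by
        rw [hsplit]
        exact orderOf_dvd_natCard x
      have h2 : Nat.Coprime (orderOf x) (p ^ (Nat.card G).factorization p) := by
        apply Nat.Coprime.pow_right
        rw [Nat.coprime_comm]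
        rw [hx]
        exact (Nat.Prime.coprime_iff_not_dvd hp).2 hg
      exact h2.dvd_of_dvd_mul_left h1
    unfold Cfsg.blockCoeff
    apply mul_mem
    · apply inv_mem
      exact natCast_mem _ _
    · rw [finsum_mem_eq_finite_toFinset_sum _ (Set.toFinite B)]
      apply sum_mem
      intro χ _
      apply mul_mem
      · rw [isIrrCharacter_one_eq_charDegree χ.2]
        exact natCast_mem _ _
      · rw [← isCharacter_inv_eq_conj (isCharacter_of_isIrrCharacter χ.2) g]
        exact char_mem_cyclotomic _ (isCharacter_of_isIrrCharacter χ.2) m hm0 g⁻¹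
          (hgm g⁻¹ (orderOf_inv g))

end BlockCyc

end Cfsg.Agent.Lib.Helper6
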