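import Mathlib
import Cfsg.Prelude.Def_Blocks
import Cfsg.Agent.Lib.Helper6.BlockDefect
import Cfsg.Agent.Lib.Helper6.BlockNum

set_option autoImplicit false

namespace Cfsg.Agent.Lib.Helper6

section BlockDefect2

open Cfsg.Agent.Lib.Lead Cfsg.Agent.Lib.Helper2
open scoped ComplexConjugate

open scoped Classical in
theorem defect_matrix_key_exact {G : Type*} [Group G] [Fintype G] (p : ℕ) [Fact p.Prime]
    (M : Ideal Cfsg.AlgInt)
    (hM : Cfsg.IsPModular p M) (d : ℕ) (B : Set (Cfsg.IrrCharacter G))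
    (hB : Cfsg.IsPBlock M B) (hBd : Cfsg.blockDefect p B = d)
    (B' : Set (Cfsg.IrrCharacter G))
    (hB' : Cfsg.IsPBlock M B') (hBd' : Cfsg.blockDefect p B' = d)
    (χ' : Cfsg.IrrCharacter G) (hχ' : χ' ∈ B')
    (Pr : ConjClasses G → Prop) [DecidablePred Pr] [Fintype {C // Pr C}]
    (hPr : ∀ C, ¬ Pr C → p ∣ orderOf (Quotient.out C) ∨
      (Nat.card (Subgroup.centralizer ({Quotient.out C} : Set G))).factorization p ≠ d) :
    Cfsg.MemLocalIdeal M (∑ C : {C // Pr C}, Cfsg.blockCoeff B (Quotient.out C.1)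
      * Cfsg.centralChar (χ' : G → ℂ) (Quotient.out C.1) - (if χ' ∈ B then 1 else 0)) := by
  haveI : Finite (Cfsg.IrrCharacter G) := irr_finite'
  haveI := Fintype.ofFinite (Cfsg.IrrCharacter G)
  have hMp := hM.2.1.isPrime
  have hcl := block_closed M hMp B hB
  have hO := osima_closed p M hM B hcl
  have h1 := bb_idem_value B χ'
  rw [bcf_class_sum _ (fun r c => bb_coeff_class B r c) χ'] at h1
  rw [sum_subtype_sub _ Pr (fun a => Finset.mem_univ a) _ _ h1, ← Finset.sum_neg_distrib]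
  apply li_sum hMp
  intro C _
  have hz : Cfsg.MemLocalIdeal M 0 := li_zero M (lr_one_notMem p M hM)
  split_ifs with hC
  · rw [neg_zero]
    exact hz
  · rcases hPr C hC with h2 | h2
    · rw [blockCoeff_psingular p M hM B hcl _ h2, zero_mul, neg_zero]
      exact hz
    · rcases lt_or_gt_of_ne h2 with h3 | h3
      · have h4 : Cfsg.MemLocalIdeal M (Cfsg.centralChar (χ' : G → ℂ) (Quotient.out C)) := by
          by_contra hcon
          have h5 := defect_le_of_cc p M hM B' hB' χ' hχ' _ hcon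
          omega
        have h6 := li_mul hMp (hO (Quotient.out C)) h4
        have h7 := li_mul hMp (x := -1) ⟨-1, 1, lr_one_notMem p M hM, by simp⟩ h6
        rwa [neg_one_mul] at h7
      · have h4 : Cfsg.MemLocalIdeal M (Cfsg.blockCoeff B (Quotient.out C)) := by
          by_contra hcon
          have h5 := defect_ge_of_coeff p M hM B hB _ hcon
          omega
        have h6 := li_mul hMp (lr_int p M hM (cc_isIntegral χ' (Quotient.out C))) h4
        have h7 := li_mul hMp (x := -1) ⟨-1, 1, lr_one_notMem p M hM, by simp⟩ h6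
        rwa [neg_one_mul, mul_comm] at h7

open scoped Classical in
theorem blocks_le_classes_exact_aux {G : Type*} [Group G] [Fintype G] (p : ℕ) [Fact p.Prime]
    (M : Ideal Cfsg.AlgInt) (hM : Cfsg.IsPModular p M) (d : ℕ)
    (PB : Set (Cfsg.IrrCharacter G) → Prop)
    (hPB : ∀ B, PB B → Cfsg.IsPBlock M B ∧ Cfsg.blockDefect p B = d)
    (Pr : ConjClasses G → Prop)
    (hPr : ∀ C, ¬ Pr C → p ∣ orderOf (Quotient.out C) ∨
      (Nat.card (Subgroup.centralizer ({Quotient.out C} : Set G))).factorization p ≠ d)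
    [Fintype {B // PB B}] [Fintype {C // Pr C}] :
    Fintype.card {B // PB B} ≤ Fintype.card {C // Pr C} := by
  have hMp := hM.2.1.isPrime
  have hblk : ∀ B : {B // PB B}, Cfsg.IsPBlock M B.1 := fun B => (hPB B.1 B.2).1
  have hχ : ∀ B : {B // PB B}, ∃ χ : Cfsg.IrrCharacter G, χ ∈ B.1 := by
    intro B
    obtain ⟨χ₀, h0⟩ := hblk B
    exact ⟨χ₀, by rw [h0]; exact sb_refl hMp _⟩
  choose χ hχB using hχ
  haveI : Nontrivial (lrSub M hMp ⧸ liIdeal M hMp) :=
    Ideal.Quotient.nontrivial_iff.2 (liIdeal_ne_top M hMp)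
  obtain ⟨a, ha⟩ : ∃ a : {B // PB B} → {C // Pr C} → lrSub M hMp,
      ∀ B C, (a B C : ℂ) = Cfsg.blockCoeff B.1 (Quotient.out C.1) :=
    ⟨fun B C => ⟨Cfsg.blockCoeff B.1 (Quotient.out C.1),
      (mem_lrSub hMp _).2 (osima_closed p M hM B.1 (block_closed M hMp B.1 (hblk B)) _)⟩,
      fun _ _ => rfl⟩
  obtain ⟨w, hw⟩ : ∃ w : {C // Pr C} → {B // PB B} → lrSub M hMp,
      ∀ C B, (w C B : ℂ) = Cfsg.centralChar (χ B : G → ℂ) (Quotient.out C.1) :=
    ⟨fun C B => ⟨Cfsg.centralChar (χ B : G → ℂ) (Quotient.out C.1),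
      (mem_lrSub hMp _).2 (lr_int p M hM (cc_isIntegral (χ B) _))⟩, fun _ _ => rfl⟩
  apply card_le_of_mul_eq_one
    (Matrix.of (fun B C => Ideal.Quotient.mk (liIdeal M hMp) (a B C)))
    (Matrix.of (fun C B => Ideal.Quotient.mk (liIdeal M hMp) (w C B)))
  ext B B'
  rw [Matrix.mul_apply, Matrix.one_apply]
  simp only [Matrix.of_apply, ← map_mul, ← map_sum]
  have hδ : (if B = B' then (1 : lrSub M hMp ⧸ liIdeal M hMp) else 0)
      = Ideal.Quotient.mk (liIdeal M hMp) (if B = B' then 1 else 0) := by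
    split_ifs <;> simp
  rw [hδ, Ideal.Quotient.eq]
  have key := defect_matrix_key_exact p M hM d B.1 (hblk B) (hPB B.1 B.2).2
    B'.1 (hblk B') (hPB B'.1 B'.2).2 (χ B') (hχB B') Pr hPr
  show Cfsg.MemLocalIdeal M ((lrSub M hMp).subtype (_ - _))
  rw [map_sub]
  have e1 : (lrSub M hMp).subtype (∑ C : {C // Pr C}, a B C * w C B')
      = ∑ C : {C // Pr C}, Cfsg.blockCoeff B.1 (Quotient.out C.1)
          * Cfsg.centralChar (χ B' : G → ℂ) (Quotient.out C.1) := by
    rw [map_sum]
    apply Finset.sum_congr rfl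
    intro C _
    rw [map_mul, Subring.coe_subtype, ha, hw]
  have e2 : (lrSub M hMp).subtype (if B = B' then 1 else 0)
      = if χ B' ∈ B.1 then 1 else 0 := by
    by_cases hBB : B = B'
    · rw [if_pos hBB, if_pos (by rw [hBB]; exact hχB B'), map_one]
    · rw [if_neg hBB, if_neg, map_zero]
      intro hmem
      exact hBB (Subtype.ext (block_eq_of_mem M hMp B.1 B'.1 (hblk B) (hblk B') (χ B') hmem
        (hχB B')))
  rw [e1, e2]
  exact key

open scoped Classical in
/-- S4505: the number of blocks of defect exactly `d` is at most the number of `p`-regular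
classes of defect exactly `d`. -/
theorem blocks_le_classes_exact {G : Type*} [Group G] [Finite G] (p : ℕ) [Fact p.Prime]
    (M : Ideal Cfsg.AlgInt) (hM : Cfsg.IsPModular p M) (d : ℕ) :
    Nat.card {B : Set (Cfsg.IrrCharacter G) // Cfsg.IsPBlock M B ∧ Cfsg.blockDefect p B = d}
      ≤ Nat.card {C : ConjClasses G // ∃ g : G, ConjClasses.mk g = C ∧ ¬ p ∣ orderOf g ∧
          (Nat.card (Subgroup.centralizer ({g} : Set G))).factorization p = d} := by
  haveI := Fintype.ofFinite G
  haveI : Finite (Cfsg.IrrCharacter G) := irr_finite'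
  have hMp := hM.2.1.isPrime
  haveI : Fintype {B : Set (Cfsg.IrrCharacter G) //
      Cfsg.IsPBlock M B ∧ Cfsg.blockDefect p B = d} := Fintype.ofFinite _
  haveI : Fintype {C : ConjClasses G // ∃ g : G, ConjClasses.mk g = C ∧ ¬ p ∣ orderOf g ∧
      (Nat.card (Subgroup.centralizer ({g} : Set G))).factorization p = d} := Fintype.ofFinite _
  rw [Nat.card_eq_fintype_card, Nat.card_eq_fintype_card]
  exact blocks_le_classes_exact_aux p M hM d
    (fun B => Cfsg.IsPBlock M B ∧ Cfsg.blockDefect p B = d)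
    (fun B hB => hB)
    (fun C => ∃ g : G, ConjClasses.mk g = C ∧ ¬ p ∣ orderOf g ∧
      (Nat.card (Subgroup.centralizer ({g} : Set G))).factorization p = d)
    (by
      intro C hC
      by_contra hcon
      push Not at hcon
      exact hC ⟨Quotient.out C, Quotient.out_eq C, hcon.1, hcon.2⟩)

end BlockDefect2

end Cfsg.Agent.Lib.Helper6
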