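import Mathlib
import Cfsg.Prelude.Def_Blocks
import Cfsg.Agent.Lib.Lead.CharBurnside
import Cfsg.Agent.Lib.Lead.CharRing
import Cfsg.Agent.Lib.Lead.CharCons
import Cfsg.Agent.Lib.Helper6.BlockPReg
import Cfsg.Agent.Lib.Helper6.BlockRank3
import Cfsg.Agent.Lib.Helper6.BlockIdem2
import Cfsg.Agent.Lib.Helper6.BlockProj3
import Cfsg.Agent.Lib.Helper6.BlockKer
import Cfsg.Agent.Lib.Helper6.BlockDefect
import Cfsg.Agent.Lib.Helper6.BlockP
import Cfsg.Agent.Lib.Helper6.BlockInfl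

set_option autoImplicit false

namespace Cfsg.Agent.Lib.Helper6

open Cfsg.Agent.Lib.Lead Cfsg.Agent.Lib.Helper2
open scoped ComplexConjugate

section BlockHt0

theorem li_int_dvd (p : ℕ) (M : Ideal Cfsg.AlgInt) (hM : Cfsg.IsPModular p M) (n : ℤ)
    (h : Cfsg.MemLocalIdeal M (n : ℂ)) : (p : ℤ) ∣ n := by
  have hMp := hM.2.1.isPrime
  have h1 : Cfsg.MemLocalIdeal M ((n.natAbs : ℕ) : ℂ) := by
    rw [Nat.cast_natAbs]
    rcases abs_choice n with h2 | h2
    · rw [h2]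
      exact h
    · rw [h2, Int.cast_neg, ← neg_one_mul]
      exact li_mul hMp ⟨-1, 1, (Ideal.ne_top_iff_one M).1 hMp.ne_top, by simp⟩ h
  exact Int.natCast_dvd.2 (li_nat_dvd p M hM _ h1)

theorem lr_int_div_pow (p : ℕ) (M : Ideal Cfsg.AlgInt) (hM : Cfsg.IsPModular p M) (e : ℕ) :
    ∀ n : ℤ, Cfsg.MemLocalRing M ((n : ℂ) / ((p ^ e : ℕ) : ℂ)) → (p : ℤ) ^ e ∣ n := by
  have hMp := hM.2.1.isPrime
  have hp0 : (p : ℂ) ≠ 0 := by exact_mod_cast hM.1.ne_zero
  induction e with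
  | zero =>
    intro n _
    simp
  | succ e ih =>
    intro n h
    have h1 : Cfsg.MemLocalIdeal M (n : ℂ) := by
      have h2 : (n : ℂ) = ((n : ℂ) / ((p ^ (e + 1) : ℕ) : ℂ) * ((p ^ e : ℕ) : ℂ)) * (p : ℂ) := by
        push_cast
        field_simp
        ring
      rw [h2]
      exact li_mul hMp ((mem_lrSub hMp _).1 ((lrSub M hMp).mul_mem ((mem_lrSub hMp _).2 h)
        ((mem_lrSub hMp _).2 (lr_nat p M hM _)))) (li_natCast_p p M hM)
    obtain ⟨n₁, rfl⟩ := li_int_dvd p M hM n h1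
    have h3 : ((n₁ : ℂ)) / ((p ^ e : ℕ) : ℂ)
        = (((p : ℤ) * n₁ : ℤ) : ℂ) / ((p ^ (e + 1) : ℕ) : ℂ) := by
      push_cast
      field_simp
      ring
    have h4 := ih n₁ (by rw [h3]; exact h)
    rw [pow_succ']
    exact mul_dvd_mul_left _ h4

/-- For an integer `n` and a natural `f` with `n / f` a local integer: `n / f` is a local unit
exactly when `n ≠ 0` and the `p`-adic valuations of `n` and `f` agree. -/
theorem lr_li_val (p : ℕ) [Fact p.Prime] (M : Ideal Cfsg.AlgInt) (hM : Cfsg.IsPModular p M)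
    (n : ℤ) (f : ℕ) (hf : f ≠ 0) (hlr : Cfsg.MemLocalRing M ((n : ℂ) / (f : ℂ))) :
    (¬ Cfsg.MemLocalIdeal M ((n : ℂ) / (f : ℂ)))
      ↔ (n ≠ 0 ∧ padicValInt p n = f.factorization p) := by
  have hMp := hM.2.1.isPrime
  have hp := hM.1
  obtain ⟨e, he⟩ : ∃ e, e = f.factorization p := ⟨_, rfl⟩
  obtain ⟨f', hf'⟩ : ∃ f', f' = f / p ^ e := ⟨_, rfl⟩
  have hfe : p ^ e * f' = f := by
    rw [hf', he]
    exact Nat.ordProj_mul_ordCompl_eq_self f p
  have hpf' : ¬ p ∣ f' := by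
    rw [hf', he]
    exact Nat.not_dvd_ordCompl hp hf
  have hf'0 : (f' : ℂ) ≠ 0 := by
    have : f' ≠ 0 := by
      rintro rfl
      rw [mul_zero] at hfe
      exact hf hfe.symm
    exact_mod_cast this
  have hp0 : (p : ℂ) ≠ 0 := by exact_mod_cast hp.ne_zero
  have hdvd : (p : ℤ) ^ e ∣ n := by
    apply lr_int_div_pow p M hM e
    have h1 : (n : ℂ) / ((p ^ e : ℕ) : ℂ) = (n : ℂ) / (f : ℂ) * (f' : ℂ) := by
      rw [← hfe]
      push_cast
      field_simp
    rw [h1]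
    exact (mem_lrSub hMp _).1 ((lrSub M hMp).mul_mem ((mem_lrSub hMp _).2 hlr)
      ((mem_lrSub hMp _).2 (lr_nat p M hM _)))
  obtain ⟨n', rfl⟩ := hdvd
  have hratio : (((p : ℤ) ^ e * n' : ℤ) : ℂ) / (f : ℂ) = (n' : ℂ) / (f' : ℂ) := by
    rw [← hfe]
    push_cast
    field_simp
  have hli : Cfsg.MemLocalIdeal M ((n' : ℂ) / (f' : ℂ)) ↔ (p : ℤ) ∣ n' := by
    constructor
    · intro h
      apply li_int_dvd p M hM
      have h1 : (n' : ℂ) = (f' : ℂ) * ((n' : ℂ) / (f' : ℂ)) := by field_simp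
      rw [h1]
      exact li_mul hMp (lr_nat p M hM _) h
    · rintro ⟨k, rfl⟩
      have h1 : (((p : ℤ) * k : ℤ) : ℂ) / (f' : ℂ) = ((k : ℂ) / (f' : ℂ)) * (p : ℂ) := by
        push_cast
        ring
      rw [h1]
      exact li_mul hMp (lr_div_nat p M hM isIntegral_algebraMap f' hpf') (li_natCast_p p M hM)
  rw [hratio, hli, ← he]
  have hpe0 : ((p : ℤ) ^ e) ≠ 0 := pow_ne_zero _ (by exact_mod_cast hp.ne_zero)
  constructor
  · intro hnd
    have hn'0 : n' ≠ 0 := by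
      rintro rfl
      exact hnd (dvd_zero _)
    refine ⟨mul_ne_zero hpe0 hn'0, ?_⟩
    have h1 : (p : ℤ) ^ e ∣ (p : ℤ) ^ e * n' := dvd_mul_right _ _
    rw [padicValInt_dvd_iff] at h1
    have h2 : ¬ (p : ℤ) ^ (e + 1) ∣ (p : ℤ) ^ e * n' := by
      rw [pow_succ, mul_dvd_mul_iff_left hpe0]
      exact hnd
    rw [padicValInt_dvd_iff] at h2
    push Not at h2
    rcases h1 with h1 | h1
    · exact absurd h1 (mul_ne_zero hpe0 hn'0)
    · omega
  · rintro ⟨h0, hv⟩ hd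
    obtain ⟨k, rfl⟩ := hd
    have h1 : (p : ℤ) ^ (e + 1) ∣ (p : ℤ) ^ e * ((p : ℤ) * k) := ⟨k, by ring⟩
    rw [padicValInt_dvd_iff] at h1
    rcases h1 with h1 | h1
    · exact h0 h1
    · omega

/-- The sum of an irreducible character over a Sylow subgroup. -/
theorem sylow_sum_char {G : Type*} [Group G] [Fintype G] (p : ℕ) [Fact p.Prime] (P : Sylow p G)
    [Fintype (P : Subgroup G)] (χ : Cfsg.IrrCharacter G) :
    ∃ n : ℕ, ∑ x : (P : Subgroup G), (χ : G → ℂ) x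
      = ((p ^ (Nat.card G).factorization p : ℕ) : ℂ) * n := by
  obtain ⟨n, hn⟩ := classInner_isCharacter_nat
    (isCharacter_res (P : Subgroup G) (isCharacter_of_isIrrCharacter χ.2))
    (isCharacter_of_isIrrCharacter (isIrrCharacter_one (P : Subgroup G)))
  refine ⟨n, ?_⟩
  unfold Cfsg.classInner at hn
  simp only [map_one, mul_one] at hn
  have hQne : (Nat.card (P : Subgroup G) : ℂ) ≠ 0 := by
    exact_mod_cast (Nat.card_pos (α := (P : Subgroup G))).ne'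
  rw [inv_mul_eq_iff_eq_mul₀ hQne] at hn
  rw [hn, P.card_eq_multiplicity]

/-- A combination of irreducible characters vanishing at the `p`-singular elements: its sum
over a Sylow subgroup is its degree. -/
theorem sylow_sum_vanish {G : Type*} [Group G] [Fintype G] (p : ℕ) [Fact p.Prime]
    (P : Sylow p G) [Fintype (P : Subgroup G)] (Θ : G → ℂ)
    (hΘ : ∀ x : G, p ∣ orderOf x → Θ x = 0) :
    ∑ x : (P : Subgroup G), Θ x = Θ 1 := by
  rw [Finset.sum_eq_single (1 : (P : Subgroup G))]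
  · rw [OneMemClass.coe_one]
  · intro x _ hx1
    apply hΘ
    obtain ⟨k, hk⟩ := (IsPGroup.iff_orderOf.1 P.isPGroup') x
    have hk0 : k ≠ 0 := by
      rintro rfl
      rw [pow_zero, orderOf_eq_one_iff] at hk
      exact hx1 hk
    rw [Subgroup.orderOf_coe, hk]
    exact dvd_pow_self p hk0
  · intro h
    exact absurd (Finset.mem_univ _) h

/-- Integrality of the inner products of the `p`-regular part. -/
theorem ht_inner_int {G : Type*} [Group G] [Fintype G] (p : ℕ) [Fact p.Prime]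
    (M : Ideal Cfsg.AlgInt) (hM : Cfsg.IsPModular p M) (B : Set (Cfsg.IrrCharacter G))
    (hB : Cfsg.IsPBlock M B) (χ : Cfsg.IrrCharacter G) (hχ : χ ∈ B) :
    ∃ m : Cfsg.IrrCharacter G → ℤ, (∀ ψ, ψ ∉ B → m ψ = 0) ∧
      (∀ x : G, (if p ∣ orderOf x then (0 : ℂ) else
        ((p ^ ((Nat.card G).factorization p
          - (Cfsg.charDegree (χ : G → ℂ)).factorization p) : ℕ) : ℂ) * (χ : G → ℂ) x)
          = ∑ᶠ ψ : Cfsg.IrrCharacter G, (m ψ : ℂ) * (ψ : G → ℂ) x) ∧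
      ∀ ξ : Cfsg.IrrCharacter G, Cfsg.classInner (fun x : G => if p ∣ orderOf x then (0 : ℂ)
          else ((p ^ (Nat.card G).factorization p : ℕ) : ℂ) * (χ : G → ℂ) x) (ξ : G → ℂ)
        = (((p : ℤ) ^ (Cfsg.charDegree (χ : G → ℂ)).factorization p * m ξ : ℤ) : ℂ) := by
  classical
  haveI : Finite (Cfsg.IrrCharacter G) := irr_finite'
  letI := Fintype.ofFinite (Cfsg.IrrCharacter G)
  obtain ⟨m, hm0, hm⟩ := preg_coeffs p M hM B hB χ hχ
  refine ⟨m, hm0, hm, fun ξ => ?_⟩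
  have hχ1 := isIrrCharacter_one_eq_charDegree χ.2
  have hdpos := charDegree_pos_of_irr χ.2
  have hdvd : Cfsg.charDegree (χ : G → ℂ) ∣ Nat.card G := irr_degree_dvd_card χ _ hχ1
  have hle : (Cfsg.charDegree (χ : G → ℂ)).factorization p ≤ (Nat.card G).factorization p :=
    (Nat.factorization_le_iff_dvd hdpos.ne' Nat.card_pos.ne').2 hdvd p
  have hGne : (Nat.card G : ℂ) ≠ 0 := by exact_mod_cast (Nat.card_pos (α := G)).ne'
  unfold Cfsg.classInner
  have h1 : ∀ x : G, (if p ∣ orderOf x then (0 : ℂ)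
        else ((p ^ (Nat.card G).factorization p : ℕ) : ℂ) * (χ : G → ℂ) x)
        * conj ((ξ : G → ℂ) x)
      = ((p ^ (Cfsg.charDegree (χ : G → ℂ)).factorization p : ℕ) : ℂ)
        * ((∑ ψ ∈ Finset.univ, (m ψ : ℂ) * (ψ : G → ℂ) x) * conj ((ξ : G → ℂ) x)) := by
    intro x
    rw [← finsum_eq_sum_of_fintype, ← hm x]
    by_cases hx : p ∣ orderOf x
    · rw [if_pos hx, if_pos hx]
      ring
    · rw [if_neg hx, if_neg hx]
      have h2 : (p ^ (Nat.card G).factorization p : ℕ)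
          = p ^ (Cfsg.charDegree (χ : G → ℂ)).factorization p
            * p ^ ((Nat.card G).factorization p
              - (Cfsg.charDegree (χ : G → ℂ)).factorization p) := by
        rw [← pow_add]
        congr 1
        omega
      rw [h2]
      push_cast
      ring
  rw [Finset.sum_congr rfl (fun x _ => h1 x), ← Finset.mul_sum,
    comb_inner Finset.univ (fun ψ => (m ψ : ℂ)) ξ (Finset.mem_univ _)]
  push_cast
  field_simp

open scoped Classical in
/-- The ratio `[χ̃, ξ] / ξ(1)` as a class sum. -/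
theorem ht_ratio_formula {G : Type*} [Group G] [Fintype G] (p : ℕ) [Fact p.Prime]
    (χ ξ : Cfsg.IrrCharacter G) :
    Cfsg.classInner (fun x : G => if p ∣ orderOf x then (0 : ℂ)
        else ((p ^ (Nat.card G).factorization p : ℕ) : ℂ) * (χ : G → ℂ) x) (ξ : G → ℂ)
        / (ξ : G → ℂ) 1
      = (∑ C : ConjClasses G, (if p ∣ orderOf (Quotient.out C) then (0 : ℂ)
            else (χ : G → ℂ) (Quotient.out C)⁻¹)
          * Cfsg.centralChar (ξ : G → ℂ) (Quotient.out C))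
        / ((Nat.card G / p ^ (Nat.card G).factorization p : ℕ) : ℂ) := by
  classical
  have hp := (Fact.out : p.Prime)
  have hF : ∀ r c : G, (if p ∣ orderOf (c * r * c⁻¹) then (0 : ℂ)
        else (χ : G → ℂ) (c * r * c⁻¹)⁻¹)
      = (if p ∣ orderOf r then (0 : ℂ) else (χ : G → ℂ) r⁻¹) := by
    intro r c
    have h1 : orderOf (c * r * c⁻¹) = orderOf r := by
      rw [← MulAut.conj_apply]
      exact MulEquiv.orderOf_eq _ _
    have h2 : (c * r * c⁻¹)⁻¹ = c * r⁻¹ * c⁻¹ := conj_inv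
    rw [h1, h2, isClassFunction_irr χ r⁻¹ c]
  rw [← bcf_class_sum (fun g => if p ∣ orderOf g then (0 : ℂ) else (χ : G → ℂ) g⁻¹) hF ξ]
  unfold Cfsg.classInner
  have h3 : ∑ x : G, (if p ∣ orderOf x then (0 : ℂ)
        else ((p ^ (Nat.card G).factorization p : ℕ) : ℂ) * (χ : G → ℂ) x)
        * conj ((ξ : G → ℂ) x)
      = ∑ g : G, ((p ^ (Nat.card G).factorization p : ℕ) : ℂ)
        * ((if p ∣ orderOf g then (0 : ℂ) else (χ : G → ℂ) g⁻¹) * (ξ : G → ℂ) g) := by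
    apply Fintype.sum_equiv (Equiv.inv G)
    intro x
    show _ = ((p ^ (Nat.card G).factorization p : ℕ) : ℂ)
        * ((if p ∣ orderOf x⁻¹ then (0 : ℂ) else (χ : G → ℂ) x⁻¹⁻¹) * (ξ : G → ℂ) x⁻¹)
    rw [orderOf_inv, inv_inv, isCharacter_inv_eq_conj (isCharacter_of_isIrrCharacter ξ.2) x]
    split_ifs <;> ring
  have h4 : ∑ g : G, (if p ∣ orderOf g then (0 : ℂ) else (χ : G → ℂ) g⁻¹)
        * ((ξ : G → ℂ) g / (ξ : G → ℂ) 1)
      = (∑ g : G, (if p ∣ orderOf g then (0 : ℂ) else (χ : G → ℂ) g⁻¹) * (ξ : G → ℂ) g)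
        / (ξ : G → ℂ) 1 := by
    rw [Finset.sum_div]
    apply Finset.sum_congr rfl
    intro g _
    ring
  rw [h3, h4, ← Finset.mul_sum]
  have hξ1 : (ξ : G → ℂ) 1 ≠ 0 := irr_one_ne_zero ξ.2
  have hGm : (Nat.card G : ℂ) = ((p ^ (Nat.card G).factorization p : ℕ) : ℂ)
      * ((Nat.card G / p ^ (Nat.card G).factorization p : ℕ) : ℂ) := by
    exact_mod_cast (Nat.ordProj_mul_ordCompl_eq_self (Nat.card G) p).symm
  have hGne : (Nat.card G : ℂ) ≠ 0 := by exact_mod_cast (Nat.card_pos (α := G)).ne'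
  have hp0 : ((p ^ (Nat.card G).factorization p : ℕ) : ℂ) ≠ 0 := by
    intro h
    rw [h, zero_mul] at hGm
    exact hGne hGm
  have hm0 : ((Nat.card G / p ^ (Nat.card G).factorization p : ℕ) : ℂ) ≠ 0 := by
    intro h
    rw [h, mul_zero] at hGm
    exact hGne hGm
  rw [hGm]
  field_simp

theorem ht_ratio_lr {G : Type*} [Group G] [Fintype G] (p : ℕ) [Fact p.Prime]
    (M : Ideal Cfsg.AlgInt) (hM : Cfsg.IsPModular p M) (χ ξ : Cfsg.IrrCharacter G) :
    Cfsg.MemLocalRing M (Cfsg.classInner (fun x : G => if p ∣ orderOf x then (0 : ℂ)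
        else ((p ^ (Nat.card G).factorization p : ℕ) : ℂ) * (χ : G → ℂ) x) (ξ : G → ℂ)
        / (ξ : G → ℂ) 1) := by
  classical
  have hp := (Fact.out : p.Prime)
  rw [ht_ratio_formula]
  apply lr_div_nat p M hM _ _ (Nat.not_dvd_ordCompl hp (Nat.card_pos (α := G)).ne')
  apply IsIntegral.sum
  intro C _
  split_ifs
  · rw [zero_mul]
    exact isIntegral_zero
  · exact (bcf_irr_isIntegral χ.2 _).mul (cc_isIntegral ξ _)

theorem ht_ratio_li {G : Type*} [Group G] [Fintype G] (p : ℕ) [Fact p.Prime]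
    (M : Ideal Cfsg.AlgInt) (hM : Cfsg.IsPModular p M) (χ ξ ξ' : Cfsg.IrrCharacter G)
    (hsame : Cfsg.SameBlock M (ξ : G → ℂ) (ξ' : G → ℂ)) :
    Cfsg.MemLocalIdeal M (Cfsg.classInner (fun x : G => if p ∣ orderOf x then (0 : ℂ)
        else ((p ^ (Nat.card G).factorization p : ℕ) : ℂ) * (χ : G → ℂ) x) (ξ : G → ℂ)
        / (ξ : G → ℂ) 1
      - Cfsg.classInner (fun x : G => if p ∣ orderOf x then (0 : ℂ)
        else ((p ^ (Nat.card G).factorization p : ℕ) : ℂ) * (χ : G → ℂ) x) (ξ' : G → ℂ)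
        / (ξ' : G → ℂ) 1) := by
  classical
  have hp := (Fact.out : p.Prime)
  have hMp := hM.2.1.isPrime
  rw [ht_ratio_formula, ht_ratio_formula, ← sub_div, ← Finset.sum_sub_distrib]
  have h1 : ∀ z : ℂ, z / ((Nat.card G / p ^ (Nat.card G).factorization p : ℕ) : ℂ)
      = ((1 : ℂ) / ((Nat.card G / p ^ (Nat.card G).factorization p : ℕ) : ℂ)) * z := by
    intro z
    ring
  rw [h1]
  apply li_mul hMp (lr_div_nat p M hM isIntegral_one _
    (Nat.not_dvd_ordCompl hp (Nat.card_pos (α := G)).ne'))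
  apply li_sum hMp
  intro C _
  rw [← mul_sub]
  refine li_mul hMp ?_ (hsame (Quotient.out C))
  split_ifs
  · exact lr_int p M hM isIntegral_zero
  · exact lr_int p M hM (bcf_irr_isIntegral χ.2 _)

theorem ht_inner_symm {G : Type*} [Group G] [Fintype G] (p : ℕ) (a : ℕ) (χ ξ : G → ℂ) :
    Cfsg.classInner (fun x : G => if p ∣ orderOf x then (0 : ℂ) else ((p ^ a : ℕ) : ℂ) * χ x) ξ
      = conj (Cfsg.classInner (fun x : G => if p ∣ orderOf x then (0 : ℂ)
        else ((p ^ a : ℕ) : ℂ) * ξ x) χ) := by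
  unfold Cfsg.classInner
  rw [map_mul, map_inv₀, Complex.conj_natCast, map_sum]
  congr 1
  apply Finset.sum_congr rfl
  intro x _
  rw [map_mul, Complex.conj_conj]
  beta_reduce
  split_ifs
  · simp
  · rw [map_mul, Complex.conj_natCast]
    ring

/-- The crux: for a character of minimal degree valuation in its block, `[χ̃, χ] / χ(1)` is a
local unit. -/
theorem ht_zero_crux {G : Type*} [Group G] [Fintype G] (p : ℕ) [Fact p.Prime]
    (M : Ideal Cfsg.AlgInt) (hM : Cfsg.IsPModular p M) (B : Set (Cfsg.IrrCharacter G))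
    (hB : Cfsg.IsPBlock M B) (χ₀ : Cfsg.IrrCharacter G) (hχ₀ : χ₀ ∈ B)
    (hmin : ∀ ξ ∈ B, (Cfsg.charDegree (χ₀ : G → ℂ)).factorization p
      ≤ (Cfsg.charDegree (ξ : G → ℂ)).factorization p) :
    ¬ Cfsg.MemLocalIdeal M (Cfsg.classInner (fun x : G => if p ∣ orderOf x then (0 : ℂ)
        else ((p ^ (Nat.card G).factorization p : ℕ) : ℂ) * (χ₀ : G → ℂ) x) (χ₀ : G → ℂ)
        / (χ₀ : G → ℂ) 1) := by
  classical
  intro hli
  haveI : Finite (Cfsg.IrrCharacter G) := irr_finite'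
  letI := Fintype.ofFinite (Cfsg.IrrCharacter G)
  have hMp := hM.2.1.isPrime
  have hp := hM.1
  have hp0 : (p : ℂ) ≠ 0 := by exact_mod_cast hp.ne_zero
  obtain ⟨m, hm0, hm, hI⟩ := ht_inner_int p M hM B hB χ₀ hχ₀
  obtain ⟨e₀, he₀⟩ : ∃ e₀, e₀ = (Cfsg.charDegree (χ₀ : G → ℂ)).factorization p := ⟨_, rfl⟩
  obtain ⟨a, ha⟩ : ∃ a, a = (Nat.card G).factorization p := ⟨_, rfl⟩
  rw [← he₀] at hI hmin
  rw [← he₀, ← ha] at hm
  have hχ1 := isIrrCharacter_one_eq_charDegree χ₀.2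
  have hdpos := charDegree_pos_of_irr χ₀.2
  have hdvd0 : Cfsg.charDegree (χ₀ : G → ℂ) ∣ Nat.card G := irr_degree_dvd_card χ₀ _ hχ1
  have hle : e₀ ≤ a := by
    rw [he₀, ha]
    exact (Nat.factorization_le_iff_dvd hdpos.ne' Nat.card_pos.ne').2 hdvd0 p
  obtain ⟨χB, hBdef⟩ := id hB
  have hsameB : ∀ ξ ∈ B, ∀ ξ' ∈ B, Cfsg.SameBlock M (ξ : G → ℂ) (ξ' : G → ℂ) := by
    intro ξ hξ ξ' hξ'
    rw [hBdef] at hξ hξ'
    exact sb_trans hMp (sb_symm hMp hξ) hξ'
  have hdiv : ∀ ξ : Cfsg.IrrCharacter G, (p : ℤ) ∣ m ξ := by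
    intro ξ
    by_cases hξ : ξ ∈ B
    · have h1 := ht_ratio_li p M hM χ₀ ξ χ₀ (hsameB ξ hξ χ₀ hχ₀)
      have h2 := li_add hMp h1 hli
      rw [sub_add_cancel, hI ξ] at h2
      have hξ1 := isIrrCharacter_one_eq_charDegree ξ.2
      obtain ⟨f', hf'⟩ : p ^ e₀ ∣ Cfsg.charDegree (ξ : G → ℂ) :=
        (hp.pow_dvd_iff_le_factorization (charDegree_pos_of_irr ξ.2).ne').2 (hmin ξ hξ)
      have hf'0 : (f' : ℂ) ≠ 0 := by
        have : f' ≠ 0 := by
          rintro rfl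
          rw [mul_zero] at hf'
          exact (charDegree_pos_of_irr ξ.2).ne' hf'
        exact_mod_cast this
      apply li_int_dvd p M hM
      have h3 : ((m ξ : ℤ) : ℂ) = (f' : ℂ)
          * ((((p : ℤ) ^ e₀ * m ξ : ℤ) : ℂ) / (ξ : G → ℂ) 1) := by
        rw [hξ1, hf']
        push_cast
        field_simp
      rw [h3]
      exact li_mul hMp (lr_nat p M hM _) h2
    · rw [hm0 ξ hξ]
      exact dvd_zero _
  choose k hk using hdiv
  obtain ⟨P⟩ := (inferInstance : Nonempty (Sylow p G))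
  letI : Fintype (P : Subgroup G) := Fintype.ofFinite _
  choose n hn using sylow_sum_char p P
  have hΘ : ∀ x : G, (p : ℂ) * ∑ ψ : Cfsg.IrrCharacter G, (k ψ : ℂ) * (ψ : G → ℂ) x
      = (if p ∣ orderOf x then (0 : ℂ) else ((p ^ (a - e₀) : ℕ) : ℂ) * (χ₀ : G → ℂ) x) := by
    intro x
    rw [hm x, finsum_eq_sum_of_fintype, Finset.mul_sum]
    apply Finset.sum_congr rfl
    intro ψ _
    rw [hk ψ]
    push_cast
    ring
  have hΘ0 : ∀ x : G, p ∣ orderOf x →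
      ∑ ψ : Cfsg.IrrCharacter G, (k ψ : ℂ) * (ψ : G → ℂ) x = 0 := by
    intro x hx
    have h := hΘ x
    rw [if_pos hx] at h
    rcases mul_eq_zero.1 h with h | h
    · exact absurd h hp0
    · exact h
  have hsum : ∑ x : (P : Subgroup G), ∑ ψ : Cfsg.IrrCharacter G, (k ψ : ℂ) * (ψ : G → ℂ) x
      = ∑ ψ : Cfsg.IrrCharacter G, (k ψ : ℂ) * (ψ : G → ℂ) 1 :=
    sylow_sum_vanish p P (fun x => ∑ ψ : Cfsg.IrrCharacter G, (k ψ : ℂ) * (ψ : G → ℂ) x) hΘ0
  have hsum2 : ∑ x : (P : Subgroup G), ∑ ψ : Cfsg.IrrCharacter G, (k ψ : ℂ) * (ψ : G → ℂ) x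
      = ((p ^ a : ℕ) : ℂ) * ((∑ ψ : Cfsg.IrrCharacter G, k ψ * (n ψ : ℤ) : ℤ) : ℂ) := by
    rw [Finset.sum_comm]
    push_cast
    rw [Finset.mul_sum]
    apply Finset.sum_congr rfl
    intro ψ _
    rw [← Finset.mul_sum, hn ψ, ← ha]
    push_cast
    ring
  have h1 := hΘ 1
  rw [orderOf_one, if_neg hp.not_dvd_one, hχ1, ← hsum, hsum2] at h1
  obtain ⟨t, ht⟩ : ∃ t : ℤ, t = ∑ ψ : Cfsg.IrrCharacter G, k ψ * (n ψ : ℤ) := ⟨_, rfl⟩
  rw [← ht] at h1
  have h2 : (p : ℤ) * ((p : ℤ) ^ a * t)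
      = ((p ^ (a - e₀) * Cfsg.charDegree (χ₀ : G → ℂ) : ℕ) : ℤ) := by
    exact_mod_cast h1
  have h3 : p ^ (a + 1) ∣ p ^ (a - e₀) * Cfsg.charDegree (χ₀ : G → ℂ) := by
    apply Int.natCast_dvd_natCast.1
    refine ⟨t, ?_⟩
    rw [← h2]
    push_cast
    ring
  have h4 : p ^ (a + 1) = p ^ (a - e₀) * p ^ (e₀ + 1) := by
    rw [← pow_add]
    congr 1
    omega
  rw [h4, Nat.mul_dvd_mul_iff_left (pow_pos hp.pos _)] at h3
  have h6 := (hp.pow_dvd_iff_le_factorization hdpos.ne').1 h3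
  omega

/-- Height zero is detected by the valuation of the inner products `[χ̃, ξ]`. -/
theorem ht_zero_main {G : Type*} [Group G] [Fintype G] (p : ℕ) [Fact p.Prime]
    (M : Ideal Cfsg.AlgInt) (hM : Cfsg.IsPModular p M) (B : Set (Cfsg.IrrCharacter G))
    (hB : Cfsg.IsPBlock M B) (χ : Cfsg.IrrCharacter G) (hχ : χ ∈ B) :
    (Cfsg.blockHeight p B (χ : G → ℂ) = 0 ↔ ∃ ξ ∈ B, ∃ n : ℤ,
      Cfsg.classInner (fun x : G => if p ∣ orderOf x then (0 : ℂ)
        else ((p ^ (Nat.card G).factorization p : ℕ) : ℂ) * (χ : G → ℂ) x) (ξ : G → ℂ) = (n : ℂ)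
      ∧ n ≠ 0 ∧ padicValInt p n = (Cfsg.charDegree (ξ : G → ℂ)).factorization p) ∧
    (Cfsg.blockHeight p B (χ : G → ℂ) = 0 ↔ ∀ ξ ∈ B, ∃ n : ℤ,
      Cfsg.classInner (fun x : G => if p ∣ orderOf x then (0 : ℂ)
        else ((p ^ (Nat.card G).factorization p : ℕ) : ℂ) * (χ : G → ℂ) x) (ξ : G → ℂ) = (n : ℂ)
      ∧ n ≠ 0 ∧ padicValInt p n = (Cfsg.charDegree (ξ : G → ℂ)).factorization p) := by
  classical
  have hMp := hM.2.1.isPrime
  have hp := hM.1
  have hp0 : (p : ℂ) ≠ 0 := by exact_mod_cast hp.ne_zero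
  obtain ⟨m, hm0, hm, hI⟩ := ht_inner_int p M hM B hB χ hχ
  obtain ⟨χB, hBdef⟩ := id hB
  have hsameB : ∀ ξ ∈ B, ∀ ξ' ∈ B, Cfsg.SameBlock M (ξ : G → ℂ) (ξ' : G → ℂ) := by
    intro ξ hξ ξ' hξ'
    rw [hBdef] at hξ hξ'
    exact sb_trans hMp (sb_symm hMp hξ) hξ'
  obtain ⟨χ₀, hχ₀B, hχ₀min⟩ := exists_height_zero M hMp p B hB
  have hmin : ∀ ξ ∈ B, (Cfsg.charDegree (χ₀ : G → ℂ)).factorization p
      ≤ (Cfsg.charDegree (ξ : G → ℂ)).factorization p := by
    intro ξ hξ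
    rw [hχ₀min]
    exact Nat.sInf_le ⟨ξ, hξ, rfl⟩
  have hheight : Cfsg.blockHeight p B (χ : G → ℂ) = 0 ↔
      (Cfsg.charDegree (χ : G → ℂ)).factorization p
        = (Cfsg.charDegree (χ₀ : G → ℂ)).factorization p := by
    unfold Cfsg.blockHeight
    rw [← hχ₀min]
    have := hmin χ hχ
    omega
  have hkey : ∀ ξ ∈ B, (¬ Cfsg.MemLocalIdeal M (Cfsg.classInner (fun x : G =>
        if p ∣ orderOf x then (0 : ℂ)
        else ((p ^ (Nat.card G).factorization p : ℕ) : ℂ) * (χ : G → ℂ) x) (ξ : G → ℂ)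
        / (ξ : G → ℂ) 1)) ↔ Cfsg.blockHeight p B (χ : G → ℂ) = 0 := by
    intro ξ hξ
    have hdiff := ht_ratio_li p M hM χ ξ χ (hsameB ξ hξ χ hχ)
    rw [hheight]
    constructor
    · intro hnli
      by_contra hne
      apply hnli
      have hlt : (Cfsg.charDegree (χ₀ : G → ℂ)).factorization p
          < (Cfsg.charDegree (χ : G → ℂ)).factorization p :=
        lt_of_le_of_ne (hmin χ hχ) (Ne.symm hne)
      have hc : Cfsg.MemLocalIdeal M (Cfsg.classInner (fun x : G =>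
          if p ∣ orderOf x then (0 : ℂ)
          else ((p ^ (Nat.card G).factorization p : ℕ) : ℂ) * (χ : G → ℂ) x) (χ : G → ℂ)
          / (χ : G → ℂ) 1) := by
        have hd2 := ht_ratio_li p M hM χ χ χ₀ (hsameB χ hχ χ₀ hχ₀B)
        obtain ⟨m₀, -, -, hI₀⟩ := ht_inner_int p M hM B hB χ₀ hχ₀B
        have hsymm := ht_inner_symm p ((Nat.card G).factorization p) (χ : G → ℂ) (χ₀ : G → ℂ)
        rw [hI₀ χ, map_intCast, ← hI₀ χ] at hsymm
        have h7 : Cfsg.MemLocalIdeal M (Cfsg.classInner (fun x : G =>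
            if p ∣ orderOf x then (0 : ℂ)
            else ((p ^ (Nat.card G).factorization p : ℕ) : ℂ) * (χ : G → ℂ) x) (χ₀ : G → ℂ)
            / (χ₀ : G → ℂ) 1) := by
          rw [hsymm]
          have hf0 := isIrrCharacter_one_eq_charDegree χ₀.2
          have hf := isIrrCharacter_one_eq_charDegree χ.2
          have hf0ne : Cfsg.charDegree (χ₀ : G → ℂ) ≠ 0 := (charDegree_pos_of_irr χ₀.2).ne'
          obtain ⟨e₀, he₀⟩ : ∃ e₀, e₀ = (Cfsg.charDegree (χ₀ : G → ℂ)).factorization p :=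
            ⟨_, rfl⟩
          rw [← he₀] at hlt
          obtain ⟨f'', hf''⟩ : p ^ (e₀ + 1) ∣ Cfsg.charDegree (χ : G → ℂ) :=
            (hp.pow_dvd_iff_le_factorization (charDegree_pos_of_irr χ.2).ne').2 hlt
          obtain ⟨g₀, hg₀⟩ : ∃ g₀, g₀ = Cfsg.charDegree (χ₀ : G → ℂ) / p ^ e₀ := ⟨_, rfl⟩
          have hg : p ^ e₀ * g₀ = Cfsg.charDegree (χ₀ : G → ℂ) := by
            rw [hg₀, he₀]
            exact Nat.ordProj_mul_ordCompl_eq_self _ p
          have hpg : ¬ p ∣ g₀ := by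
            rw [hg₀, he₀]
            exact Nat.not_dvd_ordCompl hp hf0ne
          have hg0 : (g₀ : ℂ) ≠ 0 := by
            have : g₀ ≠ 0 := by
              rintro rfl
              rw [mul_zero] at hg
              exact hf0ne hg.symm
            exact_mod_cast this
          have hχ1ne : (χ : G → ℂ) 1 ≠ 0 := irr_one_ne_zero χ.2
          have h8 : Cfsg.classInner (fun x : G => if p ∣ orderOf x then (0 : ℂ)
                else ((p ^ (Nat.card G).factorization p : ℕ) : ℂ) * (χ₀ : G → ℂ) x)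
                (χ : G → ℂ) / (χ₀ : G → ℂ) 1
              = (Cfsg.classInner (fun x : G => if p ∣ orderOf x then (0 : ℂ)
                else ((p ^ (Nat.card G).factorization p : ℕ) : ℂ) * (χ₀ : G → ℂ) x)
                (χ : G → ℂ) / (χ : G → ℂ) 1) * (((f'' : ℂ) / (g₀ : ℂ)) * (p : ℂ)) := by
            have h9 : (χ : G → ℂ) 1 / (χ₀ : G → ℂ) 1 = ((f'' : ℂ) / (g₀ : ℂ)) * (p : ℂ) := by
              rw [hf, hf0, hf'', ← hg]
              push_cast
              field_simp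
              ring
            rw [← h9]
            field_simp
          rw [h8]
          exact li_mul hMp (ht_ratio_lr p M hM χ₀ χ)
            (li_mul hMp (lr_div_nat p M hM isIntegral_algebraMap g₀ hpg) (li_natCast_p p M hM))
        have := li_add hMp hd2 h7
        rwa [sub_add_cancel] at this
      have := li_add hMp hdiff hc
      rwa [sub_add_cancel] at this
    · intro heq hli
      have hminχ : ∀ ξ' ∈ B, (Cfsg.charDegree (χ : G → ℂ)).factorization p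
          ≤ (Cfsg.charDegree (ξ' : G → ℂ)).factorization p := by
        intro ξ' hξ'
        rw [heq]
        exact hmin ξ' hξ'
      apply ht_zero_crux p M hM B hB χ hχ hminχ
      have := li_sub hMp hli hdiff
      rwa [sub_sub_cancel] at this
  have htrans : ∀ ξ ∈ B, ∀ n : ℤ, Cfsg.classInner (fun x : G =>
        if p ∣ orderOf x then (0 : ℂ)
        else ((p ^ (Nat.card G).factorization p : ℕ) : ℂ) * (χ : G → ℂ) x) (ξ : G → ℂ) = (n : ℂ) →
      ((¬ Cfsg.MemLocalIdeal M (Cfsg.classInner (fun x : G =>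
        if p ∣ orderOf x then (0 : ℂ)
        else ((p ^ (Nat.card G).factorization p : ℕ) : ℂ) * (χ : G → ℂ) x) (ξ : G → ℂ)
        / (ξ : G → ℂ) 1)) ↔
        (n ≠ 0 ∧ padicValInt p n = (Cfsg.charDegree (ξ : G → ℂ)).factorization p)) := by
    intro ξ hξ n hn
    have hlr := ht_ratio_lr p M hM χ ξ
    rw [hn, isIrrCharacter_one_eq_charDegree ξ.2] at hlr ⊢
    exact lr_li_val p M hM n _ (charDegree_pos_of_irr ξ.2).ne' hlr
  refine ⟨⟨fun h0 => ?_, ?_⟩, ⟨fun h0 ξ hξ => ?_, fun hall => ?_⟩⟩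
  · refine ⟨χ, hχ, _, hI χ, ?_⟩
    exact (htrans χ hχ _ (hI χ)).1 ((hkey χ hχ).2 h0)
  · rintro ⟨ξ, hξ, n, hn, hn0, hv⟩
    exact (hkey ξ hξ).1 ((htrans ξ hξ n hn).2 ⟨hn0, hv⟩)
  · refine ⟨_, hI ξ, ?_⟩
    exact (htrans ξ hξ _ (hI ξ)).1 ((hkey ξ hξ).2 h0)
  · obtain ⟨n, hn, hn0, hv⟩ := hall χ hχ
    exact (hkey χ hχ).1 ((htrans χ hχ n hn).2 ⟨hn0, hv⟩)

end BlockHt0

end Cfsg.Agent.Lib.Helper6
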