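import Mathlib
import Cfsg.Prelude.Def_Blocks
import Cfsg.Agent.Lib.Helper6.BlockHt0
import Cfsg.Agent.Lib.Helper6.BlockIdem3

set_option autoImplicit false

namespace Cfsg.Agent.Lib.Helper6

open Cfsg.Agent.Lib.Lead Cfsg.Agent.Lib.Helper2
open scoped ComplexConjugate

section BlockInd1

open scoped Classical in
theorem ind_ratio_formula {G : Type*} [Group G] [Fintype G] (p : ℕ) [Fact p.Prime]
    (H : Subgroup G) [Fintype H] (χ : Cfsg.IrrCharacter G) (ψ : Cfsg.IrrCharacter H) :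
    Cfsg.classInner (fun h : H => if p ∣ orderOf h then (0 : ℂ)
        else ((p ^ (Nat.card H).factorization p : ℕ) : ℂ) * (χ : G → ℂ) h) (ψ : H → ℂ)
        / (ψ : H → ℂ) 1
      = (∑ C : ConjClasses G, (if p ∣ orderOf (Quotient.out C) then (0 : ℂ)
            else (χ : G → ℂ) (Quotient.out C)⁻¹)
          * Cfsg.inducedCentralChar H (ψ : H → ℂ) (Quotient.out C))
        / ((Nat.card H / p ^ (Nat.card H).factorization p : ℕ) : ℂ) := by
  classical
  have hp := (Fact.out : p.Prime)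
  have hF : ∀ r c : G, (if p ∣ orderOf (c * r * c⁻¹) then (0 : ℂ)
        else (χ : G → ℂ) (c * r * c⁻¹)⁻¹)
      = (if p ∣ orderOf r then (0 : ℂ) else (χ : G → ℂ) r⁻¹) := by
    intro r c
    have h1 : orderOf (c * r * c⁻¹) = orderOf r := by
      rw [← MulAut.conj_apply]
      exact MulEquiv.orderOf_eq _ _
    have h2 : (c * r * c⁻¹)⁻¹ = c * r⁻¹ * c⁻¹ := conj_inv
    rw [h1, h2, isClassFunction_irr χ r⁻¹ c]
  rw [← icc_sum H (fun g => if p ∣ orderOf g then (0 : ℂ) else (χ : G → ℂ) g⁻¹) hF (ψ : H → ℂ)]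
  unfold Cfsg.classInner
  have h3 : ∑ x : H, (if p ∣ orderOf x then (0 : ℂ)
        else ((p ^ (Nat.card H).factorization p : ℕ) : ℂ) * (χ : G → ℂ) x)
        * conj ((ψ : H → ℂ) x)
      = ∑ g : H, ((p ^ (Nat.card H).factorization p : ℕ) : ℂ)
        * ((if p ∣ orderOf (g : G) then (0 : ℂ) else (χ : G → ℂ) (g : G)⁻¹)
          * (ψ : H → ℂ) g) := by
    apply Fintype.sum_equiv (Equiv.inv H)
    intro x
    show _ = ((p ^ (Nat.card H).factorization p : ℕ) : ℂ)
        * ((if p ∣ orderOf ((x⁻¹ : H) : G) then (0 : ℂ)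
            else (χ : G → ℂ) ((x⁻¹ : H) : G)⁻¹) * (ψ : H → ℂ) x⁻¹)
    rw [Subgroup.orderOf_coe, orderOf_inv, Subgroup.coe_inv, inv_inv,
      isCharacter_inv_eq_conj (isCharacter_of_isIrrCharacter ψ.2) x]
    split_ifs <;> ring
  have h4 : ∑ g : H, (if p ∣ orderOf (g : G) then (0 : ℂ) else (χ : G → ℂ) (g : G)⁻¹)
        * ((ψ : H → ℂ) g / (ψ : H → ℂ) 1)
      = (∑ g : H, (if p ∣ orderOf (g : G) then (0 : ℂ) else (χ : G → ℂ) (g : G)⁻¹)
          * (ψ : H → ℂ) g)
        / (ψ : H → ℂ) 1 := by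
    rw [Finset.sum_div]
    apply Finset.sum_congr rfl
    intro g _
    ring
  rw [h3, h4, ← Finset.mul_sum]
  have hξ1 : (ψ : H → ℂ) 1 ≠ 0 := irr_one_ne_zero ψ.2
  have hGm : (Nat.card H : ℂ) = ((p ^ (Nat.card H).factorization p : ℕ) : ℂ)
      * ((Nat.card H / p ^ (Nat.card H).factorization p : ℕ) : ℂ) := by
    exact_mod_cast (Nat.ordProj_mul_ordCompl_eq_self (Nat.card H) p).symm
  have hGne : (Nat.card H : ℂ) ≠ 0 := by exact_mod_cast (Nat.card_pos (α := H)).ne'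
  have hp0 : ((p ^ (Nat.card H).factorization p : ℕ) : ℂ) ≠ 0 := by
    intro h
    rw [h, zero_mul] at hGm
    exact hGne hGm
  have hm0 : ((Nat.card H / p ^ (Nat.card H).factorization p : ℕ) : ℂ) ≠ 0 := by
    intro h
    rw [h, mul_zero] at hGm
    exact hGne hGm
  rw [hGm]
  field_simp

theorem ind_ratio_main {G : Type*} [Group G] [Fintype G] (p : ℕ) [Fact p.Prime]
    (M : Ideal Cfsg.AlgInt) (hM : Cfsg.IsPModular p M) (H : Subgroup G) [Fintype H]
    (b : Set (Cfsg.IrrCharacter H)) (B₀ : Set (Cfsg.IrrCharacter G))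
    (hind : Cfsg.IsInducedBlock M H b B₀) (χ : Cfsg.IrrCharacter G)
    (ψ : Cfsg.IrrCharacter H) (hψ : ψ ∈ b) :
    (χ ∉ B₀ → Cfsg.MemLocalIdeal M (Cfsg.classInner (fun h : H => if p ∣ orderOf h then (0 : ℂ)
        else ((p ^ (Nat.card H).factorization p : ℕ) : ℂ) * (χ : G → ℂ) h) (ψ : H → ℂ)
        / (ψ : H → ℂ) 1)) ∧
    (χ ∈ B₀ → Cfsg.blockHeight p B₀ (χ : G → ℂ) = 0 →
      ¬ Cfsg.MemLocalIdeal M (Cfsg.classInner (fun h : H => if p ∣ orderOf h then (0 : ℂ)
        else ((p ^ (Nat.card H).factorization p : ℕ) : ℂ) * (χ : G → ℂ) h) (ψ : H → ℂ)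
        / (ψ : H → ℂ) 1)) := by
  classical
  have hMp := hM.2.1.isPrime
  have hp := hM.1
  obtain ⟨hb, hB₀, hcc⟩ := hind
  -- the two class sums
  obtain ⟨SH, hSH⟩ : ∃ SH : ℂ, SH = ∑ C : ConjClasses G,
      (if p ∣ orderOf (Quotient.out C) then (0 : ℂ) else (χ : G → ℂ) (Quotient.out C)⁻¹)
        * Cfsg.inducedCentralChar H (ψ : H → ℂ) (Quotient.out C) := ⟨_, rfl⟩
  have hX := ind_ratio_formula p H χ ψ
  rw [← hSH] at hX
  have hmH : ¬ p ∣ Nat.card H / p ^ (Nat.card H).factorization p :=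
    Nat.not_dvd_ordCompl hp (Nat.card_pos (α := H)).ne'
  have hmG : ¬ p ∣ Nat.card G / p ^ (Nat.card G).factorization p :=
    Nat.not_dvd_ordCompl hp (Nat.card_pos (α := G)).ne'
  have hmH0 : ((Nat.card H / p ^ (Nat.card H).factorization p : ℕ) : ℂ) ≠ 0 := by
    intro h
    have h' : Nat.card H / p ^ (Nat.card H).factorization p = 0 := by exact_mod_cast h
    rw [h'] at hmH
    exact hmH (dvd_zero p)
  have hmG0 : ((Nat.card G / p ^ (Nat.card G).factorization p : ℕ) : ℂ) ≠ 0 := by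
    intro h
    have h' : Nat.card G / p ^ (Nat.card G).factorization p = 0 := by exact_mod_cast h
    rw [h'] at hmG
    exact hmG (dvd_zero p)
  -- difference of the class sums lies in the ideal
  have hdiff : ∀ ξ ∈ B₀, Cfsg.MemLocalIdeal M (SH - ∑ C : ConjClasses G,
      (if p ∣ orderOf (Quotient.out C) then (0 : ℂ) else (χ : G → ℂ) (Quotient.out C)⁻¹)
        * Cfsg.centralChar (ξ : G → ℂ) (Quotient.out C)) := by
    intro ξ hξ
    rw [hSH, ← Finset.sum_sub_distrib]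
    apply li_sum hMp
    intro C _
    rw [← mul_sub]
    apply li_mul hMp _ (hcc ψ hψ ξ hξ _)
    split_ifs
    · exact lr_int p M hM isIntegral_zero
    · exact lr_int p M hM (bcf_irr_isIntegral χ.2 _)
  have hinvH : Cfsg.MemLocalRing M
      ((1 : ℂ) / ((Nat.card H / p ^ (Nat.card H).factorization p : ℕ) : ℂ)) :=
    lr_div_nat p M hM isIntegral_one _ hmH
  have hinvG : Cfsg.MemLocalRing M
      ((1 : ℂ) / ((Nat.card G / p ^ (Nat.card G).factorization p : ℕ) : ℂ)) :=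
    lr_div_nat p M hM isIntegral_one _ hmG
  constructor
  · intro hχ
    rw [hX]
    obtain ⟨ξ, hξB, -⟩ := exists_height_zero M hMp p B₀ hB₀
    have hξn : ξ ∉ Cfsg.blockOf M (χ : G → ℂ) := by
      intro hmem
      have heq := block_eq_of_mem M hMp B₀ (Cfsg.blockOf M (χ : G → ℂ)) hB₀ ⟨χ, rfl⟩ ξ hξB hmem
      apply hχ
      rw [heq]
      exact sb_refl hMp _
    obtain ⟨m, hm0, -, hI⟩ := ht_inner_int p M hM (Cfsg.blockOf M (χ : G → ℂ)) ⟨χ, rfl⟩ χ
      (sb_refl hMp _)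
    have hY := ht_ratio_formula p χ ξ
    rw [hI ξ, hm0 ξ hξn] at hY
    have hS0 : ∑ C : ConjClasses G,
        (if p ∣ orderOf (Quotient.out C) then (0 : ℂ) else (χ : G → ℂ) (Quotient.out C)⁻¹)
          * Cfsg.centralChar (ξ : G → ℂ) (Quotient.out C) = 0 := by
      have h5 : ((((p : ℤ) ^ (Cfsg.charDegree (χ : G → ℂ)).factorization p * 0 : ℤ) : ℂ))
          / (ξ : G → ℂ) 1 = 0 := by simp
      rw [h5] at hY
      have h6 := hY.symm
      rw [div_eq_zero_iff] at h6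
      rcases h6 with h6 | h6
      · exact h6
      · exact absurd h6 hmG0
    have h7 := hdiff ξ hξB
    rw [hS0, sub_zero] at h7
    have h8 := li_mul hMp hinvH h7
    have h9 : (1 : ℂ) / ((Nat.card H / p ^ (Nat.card H).factorization p : ℕ) : ℂ) * SH
        = SH / ((Nat.card H / p ^ (Nat.card H).factorization p : ℕ) : ℂ) := by ring
    rwa [h9] at h8
  · intro hχ hht hli
    rw [hX] at hli
    have hmin : ∀ ξ ∈ B₀, (Cfsg.charDegree (χ : G → ℂ)).factorization p
        ≤ (Cfsg.charDegree (ξ : G → ℂ)).factorization p := by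
      intro ξ hξ
      unfold Cfsg.blockHeight at hht
      have h1 : sInf ((fun ψ : Cfsg.IrrCharacter G =>
          (Cfsg.charDegree (ψ : G → ℂ)).factorization p) '' B₀)
          ≤ (Cfsg.charDegree (ξ : G → ℂ)).factorization p := Nat.sInf_le ⟨ξ, hξ, rfl⟩
      omega
    apply ht_zero_crux p M hM B₀ hB₀ χ hχ hmin
    rw [ht_ratio_formula p χ χ]
    have h1 : Cfsg.MemLocalIdeal M SH := by
      have h2 := li_mul hMp (lr_nat p M hM (Nat.card H / p ^ (Nat.card H).factorization p)) hli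
      have h3 : ((Nat.card H / p ^ (Nat.card H).factorization p : ℕ) : ℂ)
          * (SH / ((Nat.card H / p ^ (Nat.card H).factorization p : ℕ) : ℂ)) = SH := by
        field_simp
      rwa [h3] at h2
    have h4 := li_sub hMp h1 (hdiff χ hχ)
    rw [sub_sub_cancel] at h4
    have h5 := li_mul hMp hinvG h4
    have h6 : ∀ z : ℂ, (1 : ℂ) / ((Nat.card G / p ^ (Nat.card G).factorization p : ℕ) : ℂ) * z
        = z / ((Nat.card G / p ^ (Nat.card G).factorization p : ℕ) : ℂ) := by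
      intro z; ring
    rwa [h6] at h5

end BlockInd1

end Cfsg.Agent.Lib.Helper6
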