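import Mathlib
import Cfsg.Prelude.Def_Blocks
import Cfsg.Agent.Lib.Helper6.BlockHt0
import Cfsg.Agent.Lib.Helper6.BlockRank3
import Cfsg.Agent.Lib.Lead.CharRing

set_option autoImplicit false

namespace Cfsg.Agent.Lib.Helper6

open Cfsg.Agent.Lib.Lead Cfsg.Agent.Lib.Helper2
open scoped ComplexConjugate

section BlockInd10

theorem row_self_dvd {G : Type*} [Group G] [Fintype G] (p : ℕ) [Fact p.Prime]
    (χ : Cfsg.IrrCharacter G) (mχ : ℤ)
    (hI : Cfsg.classInner (fun x : G => if p ∣ orderOf x then (0 : ℂ)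
        else ((p ^ (Nat.card G).factorization p : ℕ) : ℂ) * (χ : G → ℂ) x) (χ : G → ℂ)
      = (((p : ℤ) ^ (Cfsg.charDegree (χ : G → ℂ)).factorization p * mχ : ℤ) : ℂ))
    (hpm : (p : ℤ) ∣ mχ) :
    2 ≤ (Nat.card G).factorization p - (Cfsg.charDegree (χ : G → ℂ)).factorization p := by
  classical
  have hp := (Fact.out : p.Prime)
  obtain ⟨a, ha⟩ : ∃ a, a = (Nat.card G).factorization p := ⟨_, rfl⟩
  obtain ⟨ν, hν⟩ : ∃ ν, ν = (Cfsg.charDegree (χ : G → ℂ)).factorization p := ⟨_, rfl⟩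
  have hd0 : Cfsg.charDegree (χ : G → ℂ) ≠ 0 := (charDegree_pos_of_irr χ.2).ne'
  have hχdvd : Cfsg.charDegree (χ : G → ℂ) ∣ Nat.card G :=
    irr_degree_dvd_card χ _ (isIrrCharacter_one_eq_charDegree χ.2)
  have hν2 : ν ≤ a := by
    rw [hν, ha]
    exact (Nat.factorization_le_iff_dvd hd0 (Nat.card_pos).ne').2 hχdvd p
  rw [← hν] at hI
  rw [← ha, ← hν]
  obtain ⟨f, hf⟩ : ∃ f : G → ℝ, ∀ x, f x = Complex.normSq ((χ : G → ℂ) x) :=
    ⟨fun x => Complex.normSq ((χ : G → ℂ) x), fun _ => rfl⟩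
  have hf0 : ∀ x, 0 ≤ f x := fun x => by rw [hf]; exact Complex.normSq_nonneg _
  have htot : ∑ g : G, f g = (Nat.card G : ℝ) := by
    have h := irr_sum_conj χ χ
    rw [if_pos rfl, mul_one] at h
    have h2 : ((∑ g : G, f g : ℝ) : ℂ) = ((Nat.card G : ℝ) : ℂ) := by
      push_cast
      rw [← h]
      apply Finset.sum_congr rfl
      intro g _
      rw [hf, Complex.mul_conj]
    exact_mod_cast h2
  obtain ⟨s, hsdef⟩ : ∃ s : ℝ, s = ∑ x : G, (if p ∣ orderOf x then (0 : ℝ) else f x) :=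
    ⟨_, rfl⟩
  have hGne : (Nat.card G : ℂ) ≠ 0 := by exact_mod_cast (Nat.card_pos (α := G)).ne'
  have hNr : ((p ^ a : ℕ) : ℝ) * s = (Nat.card G : ℝ) * (((p : ℤ) ^ ν * mχ : ℤ) : ℝ) := by
    have hN := hI
    unfold Cfsg.classInner at hN
    rw [← ha] at hN
    have h2 : ∑ x : G, (if p ∣ orderOf x then (0 : ℂ)
          else ((p ^ a : ℕ) : ℂ) * (χ : G → ℂ) x) * conj ((χ : G → ℂ) x)
        = (((p ^ a : ℕ) : ℝ) * s : ℝ) := by
      rw [hsdef, Complex.ofReal_mul, Complex.ofReal_sum, Finset.mul_sum]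
      apply Finset.sum_congr rfl
      intro x _
      split_ifs with h
      · simp
      · rw [mul_assoc, Complex.mul_conj, hf]
        push_cast
        ring
    rw [h2] at hN
    have h3 : (((((p ^ a : ℕ) : ℝ) * s : ℝ)) : ℂ)
        = (Nat.card G : ℂ) * (((p : ℤ) ^ ν * mχ : ℤ) : ℂ) := by
      rw [← hN]
      field_simp
    exact_mod_cast h3
  have hsle : s ≤ (Nat.card G : ℝ) := by
    rw [hsdef, ← htot]
    apply Finset.sum_le_sum
    intro x _
    split_ifs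
    · exact hf0 x
    · exact le_refl _
  have hppos : (0 : ℝ) < (p : ℝ) := by exact_mod_cast hp.pos
  have hGpos : (0 : ℝ) < (Nat.card G : ℝ) := by exact_mod_cast (Nat.card_pos (α := G))
  have hspos : 0 < s := by
    rw [hsdef]
    have h1 : (if p ∣ orderOf (1 : G) then (0 : ℝ) else f 1)
        ≤ ∑ x : G, (if p ∣ orderOf x then (0 : ℝ) else f x) :=
      Finset.single_le_sum (f := fun x : G => if p ∣ orderOf x then (0 : ℝ) else f x)
        (fun x _ => by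
          split_ifs
          · exact le_refl _
          · exact hf0 x) (Finset.mem_univ 1)
    have h2 : ¬ p ∣ orderOf (1 : G) := by
      rw [orderOf_one]
      exact hp.one_lt.ne' ∘ Nat.dvd_one.1
    rw [if_neg h2, hf] at h1
    exact lt_of_lt_of_le (Complex.normSq_pos.2 (irr_one_ne_zero χ.2)) h1
  have hpow : ((p ^ a : ℕ) : ℝ) = (p : ℝ) ^ ν * (p : ℝ) ^ (a - ν) := by
    rw [← pow_add, Nat.add_sub_cancel' hν2]
    push_cast
    rfl
  have h5 : (p : ℝ) ^ (a - ν) * s = (Nat.card G : ℝ) * (mχ : ℝ) := by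
    have h6 : (p : ℝ) ^ ν * ((p : ℝ) ^ (a - ν) * s)
        = (p : ℝ) ^ ν * ((Nat.card G : ℝ) * (mχ : ℝ)) := by
      rw [hpow] at hNr
      push_cast at hNr
      linear_combination hNr
    exact mul_left_cancel₀ (pow_ne_zero _ hppos.ne') h6
  have hmposR : (0 : ℝ) < (mχ : ℝ) := by
    have h81 : 0 < (Nat.card G : ℝ) * (mχ : ℝ) := by
      rw [← h5]
      positivity
    exact (mul_pos_iff_of_pos_left hGpos).1 h81
  have hmpos : 0 < mχ := by exact_mod_cast hmposR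
  obtain ⟨c, hc⟩ := hpm
  have hcpos : 0 < c := by
    rw [hc] at hmpos
    exact (mul_pos_iff_of_pos_left (by exact_mod_cast hp.pos)).1 hmpos
  have hmpZ : (p : ℤ) ≤ mχ := by
    rw [hc]
    exact le_mul_of_one_le_right (Int.natCast_nonneg p) hcpos
  have hmp : (p : ℝ) ≤ (mχ : ℝ) := by exact_mod_cast hmpZ
  have hp1 : (1 : ℝ) < (p : ℝ) := by exact_mod_cast hp.one_lt
  have hGm : (Nat.card G : ℝ) * (p : ℝ) ≤ (Nat.card G : ℝ) * (mχ : ℝ) :=
    mul_le_mul_of_nonneg_left hmp hGpos.le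
  have hGp : (Nat.card G : ℝ) < (Nat.card G : ℝ) * (p : ℝ) := by
    have := mul_lt_mul_of_pos_left hp1 hGpos
    rwa [mul_one] at this
  have hk0 : a - ν ≠ 0 := by
    intro hk0
    rw [hk0, pow_zero, one_mul] at h5
    linarith
  by_contra hlt
  have hk : a - ν = 1 := by omega
  rw [hk, pow_one] at h5
  have hsG : s = (Nat.card G : ℝ) := by
    apply le_antisymm hsle
    have h9 : (p : ℝ) * (Nat.card G : ℝ) ≤ (p : ℝ) * s := by
      rw [h5, mul_comm (p : ℝ)]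
      exact hGm
    exact le_of_mul_le_mul_left h9 hppos
  have hvan : ∀ x : G, p ∣ orderOf x → (χ : G → ℂ) x = 0 := by
    have hz : ∑ x : G, (if p ∣ orderOf x then f x else 0) = 0 := by
      have h7 : ∑ x : G, (if p ∣ orderOf x then f x else 0) + s = ∑ g : G, f g := by
        rw [hsdef, ← Finset.sum_add_distrib]
        apply Finset.sum_congr rfl
        intro x _
        split_ifs <;> simp
      rw [htot, hsG] at h7
      linarith
    intro x hx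
    have h8 := (Finset.sum_eq_zero_iff_of_nonneg (fun x _ => by
      split_ifs
      · exact hf0 x
      · exact le_refl _)).1 hz x (Finset.mem_univ x)
    rw [if_pos hx, hf] at h8
    exact Complex.normSq_eq_zero.1 h8
  obtain ⟨P⟩ : Nonempty (Sylow p G) := inferInstance
  letI : Fintype (P : Subgroup G) := Fintype.ofFinite _
  obtain ⟨n, hn⟩ := sylow_sum_char p P χ
  rw [sylow_sum_vanish p P (χ : G → ℂ) hvan, isIrrCharacter_one_eq_charDegree χ.2,
    ← ha] at hn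
  have hdn : Cfsg.charDegree (χ : G → ℂ) = p ^ a * n := by exact_mod_cast hn
  have hle : a ≤ ν := by
    rw [hν]
    exact (Nat.Prime.pow_dvd_iff_le_factorization hp hd0).1 ⟨n, hdn⟩
  omega

theorem row_sq_sum {G : Type*} [Group G] [Fintype G] [Fintype (Cfsg.IrrCharacter G)]
    (p : ℕ) [Fact p.Prime]
    (M : Ideal Cfsg.AlgInt) (hM : Cfsg.IsPModular p M) (B : Set (Cfsg.IrrCharacter G))
    (hB : Cfsg.IsPBlock M B) (χ₀ : Cfsg.IrrCharacter G) (hχ₀ : χ₀ ∈ B) :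
    ∃ m : Cfsg.IrrCharacter G → ℤ, (∀ ψ, ψ ∉ B → m ψ = 0) ∧
      (∀ ξ : Cfsg.IrrCharacter G, Cfsg.classInner (fun x : G => if p ∣ orderOf x then (0 : ℂ)
          else ((p ^ (Nat.card G).factorization p : ℕ) : ℂ) * (χ₀ : G → ℂ) x) (ξ : G → ℂ)
        = (((p : ℤ) ^ (Cfsg.charDegree (χ₀ : G → ℂ)).factorization p * m ξ : ℤ) : ℂ)) ∧
      ∑ ξ : Cfsg.IrrCharacter G, m ξ * m ξ
        = (p : ℤ) ^ ((Nat.card G).factorization p
          - (Cfsg.charDegree (χ₀ : G → ℂ)).factorization p) * m χ₀ := by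
  classical
  have hMp := hM.2.1.isPrime
  have hp := hM.1
  obtain ⟨a, ha⟩ : ∃ a, a = (Nat.card G).factorization p := ⟨_, rfl⟩
  obtain ⟨ν, hν⟩ : ∃ ν, ν = (Cfsg.charDegree (χ₀ : G → ℂ)).factorization p := ⟨_, rfl⟩
  have hd0 : Cfsg.charDegree (χ₀ : G → ℂ) ≠ 0 := (charDegree_pos_of_irr χ₀.2).ne'
  have hχdvd : Cfsg.charDegree (χ₀ : G → ℂ) ∣ Nat.card G :=
    irr_degree_dvd_card χ₀ _ (isIrrCharacter_one_eq_charDegree χ₀.2)
  have hν2 : ν ≤ a := by
    rw [hν, ha]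
    exact (Nat.factorization_le_iff_dvd hd0 (Nat.card_pos).ne').2 hχdvd p
  obtain ⟨m, hm0, hexp, hI⟩ := ht_inner_int p M hM B hB χ₀ hχ₀
  rw [← hν, ← ha] at hexp
  have hI' := hI
  rw [← hν] at hI
  obtain ⟨Θ, hΘ⟩ : ∃ Θ : G → ℂ, ∀ x, Θ x = if p ∣ orderOf x then (0 : ℂ)
      else ((p ^ (a - ν) : ℕ) : ℂ) * (χ₀ : G → ℂ) x :=
    ⟨fun x => if p ∣ orderOf x then (0 : ℂ) else ((p ^ (a - ν) : ℕ) : ℂ) * (χ₀ : G → ℂ) x,
      fun _ => rfl⟩
  have hΘexp : ∀ x, Θ x = ∑ ψ : Cfsg.IrrCharacter G, (m ψ : ℂ) * (ψ : G → ℂ) x := by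
    intro x
    rw [hΘ x, hexp x, finsum_eq_sum_of_fintype]
  have hpsplit : ((p ^ a : ℕ) : ℂ) = ((p ^ ν : ℕ) : ℂ) * ((p ^ (a - ν) : ℕ) : ℂ) := by
    rw [← Nat.cast_mul, ← pow_add, Nat.add_sub_cancel' hν2]
  have hpν0 : ((p ^ ν : ℕ) : ℂ) ≠ 0 := by exact_mod_cast (pow_pos hp.pos ν).ne'
  have hΘin : ∀ ξ : Cfsg.IrrCharacter G, Cfsg.classInner Θ (ξ : G → ℂ) = (m ξ : ℂ) := by
    intro ξ
    have h1 := hI ξ
    have h2 : Cfsg.classInner (fun x : G => if p ∣ orderOf x then (0 : ℂ)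
          else ((p ^ (Nat.card G).factorization p : ℕ) : ℂ) * (χ₀ : G → ℂ) x) (ξ : G → ℂ)
        = ((p ^ ν : ℕ) : ℂ) * Cfsg.classInner Θ (ξ : G → ℂ) := by
      unfold Cfsg.classInner
      rw [← ha, mul_left_comm]
      congr 1
      rw [Finset.mul_sum]
      apply Finset.sum_congr rfl
      intro x _
      rw [hΘ x]
      by_cases hx : p ∣ orderOf x
      · simp only [if_pos hx]
        ring
      · simp only [if_neg hx]
        rw [hpsplit]
        ring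
    rw [h2] at h1
    have h3 : ((p ^ ν : ℕ) : ℂ) * Cfsg.classInner Θ (ξ : G → ℂ)
        = ((p ^ ν : ℕ) : ℂ) * (m ξ : ℂ) := by
      rw [h1]
      push_cast
      ring
    exact mul_left_cancel₀ hpν0 h3
  have hconj : ∀ x, conj (Θ x)
      = ∑ ξ : Cfsg.IrrCharacter G, (m ξ : ℂ) * conj ((ξ : G → ℂ) x) := by
    intro x
    rw [hΘexp x, map_sum]
    apply Finset.sum_congr rfl
    intro ξ _
    rw [map_mul, map_intCast]
  have hQ : Cfsg.classInner Θ Θ = ∑ ξ : Cfsg.IrrCharacter G, (m ξ : ℂ) * (m ξ : ℂ) := by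
    calc Cfsg.classInner Θ Θ = (Nat.card G : ℂ)⁻¹ * ∑ x : G, Θ x * conj (Θ x) := rfl
      _ = (Nat.card G : ℂ)⁻¹ * ∑ x : G, ∑ ξ : Cfsg.IrrCharacter G,
            (m ξ : ℂ) * (Θ x * conj ((ξ : G → ℂ) x)) := by
          congr 1
          apply Finset.sum_congr rfl
          intro x _
          rw [hconj x, Finset.mul_sum]
          apply Finset.sum_congr rfl
          intro ξ _
          ring
      _ = ∑ ξ : Cfsg.IrrCharacter G, (m ξ : ℂ)
            * ((Nat.card G : ℂ)⁻¹ * ∑ x : G, Θ x * conj ((ξ : G → ℂ) x)) := by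
          rw [Finset.sum_comm, Finset.mul_sum]
          apply Finset.sum_congr rfl
          intro ξ _
          rw [← Finset.mul_sum]
          ring
      _ = ∑ ξ : Cfsg.IrrCharacter G, (m ξ : ℂ) * (m ξ : ℂ) := by
          apply Finset.sum_congr rfl
          intro ξ _
          have h := hΘin ξ
          unfold Cfsg.classInner at h
          rw [h]
  have hQ2 : Cfsg.classInner Θ Θ = ((p ^ (a - ν) : ℕ) : ℂ) * (m χ₀ : ℂ) := by
    rw [← hΘin χ₀]
    unfold Cfsg.classInner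
    rw [mul_left_comm]
    congr 1
    rw [Finset.mul_sum]
    apply Finset.sum_congr rfl
    intro x _
    rw [hΘ x]
    split_ifs with hx
    · simp
    · rw [map_mul, Complex.conj_natCast]
      ring
  have hint : ∑ ξ : Cfsg.IrrCharacter G, m ξ * m ξ = (p : ℤ) ^ (a - ν) * m χ₀ := by
    have h : ((∑ ξ : Cfsg.IrrCharacter G, m ξ * m ξ : ℤ) : ℂ)
        = (((p : ℤ) ^ (a - ν) * m χ₀ : ℤ) : ℂ) := by
      push_cast
      rw [← hQ, hQ2]
      push_cast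
      ring
    exact_mod_cast h
  refine ⟨m, hm0, hI', ?_⟩
  rw [← ha, ← hν]
  exact hint

theorem brauer_feit_height {G : Type*} [Group G] [Finite G] (p : ℕ) [Fact p.Prime]
    (M : Ideal Cfsg.AlgInt) (hM : Cfsg.IsPModular p M) (B : Set (Cfsg.IrrCharacter G))
    (hB : Cfsg.IsPBlock M B) (d : ℕ) (hd : Cfsg.blockDefect p B = d) :
    ((∃ χ ∈ B, 0 < Cfsg.blockHeight p B (χ : G → ℂ)) → 2 * Nat.card B ≤ p ^ (2 * d - 2)) ∧
    ∀ χ ∈ B, (d ≤ 1 → Cfsg.blockHeight p B (χ : G → ℂ) = 0) ∧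
      (2 ≤ d → Cfsg.blockHeight p B (χ : G → ℂ) ≤ d - 2) := by
  classical
  letI := Fintype.ofFinite G
  haveI : Finite (Cfsg.IrrCharacter G) := irr_finite'
  letI := Fintype.ofFinite (Cfsg.IrrCharacter G)
  have hMp := hM.2.1.isPrime
  have hp := hM.1
  obtain ⟨χ₀, hχ₀, hχ₀min⟩ := exists_height_zero M hMp p B hB
  obtain ⟨a, ha⟩ : ∃ a, a = (Nat.card G).factorization p := ⟨_, rfl⟩
  obtain ⟨ν₀, hν₀⟩ : ∃ ν₀, ν₀ = (Cfsg.charDegree (χ₀ : G → ℂ)).factorization p := ⟨_, rfl⟩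
  have hdeg_le : ∀ ξ : Cfsg.IrrCharacter G,
      (Cfsg.charDegree (ξ : G → ℂ)).factorization p ≤ a := by
    intro ξ
    rw [ha]
    exact (Nat.factorization_le_iff_dvd (charDegree_pos_of_irr ξ.2).ne' (Nat.card_pos).ne').2
      (irr_degree_dvd_card ξ _ (isIrrCharacter_one_eq_charDegree ξ.2)) p
  have hdd : d = a - ν₀ := by
    rw [← hd]
    unfold Cfsg.blockDefect
    rw [← hχ₀min, ← hν₀, ← ha]
  have hhtdef : ∀ ξ : Cfsg.IrrCharacter G, Cfsg.blockHeight p B (ξ : G → ℂ)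
      = (Cfsg.charDegree (ξ : G → ℂ)).factorization p - ν₀ := by
    intro ξ
    unfold Cfsg.blockHeight
    rw [← hχ₀min, ← hν₀]
  have hminle : ∀ ξ ∈ B, ν₀ ≤ (Cfsg.charDegree (ξ : G → ℂ)).factorization p := by
    intro ξ hξ
    rw [hν₀, hχ₀min]
    exact Nat.sInf_le ⟨ξ, hξ, rfl⟩
  have hht0 : Cfsg.blockHeight p B (χ₀ : G → ℂ) = 0 := by
    rw [hhtdef, ← hν₀]
    exact Nat.sub_self _
  have hkey : ∀ χ ∈ B, Cfsg.blockHeight p B (χ : G → ℂ) ≠ 0 →
      2 ≤ a - (Cfsg.charDegree (χ : G → ℂ)).factorization p := by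
    intro χ hχ hpos
    obtain ⟨m, hm0, -, hI⟩ := ht_inner_int p M hM B hB χ hχ
    have hpm : (p : ℤ) ∣ m χ := by
      by_contra hnd
      apply hpos
      have hmne : m χ ≠ 0 := by
        intro h
        apply hnd
        rw [h]
        exact dvd_zero _
      have hpz : ((p : ℤ) ^ (Cfsg.charDegree (χ : G → ℂ)).factorization p) ≠ 0 :=
        pow_ne_zero _ (by exact_mod_cast hp.ne_zero)
      apply (ht_zero_main p M hM B hB χ hχ).1.2
      refine ⟨χ, hχ, _, hI χ, mul_ne_zero hpz hmne, ?_⟩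
      rw [padicValInt.mul hpz hmne, padicValInt.eq_zero_of_not_dvd hnd, add_zero,
        ← Nat.cast_pow, padicValInt.of_nat, padicValNat.prime_pow]
    rw [ha]
    exact row_self_dvd p χ (m χ) (hI χ) hpm
  refine ⟨?_, ?_⟩
  · rintro ⟨χ₁, hχ₁, hpos₁⟩
    obtain ⟨ν₁, hν₁⟩ : ∃ ν₁, ν₁ = (Cfsg.charDegree (χ₁ : G → ℂ)).factorization p := ⟨_, rfl⟩
    have hk1 := hkey χ₁ hχ₁ hpos₁.ne'
    have hh1 := hhtdef χ₁
    have hm1 := hminle χ₁ hχ₁
    rw [← hν₁] at hk1 hh1 hm1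
    obtain ⟨m, hm0, hmI, hmsum⟩ := row_sq_sum p M hM B hB χ₀ hχ₀
    obtain ⟨n, hn0, hnI, hnsum⟩ := row_sq_sum p M hM B hB χ₁ hχ₁
    rw [← hν₀] at hmI hmsum
    rw [← ha] at hmsum
    rw [← hν₁] at hnI hnsum
    rw [← ha] at hnsum
    have hmfacts : ∀ ξ ∈ B, m ξ ≠ 0 ∧
        (Cfsg.blockHeight p B (ξ : G → ℂ) ≠ 0 → (p : ℤ) ∣ m ξ) := by
      intro ξ hξ
      obtain ⟨z, hz, hz0, hzv⟩ := ((ht_zero_main p M hM B hB χ₀ hχ₀).2.1 hht0) ξ hξ
      rw [hmI ξ] at hz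
      have hz' : (p : ℤ) ^ ν₀ * m ξ = z := by exact_mod_cast hz
      rw [← hz'] at hzv hz0
      have hmξ : m ξ ≠ 0 := by
        intro h
        rw [h, mul_zero] at hz0
        exact hz0 rfl
      refine ⟨hmξ, ?_⟩
      intro hpos
      by_contra hnd
      apply hpos
      have hpz : ((p : ℤ) ^ ν₀) ≠ 0 := pow_ne_zero _ (by exact_mod_cast hp.ne_zero)
      rw [padicValInt.mul hpz hmξ, ← Nat.cast_pow, padicValInt.of_nat,
        padicValNat.prime_pow, padicValInt.eq_zero_of_not_dvd hnd, add_zero] at hzv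
      rw [hhtdef, ← hzv]
      exact Nat.sub_self _
    have hnfacts : ∀ ξ ∈ B, Cfsg.blockHeight p B (ξ : G → ℂ) = 0 → n ξ ≠ 0 := by
      intro ξ hξ hξ0 hz
      obtain ⟨z, hz1, hz0, -⟩ := ((ht_zero_main p M hM B hB ξ hξ).2.1 hξ0) χ₁ hχ₁
      have hs := ht_inner_symm p ((Nat.card G).factorization p) (χ₁ : G → ℂ) (ξ : G → ℂ)
      rw [hnI ξ, hz, mul_zero, hz1] at hs
      apply hz0
      have h := hs.symm
      rw [map_intCast] at h
      exact_mod_cast h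
    obtain ⟨P₀, hP₀⟩ : ∃ P₀ : ℤ, P₀ = (p : ℤ) ^ (a - ν₀) := ⟨_, rfl⟩
    obtain ⟨P₁, hP₁⟩ : ∃ P₁ : ℤ, P₁ = (p : ℤ) ^ (a - ν₁) := ⟨_, rfl⟩
    rw [← hP₀] at hmsum
    rw [← hP₁] at hnsum
    obtain ⟨K₀, hK₀⟩ : ∃ K₀ : ℤ, K₀ = ∑ ξ : Cfsg.IrrCharacter G,
        (if ξ ∈ B ∧ Cfsg.blockHeight p B (ξ : G → ℂ) = 0 then (1 : ℤ) else 0) := ⟨_, rfl⟩
    obtain ⟨K₁, hK₁⟩ : ∃ K₁ : ℤ, K₁ = ∑ ξ : Cfsg.IrrCharacter G,
        (if ξ ∈ B ∧ Cfsg.blockHeight p B (ξ : G → ℂ) ≠ 0 then (1 : ℤ) else 0) := ⟨_, rfl⟩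
    have hKsum : K₀ + K₁ = (Nat.card B : ℤ) := by
      rw [hK₀, hK₁, ← Finset.sum_add_distrib]
      have h4 : ∑ ξ : Cfsg.IrrCharacter G, (if ξ ∈ B then (1 : ℤ) else 0)
          = (Nat.card B : ℤ) := by
        rw [← Finset.sum_filter, Finset.sum_const, nsmul_eq_mul, mul_one]
        congr 1
        exact (Nat.subtype_card (Finset.univ.filter (· ∈ B)) (by intro x; simp)).symm
      rw [← h4]
      apply Finset.sum_congr rfl
      intro ξ _
      by_cases h1 : ξ ∈ B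
      · by_cases h2 : Cfsg.blockHeight p B (ξ : G → ℂ) = 0
        · simp [h1, h2]
        · simp [h1, h2]
      · simp [h1]
    have hb1 : (p : ℤ) ^ 2 * K₁ + m χ₀ * m χ₀ ≤ P₀ * m χ₀ := by
      rw [← hmsum, hK₁, Finset.mul_sum]
      have h3 : m χ₀ * m χ₀
          = ∑ ξ : Cfsg.IrrCharacter G, (if ξ = χ₀ then m χ₀ * m χ₀ else 0) := by
        rw [Finset.sum_ite_eq' Finset.univ χ₀ (fun _ => m χ₀ * m χ₀),
          if_pos (Finset.mem_univ _)]
      rw [h3, ← Finset.sum_add_distrib]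
      apply Finset.sum_le_sum
      intro ξ _
      by_cases h1 : ξ ∈ B ∧ Cfsg.blockHeight p B (ξ : G → ℂ) ≠ 0
      · have h2 : ξ ≠ χ₀ := by
          rintro rfl
          exact h1.2 hht0
        rw [if_pos h1, if_neg h2, mul_one, add_zero]
        obtain ⟨c, hc⟩ := (hmfacts ξ h1.1).2 h1.2
        have hc0 : c ≠ 0 := by
          rintro rfl
          rw [mul_zero] at hc
          exact (hmfacts ξ h1.1).1 hc
        have hc1 : 1 ≤ c * c := by
          have := mul_self_pos.2 hc0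
          omega
        rw [hc]
        nlinarith [mul_nonneg (sq_nonneg (p : ℤ)) (sub_nonneg.2 hc1)]
      · rw [if_neg h1, mul_zero, zero_add]
        by_cases h2 : ξ = χ₀
        · rw [if_pos h2, h2]
        · rw [if_neg h2]
          exact mul_self_nonneg _
    have hb2 : K₀ + n χ₁ * n χ₁ ≤ P₁ * n χ₁ := by
      rw [← hnsum, hK₀]
      have h3 : n χ₁ * n χ₁
          = ∑ ξ : Cfsg.IrrCharacter G, (if ξ = χ₁ then n χ₁ * n χ₁ else 0) := by
        rw [Finset.sum_ite_eq' Finset.univ χ₁ (fun _ => n χ₁ * n χ₁),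
          if_pos (Finset.mem_univ _)]
      rw [h3, ← Finset.sum_add_distrib]
      apply Finset.sum_le_sum
      intro ξ _
      by_cases h1 : ξ ∈ B ∧ Cfsg.blockHeight p B (ξ : G → ℂ) = 0
      · have h2 : ξ ≠ χ₁ := by
          rintro rfl
          exact hpos₁.ne' h1.2
        rw [if_pos h1, if_neg h2, add_zero]
        have := mul_self_pos.2 (hnfacts ξ h1.1 h1.2)
        omega
      · rw [if_neg h1, zero_add]
        by_cases h2 : ξ = χ₁
        · rw [if_pos h2, h2]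
        · rw [if_neg h2]
          exact mul_self_nonneg _
    have hν01 : ν₀ < ν₁ := by omega
    have hd1 : 1 ≤ d := by omega
    obtain ⟨Q, hQ⟩ : ∃ Q : ℤ, Q = (p : ℤ) ^ (d - 1) := ⟨_, rfl⟩
    have hpZ : (0 : ℤ) < (p : ℤ) := by exact_mod_cast hp.pos
    have hP₀Q : P₀ = (p : ℤ) * Q := by
      rw [hP₀, hQ, ← pow_succ']
      congr 1
      omega
    have hP₁Q : P₁ ≤ Q := by
      rw [hP₁, hQ]
      exact pow_le_pow_right₀ (by exact_mod_cast hp.one_lt.le) (by omega)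
    have hP₁0 : 0 ≤ P₁ := by
      rw [hP₁]
      positivity
    have h4K₁ : 4 * K₁ ≤ Q ^ 2 := by
      have h : (p : ℤ) ^ 2 * (4 * K₁) ≤ (p : ℤ) ^ 2 * Q ^ 2 := by
        rw [hP₀Q] at hb1
        nlinarith [sq_nonneg ((p : ℤ) * Q - 2 * m χ₀)]
      exact le_of_mul_le_mul_left h (pow_pos hpZ 2)
    have h4K₀ : 4 * K₀ ≤ Q ^ 2 := by
      have h : 4 * K₀ ≤ P₁ ^ 2 := by nlinarith [sq_nonneg (P₁ - 2 * n χ₁)]
      have h' : P₁ ^ 2 ≤ Q ^ 2 := by nlinarith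
      linarith
    have hfinZ : (2 * (Nat.card B : ℤ)) ≤ Q ^ 2 := by
      rw [← hKsum]
      linarith
    have hQ2 : ((p ^ (2 * d - 2) : ℕ) : ℤ) = Q ^ 2 := by
      rw [hQ, ← pow_mul]
      push_cast
      congr 1
      omega
    have hfin : ((2 * Nat.card B : ℕ) : ℤ) ≤ ((p ^ (2 * d - 2) : ℕ) : ℤ) := by
      rw [hQ2]
      push_cast
      exact hfinZ
    exact_mod_cast hfin
  · intro χ hχ
    by_cases hz : Cfsg.blockHeight p B (χ : G → ℂ) = 0
    · exact ⟨fun _ => hz, fun _ => by rw [hz]; exact Nat.zero_le _⟩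
    · have h2 := hkey χ hχ hz
      have h3 := hhtdef χ
      have h4 := hminle χ hχ
      have h5 := hdeg_le χ
      constructor
      · intro hd1
        omega
      · intro _
        omega

end BlockInd10

end Cfsg.Agent.Lib.Helper6
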