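import Mathlib
import Cfsg.Prelude.Def_Blocks
import Cfsg.Agent.Lib.Helper6.BlockHt0
import Cfsg.Agent.Lib.Helper6.BlockRank3
import Cfsg.Agent.Lib.Helper6.BlockProj
import Cfsg.Agent.Lib.Helper6.BlockBasic
import Cfsg.Agent.Lib.Lead.CharRing

set_option autoImplicit false

namespace Cfsg.Agent.Lib.Helper6

open Cfsg.Agent.Lib.Lead Cfsg.Agent.Lib.Helper2
open scoped ComplexConjugate

section BlockInd11

theorem block_sq_val {G : Type*} [Group G] [Finite G] (p : ℕ) [Fact p.Prime]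
    (M : Ideal Cfsg.AlgInt) (hM : Cfsg.IsPModular p M) (B : Set (Cfsg.IrrCharacter G))
    (hB : Cfsg.IsPBlock M B) :
    (∑ᶠ χ ∈ B, Cfsg.charDegree (χ : G → ℂ) ^ 2).factorization p
      = 2 * (Nat.card G).factorization p - Cfsg.blockDefect p B := by
  classical
  letI := Fintype.ofFinite G
  haveI : Finite (Cfsg.IrrCharacter G) := irr_finite'
  letI := Fintype.ofFinite (Cfsg.IrrCharacter G)
  have hMp := hM.2.1.isPrime
  have hp := hM.1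
  have hpC : (p : ℂ) ≠ 0 := by exact_mod_cast hp.ne_zero
  have hpZ : (p : ℤ) ≠ 0 := by exact_mod_cast hp.ne_zero
  have hpprime : Prime (p : ℤ) := Nat.prime_iff_prime_int.1 hp
  obtain ⟨χ₀, hχ₀, hχ₀min⟩ := exists_height_zero M hMp p B hB
  obtain ⟨a, ha⟩ : ∃ a, a = (Nat.card G).factorization p := ⟨_, rfl⟩
  obtain ⟨ν₀, hν₀⟩ : ∃ ν₀, ν₀ = (Cfsg.charDegree (χ₀ : G → ℂ)).factorization p := ⟨_, rfl⟩
  have hν0a : ν₀ ≤ a := by
    rw [hν₀, ha]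
    exact (Nat.factorization_le_iff_dvd (charDegree_pos_of_irr χ₀.2).ne' (Nat.card_pos).ne').2
      (irr_degree_dvd_card χ₀ _ (isIrrCharacter_one_eq_charDegree χ₀.2)) p
  have hdd : Cfsg.blockDefect p B = a - ν₀ := by
    unfold Cfsg.blockDefect
    rw [← hχ₀min, ← hν₀, ← ha]
  have hht0 : Cfsg.blockHeight p B (χ₀ : G → ℂ) = 0 := by
    unfold Cfsg.blockHeight
    rw [← hχ₀min]
    exact Nat.sub_self _
  have hminle : ∀ ξ ∈ B, ν₀ ≤ (Cfsg.charDegree (ξ : G → ℂ)).factorization p := by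
    intro ξ hξ
    rw [hν₀, hχ₀min]
    exact Nat.sInf_le ⟨ξ, hξ, rfl⟩
  obtain ⟨T, hT⟩ : ∃ T : Finset (Cfsg.IrrCharacter G), T = (Set.toFinite B).toFinset := ⟨_, rfl⟩
  have hTmem : ∀ θ, θ ∈ T ↔ θ ∈ B := by
    intro θ
    rw [hT, Set.Finite.mem_toFinset]
  obtain ⟨u, hu⟩ : ∃ u : Cfsg.IrrCharacter G → ℕ,
      ∀ ψ, u ψ = Cfsg.charDegree (ψ : G → ℂ) / p ^ ν₀ := ⟨_, fun _ => rfl⟩
  have hdeg : ∀ ψ ∈ T, Cfsg.charDegree (ψ : G → ℂ) = p ^ ν₀ * u ψ := by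
    intro ψ hψ
    rw [hu ψ]
    exact (Nat.mul_div_cancel' ((Nat.Prime.pow_dvd_iff_le_factorization hp
      (charDegree_pos_of_irr ψ.2).ne').2 (hminle ψ ((hTmem ψ).1 hψ)))).symm
  have hχ₀T : χ₀ ∈ T := (hTmem χ₀).2 hχ₀
  have hu0 : ¬ p ∣ u χ₀ := by
    rw [hu χ₀, hν₀]
    exact Nat.not_dvd_ordCompl hp (charDegree_pos_of_irr χ₀.2).ne'
  have hupos : ∀ ψ ∈ T, u ψ ≠ 0 := by
    intro ψ hψ h0
    have h1 := hdeg ψ hψ
    rw [h0, mul_zero] at h1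
    exact (charDegree_pos_of_irr ψ.2).ne' h1
  obtain ⟨m, hm0, hexp, hI⟩ := ht_inner_int p M hM B hB χ₀ hχ₀
  rw [← hν₀, ← ha] at hexp
  rw [← hν₀] at hI
  have hone : ∀ ψ : Cfsg.IrrCharacter G, (ψ : G → ℂ) 1 = (Cfsg.charDegree (ψ : G → ℂ) : ℂ) :=
    fun ψ => isIrrCharacter_one_eq_charDegree ψ.2
  have hpν : ((p : ℂ) ^ ν₀) ≠ 0 := pow_ne_zero _ hpC
  -- p ∤ m χ₀
  have hm0nd : ¬ (p : ℤ) ∣ m χ₀ := by
    intro hdvd
    obtain ⟨z, hz, hz0, hzv⟩ := ((ht_zero_main p M hM B hB χ₀ hχ₀).2.1 hht0) χ₀ hχ₀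
    rw [hI χ₀] at hz
    have hz' : (p : ℤ) ^ ν₀ * m χ₀ = z := by exact_mod_cast hz
    rw [← hz'] at hzv hz0
    have hmξ : m χ₀ ≠ 0 := by
      intro h
      rw [h, mul_zero] at hz0
      exact hz0 rfl
    have hpz : ((p : ℤ) ^ ν₀) ≠ 0 := pow_ne_zero _ hpZ
    rw [padicValInt.mul hpz hmξ, ← Nat.cast_pow, padicValInt.of_nat,
      padicValNat.prime_pow, ← hν₀] at hzv
    have h1 : (p : ℤ) ^ 1 ∣ m χ₀ := by rwa [pow_one]
    rcases (padicValInt_dvd_iff 1 (m χ₀)).1 h1 with h2 | h2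
    · exact hmξ h2
    · omega
  -- (E1)
  have hE1 : ∑ ψ ∈ T, m ψ * (u ψ : ℤ) = (p : ℤ) ^ (a - ν₀) * (u χ₀ : ℤ) := by
    have h1 := hexp 1
    have h2 : ¬ p ∣ orderOf (1 : G) := by
      rw [orderOf_one]
      exact hp.one_lt.ne' ∘ Nat.dvd_one.1
    rw [if_neg h2, finsum_eq_sum_of_fintype] at h1
    have hsub : ∑ ψ ∈ T, (m ψ : ℂ) * (ψ : G → ℂ) 1
        = ∑ ψ : Cfsg.IrrCharacter G, (m ψ : ℂ) * (ψ : G → ℂ) 1 := by
      apply Finset.sum_subset (Finset.subset_univ T)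
      intro ψ _ hψ
      rw [hm0 ψ (fun h => hψ ((hTmem ψ).2 h))]
      simp
    have h3 : ∑ ψ ∈ T, (m ψ : ℂ) * (ψ : G → ℂ) 1
        = ((p : ℂ) ^ ν₀) * ((∑ ψ ∈ T, m ψ * (u ψ : ℤ) : ℤ) : ℂ) := by
      push_cast
      rw [Finset.mul_sum]
      apply Finset.sum_congr rfl
      intro ψ hψ
      rw [hone ψ, hdeg ψ hψ]
      push_cast
      ring
    rw [← hsub, h3, hone χ₀, hdeg χ₀ hχ₀T] at h1
    have h4 : ((p : ℂ) ^ ν₀) * ((∑ ψ ∈ T, m ψ * (u ψ : ℤ) : ℤ) : ℂ)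
        = ((p : ℂ) ^ ν₀) * ((((p : ℤ) ^ (a - ν₀) * (u χ₀ : ℤ) : ℤ)) : ℂ) := by
      rw [← h1]
      push_cast
      ring
    have h5 := mul_left_cancel₀ hpν h4
    exact_mod_cast h5
  -- same block
  obtain ⟨χB, hBdef⟩ := id hB
  have hsameB : ∀ ξ ∈ B, ∀ ξ' ∈ B, Cfsg.SameBlock M (ξ : G → ℂ) (ξ' : G → ℂ) := by
    intro ξ hξ ξ' hξ'
    rw [hBdef] at hξ hξ'
    exact sb_trans hMp (sb_symm hMp hξ) hξ'
  -- (E2)
  have hE2 : ∀ ψ ∈ T, (p : ℤ) ∣ m ψ * (u χ₀ : ℤ) - m χ₀ * (u ψ : ℤ) := by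
    intro ψ hψ
    have hψB := (hTmem ψ).1 hψ
    have hli := ht_ratio_li p M hM χ₀ ψ χ₀ (hsameB ψ hψB χ₀ hχ₀)
    rw [hI ψ, hI χ₀, hone ψ, hone χ₀, hdeg ψ hψ, hdeg χ₀ hχ₀T] at hli
    have h2 := li_mul hMp (lr_nat p M hM (u ψ * u χ₀)) hli
    apply li_int_dvd p M hM
    have huψ : (u ψ : ℂ) ≠ 0 := by exact_mod_cast hupos ψ hψ
    have hu0' : (u χ₀ : ℂ) ≠ 0 := by exact_mod_cast hupos χ₀ hχ₀T
    convert h2 using 1
    push_cast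
    field_simp
  choose! z hz using hE2
  have hvan : ∀ x : G, p ∣ orderOf x → ∑ ψ ∈ T, (z ψ : ℂ) * (ψ : G → ℂ) x = 0 := by
    intro x hx
    have h1 : ∑ ψ ∈ T, (m ψ : ℂ) * (ψ : G → ℂ) x = 0 := by
      have h2 := hexp x
      rw [if_pos hx, finsum_eq_sum_of_fintype] at h2
      rw [h2]
      apply Finset.sum_subset (Finset.subset_univ T)
      intro ψ _ hψ
      rw [hm0 ψ (fun h => hψ ((hTmem ψ).2 h))]
      simp
    have h3 : ∑ ψ ∈ T, (u ψ : ℂ) * (ψ : G → ℂ) x = 0 := by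
      have h4 := blockCoeff_psingular p M hM B (block_closed M hMp B hB) x⁻¹
        (by rw [orderOf_inv]; exact hx)
      rw [bb_coeff_sum B x⁻¹] at h4
      have hGne : (Nat.card G : ℂ) ≠ 0 := by exact_mod_cast (Nat.card_pos (α := G)).ne'
      have h5 : ∑ θ : Cfsg.IrrCharacter G,
          (if θ ∈ B then (θ : G → ℂ) 1 * conj ((θ : G → ℂ) x⁻¹) else 0) = 0 := by
        rcases mul_eq_zero.1 h4 with h6 | h6
        · exact absurd (inv_eq_zero.1 h6) hGne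
        · exact h6
      have h7 : ∑ θ : Cfsg.IrrCharacter G,
          (if θ ∈ B then (θ : G → ℂ) 1 * conj ((θ : G → ℂ) x⁻¹) else 0)
          = ((p : ℂ) ^ ν₀) * ∑ ψ ∈ T, (u ψ : ℂ) * (ψ : G → ℂ) x := by
        rw [Finset.mul_sum, ← Finset.sum_filter]
        have hfil : Finset.univ.filter (fun θ : Cfsg.IrrCharacter G => θ ∈ B) = T := by
          ext θ
          simp [hTmem]
        rw [hfil]
        apply Finset.sum_congr rfl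
        intro ψ hψ
        rw [isCharacter_inv_eq_conj (isCharacter_of_isIrrCharacter ψ.2) x, Complex.conj_conj,
          hone ψ, hdeg ψ hψ]
        push_cast
        ring
      rw [h7] at h5
      rcases mul_eq_zero.1 h5 with h6 | h6
      · exact absurd h6 hpν
      · exact h6
    have h8 : (p : ℂ) * ∑ ψ ∈ T, (z ψ : ℂ) * (ψ : G → ℂ) x
        = (u χ₀ : ℂ) * ∑ ψ ∈ T, (m ψ : ℂ) * (ψ : G → ℂ) x
          - (m χ₀ : ℂ) * ∑ ψ ∈ T, (u ψ : ℂ) * (ψ : G → ℂ) x := by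
      rw [Finset.mul_sum, Finset.mul_sum, Finset.mul_sum, ← Finset.sum_sub_distrib]
      apply Finset.sum_congr rfl
      intro ψ hψ
      have h9 : ((m ψ * (u χ₀ : ℤ) - m χ₀ * (u ψ : ℤ) : ℤ) : ℂ)
          = (((p : ℤ) * z ψ : ℤ) : ℂ) := by rw [hz ψ hψ]
      push_cast at h9
      linear_combination (-(ψ : G → ℂ) x) * h9
    rw [h1, h3, mul_zero, mul_zero, sub_zero] at h8
    rcases mul_eq_zero.1 h8 with h6 | h6
    · exact absurd h6 hpC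
    · exact h6
  obtain ⟨P⟩ : Nonempty (Sylow p G) := inferInstance
  letI : Fintype (P : Subgroup G) := Fintype.ofFinite _
  have hsyl := sylow_sum_vanish p P (fun x => ∑ ψ ∈ T, (z ψ : ℂ) * (ψ : G → ℂ) x) hvan
  have hn' : ∀ ψ : Cfsg.IrrCharacter G, ∃ n : ℕ, ∑ x : (P : Subgroup G), (ψ : G → ℂ) x
      = ((p ^ (Nat.card G).factorization p : ℕ) : ℂ) * n := fun ψ => sylow_sum_char p P ψ
  choose n hn using hn'
  have hE3 : ∑ ψ ∈ T, z ψ * (u ψ : ℤ)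
      = (p : ℤ) ^ (a - ν₀) * ∑ ψ ∈ T, z ψ * (n ψ : ℤ) := by
    have h1 : ∑ x : (P : Subgroup G), ∑ ψ ∈ T, (z ψ : ℂ) * (ψ : G → ℂ) x
        = ∑ ψ ∈ T, (z ψ : ℂ) * (ψ : G → ℂ) 1 := hsyl
    rw [Finset.sum_comm] at h1
    have h2 : ∑ ψ ∈ T, ∑ x : (P : Subgroup G), (z ψ : ℂ) * (ψ : G → ℂ) x
        = ((p : ℂ) ^ a) * ((∑ ψ ∈ T, z ψ * (n ψ : ℤ) : ℤ) : ℂ) := by
      push_cast
      rw [Finset.mul_sum]
      apply Finset.sum_congr rfl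
      intro ψ _
      rw [← Finset.mul_sum, hn ψ, ← ha]
      push_cast
      ring
    have h3 : ∑ ψ ∈ T, (z ψ : ℂ) * (ψ : G → ℂ) 1
        = ((p : ℂ) ^ ν₀) * ((∑ ψ ∈ T, z ψ * (u ψ : ℤ) : ℤ) : ℂ) := by
      push_cast
      rw [Finset.mul_sum]
      apply Finset.sum_congr rfl
      intro ψ hψ
      rw [hone ψ, hdeg ψ hψ]
      push_cast
      ring
    rw [h2, h3] at h1
    have hpa : (p : ℂ) ^ a = (p : ℂ) ^ ν₀ * (p : ℂ) ^ (a - ν₀) := by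
      rw [← pow_add, Nat.add_sub_cancel' hν0a]
    have h4 : ((p : ℂ) ^ ν₀) * ((∑ ψ ∈ T, z ψ * (u ψ : ℤ) : ℤ) : ℂ)
        = ((p : ℂ) ^ ν₀) * ((((p : ℤ) ^ (a - ν₀) * ∑ ψ ∈ T, z ψ * (n ψ : ℤ) : ℤ)) : ℂ) := by
      rw [← h1, hpa]
      push_cast
      ring
    have h5 := mul_left_cancel₀ hpν h4
    exact_mod_cast h5
  obtain ⟨N, hN⟩ : ∃ N : ℤ, N = ∑ ψ ∈ T, z ψ * (n ψ : ℤ) := ⟨_, rfl⟩
  rw [← hN] at hE3
  obtain ⟨S, hS⟩ : ∃ S : ℕ, S = ∑ ψ ∈ T, (u ψ) ^ 2 := ⟨_, rfl⟩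
  have hkey : m χ₀ * (S : ℤ)
      = (p : ℤ) ^ (a - ν₀) * (u χ₀ : ℤ) ^ 2 - (p : ℤ) ^ (a - ν₀ + 1) * N := by
    have h1 : (p : ℤ) * ∑ ψ ∈ T, z ψ * (u ψ : ℤ)
        = (u χ₀ : ℤ) * ∑ ψ ∈ T, m ψ * (u ψ : ℤ)
          - m χ₀ * ∑ ψ ∈ T, (u ψ : ℤ) * (u ψ : ℤ) := by
      rw [Finset.mul_sum, Finset.mul_sum, Finset.mul_sum, ← Finset.sum_sub_distrib]
      apply Finset.sum_congr rfl
      intro ψ hψ
      have h9 := hz ψ hψ
      linear_combination (-(u ψ : ℤ)) * h9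
    rw [hE3, hE1] at h1
    have h2 : (S : ℤ) = ∑ ψ ∈ T, (u ψ : ℤ) * (u ψ : ℤ) := by
      rw [hS]
      push_cast
      apply Finset.sum_congr rfl
      intro ψ _
      ring
    rw [h2]
    linear_combination h1
  have hS0 : S ≠ 0 := by
    have h1 : (u χ₀) ^ 2 ≤ S := by
      rw [hS]
      exact Finset.single_le_sum (f := fun ψ => (u ψ) ^ 2) (fun ψ _ => Nat.zero_le _) hχ₀T
    have h2 : 0 < (u χ₀) ^ 2 := pow_pos (Nat.pos_of_ne_zero (hupos χ₀ hχ₀T)) 2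
    omega
  have hcop : IsCoprime ((p : ℤ) ^ (a - ν₀)) (m χ₀) :=
    IsCoprime.pow_left ((Prime.coprime_iff_not_dvd hpprime).2 hm0nd)
  have hdvd1 : (p : ℤ) ^ (a - ν₀) ∣ (S : ℤ) := by
    apply hcop.dvd_of_dvd_mul_left
    rw [hkey]
    exact dvd_sub (dvd_mul_right _ _)
      (dvd_mul_of_dvd_left (pow_dvd_pow _ (Nat.le_succ _)) _)
  have hndvd : ¬ (p : ℤ) ^ (a - ν₀ + 1) ∣ (S : ℤ) := by
    intro h
    have h1 : (p : ℤ) ^ (a - ν₀ + 1) ∣ (p : ℤ) ^ (a - ν₀) * (u χ₀ : ℤ) ^ 2 := by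
      have h2 : (p : ℤ) ^ (a - ν₀) * (u χ₀ : ℤ) ^ 2
          = m χ₀ * (S : ℤ) + (p : ℤ) ^ (a - ν₀ + 1) * N := by
        rw [hkey]
        ring
      rw [h2]
      exact dvd_add (Dvd.dvd.mul_left h _) (dvd_mul_right _ _)
    rw [pow_succ] at h1
    have h3 := (mul_dvd_mul_iff_left (pow_ne_zero (a - ν₀) hpZ)).1 h1
    have h4 := hpprime.dvd_of_dvd_pow h3
    exact hu0 (by exact_mod_cast h4)
  have hd1 : p ^ (a - ν₀) ∣ S := by exact_mod_cast hdvd1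
  have hd2 : ¬ p ^ (a - ν₀ + 1) ∣ S := by
    intro h
    apply hndvd
    exact_mod_cast h
  have hfS : S.factorization p = a - ν₀ := by
    have h1 := (Nat.Prime.pow_dvd_iff_le_factorization hp hS0).1 hd1
    have h2 : ¬ (a - ν₀ + 1 ≤ S.factorization p) :=
      fun h => hd2 ((Nat.Prime.pow_dvd_iff_le_factorization hp hS0).2 h)
    omega
  have hsum : ∑ᶠ χ ∈ B, Cfsg.charDegree (χ : G → ℂ) ^ 2 = p ^ (2 * ν₀) * S := by
    rw [finsum_mem_eq_finite_toFinset_sum _ (Set.toFinite B), ← hT, hS, Finset.mul_sum]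
    apply Finset.sum_congr rfl
    intro ψ hψ
    rw [hdeg ψ hψ]
    ring
  rw [hsum, hdd, ← ha, Nat.factorization_mul (pow_ne_zero _ hp.ne_zero) hS0,
    Finsupp.add_apply, hp.factorization_pow, Finsupp.single_eq_same, hfS]
  omega

end BlockInd11

end Cfsg.Agent.Lib.Helper6
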