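import Mathlib
import Cfsg.Prelude.Def_Blocks
import Cfsg.Agent.Lib.Helper6.BlockInd10
import Cfsg.Agent.Lib.Helper6.BlockDiv

set_option autoImplicit false

namespace Cfsg.Agent.Lib.Helper6

open Cfsg.Agent.Lib.Lead Cfsg.Agent.Lib.Helper2
open scoped ComplexConjugate

section BlockInd12

/-- Brauer-Feit, weighted by heights. -/
theorem brauer_feit_wt {G : Type*} [Group G] [Finite G] (p : ℕ) [Fact p.Prime]
    (M : Ideal Cfsg.AlgInt) (hM : Cfsg.IsPModular p M) (B : Set (Cfsg.IrrCharacter G))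
    (hB : Cfsg.IsPBlock M B) :
    ∑ᶠ χ ∈ B, p ^ (2 * Cfsg.blockHeight p B (χ : G → ℂ))
      ≤ (p ^ Cfsg.blockDefect p B) ^ 2 / 4 + 1 := by
  classical
  letI := Fintype.ofFinite G
  haveI : Finite (Cfsg.IrrCharacter G) := irr_finite'
  letI := Fintype.ofFinite (Cfsg.IrrCharacter G)
  have hMp := hM.2.1.isPrime
  have hp := hM.1
  obtain ⟨χ₀, hχ₀, hχ₀min⟩ := exists_height_zero M hMp p B hB
  obtain ⟨a, ha⟩ : ∃ a, a = (Nat.card G).factorization p := ⟨_, rfl⟩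
  obtain ⟨ν₀, hν₀⟩ : ∃ ν₀, ν₀ = (Cfsg.charDegree (χ₀ : G → ℂ)).factorization p := ⟨_, rfl⟩
  have hdd : Cfsg.blockDefect p B = a - ν₀ := by
    unfold Cfsg.blockDefect
    rw [← hχ₀min, ← hν₀, ← ha]
  have hhtdef : ∀ ξ : Cfsg.IrrCharacter G, Cfsg.blockHeight p B (ξ : G → ℂ)
      = (Cfsg.charDegree (ξ : G → ℂ)).factorization p - ν₀ := by
    intro ξ
    unfold Cfsg.blockHeight
    rw [← hχ₀min, ← hν₀]
  have hht0 : Cfsg.blockHeight p B (χ₀ : G → ℂ) = 0 := by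
    rw [hhtdef, ← hν₀]
    exact Nat.sub_self _
  obtain ⟨m, hm0, hmI, hmsum⟩ := row_sq_sum p M hM B hB χ₀ hχ₀
  rw [← hν₀] at hmI hmsum
  rw [← ha] at hmsum
  have hmfacts : ∀ ξ ∈ B,
      ((p : ℤ) ^ (2 * Cfsg.blockHeight p B (ξ : G → ℂ))) ≤ m ξ * m ξ := by
    intro ξ hξ
    obtain ⟨z, hz, hz0, hzv⟩ := ((ht_zero_main p M hM B hB χ₀ hχ₀).2.1 hht0) ξ hξ
    rw [hmI ξ] at hz
    have hz' : (p : ℤ) ^ ν₀ * m ξ = z := by exact_mod_cast hz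
    rw [← hz'] at hzv hz0
    have hmξ : m ξ ≠ 0 := by
      intro h
      rw [h, mul_zero] at hz0
      exact hz0 rfl
    have hpz : ((p : ℤ) ^ ν₀) ≠ 0 := pow_ne_zero _ (by exact_mod_cast hp.ne_zero)
    rw [padicValInt.mul hpz hmξ, ← Nat.cast_pow, padicValInt.of_nat,
      padicValNat.prime_pow] at hzv
    have hval : padicValInt p (m ξ) = Cfsg.blockHeight p B (ξ : G → ℂ) := by
      rw [hhtdef ξ]
      omega
    have hdvd : (p : ℤ) ^ Cfsg.blockHeight p B (ξ : G → ℂ) ∣ m ξ := by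
      rw [← hval]
      exact padicValInt_dvd (m ξ)
    obtain ⟨q, hq⟩ : ∃ q : ℤ, q = (p : ℤ) ^ Cfsg.blockHeight p B (ξ : G → ℂ) := ⟨_, rfl⟩
    rw [← hq] at hdvd
    obtain ⟨c, hc⟩ := hdvd
    have hc0 : c ≠ 0 := by
      rintro rfl
      rw [mul_zero] at hc
      exact hmξ hc
    have hc1 : 1 ≤ c * c := by
      have h0 : 0 < c * c := mul_self_pos.2 hc0
      linarith
    rw [two_mul, pow_add, ← hq, hc]
    calc q * q ≤ q * q * (c * c) := le_mul_of_one_le_right (mul_self_nonneg q) hc1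
      _ = q * c * (q * c) := by ring
  obtain ⟨P₀, hP₀⟩ : ∃ P₀ : ℤ, P₀ = (p : ℤ) ^ (a - ν₀) := ⟨_, rfl⟩
  rw [← hP₀] at hmsum
  obtain ⟨S, hS⟩ : ∃ S : ℤ, S = ∑ ξ : Cfsg.IrrCharacter G,
      (if ξ ∈ B then (p : ℤ) ^ (2 * Cfsg.blockHeight p B (ξ : G → ℂ)) else 0) := ⟨_, rfl⟩
  have hb1 : S + (m χ₀ * m χ₀ - 1) ≤ P₀ * m χ₀ := by
    rw [← hmsum, hS]
    have h3 : m χ₀ * m χ₀ - 1
        = ∑ ξ : Cfsg.IrrCharacter G, (if ξ = χ₀ then m χ₀ * m χ₀ - 1 else 0) := by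
      rw [Finset.sum_ite_eq' Finset.univ χ₀ (fun _ => m χ₀ * m χ₀ - 1),
        if_pos (Finset.mem_univ _)]
    rw [h3, ← Finset.sum_add_distrib]
    apply Finset.sum_le_sum
    intro ξ _
    by_cases h2 : ξ = χ₀
    · rw [h2, if_pos hχ₀, if_pos rfl, hht0, mul_zero, pow_zero]
      linarith
    · rw [if_neg h2, add_zero]
      by_cases h1 : ξ ∈ B
      · rw [if_pos h1]
        exact hmfacts ξ h1
      · rw [if_neg h1]
        exact mul_self_nonneg _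
  have hZ : 4 * S ≤ P₀ * P₀ + 4 := by
    nlinarith [sq_nonneg (P₀ - 2 * m χ₀)]
  obtain ⟨N, hN⟩ : ∃ N : ℕ, N = ∑ ξ : Cfsg.IrrCharacter G,
      (if ξ ∈ B then p ^ (2 * Cfsg.blockHeight p B (ξ : G → ℂ)) else 0) := ⟨_, rfl⟩
  have hfs : ∑ᶠ χ ∈ B, p ^ (2 * Cfsg.blockHeight p B (χ : G → ℂ)) = N := by
    rw [hN, finsum_mem_eq_finite_toFinset_sum _ (Set.toFinite B), ← Finset.sum_filter]
    apply Finset.sum_congr _ (fun _ _ => rfl)
    ext x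
    simp
  have hNS : (N : ℤ) = S := by
    rw [hN, hS, Nat.cast_sum]
    apply Finset.sum_congr rfl
    intro ξ _
    split_ifs <;> simp
  obtain ⟨Q2, hQ2⟩ : ∃ Q2 : ℕ, Q2 = (p ^ Cfsg.blockDefect p B) ^ 2 := ⟨_, rfl⟩
  have hQ2' : (Q2 : ℤ) = P₀ * P₀ := by
    rw [hQ2, hdd, hP₀]
    push_cast
    ring
  have h4 : 4 * N ≤ Q2 + 4 := by
    have h5 : 4 * (N : ℤ) ≤ (Q2 : ℤ) + 4 := by
      rw [hNS, hQ2']
      exact hZ
    exact_mod_cast h5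
  rw [hfs, ← hQ2]
  omega

end BlockInd12

end Cfsg.Agent.Lib.Helper6
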