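import Mathlib
import Cfsg.Prelude.Def_Blocks
import Cfsg.Agent.Lib.Helper6.BlockHt0
import Cfsg.Agent.Lib.Helper6.BlockIdem3
import Cfsg.Agent.Lib.Helper6.BlockSMT2
import Cfsg.Agent.Lib.Helper6.BlockMM
import Cfsg.Agent.Lib.Helper6.BlockProj2
import Cfsg.Agent.Lib.Lead.CharDeg
import Cfsg.Agent.Lib.Lead.CharComplete

set_option autoImplicit false

namespace Cfsg.Agent.Lib.Helper6

open Cfsg.Agent.Lib.Lead Cfsg.Agent.Lib.Helper2
open scoped ComplexConjugate

section BlockInd2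

theorem ind_lr_mul {M : Ideal Cfsg.AlgInt} (hMp : M.IsPrime) {x y : ℂ}
    (hx : Cfsg.MemLocalRing M x) (hy : Cfsg.MemLocalRing M y) : Cfsg.MemLocalRing M (x * y) := by
  obtain ⟨a, b, hb, rfl⟩ := hx
  obtain ⟨c, d, hd, rfl⟩ := hy
  refine ⟨a * c, b * d, ?_, ?_⟩
  · intro h
    rcases hMp.mem_or_mem h with h1 | h1
    · exact hb h1
    · exact hd h1
  · simp only [Subalgebra.coe_mul]
    rw [div_mul_div_comm]

theorem ind_lr_add {M : Ideal Cfsg.AlgInt} (hMp : M.IsPrime) {x y : ℂ}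
    (hx : Cfsg.MemLocalRing M x) (hy : Cfsg.MemLocalRing M y) :
    Cfsg.MemLocalRing M (x + y) := by
  obtain ⟨a, b, hb, rfl⟩ := hx
  obtain ⟨c, d, hd, rfl⟩ := hy
  have hb0 : (b : ℂ) ≠ 0 := by
    intro h0
    apply hb
    have : b = 0 := Subtype.ext h0
    rw [this]
    exact M.zero_mem
  have hd0 : (d : ℂ) ≠ 0 := by
    intro h0
    apply hd
    have : d = 0 := Subtype.ext h0
    rw [this]
    exact M.zero_mem
  refine ⟨a * d + c * b, b * d, ?_, ?_⟩
  · intro h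
    rcases hMp.mem_or_mem h with h1 | h1
    · exact hb h1
    · exact hd h1
  · simp only [Subalgebra.coe_mul, Subalgebra.coe_add]
    field_simp

open scoped Classical in
theorem ind_blockPart_formula {G : Type*} [Group G] [Fintype G] (H : Subgroup G) [Fintype H]
    (B : Set (Cfsg.IrrCharacter G)) (ξ : Cfsg.IrrCharacter H) :
    Cfsg.blockPart B (Cfsg.indFun H (ξ : H → ℂ)) 1
      = Cfsg.indFun H (ξ : H → ℂ) 1 * ∑ C : ConjClasses G, Cfsg.blockCoeff B (Quotient.out C)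
          * Cfsg.inducedCentralChar H (ξ : H → ℂ) (Quotient.out C) := by
  classical
  rw [blockPart_eq_coeff_sum B _ (indFun_isClassFunction H _) 1, finsum_eq_sum_of_fintype]
  rw [← icc_sum H (Cfsg.blockCoeff B) (bb_coeff_class B) (ξ : H → ℂ)]
  have hcf : Cfsg.IsClassFunction G (fun g => conj (Cfsg.blockCoeff B g)) := by
    intro g y
    show conj (Cfsg.blockCoeff B (y * g * y⁻¹)) = conj (Cfsg.blockCoeff B g)
    rw [bb_coeff_class B g y]
  have hfr := frobenius_reciprocity H (ξ : H → ℂ) (fun g => conj (Cfsg.blockCoeff B g)) hcf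
  unfold Cfsg.classInner at hfr
  simp only [Complex.conj_conj] at hfr
  rw [indFun_one]
  have hG : (Nat.card G : ℂ) = (Nat.card H : ℂ) * (H.index : ℂ) := by
    exact_mod_cast (Subgroup.card_mul_index H).symm
  have hH0 : (Nat.card H : ℂ) ≠ 0 := by exact_mod_cast (Nat.card_pos (α := H)).ne'
  have hG0 : (Nat.card G : ℂ) ≠ 0 := by exact_mod_cast (Nat.card_pos (α := G)).ne'
  have hξ1 : (ξ : H → ℂ) 1 ≠ 0 := irr_one_ne_zero ξ.2
  have h1 : ∑ k : G, Cfsg.blockCoeff B k * Cfsg.indFun H (ξ : H → ℂ) (k * 1)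
      = ∑ g : G, Cfsg.indFun H (ξ : H → ℂ) g * Cfsg.blockCoeff B g := by
    apply Finset.sum_congr rfl
    intro k _
    rw [mul_one, mul_comm]
  have h2 : ∑ h : H, Cfsg.blockCoeff B (h : G) * ((ξ : H → ℂ) h / (ξ : H → ℂ) 1)
      = (∑ h : H, (ξ : H → ℂ) h * Cfsg.blockCoeff B (h : G)) / (ξ : H → ℂ) 1 := by
    rw [Finset.sum_div]
    apply Finset.sum_congr rfl
    intro h _
    ring
  have h3 : ∑ g : G, Cfsg.indFun H (ξ : H → ℂ) g * Cfsg.blockCoeff B g
      = (Nat.card G : ℂ) * ((Nat.card H : ℂ)⁻¹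
        * ∑ h : H, (ξ : H → ℂ) h * Cfsg.blockCoeff B (h : G)) := by
    rw [← hfr]
    field_simp
  rw [h1, h2, h3, hG]
  field_simp

theorem ind_blockPart_nat {G : Type*} [Group G] [Fintype G] (H : Subgroup G) [Fintype H]
    (B : Set (Cfsg.IrrCharacter G)) (ξ : Cfsg.IrrCharacter H) :
    ∃ n : ℕ, Cfsg.blockPart B (Cfsg.indFun H (ξ : H → ℂ)) 1 = (n : ℂ) := by
  classical
  haveI : Finite (Cfsg.IrrCharacter G) := irr_finite'
  letI := Fintype.ofFinite (Cfsg.IrrCharacter G)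
  have hch : Cfsg.IsCharacter G (Cfsg.indFun H (ξ : H → ℂ)) :=
    isCharacter_indFun H (isCharacter_of_isIrrCharacter ξ.2)
  have h1 : ∀ χ : Cfsg.IrrCharacter G, ∃ n : ℕ,
      Cfsg.classInner (Cfsg.indFun H (ξ : H → ℂ)) (χ : G → ℂ) * (χ : G → ℂ) 1 = (n : ℂ) := by
    intro χ
    obtain ⟨a, ha⟩ := classInner_isCharacter_nat hch (isCharacter_of_isIrrCharacter χ.2)
    obtain ⟨c, hc⟩ := irr_one_eq_natCast χ
    exact ⟨a * c, by rw [ha, hc]; push_cast; ring⟩
  choose f hf using h1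
  refine ⟨∑ χ : Cfsg.IrrCharacter G, if χ ∈ B then f χ else 0, ?_⟩
  show ∑ᶠ χ ∈ B, @Cfsg.classInner G _ (Fintype.ofFinite G) (Cfsg.indFun H (ξ : H → ℂ))
    (χ : G → ℂ) * (χ : G → ℂ) 1 = _
  rw [Subsingleton.elim (Fintype.ofFinite G) ‹Fintype G›]
  rw [finsum_mem_ite_univ]
  push_cast
  apply Finset.sum_congr rfl
  intro χ _
  split_ifs
  · exact hf χ
  · rfl

theorem ind_block_main {G : Type*} [Group G] [Fintype G] (p : ℕ) [Fact p.Prime]
    (M : Ideal Cfsg.AlgInt) (hM : Cfsg.IsPModular p M) (H : Subgroup G) [Fintype H]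
    (b : Set (Cfsg.IrrCharacter H)) (B₀ : Set (Cfsg.IrrCharacter G))
    (hind : Cfsg.IsInducedBlock M H b B₀) (ξ : Cfsg.IrrCharacter H) (hξ : ξ ∈ b) :
    (∃ n : ℕ, Cfsg.blockPart B₀ (Cfsg.indFun H (ξ : H → ℂ)) 1 = (n : ℂ) ∧ n ≠ 0 ∧
      n.factorization p = (Cfsg.charDegree (Cfsg.indFun H (ξ : H → ℂ))).factorization p) ∧
    ∀ B : Set (Cfsg.IrrCharacter G), Cfsg.IsPBlock M B → B ≠ B₀ →
      ∃ n : ℕ, Cfsg.blockPart B (Cfsg.indFun H (ξ : H → ℂ)) 1 = (n : ℂ) ∧
        (n = 0 ∨ (Cfsg.charDegree (Cfsg.indFun H (ξ : H → ℂ))).factorization p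
          < n.factorization p) := by
  classical
  haveI : Finite (Cfsg.IrrCharacter G) := irr_finite'
  letI := Fintype.ofFinite (Cfsg.IrrCharacter G)
  have hMp := hM.2.1.isPrime
  have hp := hM.1
  obtain ⟨hb, hB₀, hcc⟩ := hind
  obtain ⟨χ₀, hχ₀B, -⟩ := exists_height_zero M hMp p B₀ hB₀
  have hch : Cfsg.IsCharacter G (Cfsg.indFun H (ξ : H → ℂ)) :=
    isCharacter_indFun H (isCharacter_of_isIrrCharacter ξ.2)
  obtain ⟨d, hd⟩ : ∃ d, d = Cfsg.charDegree (Cfsg.indFun H (ξ : H → ℂ)) := ⟨_, rfl⟩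
  have hd1 : Cfsg.indFun H (ξ : H → ℂ) 1 = (d : ℂ) := by
    rw [hd]
    exact isCharacter_one_eq_charDegree hch
  have hd0 : d ≠ 0 := by
    intro h0
    rw [h0, indFun_one, Nat.cast_zero] at hd1
    have h1 : (H.index : ℂ) ≠ 0 := by
      exact_mod_cast (Subgroup.index_ne_zero_of_finite (H := H))
    exact mul_ne_zero h1 (irr_one_ne_zero ξ.2) hd1
  have hdc : (d : ℂ) ≠ 0 := by exact_mod_cast hd0
  rw [← hd]
  -- the class sums
  have hS : ∀ B : Set (Cfsg.IrrCharacter G), Cfsg.IsPBlock M B →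
      Cfsg.MemLocalIdeal M ((∑ C : ConjClasses G, Cfsg.blockCoeff B (Quotient.out C)
          * Cfsg.inducedCentralChar H (ξ : H → ℂ) (Quotient.out C))
        - (if χ₀ ∈ B then (1 : ℂ) else 0)) := by
    intro B hB
    have hval : ∑ C : ConjClasses G, Cfsg.blockCoeff B (Quotient.out C)
        * Cfsg.centralChar (χ₀ : G → ℂ) (Quotient.out C) = if χ₀ ∈ B then (1 : ℂ) else 0 := by
      rw [← bcf_class_sum (Cfsg.blockCoeff B) (bb_coeff_class B) χ₀]
      exact bb_idem_value B χ₀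
    rw [← hval, ← Finset.sum_sub_distrib]
    apply li_sum hMp
    intro C _
    rw [← mul_sub]
    exact li_mul hMp (osima_closed p M hM B (block_closed M hMp B hB) _) (hcc ξ hξ χ₀ hχ₀B _)
  have hform : ∀ (B : Set (Cfsg.IrrCharacter G)) (n : ℕ),
      Cfsg.blockPart B (Cfsg.indFun H (ξ : H → ℂ)) 1 = (n : ℂ) →
      (∑ C : ConjClasses G, Cfsg.blockCoeff B (Quotient.out C)
          * Cfsg.inducedCentralChar H (ξ : H → ℂ) (Quotient.out C))
        = (((n : ℤ) : ℂ)) / (d : ℂ) := by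
    intro B n hn
    have h1 := ind_blockPart_formula H B ξ
    rw [hn, hd1] at h1
    rw [Int.cast_natCast, h1]
    field_simp
  constructor
  · obtain ⟨n, hn⟩ := ind_blockPart_nat H B₀ ξ
    have h1 := hS B₀ hB₀
    rw [if_pos hχ₀B, hform B₀ n hn] at h1
    have hlr : Cfsg.MemLocalRing M ((((n : ℤ)) : ℂ) / (d : ℂ)) := by
      have h2 := ind_lr_add hMp (li_to_lr h1) (lr_nat p M hM 1)
      have h3 : (((n : ℤ)) : ℂ) / (d : ℂ) - 1 + ((1 : ℕ) : ℂ) = (((n : ℤ)) : ℂ) / (d : ℂ) := by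
        push_cast
        ring
      rwa [h3] at h2
    have hnli : ¬ Cfsg.MemLocalIdeal M ((((n : ℤ)) : ℂ) / (d : ℂ)) := by
      intro h
      have h2 := li_sub hMp h h1
      rw [sub_sub_cancel] at h2
      exact li_one M h2
    obtain ⟨hn0, hv⟩ := (lr_li_val p M hM (n : ℤ) d hd0 hlr).1 hnli
    refine ⟨n, hn, ?_, ?_⟩
    · exact_mod_cast hn0
    · rw [padicValInt.of_nat] at hv
      rw [Nat.factorization_def n hp, hv]
  · intro B hB hne
    obtain ⟨n, hn⟩ := ind_blockPart_nat H B ξ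
    refine ⟨n, hn, ?_⟩
    have hχ₀n : χ₀ ∉ B := fun h => hne (block_eq_of_mem M hMp B B₀ hB hB₀ χ₀ h hχ₀B)
    have h1 := hS B hB
    rw [if_neg hχ₀n, sub_zero, hform B n hn] at h1
    by_cases hn0 : n = 0
    · left
      exact hn0
    · right
      have hlr := li_to_lr h1
      have hnv : n.factorization p ≠ d.factorization p := by
        intro hv
        have h2 := (lr_li_val p M hM (n : ℤ) d hd0 hlr).2
          ⟨by exact_mod_cast hn0, by rw [padicValInt.of_nat, ← hv, Nat.factorization_def n hp]⟩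
        exact h2 h1
      have hle : d.factorization p ≤ n.factorization p := by
        have h2 := ind_lr_mul hMp hlr (lr_nat p M hM (d / p ^ d.factorization p))
        have h3 : (d : ℂ) = ((p ^ d.factorization p : ℕ) : ℂ)
            * ((d / p ^ d.factorization p : ℕ) : ℂ) := by
          exact_mod_cast (Nat.ordProj_mul_ordCompl_eq_self d p).symm
        have hpe : ((p ^ d.factorization p : ℕ) : ℂ) ≠ 0 := by
          intro h
          rw [h, zero_mul] at h3
          exact hdc h3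
        have hd' : ((d / p ^ d.factorization p : ℕ) : ℂ) ≠ 0 := by
          intro h
          rw [h, mul_zero] at h3
          exact hdc h3
        have h4 : (((n : ℤ)) : ℂ) / (d : ℂ) * ((d / p ^ d.factorization p : ℕ) : ℂ)
            = (((n : ℤ)) : ℂ) / ((p ^ d.factorization p : ℕ) : ℂ) := by
          rw [h3]
          field_simp
        rw [h4] at h2
        have h5 := lr_int_div_pow p M hM (d.factorization p) (n : ℤ) h2
        have h6 : p ^ d.factorization p ∣ n := by exact_mod_cast h5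
        exact (Nat.Prime.pow_dvd_iff_le_factorization hp hn0).1 h6
      exact lt_of_le_of_ne hle (Ne.symm hnv)

end BlockInd2

end Cfsg.Agent.Lib.Helper6
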