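import Mathlib
import Cfsg.Prelude.Def_Blocks
import Cfsg.Agent.Lib.Helper6.BlockInd1
import Cfsg.Agent.Lib.Helper6.BlockPelt
import Cfsg.Agent.Lib.Helper6.BlockProj2
import Cfsg.Agent.Lib.Lead.CharComplete

set_option autoImplicit false

namespace Cfsg.Agent.Lib.Helper6

open Cfsg.Agent.Lib.Lead Cfsg.Agent.Lib.Helper2
open scoped ComplexConjugate

section BlockInd3

open scoped Classical in
theorem gen_ratio_formula {K : Type*} [Group K] [Fintype K] (p : ℕ) [Fact p.Prime]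
    (f : K → ℂ) (hf : ∀ r c : K, f (c * r * c⁻¹) = f r) (ξ : Cfsg.IrrCharacter K) :
    Cfsg.classInner (fun x : K => if p ∣ orderOf x then (0 : ℂ)
        else ((p ^ (Nat.card K).factorization p : ℕ) : ℂ) * f x) (ξ : K → ℂ)
        / (ξ : K → ℂ) 1
      = (∑ C : ConjClasses K, (if p ∣ orderOf (Quotient.out C) then (0 : ℂ)
            else f (Quotient.out C)⁻¹)
          * Cfsg.centralChar (ξ : K → ℂ) (Quotient.out C))
        / ((Nat.card K / p ^ (Nat.card K).factorization p : ℕ) : ℂ) := by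
  classical
  have hp := (Fact.out : p.Prime)
  have hF : ∀ r c : K, (if p ∣ orderOf (c * r * c⁻¹) then (0 : ℂ)
        else f (c * r * c⁻¹)⁻¹)
      = (if p ∣ orderOf r then (0 : ℂ) else f r⁻¹) := by
    intro r c
    have h1 : orderOf (c * r * c⁻¹) = orderOf r := by
      rw [← MulAut.conj_apply]
      exact MulEquiv.orderOf_eq _ _
    have h2 : (c * r * c⁻¹)⁻¹ = c * r⁻¹ * c⁻¹ := conj_inv
    rw [h1, h2, hf r⁻¹ c]
  rw [← bcf_class_sum (fun g => if p ∣ orderOf g then (0 : ℂ) else f g⁻¹) hF ξ]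
  unfold Cfsg.classInner
  have h3 : ∑ x : K, (if p ∣ orderOf x then (0 : ℂ)
        else ((p ^ (Nat.card K).factorization p : ℕ) : ℂ) * f x)
        * conj ((ξ : K → ℂ) x)
      = ∑ g : K, ((p ^ (Nat.card K).factorization p : ℕ) : ℂ)
        * ((if p ∣ orderOf g then (0 : ℂ) else f g⁻¹) * (ξ : K → ℂ) g) := by
    apply Fintype.sum_equiv (Equiv.inv K)
    intro x
    show _ = ((p ^ (Nat.card K).factorization p : ℕ) : ℂ)
        * ((if p ∣ orderOf x⁻¹ then (0 : ℂ) else f x⁻¹⁻¹) * (ξ : K → ℂ) x⁻¹)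
    rw [orderOf_inv, inv_inv, isCharacter_inv_eq_conj (isCharacter_of_isIrrCharacter ξ.2) x]
    split_ifs <;> ring
  have h4 : ∑ g : K, (if p ∣ orderOf g then (0 : ℂ) else f g⁻¹)
        * ((ξ : K → ℂ) g / (ξ : K → ℂ) 1)
      = (∑ g : K, (if p ∣ orderOf g then (0 : ℂ) else f g⁻¹) * (ξ : K → ℂ) g)
        / (ξ : K → ℂ) 1 := by
    rw [Finset.sum_div]
    apply Finset.sum_congr rfl
    intro g _
    ring
  rw [h3, h4, ← Finset.mul_sum]
  have hξ1 : (ξ : K → ℂ) 1 ≠ 0 := irr_one_ne_zero ξ.2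
  have hGm : (Nat.card K : ℂ) = ((p ^ (Nat.card K).factorization p : ℕ) : ℂ)
      * ((Nat.card K / p ^ (Nat.card K).factorization p : ℕ) : ℂ) := by
    exact_mod_cast (Nat.ordProj_mul_ordCompl_eq_self (Nat.card K) p).symm
  have hGne : (Nat.card K : ℂ) ≠ 0 := by exact_mod_cast (Nat.card_pos (α := K)).ne'
  have hp0 : ((p ^ (Nat.card K).factorization p : ℕ) : ℂ) ≠ 0 := by
    intro h
    rw [h, zero_mul] at hGm
    exact hGne hGm
  have hm0 : ((Nat.card K / p ^ (Nat.card K).factorization p : ℕ) : ℂ) ≠ 0 := by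
    intro h
    rw [h, mul_zero] at hGm
    exact hGne hGm
  rw [hGm]
  field_simp

theorem gen_ratio_li {K : Type*} [Group K] [Fintype K] (p : ℕ) [Fact p.Prime]
    (M : Ideal Cfsg.AlgInt) (hM : Cfsg.IsPModular p M)
    (f₁ f₂ : K → ℂ) (hf₁ : ∀ r c : K, f₁ (c * r * c⁻¹) = f₁ r)
    (hf₂ : ∀ r c : K, f₂ (c * r * c⁻¹) = f₂ r) (ξ : Cfsg.IrrCharacter K)
    (hd : ∀ y : K, ¬ p ∣ orderOf y → Cfsg.MemLocalIdeal M (f₂ y - f₁ y))
    (hR : Cfsg.classInner (fun x : K => if p ∣ orderOf x then (0 : ℂ)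
        else ((p ^ (Nat.card K).factorization p : ℕ) : ℂ) * f₁ x) (ξ : K → ℂ) = 0) :
    Cfsg.MemLocalIdeal M (Cfsg.classInner (fun x : K => if p ∣ orderOf x then (0 : ℂ)
        else ((p ^ (Nat.card K).factorization p : ℕ) : ℂ) * f₂ x) (ξ : K → ℂ)
        / (ξ : K → ℂ) 1) := by
  classical
  have hMp := hM.2.1.isPrime
  have hp := hM.1
  have e1 := gen_ratio_formula p f₁ hf₁ ξ
  have e2 := gen_ratio_formula p f₂ hf₂ ξ
  rw [hR, zero_div] at e1
  rw [e2]
  have hm : ¬ p ∣ Nat.card K / p ^ (Nat.card K).factorization p :=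
    Nat.not_dvd_ordCompl hp (Nat.card_pos (α := K)).ne'
  have hm0 : ((Nat.card K / p ^ (Nat.card K).factorization p : ℕ) : ℂ) ≠ 0 := by
    intro h
    have h' : Nat.card K / p ^ (Nat.card K).factorization p = 0 := by exact_mod_cast h
    rw [h'] at hm
    exact hm (dvd_zero p)
  have hS1 : ∑ C : ConjClasses K, (if p ∣ orderOf (Quotient.out C) then (0 : ℂ)
        else f₁ (Quotient.out C)⁻¹)
      * Cfsg.centralChar (ξ : K → ℂ) (Quotient.out C) = 0 := by
    have h6 := e1.symm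
    rw [div_eq_zero_iff] at h6
    rcases h6 with h6 | h6
    · exact h6
    · exact absurd h6 hm0
  have hdiff : Cfsg.MemLocalIdeal M
      ((∑ C : ConjClasses K, (if p ∣ orderOf (Quotient.out C) then (0 : ℂ)
            else f₂ (Quotient.out C)⁻¹)
          * Cfsg.centralChar (ξ : K → ℂ) (Quotient.out C))
        - ∑ C : ConjClasses K, (if p ∣ orderOf (Quotient.out C) then (0 : ℂ)
            else f₁ (Quotient.out C)⁻¹)
          * Cfsg.centralChar (ξ : K → ℂ) (Quotient.out C)) := by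
    rw [← Finset.sum_sub_distrib]
    apply li_sum hMp
    intro C _
    by_cases hC : p ∣ orderOf (Quotient.out C)
    · simp only [if_pos hC]
      rw [sub_self]
      exact li_zero M ((Ideal.ne_top_iff_one M).1 hMp.ne_top)
    · simp only [if_neg hC]
      rw [← sub_mul, mul_comm]
      apply li_mul hMp (lr_int p M hM (cc_isIntegral ξ _))
      exact hd _ (by rw [orderOf_inv]; exact hC)
  rw [hS1, sub_zero] at hdiff
  have h9 := li_mul hMp (lr_div_nat p M hM isIntegral_one _ hm) hdiff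
  convert h9 using 1
  ring

set_option maxHeartbeats 800000 in
theorem ind_second_aux {G : Type*} [Group G] [Finite G] (p : ℕ) [Fact p.Prime]
    (M : Ideal Cfsg.AlgInt) (hM : Cfsg.IsPModular p M) (H : Subgroup G)
    (b : Set (Cfsg.IrrCharacter H)) (B₀ : Set (Cfsg.IrrCharacter G))
    (hind : Cfsg.IsInducedBlock M H b B₀) (χ : Cfsg.IrrCharacter G) (hχ : χ ∈ B₀)
    (h0 : Cfsg.blockHeight p B₀ (χ : G → ℂ) = 0) (x : G) (k : ℕ) (hx : orderOf x = p ^ k)
    (hcomm : ∀ h ∈ H, Commute x h) :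
    ∃ y : H, ¬ p ∣ orderOf y ∧
      Cfsg.blockPart b (fun c : H => (χ : G → ℂ) (x * (c : G))) y ≠ 0 := by
  classical
  letI := Fintype.ofFinite G
  letI : Fintype H := Fintype.ofFinite H
  haveI : Finite (Cfsg.IrrCharacter H) := irr_finite'
  letI := Fintype.ofFinite (Cfsg.IrrCharacter H)
  have hMp := hM.2.1.isPrime
  have hp := hM.1
  by_contra hcon
  push Not at hcon
  obtain ⟨hbB, hB₀, hcc⟩ := id hind
  obtain ⟨ψ₀, hψ₀, -⟩ := exists_height_zero M hMp p b hbB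
  apply (ind_ratio_main p M hM H b B₀ hind χ ψ₀ hψ₀).2 hχ h0
  -- class function facts
  have hϑcf : ∀ r c : H, (χ : G → ℂ) (x * ((c * r * c⁻¹ : H) : G))
      = (χ : G → ℂ) (x * (r : G)) := by
    intro r c
    have h2 : x * (c : G) = (c : G) * x := (hcomm c c.2).eq
    have h1 : x * ((c * r * c⁻¹ : H) : G) = (c : G) * (x * (r : G)) * (c : G)⁻¹ := by
      simp only [Subgroup.coe_mul, Subgroup.coe_inv]
      rw [show x * ((c : G) * (r : G) * (c : G)⁻¹) = (x * (c : G)) * (r : G) * (c : G)⁻¹ by group,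
        h2]
      group
    rw [h1, isClassFunction_irr χ _ _]
  have hχcf : ∀ r c : H, (χ : G → ℂ) ((c * r * c⁻¹ : H) : G) = (χ : G → ℂ) (r : G) := by
    intro r c
    have h1 : ((c * r * c⁻¹ : H) : G) = (c : G) * (r : G) * (c : G)⁻¹ := by
      simp only [Subgroup.coe_mul, Subgroup.coe_inv]
    rw [h1, isClassFunction_irr χ _ _]
  obtain ⟨a, ha⟩ : ∃ a, a = (Nat.card H).factorization p := ⟨_, rfl⟩
  have hϑ : Cfsg.IsClassFunction H (fun c : H => (χ : G → ℂ) (x * (c : G))) := by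
    intro g y
    exact hϑcf g y
  have hexp := expansion (fun c : H => (χ : G → ℂ) (x * (c : G))) hϑ
  obtain ⟨cf, hcf⟩ : ∃ cf : Cfsg.IrrCharacter H → ℂ, cf = fun ψ : Cfsg.IrrCharacter H =>
      Cfsg.classInner (fun c : H => (χ : G → ℂ) (x * (c : G))) (ψ : H → ℂ) := ⟨_, rfl⟩
  have hval : ∀ y : H, ¬ p ∣ orderOf y → (χ : G → ℂ) (x * (y : G))
      = ∑ ψ : Cfsg.IrrCharacter H, (if ψ ∈ b then 0 else cf ψ) * (ψ : H → ℂ) y := by
    intro y hy
    have h1 : (χ : G → ℂ) (x * (y : G))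
        = ∑ ψ : Cfsg.IrrCharacter H, cf ψ * (ψ : H → ℂ) y := by
      have h := congrFun hexp y
      rw [Finset.sum_apply] at h
      rw [hcf]
      exact h
    have h2 := hcon y hy
    have h3 : Cfsg.blockPart b (fun c : H => (χ : G → ℂ) (x * (c : G))) y
        = ∑ ψ : Cfsg.IrrCharacter H, if ψ ∈ b then cf ψ * (ψ : H → ℂ) y else 0 := by
      show ∑ᶠ ψ ∈ b, Cfsg.classInner (fun c : H => (χ : G → ℂ) (x * (c : G))) (ψ : H → ℂ)
        * (ψ : H → ℂ) y = _
      rw [finsum_mem_ite_univ, hcf]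
    rw [h3] at h2
    have h4 : ∑ ψ : Cfsg.IrrCharacter H, (if ψ ∈ b then 0 else cf ψ) * (ψ : H → ℂ) y
        = ∑ ψ : Cfsg.IrrCharacter H, cf ψ * (ψ : H → ℂ) y
          - ∑ ψ : Cfsg.IrrCharacter H, (if ψ ∈ b then cf ψ * (ψ : H → ℂ) y else 0) := by
      rw [← Finset.sum_sub_distrib]
      apply Finset.sum_congr rfl
      intro ψ _
      split_ifs <;> ring
    rw [h4, h2, sub_zero, h1]
  have hT : ∀ y : H, (if p ∣ orderOf y then (0 : ℂ)
        else ((p ^ a : ℕ) : ℂ) * (χ : G → ℂ) (x * (y : G)))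
      = ∑ ψ : Cfsg.IrrCharacter H, (if ψ ∈ b then 0 else cf ψ)
        * (if p ∣ orderOf y then (0 : ℂ) else ((p ^ a : ℕ) : ℂ) * (ψ : H → ℂ) y) := by
    intro y
    by_cases hy : p ∣ orderOf y
    · simp [hy]
    · simp only [if_neg hy]
      rw [hval y hy, Finset.mul_sum]
      apply Finset.sum_congr rfl
      intro ψ _
      ring
  have hzero : ∀ ψ : Cfsg.IrrCharacter H, ψ ∉ b →
      Cfsg.classInner (fun y : H => if p ∣ orderOf y then (0 : ℂ)
        else ((p ^ (Nat.card H).factorization p : ℕ) : ℂ) * (ψ : H → ℂ) y) (ψ₀ : H → ℂ) = 0 := by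
    intro ψ hψ
    obtain ⟨m, hm0, -, hI⟩ := ht_inner_int p M hM (Cfsg.blockOf M (ψ : H → ℂ)) ⟨ψ, rfl⟩ ψ
      (sb_refl hMp _)
    have hn : ψ₀ ∉ Cfsg.blockOf M (ψ : H → ℂ) := by
      intro hmem
      have heq := block_eq_of_mem M hMp b (Cfsg.blockOf M (ψ : H → ℂ)) hbB ⟨ψ, rfl⟩ ψ₀ hψ₀ hmem
      apply hψ
      rw [heq]
      exact sb_refl hMp _
    rw [hI ψ₀, hm0 ψ₀ hn]
    simp
  have hcard : (Nat.card H : ℂ) ≠ 0 := by exact_mod_cast (Nat.card_pos (α := H)).ne'
  have hR : Cfsg.classInner (fun y : H => if p ∣ orderOf y then (0 : ℂ)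
        else ((p ^ (Nat.card H).factorization p : ℕ) : ℂ) * (χ : G → ℂ) (x * (y : G)))
        (ψ₀ : H → ℂ) = 0 := by
    have h1 : ∀ ψ : Cfsg.IrrCharacter H, ψ ∉ b →
        ∑ y : H, (if p ∣ orderOf y then (0 : ℂ) else ((p ^ a : ℕ) : ℂ) * (ψ : H → ℂ) y)
          * conj ((ψ₀ : H → ℂ) y) = 0 := by
      intro ψ hψ
      have h2 := hzero ψ hψ
      unfold Cfsg.classInner at h2
      rw [← ha] at h2
      rcases mul_eq_zero.1 h2 with h3 | h3
      · exact absurd (inv_eq_zero.1 h3) hcard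
      · exact h3
    unfold Cfsg.classInner
    rw [← ha]
    have h2 : ∑ y : H, (if p ∣ orderOf y then (0 : ℂ)
          else ((p ^ a : ℕ) : ℂ) * (χ : G → ℂ) (x * (y : G))) * conj ((ψ₀ : H → ℂ) y) = 0 := by
      calc ∑ y : H, (if p ∣ orderOf y then (0 : ℂ)
              else ((p ^ a : ℕ) : ℂ) * (χ : G → ℂ) (x * (y : G))) * conj ((ψ₀ : H → ℂ) y)
          = ∑ y : H, ∑ ψ : Cfsg.IrrCharacter H, (if ψ ∈ b then 0 else cf ψ)
              * ((if p ∣ orderOf y then (0 : ℂ) else ((p ^ a : ℕ) : ℂ) * (ψ : H → ℂ) y)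
                * conj ((ψ₀ : H → ℂ) y)) := by
            apply Finset.sum_congr rfl
            intro y _
            rw [hT y, Finset.sum_mul]
            apply Finset.sum_congr rfl
            intro ψ _
            ring
        _ = ∑ ψ : Cfsg.IrrCharacter H, (if ψ ∈ b then 0 else cf ψ)
              * ∑ y : H, ((if p ∣ orderOf y then (0 : ℂ) else ((p ^ a : ℕ) : ℂ) * (ψ : H → ℂ) y)
                * conj ((ψ₀ : H → ℂ) y)) := by
            rw [Finset.sum_comm]
            apply Finset.sum_congr rfl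
            intro ψ _
            rw [Finset.mul_sum]
        _ = 0 := by
            apply Finset.sum_eq_zero
            intro ψ _
            by_cases hψ : ψ ∈ b
            · rw [if_pos hψ, zero_mul]
            · rw [h1 ψ hψ, mul_zero]
    rw [h2, mul_zero]
  exact gen_ratio_li p M hM (fun c : H => (χ : G → ℂ) (x * (c : G)))
    (fun c : H => (χ : G → ℂ) (c : G)) hϑcf hχcf ψ₀
    (fun y hy => li_sub_comm hMp (char_mul_pelt p M hM (χ : G → ℂ)
      (isCharacter_of_isIrrCharacter χ.2) x (y : G) (hcomm y y.2) k hx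
      (by rw [Subgroup.orderOf_coe]; exact hy))) hR

theorem ind_second_main {G : Type*} [Group G] [Finite G] (p : ℕ) [Fact p.Prime]
    (M : Ideal Cfsg.AlgInt) (hM : Cfsg.IsPModular p M) (B : Set (Cfsg.IrrCharacter G))
    (χ : Cfsg.IrrCharacter G) (hχ : χ ∈ B)
    (h0 : Cfsg.blockHeight p B (χ : G → ℂ) = 0) (x : G) (hx : ∃ k : ℕ, orderOf x = p ^ k)
    (b : Set (Cfsg.IrrCharacter (Subgroup.centralizer ({x} : Set G))))
    (hb : Cfsg.IsInducedBlock M (Subgroup.centralizer ({x} : Set G)) b B) :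
    ∃ y : Subgroup.centralizer ({x} : Set G), ¬ p ∣ orderOf y ∧
      Cfsg.blockPart b (fun c : Subgroup.centralizer ({x} : Set G) =>
        (χ : G → ℂ) (x * (c : G))) y ≠ 0 := by
  obtain ⟨k, hk⟩ := hx
  exact ind_second_aux p M hM _ b B hb χ hχ h0 x k hk
    (fun h hh => Subgroup.mem_centralizer_iff.1 hh x rfl)

end BlockInd3

end Cfsg.Agent.Lib.Helper6
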