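import Mathlib
import Cfsg.Prelude.Def_Blocks
import Cfsg.Agent.Lib.Helper6.BlockInd1
import Cfsg.Agent.Lib.Lead.CharComplete
import Cfsg.Agent.Lib.Lead.CharDeg

set_option autoImplicit false

namespace Cfsg.Agent.Lib.Helper6

open Cfsg.Agent.Lib.Lead Cfsg.Agent.Lib.Helper2
open scoped ComplexConjugate

section BlockInd4

theorem ind_ht_zero_mult {G : Type*} [Group G] [Fintype G] (p : ℕ) [Fact p.Prime]
    (M : Ideal Cfsg.AlgInt) (hM : Cfsg.IsPModular p M) (H : Subgroup G) [Fintype H]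
    (b : Set (Cfsg.IrrCharacter H)) (B : Set (Cfsg.IrrCharacter G))
    (hind : Cfsg.IsInducedBlock M H b B) (χ : Cfsg.IrrCharacter G) (hχ : χ ∈ B)
    (h0 : Cfsg.blockHeight p B (χ : G → ℂ) = 0) :
    ∃ ξ ∈ b, Cfsg.blockHeight p b (ξ : H → ℂ) = 0 ∧ ∃ n : ℕ,
      Cfsg.classInner (fun h : H => (χ : G → ℂ) h) (ξ : H → ℂ) = (n : ℂ) ∧ ¬ p ∣ n := by
  classical
  haveI : Finite (Cfsg.IrrCharacter H) := irr_finite'
  letI := Fintype.ofFinite (Cfsg.IrrCharacter H)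
  have hMp := hM.2.1.isPrime
  have hp := hM.1
  have hp0 : (p : ℂ) ≠ 0 := by exact_mod_cast hp.ne_zero
  obtain ⟨hbB, hB₀, hcc⟩ := id hind
  obtain ⟨ψ₀, hψ₀, hψ₀min⟩ := exists_height_zero M hMp p b hbB
  have hψ₀ht : Cfsg.blockHeight p b (ψ₀ : H → ℂ) = 0 := by
    unfold Cfsg.blockHeight
    rw [← hψ₀min]
    exact Nat.sub_self _
  have hmain := (ind_ratio_main p M hM H b B hind χ ψ₀ hψ₀).2 hχ h0
  obtain ⟨ν₀, hν₀⟩ : ∃ ν₀, ν₀ = (Cfsg.charDegree (ψ₀ : H → ℂ)).factorization p := ⟨_, rfl⟩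
  obtain ⟨m, hm0, -, hI⟩ := ht_inner_int p M hM b hbB ψ₀ hψ₀
  rw [← hν₀] at hI
  have hresch : Cfsg.IsCharacter H (fun h : H => (χ : G → ℂ) h) :=
    isCharacter_res H (isCharacter_of_isIrrCharacter χ.2)
  have hn' : ∀ ξ : Cfsg.IrrCharacter H, ∃ n : ℕ,
      Cfsg.classInner (fun h : H => (χ : G → ℂ) h) (ξ : H → ℂ) = (n : ℂ) :=
    fun ξ => classInner_isCharacter_nat hresch (isCharacter_of_isIrrCharacter ξ.2)
  choose n hn using hn'
  by_contra hno
  push Not at hno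
  apply hmain
  have hexp := expansion (fun h : H => (χ : G → ℂ) h) (isClassFunction_of_isCharacter hresch)
  have hval : ∀ y : H, (χ : G → ℂ) (y : G)
      = ∑ ξ : Cfsg.IrrCharacter H, (n ξ : ℂ) * (ξ : H → ℂ) y := by
    intro y
    have h := congrFun hexp y
    rw [Finset.sum_apply] at h
    have h2 : ∑ ξ : Cfsg.IrrCharacter H, (n ξ : ℂ) * (ξ : H → ℂ) y
        = ∑ ξ : Cfsg.IrrCharacter H,
          (Cfsg.classInner (fun h : H => (χ : G → ℂ) h) (ξ : H → ℂ) • (ξ : H → ℂ)) y := by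
      apply Finset.sum_congr rfl
      intro ξ _
      rw [hn ξ]
      rfl
    rw [h2]
    exact h
  have hT : ∀ y : H, (if p ∣ orderOf y then (0 : ℂ)
        else ((p ^ (Nat.card H).factorization p : ℕ) : ℂ) * (χ : G → ℂ) (y : G))
      = ∑ ξ : Cfsg.IrrCharacter H, (n ξ : ℂ) * (if p ∣ orderOf y then (0 : ℂ)
          else ((p ^ (Nat.card H).factorization p : ℕ) : ℂ) * (ξ : H → ℂ) y) := by
    intro y
    by_cases hy : p ∣ orderOf y
    · simp [hy]
    · simp only [if_neg hy]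
      rw [hval y, Finset.mul_sum]
      apply Finset.sum_congr rfl
      intro ξ _
      ring
  have hsym : ∀ ξ : Cfsg.IrrCharacter H, Cfsg.classInner (fun y : H => if p ∣ orderOf y
        then (0 : ℂ) else ((p ^ (Nat.card H).factorization p : ℕ) : ℂ) * (ξ : H → ℂ) y)
        (ψ₀ : H → ℂ) = (((p : ℤ) ^ ν₀ * m ξ : ℤ) : ℂ) := by
    intro ξ
    rw [ht_inner_symm p ((Nat.card H).factorization p) (ξ : H → ℂ) (ψ₀ : H → ℂ), hI ξ,
      map_intCast]
  have hcard : (Nat.card H : ℂ) ≠ 0 := by exact_mod_cast (Nat.card_pos (α := H)).ne'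
  have hsum : Cfsg.classInner (fun h : H => if p ∣ orderOf h then (0 : ℂ)
        else ((p ^ (Nat.card H).factorization p : ℕ) : ℂ) * (χ : G → ℂ) h) (ψ₀ : H → ℂ)
      = ((((p : ℤ) ^ ν₀ * ∑ ξ : Cfsg.IrrCharacter H, (n ξ : ℤ) * m ξ : ℤ)) : ℂ) := by
    have h1 : ∀ ξ : Cfsg.IrrCharacter H, ∑ y : H, (if p ∣ orderOf y then (0 : ℂ)
          else ((p ^ (Nat.card H).factorization p : ℕ) : ℂ) * (ξ : H → ℂ) y)
          * conj ((ψ₀ : H → ℂ) y)
        = (Nat.card H : ℂ) * (((p : ℤ) ^ ν₀ * m ξ : ℤ) : ℂ) := by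
      intro ξ
      have h2 := hsym ξ
      unfold Cfsg.classInner at h2
      rw [← h2]
      field_simp
    unfold Cfsg.classInner
    have h2 : ∑ y : H, (if p ∣ orderOf y then (0 : ℂ)
          else ((p ^ (Nat.card H).factorization p : ℕ) : ℂ) * (χ : G → ℂ) (y : G))
          * conj ((ψ₀ : H → ℂ) y)
        = ∑ ξ : Cfsg.IrrCharacter H, (n ξ : ℂ)
          * ((Nat.card H : ℂ) * (((p : ℤ) ^ ν₀ * m ξ : ℤ) : ℂ)) := by
      calc ∑ y : H, (if p ∣ orderOf y then (0 : ℂ)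
              else ((p ^ (Nat.card H).factorization p : ℕ) : ℂ) * (χ : G → ℂ) (y : G))
              * conj ((ψ₀ : H → ℂ) y)
          = ∑ y : H, ∑ ξ : Cfsg.IrrCharacter H, (n ξ : ℂ)
              * ((if p ∣ orderOf y then (0 : ℂ)
                else ((p ^ (Nat.card H).factorization p : ℕ) : ℂ) * (ξ : H → ℂ) y)
                * conj ((ψ₀ : H → ℂ) y)) := by
            apply Finset.sum_congr rfl
            intro y _
            rw [hT y, Finset.sum_mul]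
            apply Finset.sum_congr rfl
            intro ξ _
            ring
        _ = ∑ ξ : Cfsg.IrrCharacter H, (n ξ : ℂ)
              * ∑ y : H, ((if p ∣ orderOf y then (0 : ℂ)
                else ((p ^ (Nat.card H).factorization p : ℕ) : ℂ) * (ξ : H → ℂ) y)
                * conj ((ψ₀ : H → ℂ) y)) := by
            rw [Finset.sum_comm]
            apply Finset.sum_congr rfl
            intro ξ _
            rw [Finset.mul_sum]
        _ = ∑ ξ : Cfsg.IrrCharacter H, (n ξ : ℂ)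
              * ((Nat.card H : ℂ) * (((p : ℤ) ^ ν₀ * m ξ : ℤ) : ℂ)) := by
            apply Finset.sum_congr rfl
            intro ξ _
            rw [h1 ξ]
    rw [h2]
    push_cast
    rw [Finset.mul_sum, Finset.mul_sum]
    apply Finset.sum_congr rfl
    intro ξ _
    field_simp
  have hpv : padicValInt p ((p : ℤ) ^ ν₀) = ν₀ := by
    rw [← Nat.cast_pow, padicValInt.of_nat, padicValNat.prime_pow]
  have hdvd : (p : ℤ) ∣ ∑ ξ : Cfsg.IrrCharacter H, (n ξ : ℤ) * m ξ := by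
    apply Finset.dvd_sum
    intro ξ _
    by_cases hξb : ξ ∈ b
    · by_cases hξ0 : Cfsg.blockHeight p b (ξ : H → ℂ) = 0
      · have h1 := hno ξ hξb hξ0 (n ξ) (hn ξ)
        exact Dvd.dvd.mul_right (by exact_mod_cast h1) _
      · apply Dvd.dvd.mul_left
        by_contra hnd
        apply hξ0
        obtain ⟨z, hz, hz0, hzv⟩ := ((ht_zero_main p M hM b hbB ψ₀ hψ₀).2.1 hψ₀ht) ξ hξb
        rw [hI ξ] at hz
        have hz' : (p : ℤ) ^ ν₀ * m ξ = z := by exact_mod_cast hz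
        rw [← hz'] at hzv hz0
        have hmξ : m ξ ≠ 0 := by
          intro h
          rw [h, mul_zero] at hz0
          exact hz0 rfl
        have hpz : ((p : ℤ) ^ ν₀) ≠ 0 := pow_ne_zero _ (by exact_mod_cast hp.ne_zero)
        rw [padicValInt.mul hpz hmξ, hpv, padicValInt.eq_zero_of_not_dvd hnd, add_zero] at hzv
        unfold Cfsg.blockHeight
        rw [← hψ₀min, ← hν₀, ← hzv]
        exact Nat.sub_self _
    · rw [hm0 ξ hξb, mul_zero]
      exact dvd_zero _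
  obtain ⟨S', hS'⟩ := hdvd
  rw [hsum, hS']
  have hd1 : (ψ₀ : H → ℂ) 1 = (Cfsg.charDegree (ψ₀ : H → ℂ) : ℂ) :=
    isIrrCharacter_one_eq_charDegree ψ₀.2
  have hdpos : Cfsg.charDegree (ψ₀ : H → ℂ) ≠ 0 := (charDegree_pos_of_irr ψ₀.2).ne'
  obtain ⟨d, hd⟩ : ∃ d, d = Cfsg.charDegree (ψ₀ : H → ℂ) := ⟨_, rfl⟩
  rw [← hd] at hd1 hdpos hν₀
  obtain ⟨D', hD'⟩ : ∃ D', D' = d / p ^ ν₀ := ⟨_, rfl⟩
  have hdsplit : (d : ℂ) = (p : ℂ) ^ ν₀ * (D' : ℂ) := by
    rw [hD', hν₀]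
    exact_mod_cast (Nat.ordProj_mul_ordCompl_eq_self d p).symm
  have hd' : ¬ p ∣ D' := by
    rw [hD', hν₀]
    exact Nat.not_dvd_ordCompl hp hdpos
  have hdc : (d : ℂ) ≠ 0 := by exact_mod_cast hdpos
  have hD'c : (D' : ℂ) ≠ 0 := by
    intro h
    rw [h, mul_zero] at hdsplit
    exact hdc hdsplit
  have hS'int : IsIntegral ℤ ((S' : ℤ) : ℂ) := isIntegral_algebraMap
  have h9 := li_mul hMp (lr_div_nat p M hM hS'int D' hd') (li_natCast_p p M hM)
  convert h9 using 1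
  rw [hd1, hdsplit]
  push_cast
  field_simp

end BlockInd4

end Cfsg.Agent.Lib.Helper6
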