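import Mathlib
import Cfsg.Prelude.Def_Blocks
import Cfsg.Agent.Lib.Helper6.BlockInd1

set_option autoImplicit false

namespace Cfsg.Agent.Lib.Helper6

open Cfsg.Agent.Lib.Lead Cfsg.Agent.Lib.Helper2
open scoped ComplexConjugate

section BlockInd5

theorem ind_irr_res {G : Type*} [Group G] [Finite G] (p : ℕ) [Fact p.Prime]
    (M : Ideal Cfsg.AlgInt) (hM : Cfsg.IsPModular p M) (H : Subgroup G)
    (χ : Cfsg.IrrCharacter G) (hres : Cfsg.IsIrrCharacter H (fun h : H => (χ : G → ℂ) h))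
    (hχ0 : Cfsg.blockHeight p (Cfsg.blockOf M (χ : G → ℂ)) (χ : G → ℂ) = 0)
    (hψ0 : Cfsg.blockHeight p (Cfsg.blockOf M (fun h : H => (χ : G → ℂ) h))
      (fun h : H => (χ : G → ℂ) h) = 0)
    (e : Set (Cfsg.IrrCharacter H)) (he : Cfsg.InducedBlockDefined M H e) :
    Cfsg.IsInducedBlock M H e (Cfsg.blockOf M (χ : G → ℂ))
      ↔ e = Cfsg.blockOf M (fun h : H => (χ : G → ℂ) h) := by
  classical
  letI := Fintype.ofFinite G
  letI : Fintype H := Fintype.ofFinite H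
  have hMp := hM.2.1.isPrime
  have hp := hM.1
  obtain ⟨ψχ, hψχ⟩ : ∃ ψχ : Cfsg.IrrCharacter H,
      ψχ = ⟨fun h : H => (χ : G → ℂ) h, hres⟩ := ⟨_, rfl⟩
  have hψχv : (ψχ : H → ℂ) = fun h : H => (χ : G → ℂ) h := by rw [hψχ]
  rw [← hψχv] at hψ0 ⊢
  have hbblock : Cfsg.IsPBlock M (Cfsg.blockOf M (ψχ : H → ℂ)) := ⟨ψχ, rfl⟩
  have hBblock : Cfsg.IsPBlock M (Cfsg.blockOf M (χ : G → ℂ)) := ⟨χ, rfl⟩
  have hψχmem : ψχ ∈ Cfsg.blockOf M (ψχ : H → ℂ) := sb_refl hMp _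
  have hχmem : χ ∈ Cfsg.blockOf M (χ : G → ℂ) := sb_refl hMp _
  have h4 : (fun x : H => if p ∣ orderOf x then (0 : ℂ)
        else ((p ^ (Nat.card H).factorization p : ℕ) : ℂ) * (ψχ : H → ℂ) x)
      = (fun h : H => if p ∣ orderOf h then (0 : ℂ)
        else ((p ^ (Nat.card H).factorization p : ℕ) : ℂ) * (χ : G → ℂ) h) := by
    rw [hψχv]
  constructor
  · intro hind
    obtain ⟨heB, -, -⟩ := id hind
    obtain ⟨ψ, hψe, -⟩ := exists_height_zero M hMp p e heB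
    have h1 := (ind_ratio_main p M hM H e _ hind χ ψ hψe).2 hχmem hχ0
    obtain ⟨m, hm0, -, hI⟩ := ht_inner_int p M hM (Cfsg.blockOf M (ψχ : H → ℂ)) hbblock ψχ
      hψχmem
    have hψb : ψ ∈ Cfsg.blockOf M (ψχ : H → ℂ) := by
      by_contra hn
      apply h1
      have h2 := hI ψ
      rw [hm0 ψ hn, h4] at h2
      rw [h2]
      simp only [mul_zero, Int.cast_zero, zero_div]
      exact li_zero M ((Ideal.ne_top_iff_one M).1 hMp.ne_top)
    exact block_eq_of_mem M hMp e _ heB hbblock ψ hψe hψb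
  · intro heq
    obtain ⟨B', hB'⟩ := he
    obtain ⟨heB, hB'block, -⟩ := id hB'
    have hχB' : χ ∈ B' := by
      by_contra hn
      have h1 := (ind_ratio_main p M hM H e B' hB' χ ψχ (by rw [heq]; exact hψχmem)).1 hn
      have hmin : ∀ ξ ∈ Cfsg.blockOf M (ψχ : H → ℂ),
          (Cfsg.charDegree (ψχ : H → ℂ)).factorization p
            ≤ (Cfsg.charDegree (ξ : H → ℂ)).factorization p := by
        intro ξ hξ
        unfold Cfsg.blockHeight at hψ0
        have h2 : sInf ((fun ψ : Cfsg.IrrCharacter H =>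
            (Cfsg.charDegree (ψ : H → ℂ)).factorization p) '' (Cfsg.blockOf M (ψχ : H → ℂ)))
            ≤ (Cfsg.charDegree (ξ : H → ℂ)).factorization p := Nat.sInf_le ⟨ξ, hξ, rfl⟩
        omega
      apply ht_zero_crux p M hM (Cfsg.blockOf M (ψχ : H → ℂ)) hbblock ψχ hψχmem hmin
      rw [h4]
      exact h1
    have hBeq : B' = Cfsg.blockOf M (χ : G → ℂ) :=
      block_eq_of_mem M hMp B' _ hB'block hBblock χ hχB' hχmem
    rw [← hBeq]
    exact hB'

end BlockInd5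

end Cfsg.Agent.Lib.Helper6
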