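import Mathlib
import Cfsg.Prelude.Def_Blocks
import Cfsg.Agent.Lib.Helper6.BlockHt0
import Cfsg.Agent.Lib.Helper6.BlockCentral
import Cfsg.Agent.Lib.Helper6.BlockGreen
import Cfsg.Agent.Lib.Helper6.BlockIdem2
import Cfsg.Agent.Lib.Helper6.BlockDiv

set_option autoImplicit false

namespace Cfsg.Agent.Lib.Helper6

open Cfsg.Agent.Lib.Lead Cfsg.Agent.Lib.Helper2
open scoped ComplexConjugate

section BlockInd6

theorem central_preg_le {G : Type*} [Group G] [Fintype G] (p : ℕ) [Fact p.Prime]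
    (D : Subgroup G) (hD : IsPGroup p D) (hDZ : D ≤ Subgroup.center G)
    (χ : Cfsg.IrrCharacter G) :
    (Nat.card D : ℝ) * ∑ x : G, (if p ∣ orderOf x then (0 : ℝ)
      else Complex.normSq ((χ : G → ℂ) x)) ≤ (Nat.card G : ℝ) := by
  classical
  have hp := (Fact.out : p.Prime)
  letI : Fintype D := Fintype.ofFinite D
  obtain ⟨f, hf⟩ : ∃ f : G → ℝ, ∀ x, f x = Complex.normSq ((χ : G → ℂ) x) :=
    ⟨fun x => Complex.normSq ((χ : G → ℂ) x), fun _ => rfl⟩
  simp only [← hf]
  have hf0 : ∀ x, 0 ≤ f x := fun x => by rw [hf]; exact Complex.normSq_nonneg _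
  have hfz : ∀ (x : G) (z : D), f (x * (z : G)) = f x := by
    intro x z
    rw [hf, hf]
    have h := central_norm χ z (hDZ z.2) x
    rw [Complex.mul_conj, Complex.mul_conj] at h
    exact_mod_cast h
  have htot : ∑ g : G, f g = (Nat.card G : ℝ) := by
    have h := irr_sum_conj χ χ
    rw [if_pos rfl, mul_one] at h
    have h2 : ((∑ g : G, f g : ℝ) : ℂ) = ((Nat.card G : ℝ) : ℂ) := by
      push_cast
      rw [← h]
      apply Finset.sum_congr rfl
      intro g _
      rw [hf, Complex.mul_conj]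
    exact_mod_cast h2
  have h1 : ∑ z : D, ∑ x : G, (if p ∣ orderOf x then (0 : ℝ) else f (x * (z : G)))
      = (Nat.card D : ℝ) * ∑ x : G, (if p ∣ orderOf x then (0 : ℝ) else f x) := by
    simp only [hfz]
    rw [Finset.sum_const, Finset.card_univ, nsmul_eq_mul, Nat.card_eq_fintype_card]
  have h2 : ∀ z : D, ∑ x : G, (if p ∣ orderOf x then (0 : ℝ) else f (x * (z : G)))
      = ∑ g : G, (if p ∣ orderOf (g * (z : G)⁻¹) then (0 : ℝ) else f g) := by
    intro z
    apply Fintype.sum_equiv (Equiv.mulRight (z : G))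
    intro x
    simp only [Equiv.coe_mulRight, mul_inv_cancel_right]
  have h3 : ∀ g : G, ∑ z : D, (if p ∣ orderOf (g * (z : G)⁻¹) then (0 : ℝ) else f g)
      ≤ f g := by
    intro g
    by_cases hex : ∃ z₀ : D, ¬ p ∣ orderOf (g * (z₀ : G)⁻¹)
    · obtain ⟨z₀, hz₀⟩ := hex
      rw [Finset.sum_eq_single z₀]
      · rw [if_neg hz₀]
      · intro z _ hzu
        rw [if_pos]
        by_contra hreg
        apply hzu
        have hw : (z₀ : G) * (z : G)⁻¹ ∈ D := D.mul_mem z₀.2 (D.inv_mem z.2)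
        obtain ⟨j, hj⟩ := (IsPGroup.iff_orderOf.1 hD) ⟨(z₀ : G) * (z : G)⁻¹, hw⟩
        rw [Subgroup.orderOf_mk] at hj
        have hcomm : Commute (g * (z₀ : G)⁻¹) ((z₀ : G) * (z : G)⁻¹) :=
          Subgroup.mem_center_iff.1 (hDZ hw) _
        have hcop : (orderOf (g * (z₀ : G)⁻¹)).Coprime (orderOf ((z₀ : G) * (z : G)⁻¹)) := by
          rw [hj]
          exact ((Nat.Prime.coprime_iff_not_dvd hp).2 hz₀).symm.pow_right j
        have hord := hcomm.orderOf_mul_eq_mul_orderOf_of_coprime hcop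
        have hgz : g * (z : G)⁻¹ = (g * (z₀ : G)⁻¹) * ((z₀ : G) * (z : G)⁻¹) := by group
        rw [hgz, hord, hj] at hreg
        have hj0 : j = 0 := by
          by_contra hne
          exact hreg (Dvd.dvd.mul_left (dvd_pow_self p hne) _)
        rw [hj0, pow_zero, orderOf_eq_one_iff] at hj
        apply Subtype.ext
        show (z : G) = (z₀ : G)
        exact (mul_inv_eq_one.1 hj).symm
      · intro h
        exact absurd (Finset.mem_univ _) h
    · push Not at hex
      rw [Finset.sum_eq_zero]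
      · exact hf0 g
      · intro z _
        rw [if_pos (hex z)]
  rw [← h1, Finset.sum_congr rfl (fun z _ => h2 z), Finset.sum_comm, ← htot]
  exact Finset.sum_le_sum (fun g _ => h3 g)

theorem central_deg_main {G : Type*} [Group G] [Finite G] (p : ℕ) [Fact p.Prime]
    (M : Ideal Cfsg.AlgInt) (hM : Cfsg.IsPModular p M) (D : Subgroup G) (hD : IsPGroup p D)
    (hDZ : D ≤ Subgroup.center G) (χ : Cfsg.IrrCharacter G)
    (hdeg : (Cfsg.charDegree (χ : G → ℂ)).factorization p = D.index.factorization p) :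
    Cfsg.IsDefectGroup p M (Cfsg.blockOf M (χ : G → ℂ)) D ∧
      ∀ g x : G, Cfsg.IsPPart p g x → x ∉ D → (χ : G → ℂ) g = 0 := by
  classical
  letI := Fintype.ofFinite G
  have hMp := hM.2.1.isPrime
  have hp := hM.1
  obtain ⟨B, hBdef⟩ : ∃ B, B = Cfsg.blockOf M (χ : G → ℂ) := ⟨_, rfl⟩
  rw [← hBdef]
  have hB : Cfsg.IsPBlock M B := ⟨χ, hBdef⟩
  have hχ : χ ∈ B := by
    rw [hBdef]
    exact sb_refl hMp _
  obtain ⟨ν, hν⟩ : ∃ ν, ν = (Cfsg.charDegree (χ : G → ℂ)).factorization p := ⟨_, rfl⟩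
  obtain ⟨m, hm0, -, hI⟩ := ht_inner_int p M hM B hB χ hχ
  rw [← hν] at hI hdeg
  obtain ⟨δ, hδ⟩ := hD.exists_card_eq
  obtain ⟨a, ha⟩ : ∃ a, a = (Nat.card G).factorization p := ⟨_, rfl⟩
  have haδ : a = δ + ν := by
    have h1 : (Nat.card D * D.index).factorization p
        = (Nat.card D).factorization p + D.index.factorization p := by
      rw [Nat.factorization_mul (Nat.card_pos).ne' Subgroup.index_ne_zero_of_finite]
      rfl
    rw [Subgroup.card_mul_index] at h1
    rw [ha, h1, hδ, hp.factorization_pow, Finsupp.single_eq_same, ← hdeg]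
  have hN := hI χ
  obtain ⟨s, hsdef⟩ : ∃ s : ℝ, s = ∑ x : G, (if p ∣ orderOf x then (0 : ℝ)
      else Complex.normSq ((χ : G → ℂ) x)) := ⟨_, rfl⟩
  have hle := central_preg_le p D hD hDZ χ
  rw [← hsdef] at hle
  have hGne : (Nat.card G : ℂ) ≠ 0 := by exact_mod_cast (Nat.card_pos (α := G)).ne'
  have hNr : ((p ^ a : ℕ) : ℝ) * s = (Nat.card G : ℝ) * (((p : ℤ) ^ ν * m χ : ℤ) : ℝ) := by
    unfold Cfsg.classInner at hN
    rw [← ha] at hN
    have h2 : ∑ x : G, (if p ∣ orderOf x then (0 : ℂ)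
          else ((p ^ a : ℕ) : ℂ) * (χ : G → ℂ) x) * conj ((χ : G → ℂ) x)
        = (((p ^ a : ℕ) : ℝ) * s : ℝ) := by
      rw [hsdef, Complex.ofReal_mul, Complex.ofReal_sum, Finset.mul_sum]
      apply Finset.sum_congr rfl
      intro x _
      split_ifs with h
      · simp
      · rw [mul_assoc, Complex.mul_conj]
        push_cast
        ring
    rw [h2] at hN
    have h3 : (((((p ^ a : ℕ) : ℝ) * s : ℝ)) : ℂ)
        = (Nat.card G : ℂ) * (((p : ℤ) ^ ν * m χ : ℤ) : ℂ) := by
      rw [← hN]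
      field_simp
    exact_mod_cast h3
  have hcardD : (Nat.card D : ℝ) = (p : ℝ) ^ δ := by exact_mod_cast hδ
  have hpa : ((p ^ a : ℕ) : ℝ) = (p : ℝ) ^ δ * (p : ℝ) ^ ν := by
    rw [haδ]
    push_cast
    ring
  have hppos : (0 : ℝ) < (p : ℝ) := by exact_mod_cast hp.pos
  have hGpos : (0 : ℝ) < (Nat.card G : ℝ) := by exact_mod_cast (Nat.card_pos (α := G))
  have hspos : 0 < s := by
    rw [hsdef]
    have h1 : (if p ∣ orderOf (1 : G) then (0 : ℝ) else Complex.normSq ((χ : G → ℂ) 1))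
        ≤ ∑ x : G, (if p ∣ orderOf x then (0 : ℝ) else Complex.normSq ((χ : G → ℂ) x)) :=
      Finset.single_le_sum (f := fun x : G => if p ∣ orderOf x then (0 : ℝ)
        else Complex.normSq ((χ : G → ℂ) x))
        (fun x _ => by
          split_ifs
          · exact le_refl _
          · exact Complex.normSq_nonneg _) (Finset.mem_univ 1)
    have h2 : ¬ p ∣ orderOf (1 : G) := by
      rw [orderOf_one]
      exact hp.one_lt.ne' ∘ Nat.dvd_one.1
    rw [if_neg h2] at h1
    exact lt_of_lt_of_le (Complex.normSq_pos.2 (irr_one_ne_zero χ.2)) h1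
  have hm1 : m χ = 1 := by
    have h5 : (p : ℝ) ^ δ * s = (Nat.card G : ℝ) * (m χ : ℝ) := by
      have h6 : (p : ℝ) ^ ν * ((p : ℝ) ^ δ * s)
          = (p : ℝ) ^ ν * ((Nat.card G : ℝ) * (m χ : ℝ)) := by
        rw [hpa] at hNr
        push_cast at hNr
        linear_combination hNr
      exact mul_left_cancel₀ (pow_ne_zero _ hppos.ne') h6
    have h7 : (m χ : ℝ) ≤ 1 := by
      have h71 : (Nat.card G : ℝ) * (m χ : ℝ) ≤ (Nat.card G : ℝ) * 1 := by
        rw [← h5, mul_one, ← hcardD]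
        exact hle
      exact le_of_mul_le_mul_left h71 hGpos
    have h8 : (0 : ℝ) < (m χ : ℝ) := by
      have h81 : 0 < (Nat.card G : ℝ) * (m χ : ℝ) := by
        rw [← h5]
        positivity
      exact (mul_pos_iff_of_pos_left hGpos).1 h81
    have h9 : m χ ≤ 1 := by exact_mod_cast h7
    have h10 : 0 < m χ := by exact_mod_cast h8
    omega
  have hht : Cfsg.blockHeight p B (χ : G → ℂ) = 0 := by
    apply (ht_zero_main p M hM B hB χ hχ).1.2
    refine ⟨χ, hχ, (p : ℤ) ^ ν * m χ, hI χ, ?_, ?_⟩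
    · rw [hm1, mul_one]
      exact pow_ne_zero _ (by exact_mod_cast hp.ne_zero)
    · rw [hm1, mul_one, ← Nat.cast_pow, padicValInt.of_nat, padicValNat.prime_pow, hν]
  obtain ⟨y, hy⟩ := defect_class_exists p M hM B hB
  obtain ⟨Q⟩ : Nonempty (Sylow p (Subgroup.centralizer ({y} : Set G))) := inferInstance
  have hPdef : Cfsg.IsDefectGroup p M B
      ((Q : Subgroup (Subgroup.centralizer ({y} : Set G))).map
        (Subgroup.centralizer ({y} : Set G)).subtype) := ⟨y, hy, Q, rfl⟩
  have hcP := defect_group_card p M hM B hB _ hPdef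
  have hdef : Cfsg.blockDefect p B = δ := by
    unfold Cfsg.blockDefect
    unfold Cfsg.blockHeight at hht
    have h1 : sInf ((fun ψ : Cfsg.IrrCharacter G =>
        (Cfsg.charDegree (ψ : G → ℂ)).factorization p) '' B)
        ≤ (Cfsg.charDegree (χ : G → ℂ)).factorization p := Nat.sInf_le ⟨χ, hχ, rfl⟩
    rw [← hν] at h1 hht
    rw [← ha]
    omega
  rw [hdef] at hcP
  have hDP : D = (Q : Subgroup (Subgroup.centralizer ({y} : Set G))).map
      (Subgroup.centralizer ({y} : Set G)).subtype := by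
    apply Subgroup.eq_of_le_of_card_ge
    · haveI : (D.subgroupOf (Subgroup.centralizer ({y} : Set G))).Normal := by
        constructor
        intro n hn c
        rw [Subgroup.mem_subgroupOf] at hn ⊢
        have h1 := Subgroup.mem_center_iff.1 (hDZ hn) (c : G)
        have h2 : ((c * n * c⁻¹ : Subgroup.centralizer ({y} : Set G)) : G) = (n : G) := by
          push_cast
          rw [h1]
          group
        rw [h2]
        exact hn
      have hPp' : IsPGroup p (D.subgroupOf (Subgroup.centralizer ({y} : Set G))) :=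
        hD.comap_subtype
      have hle' := hPp'.le_sylow_of_normal Q
      intro x hx
      have hxc : x ∈ Subgroup.centralizer ({y} : Set G) := by
        rw [Subgroup.mem_centralizer_iff]
        intro h _
        exact Subgroup.mem_center_iff.1 (hDZ hx) h
      exact ⟨⟨x, hxc⟩, hle' (Subgroup.mem_subgroupOf.2 hx), rfl⟩
    · rw [hcP, hδ]
  have hDdef : Cfsg.IsDefectGroup p M B D := by
    rw [hDP]
    exact hPdef
  refine ⟨hDdef, ?_⟩
  intro g x hx hxD
  exact char_vanish_off_defect p M hM B hB g x hx (fun D' hD' => by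
    rw [central_defect_unique p M hM B hB D hDdef hDZ D' hD']
    exact hxD) χ hχ

end BlockInd6

end Cfsg.Agent.Lib.Helper6
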