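import Mathlib
import Cfsg.Prelude.Def_Blocks
import Cfsg.Agent.Lib.Helper6.BlockInd2

set_option autoImplicit false

namespace Cfsg.Agent.Lib.Helper6

open Cfsg.Agent.Lib.Lead Cfsg.Agent.Lib.Helper2
open scoped ComplexConjugate

section BlockInd7

theorem ind_same_defect {G : Type*} [Group G] [Fintype G] (p : ℕ) [Fact p.Prime]
    (M : Ideal Cfsg.AlgInt) (hM : Cfsg.IsPModular p M) (H : Subgroup G)
    (b : Set (Cfsg.IrrCharacter H)) (B : Set (Cfsg.IrrCharacter G))
    (hind : Cfsg.IsInducedBlock M H b B) (hdef : Cfsg.blockDefect p b = Cfsg.blockDefect p B)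
    (ζ : Cfsg.IrrCharacter H) (hζ : ζ ∈ b) (hζ0 : Cfsg.blockHeight p b (ζ : H → ℂ) = 0) :
    ∃ χ ∈ B, Cfsg.blockHeight p B (χ : G → ℂ) = 0 ∧ ∃ a : ℕ,
      Cfsg.classInner (Cfsg.indFun H (ζ : H → ℂ)) (χ : G → ℂ) = (a : ℂ) ∧ ¬ p ∣ a := by
  classical
  letI : Fintype H := Fintype.ofFinite H
  haveI : Finite (Cfsg.IrrCharacter G) := irr_finite'
  letI := Fintype.ofFinite (Cfsg.IrrCharacter G)
  have hMp := hM.2.1.isPrime
  have hp := hM.1
  obtain ⟨hbB, hBB, -⟩ := id hind
  obtain ⟨⟨n, hn, hn0, hnv⟩, -⟩ := ind_block_main p M hM H b B hind ζ hζ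
  have hch : Cfsg.IsCharacter G (Cfsg.indFun H (ζ : H → ℂ)) :=
    isCharacter_indFun H (isCharacter_of_isIrrCharacter ζ.2)
  have ha' : ∀ χ : Cfsg.IrrCharacter G, ∃ a : ℕ,
      Cfsg.classInner (Cfsg.indFun H (ζ : H → ℂ)) (χ : G → ℂ) = (a : ℂ) :=
    fun χ => classInner_isCharacter_nat hch (isCharacter_of_isIrrCharacter χ.2)
  choose mult hmult using ha'
  by_contra hno
  push Not at hno
  have hnsum : n = ∑ χ : Cfsg.IrrCharacter G,
      if χ ∈ B then mult χ * Cfsg.charDegree (χ : G → ℂ) else 0 := by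
    have h1 : Cfsg.blockPart B (Cfsg.indFun H (ζ : H → ℂ)) 1
        = ((∑ χ : Cfsg.IrrCharacter G,
          if χ ∈ B then mult χ * Cfsg.charDegree (χ : G → ℂ) else 0 : ℕ) : ℂ) := by
      show ∑ᶠ χ ∈ B, @Cfsg.classInner G _ (Fintype.ofFinite G) (Cfsg.indFun H (ζ : H → ℂ))
        (χ : G → ℂ) * (χ : G → ℂ) 1 = _
      rw [Subsingleton.elim (Fintype.ofFinite G) ‹Fintype G›]
      rw [finsum_mem_ite_univ]
      push_cast
      apply Finset.sum_congr rfl
      intro χ _
      split_ifs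
      · rw [hmult χ, isIrrCharacter_one_eq_charDegree χ.2]
      · rfl
    rw [hn] at h1
    exact_mod_cast h1
  obtain ⟨ν₀, hν₀⟩ : ∃ ν₀, ν₀ = sInf ((fun χ : Cfsg.IrrCharacter G =>
      (Cfsg.charDegree (χ : G → ℂ)).factorization p) '' B) := ⟨_, rfl⟩
  have hnν : n.factorization p = ν₀ := by
    rw [hnv]
    have hd : Cfsg.charDegree (Cfsg.indFun H (ζ : H → ℂ))
        = H.index * Cfsg.charDegree (ζ : H → ℂ) := by
      have h1 := isCharacter_one_eq_charDegree hch
      rw [indFun_one, isIrrCharacter_one_eq_charDegree ζ.2] at h1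
      exact_mod_cast h1.symm
    rw [hd, Nat.factorization_mul Subgroup.index_ne_zero_of_finite
      (charDegree_pos_of_irr ζ.2).ne', Finsupp.add_apply]
    have hGH : (Nat.card G).factorization p
        = (Nat.card H).factorization p + H.index.factorization p := by
      rw [← Subgroup.card_mul_index H, Nat.factorization_mul (Nat.card_pos).ne'
        Subgroup.index_ne_zero_of_finite, Finsupp.add_apply]
    have hζdvd : Cfsg.charDegree (ζ : H → ℂ) ∣ Nat.card H :=
      irr_degree_dvd_card ζ _ (isIrrCharacter_one_eq_charDegree ζ.2)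
    have hζle : (Cfsg.charDegree (ζ : H → ℂ)).factorization p
        ≤ (Nat.card H).factorization p :=
      (Nat.factorization_le_iff_dvd (charDegree_pos_of_irr ζ.2).ne' (Nat.card_pos).ne').2
        hζdvd p
    have hb1 : sInf ((fun χ : Cfsg.IrrCharacter H =>
        (Cfsg.charDegree (χ : H → ℂ)).factorization p) '' b)
        ≤ (Cfsg.charDegree (ζ : H → ℂ)).factorization p := Nat.sInf_le ⟨ζ, hζ, rfl⟩
    obtain ⟨χ₀, hχ₀, hχ₀min⟩ := exists_height_zero M hMp p B hBB
    have hχ₀dvd : Cfsg.charDegree (χ₀ : G → ℂ) ∣ Nat.card G :=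
      irr_degree_dvd_card χ₀ _ (isIrrCharacter_one_eq_charDegree χ₀.2)
    have hχ₀le : (Cfsg.charDegree (χ₀ : G → ℂ)).factorization p
        ≤ (Nat.card G).factorization p :=
      (Nat.factorization_le_iff_dvd (charDegree_pos_of_irr χ₀.2).ne' (Nat.card_pos).ne').2
        hχ₀dvd p
    unfold Cfsg.blockDefect at hdef
    unfold Cfsg.blockHeight at hζ0
    rw [← hν₀] at hdef
    rw [hχ₀min, ← hν₀] at hχ₀le
    omega
  have hdvd : p ^ (ν₀ + 1) ∣ n := by
    rw [hnsum]
    apply Finset.dvd_sum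
    intro χ _
    by_cases hχB : χ ∈ B
    · rw [if_pos hχB]
      have hle : ν₀ ≤ (Cfsg.charDegree (χ : G → ℂ)).factorization p := by
        rw [hν₀]
        exact Nat.sInf_le ⟨χ, hχB, rfl⟩
      have hd0 : Cfsg.charDegree (χ : G → ℂ) ≠ 0 := (charDegree_pos_of_irr χ.2).ne'
      by_cases hχ0 : Cfsg.blockHeight p B (χ : G → ℂ) = 0
      · have h1 := hno χ hχB hχ0 (mult χ) (hmult χ)
        have h2 : p ^ ν₀ ∣ Cfsg.charDegree (χ : G → ℂ) :=
          (Nat.Prime.pow_dvd_iff_le_factorization hp hd0).2 hle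
        rw [pow_succ, mul_comm (p ^ ν₀) p]
        exact mul_dvd_mul h1 h2
      · have h3 : ν₀ + 1 ≤ (Cfsg.charDegree (χ : G → ℂ)).factorization p := by
          unfold Cfsg.blockHeight at hχ0
          rw [← hν₀] at hχ0
          omega
        exact Dvd.dvd.mul_left ((Nat.Prime.pow_dvd_iff_le_factorization hp hd0).2 h3) _
    · rw [if_neg hχB]
      exact dvd_zero _
  have h4 := (Nat.Prime.pow_dvd_iff_le_factorization hp hn0).1 hdvd
  omega

end BlockInd7

end Cfsg.Agent.Lib.Helper6
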