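import Mathlib
import Cfsg.Prelude.Def_Blocks
import Cfsg.Agent.Lib.Helper6.BlockHt0
import Cfsg.Agent.Lib.Helper6.BlockRank3
import Cfsg.Agent.Lib.Lead.CharRing

set_option autoImplicit false

namespace Cfsg.Agent.Lib.Helper6

open Cfsg.Agent.Lib.Lead Cfsg.Agent.Lib.Helper2
open scoped ComplexConjugate

section BlockInd8

theorem defect_le_one_div {G : Type*} [Group G] [Finite G] (p : ℕ) [Fact p.Prime]
    (M : Ideal Cfsg.AlgInt) (hM : Cfsg.IsPModular p M)
    (B : Set (Cfsg.IrrCharacter G)) (hB : Cfsg.IsPBlock M B) (χ : Cfsg.IrrCharacter G)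
    (hχ : χ ∈ B)
    (hdiv : p ^ ((Nat.card G).factorization p - 1) ∣ Cfsg.charDegree (χ : G → ℂ))
    (ψ : Cfsg.IrrCharacter G) (hψ : ψ ∈ B) :
    p ^ ((Nat.card G).factorization p - 1) ∣ Cfsg.charDegree (ψ : G → ℂ) := by
  classical
  letI := Fintype.ofFinite G
  have hMp := hM.2.1.isPrime
  have hp := hM.1
  obtain ⟨a, ha⟩ : ∃ a, a = (Nat.card G).factorization p := ⟨_, rfl⟩
  rw [← ha] at hdiv ⊢
  obtain ⟨ν, hν⟩ : ∃ ν, ν = (Cfsg.charDegree (χ : G → ℂ)).factorization p := ⟨_, rfl⟩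
  have hd0 : Cfsg.charDegree (χ : G → ℂ) ≠ 0 := (charDegree_pos_of_irr χ.2).ne'
  have hν1 : a - 1 ≤ ν := by
    rw [hν]
    exact (Nat.Prime.pow_dvd_iff_le_factorization hp hd0).1 hdiv
  have hχdvd : Cfsg.charDegree (χ : G → ℂ) ∣ Nat.card G :=
    irr_degree_dvd_card χ _ (isIrrCharacter_one_eq_charDegree χ.2)
  have hν2 : ν ≤ a := by
    rw [hν, ha]
    exact (Nat.factorization_le_iff_dvd hd0 (Nat.card_pos).ne').2 hχdvd p
  obtain ⟨m, hm0, -, hI⟩ := ht_inner_int p M hM B hB χ hχ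
  rw [← hν] at hI
  obtain ⟨f, hf⟩ : ∃ f : G → ℝ, ∀ x, f x = Complex.normSq ((χ : G → ℂ) x) :=
    ⟨fun x => Complex.normSq ((χ : G → ℂ) x), fun _ => rfl⟩
  have hf0 : ∀ x, 0 ≤ f x := fun x => by rw [hf]; exact Complex.normSq_nonneg _
  have htot : ∑ g : G, f g = (Nat.card G : ℝ) := by
    have h := irr_sum_conj χ χ
    rw [if_pos rfl, mul_one] at h
    have h2 : ((∑ g : G, f g : ℝ) : ℂ) = ((Nat.card G : ℝ) : ℂ) := by
      push_cast
      rw [← h]
      apply Finset.sum_congr rfl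
      intro g _
      rw [hf, Complex.mul_conj]
    exact_mod_cast h2
  obtain ⟨s, hsdef⟩ : ∃ s : ℝ, s = ∑ x : G, (if p ∣ orderOf x then (0 : ℝ) else f x) :=
    ⟨_, rfl⟩
  have hGne : (Nat.card G : ℂ) ≠ 0 := by exact_mod_cast (Nat.card_pos (α := G)).ne'
  have hNr : ((p ^ a : ℕ) : ℝ) * s = (Nat.card G : ℝ) * (((p : ℤ) ^ ν * m χ : ℤ) : ℝ) := by
    have hN := hI χ
    unfold Cfsg.classInner at hN
    rw [← ha] at hN
    have h2 : ∑ x : G, (if p ∣ orderOf x then (0 : ℂ)
          else ((p ^ a : ℕ) : ℂ) * (χ : G → ℂ) x) * conj ((χ : G → ℂ) x)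
        = (((p ^ a : ℕ) : ℝ) * s : ℝ) := by
      rw [hsdef, Complex.ofReal_mul, Complex.ofReal_sum, Finset.mul_sum]
      apply Finset.sum_congr rfl
      intro x _
      split_ifs with h
      · simp
      · rw [mul_assoc, Complex.mul_conj, hf]
        push_cast
        ring
    rw [h2] at hN
    have h3 : (((((p ^ a : ℕ) : ℝ) * s : ℝ)) : ℂ)
        = (Nat.card G : ℂ) * (((p : ℤ) ^ ν * m χ : ℤ) : ℂ) := by
      rw [← hN]
      field_simp
    exact_mod_cast h3
  have hsle : s ≤ (Nat.card G : ℝ) := by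
    rw [hsdef, ← htot]
    apply Finset.sum_le_sum
    intro x _
    split_ifs
    · exact hf0 x
    · exact le_refl _
  have hppos : (0 : ℝ) < (p : ℝ) := by exact_mod_cast hp.pos
  have hGpos : (0 : ℝ) < (Nat.card G : ℝ) := by exact_mod_cast (Nat.card_pos (α := G))
  have hspos : 0 < s := by
    rw [hsdef]
    have h1 : (if p ∣ orderOf (1 : G) then (0 : ℝ) else f 1)
        ≤ ∑ x : G, (if p ∣ orderOf x then (0 : ℝ) else f x) :=
      Finset.single_le_sum (f := fun x : G => if p ∣ orderOf x then (0 : ℝ) else f x)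
        (fun x _ => by
          split_ifs
          · exact le_refl _
          · exact hf0 x) (Finset.mem_univ 1)
    have h2 : ¬ p ∣ orderOf (1 : G) := by
      rw [orderOf_one]
      exact hp.one_lt.ne' ∘ Nat.dvd_one.1
    rw [if_neg h2, hf] at h1
    exact lt_of_lt_of_le (Complex.normSq_pos.2 (irr_one_ne_zero χ.2)) h1
  have hnd : ¬ (p : ℤ) ∣ m χ := by
    intro hpm
    have hpow : ((p ^ a : ℕ) : ℝ) = (p : ℝ) ^ ν * (p : ℝ) ^ (a - ν) := by
      rw [← pow_add, Nat.add_sub_cancel' hν2]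
      push_cast
      rfl
    have h5 : (p : ℝ) ^ (a - ν) * s = (Nat.card G : ℝ) * (m χ : ℝ) := by
      have h6 : (p : ℝ) ^ ν * ((p : ℝ) ^ (a - ν) * s)
          = (p : ℝ) ^ ν * ((Nat.card G : ℝ) * (m χ : ℝ)) := by
        rw [hpow] at hNr
        push_cast at hNr
        linear_combination hNr
      exact mul_left_cancel₀ (pow_ne_zero _ hppos.ne') h6
    have hmposR : (0 : ℝ) < (m χ : ℝ) := by
      have h81 : 0 < (Nat.card G : ℝ) * (m χ : ℝ) := by
        rw [← h5]
        positivity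
      exact (mul_pos_iff_of_pos_left hGpos).1 h81
    have hmpos : 0 < m χ := by exact_mod_cast hmposR
    obtain ⟨c, hc⟩ := hpm
    have hcpos : 0 < c := by
      rw [hc] at hmpos
      exact (mul_pos_iff_of_pos_left (by exact_mod_cast hp.pos)).1 hmpos
    have hmpZ : (p : ℤ) ≤ m χ := by
      rw [hc]
      exact le_mul_of_one_le_right (Int.natCast_nonneg p) hcpos
    have hmp : (p : ℝ) ≤ (m χ : ℝ) := by exact_mod_cast hmpZ
    have hp1 : (1 : ℝ) < (p : ℝ) := by exact_mod_cast hp.one_lt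
    have hGm : (Nat.card G : ℝ) * (p : ℝ) ≤ (Nat.card G : ℝ) * (m χ : ℝ) :=
      mul_le_mul_of_nonneg_left hmp hGpos.le
    have hGp : (Nat.card G : ℝ) < (Nat.card G : ℝ) * (p : ℝ) := by
      have := mul_lt_mul_of_pos_left hp1 hGpos
      rwa [mul_one] at this
    have hk : a - ν = 1 := by
      by_contra hk
      have hk0 : a - ν = 0 := by omega
      rw [hk0, pow_zero, one_mul] at h5
      linarith
    rw [hk, pow_one] at h5
    have hsG : s = (Nat.card G : ℝ) := by
      apply le_antisymm hsle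
      have h9 : (p : ℝ) * (Nat.card G : ℝ) ≤ (p : ℝ) * s := by
        rw [h5, mul_comm (p : ℝ)]
        exact hGm
      exact le_of_mul_le_mul_left h9 hppos
    have hvan : ∀ x : G, p ∣ orderOf x → (χ : G → ℂ) x = 0 := by
      have hz : ∑ x : G, (if p ∣ orderOf x then f x else 0) = 0 := by
        have h7 : ∑ x : G, (if p ∣ orderOf x then f x else 0) + s = ∑ g : G, f g := by
          rw [hsdef, ← Finset.sum_add_distrib]
          apply Finset.sum_congr rfl
          intro x _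
          split_ifs <;> simp
        rw [htot, hsG] at h7
        linarith
      intro x hx
      have h8 := (Finset.sum_eq_zero_iff_of_nonneg (fun x _ => by
        split_ifs
        · exact hf0 x
        · exact le_refl _)).1 hz x (Finset.mem_univ x)
      rw [if_pos hx, hf] at h8
      exact Complex.normSq_eq_zero.1 h8
    obtain ⟨P⟩ : Nonempty (Sylow p G) := inferInstance
    letI : Fintype (P : Subgroup G) := Fintype.ofFinite _
    obtain ⟨n, hn⟩ := sylow_sum_char p P χ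
    rw [sylow_sum_vanish p P (χ : G → ℂ) hvan, isIrrCharacter_one_eq_charDegree χ.2,
      ← ha] at hn
    have hdn : Cfsg.charDegree (χ : G → ℂ) = p ^ a * n := by exact_mod_cast hn
    have hle : a ≤ ν := by
      rw [hν]
      exact (Nat.Prime.pow_dvd_iff_le_factorization hp hd0).1 ⟨n, hdn⟩
    omega
  have hmne : m χ ≠ 0 := by
    intro h
    apply hnd
    rw [h]
    exact dvd_zero _
  have hpz : ((p : ℤ) ^ ν) ≠ 0 := pow_ne_zero _ (by exact_mod_cast hp.ne_zero)
  have hht : Cfsg.blockHeight p B (χ : G → ℂ) = 0 := by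
    apply (ht_zero_main p M hM B hB χ hχ).1.2
    refine ⟨χ, hχ, (p : ℤ) ^ ν * m χ, hI χ, mul_ne_zero hpz hmne, ?_⟩
    rw [padicValInt.mul hpz hmne, padicValInt.eq_zero_of_not_dvd hnd, add_zero,
      ← Nat.cast_pow, padicValInt.of_nat, padicValNat.prime_pow, hν]
  have hψd0 : Cfsg.charDegree (ψ : G → ℂ) ≠ 0 := (charDegree_pos_of_irr ψ.2).ne'
  apply (Nat.Prime.pow_dvd_iff_le_factorization hp hψd0).2
  unfold Cfsg.blockHeight at hht
  have h1 : sInf ((fun ψ : Cfsg.IrrCharacter G =>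
      (Cfsg.charDegree (ψ : G → ℂ)).factorization p) '' B)
      ≤ (Cfsg.charDegree (ψ : G → ℂ)).factorization p := Nat.sInf_le ⟨ψ, hψ, rfl⟩
  have h2 : sInf ((fun ψ : Cfsg.IrrCharacter G =>
      (Cfsg.charDegree (ψ : G → ℂ)).factorization p) '' B)
      ≤ (Cfsg.charDegree (χ : G → ℂ)).factorization p := Nat.sInf_le ⟨χ, hχ, rfl⟩
  rw [← hν] at hht h2
  omega

end BlockInd8

end Cfsg.Agent.Lib.Helper6
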