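import Mathlib
import Cfsg.Prelude.Def_Blocks
import Cfsg.Agent.Lib.Helper6.BlockHt0
import Cfsg.Agent.Lib.Helper6.BlockRank3
import Cfsg.Agent.Lib.Lead.CharRing

set_option autoImplicit false

namespace Cfsg.Agent.Lib.Helper6

open Cfsg.Agent.Lib.Lead Cfsg.Agent.Lib.Helper2
open scoped ComplexConjugate

section BlockInd9

theorem brauer_feit_bound {G : Type*} [Group G] [Finite G] (p : ℕ) [Fact p.Prime]
    (M : Ideal Cfsg.AlgInt) (hM : Cfsg.IsPModular p M) (B : Set (Cfsg.IrrCharacter G))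
    (hB : Cfsg.IsPBlock M B) : 4 * Nat.card B ≤ p ^ (2 * Cfsg.blockDefect p B) + 4 := by
  classical
  letI := Fintype.ofFinite G
  haveI : Finite (Cfsg.IrrCharacter G) := irr_finite'
  letI := Fintype.ofFinite (Cfsg.IrrCharacter G)
  have hMp := hM.2.1.isPrime
  have hp := hM.1
  obtain ⟨χ₀, hχ₀, hχ₀min⟩ := exists_height_zero M hMp p B hB
  have hht : Cfsg.blockHeight p B (χ₀ : G → ℂ) = 0 := by
    unfold Cfsg.blockHeight
    rw [← hχ₀min]
    exact Nat.sub_self _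
  obtain ⟨a, ha⟩ : ∃ a, a = (Nat.card G).factorization p := ⟨_, rfl⟩
  obtain ⟨ν, hν⟩ : ∃ ν, ν = (Cfsg.charDegree (χ₀ : G → ℂ)).factorization p := ⟨_, rfl⟩
  have hd0 : Cfsg.charDegree (χ₀ : G → ℂ) ≠ 0 := (charDegree_pos_of_irr χ₀.2).ne'
  have hχdvd : Cfsg.charDegree (χ₀ : G → ℂ) ∣ Nat.card G :=
    irr_degree_dvd_card χ₀ _ (isIrrCharacter_one_eq_charDegree χ₀.2)
  have hν2 : ν ≤ a := by
    rw [hν, ha]
    exact (Nat.factorization_le_iff_dvd hd0 (Nat.card_pos).ne').2 hχdvd p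
  have hdef : Cfsg.blockDefect p B = a - ν := by
    unfold Cfsg.blockDefect
    rw [← hχ₀min, ← hν, ← ha]
  obtain ⟨m, hm0, hexp, hI⟩ := ht_inner_int p M hM B hB χ₀ hχ₀
  rw [← hν, ← ha] at hexp
  rw [← hν] at hI
  have hmne : ∀ ξ ∈ B, m ξ ≠ 0 := by
    intro ξ hξ hz
    obtain ⟨n, hn, hn0, -⟩ := ((ht_zero_main p M hM B hB χ₀ hχ₀).2.1 hht) ξ hξ
    rw [hI ξ, hz, mul_zero] at hn
    apply hn0
    exact_mod_cast hn.symm
  obtain ⟨Θ, hΘ⟩ : ∃ Θ : G → ℂ, ∀ x, Θ x = if p ∣ orderOf x then (0 : ℂ)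
      else ((p ^ (a - ν) : ℕ) : ℂ) * (χ₀ : G → ℂ) x :=
    ⟨fun x => if p ∣ orderOf x then (0 : ℂ) else ((p ^ (a - ν) : ℕ) : ℂ) * (χ₀ : G → ℂ) x,
      fun _ => rfl⟩
  have hΘexp : ∀ x, Θ x = ∑ ψ : Cfsg.IrrCharacter G, (m ψ : ℂ) * (ψ : G → ℂ) x := by
    intro x
    rw [hΘ x, hexp x, finsum_eq_sum_of_fintype]
  have hpsplit : ((p ^ a : ℕ) : ℂ) = ((p ^ ν : ℕ) : ℂ) * ((p ^ (a - ν) : ℕ) : ℂ) := by
    rw [← Nat.cast_mul, ← pow_add, Nat.add_sub_cancel' hν2]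
  have hpν0 : ((p ^ ν : ℕ) : ℂ) ≠ 0 := by exact_mod_cast (pow_pos hp.pos ν).ne'
  have hΘin : ∀ ξ : Cfsg.IrrCharacter G, Cfsg.classInner Θ (ξ : G → ℂ) = (m ξ : ℂ) := by
    intro ξ
    have h1 := hI ξ
    have h2 : Cfsg.classInner (fun x : G => if p ∣ orderOf x then (0 : ℂ)
          else ((p ^ (Nat.card G).factorization p : ℕ) : ℂ) * (χ₀ : G → ℂ) x) (ξ : G → ℂ)
        = ((p ^ ν : ℕ) : ℂ) * Cfsg.classInner Θ (ξ : G → ℂ) := by
      unfold Cfsg.classInner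
      rw [← ha, mul_left_comm]
      congr 1
      rw [Finset.mul_sum]
      apply Finset.sum_congr rfl
      intro x _
      rw [hΘ x]
      by_cases hx : p ∣ orderOf x
      · simp only [if_pos hx]
        ring
      · simp only [if_neg hx]
        rw [hpsplit]
        ring
    rw [h2] at h1
    have h3 : ((p ^ ν : ℕ) : ℂ) * Cfsg.classInner Θ (ξ : G → ℂ)
        = ((p ^ ν : ℕ) : ℂ) * (m ξ : ℂ) := by
      rw [h1]
      push_cast
      ring
    exact mul_left_cancel₀ hpν0 h3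
  have hconj : ∀ x, conj (Θ x)
      = ∑ ξ : Cfsg.IrrCharacter G, (m ξ : ℂ) * conj ((ξ : G → ℂ) x) := by
    intro x
    rw [hΘexp x, map_sum]
    apply Finset.sum_congr rfl
    intro ξ _
    rw [map_mul, map_intCast]
  have hQ : Cfsg.classInner Θ Θ = ∑ ξ : Cfsg.IrrCharacter G, (m ξ : ℂ) * (m ξ : ℂ) := by
    calc Cfsg.classInner Θ Θ = (Nat.card G : ℂ)⁻¹ * ∑ x : G, Θ x * conj (Θ x) := rfl
      _ = (Nat.card G : ℂ)⁻¹ * ∑ x : G, ∑ ξ : Cfsg.IrrCharacter G,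
            (m ξ : ℂ) * (Θ x * conj ((ξ : G → ℂ) x)) := by
          congr 1
          apply Finset.sum_congr rfl
          intro x _
          rw [hconj x, Finset.mul_sum]
          apply Finset.sum_congr rfl
          intro ξ _
          ring
      _ = ∑ ξ : Cfsg.IrrCharacter G, (m ξ : ℂ)
            * ((Nat.card G : ℂ)⁻¹ * ∑ x : G, Θ x * conj ((ξ : G → ℂ) x)) := by
          rw [Finset.sum_comm, Finset.mul_sum]
          apply Finset.sum_congr rfl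
          intro ξ _
          rw [← Finset.mul_sum]
          ring
      _ = ∑ ξ : Cfsg.IrrCharacter G, (m ξ : ℂ) * (m ξ : ℂ) := by
          apply Finset.sum_congr rfl
          intro ξ _
          have h := hΘin ξ
          unfold Cfsg.classInner at h
          rw [h]
  have hQ2 : Cfsg.classInner Θ Θ = ((p ^ (a - ν) : ℕ) : ℂ) * (m χ₀ : ℂ) := by
    rw [← hΘin χ₀]
    unfold Cfsg.classInner
    rw [mul_left_comm]
    congr 1
    rw [Finset.mul_sum]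
    apply Finset.sum_congr rfl
    intro x _
    rw [hΘ x]
    split_ifs with hx
    · simp
    · rw [map_mul, Complex.conj_natCast]
      ring
  have hint : ∑ ξ : Cfsg.IrrCharacter G, m ξ * m ξ = (p : ℤ) ^ (a - ν) * m χ₀ := by
    have h : ((∑ ξ : Cfsg.IrrCharacter G, m ξ * m ξ : ℤ) : ℂ)
        = (((p : ℤ) ^ (a - ν) * m χ₀ : ℤ) : ℂ) := by
      push_cast
      rw [← hQ, hQ2]
      push_cast
      ring
    exact_mod_cast h
  have hsumT : (Nat.card B : ℤ) - 1 + m χ₀ * m χ₀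
      ≤ ∑ ξ : Cfsg.IrrCharacter G, m ξ * m ξ := by
    have h1 : ∀ ξ : Cfsg.IrrCharacter G,
        (if ξ ∈ B then (if ξ = χ₀ then m χ₀ * m χ₀ else (1 : ℤ)) else 0) ≤ m ξ * m ξ := by
      intro ξ
      split_ifs with h1 h2
      · rw [h2]
      · have h3 : 0 < m ξ * m ξ := mul_self_pos.2 (hmne ξ h1)
        omega
      · exact mul_self_nonneg _
    have h2 : ∑ ξ : Cfsg.IrrCharacter G,
        (if ξ ∈ B then (if ξ = χ₀ then m χ₀ * m χ₀ else (1 : ℤ)) else 0)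
        = (Nat.card B : ℤ) - 1 + m χ₀ * m χ₀ := by
      have h3 : ∀ ξ : Cfsg.IrrCharacter G,
          (if ξ ∈ B then (if ξ = χ₀ then m χ₀ * m χ₀ else (1 : ℤ)) else 0)
          = (if ξ ∈ B then (1 : ℤ) else 0) + (if ξ = χ₀ then m χ₀ * m χ₀ - 1 else 0) := by
        intro ξ
        by_cases h1 : ξ ∈ B
        · by_cases h2 : ξ = χ₀
          · rw [if_pos h1, if_pos h2, if_pos h1, if_pos h2]
            ring
          · rw [if_pos h1, if_neg h2, if_pos h1, if_neg h2]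
            ring
        · have h2 : ξ ≠ χ₀ := fun h => h1 (h ▸ hχ₀)
          rw [if_neg h1, if_neg h1, if_neg h2]
          ring
      have h4 : ∑ ξ : Cfsg.IrrCharacter G, (if ξ ∈ B then (1 : ℤ) else 0)
          = (Nat.card B : ℤ) := by
        rw [← Finset.sum_filter, Finset.sum_const, nsmul_eq_mul, mul_one]
        congr 1
        exact (Nat.subtype_card (Finset.univ.filter (· ∈ B)) (by intro x; simp)).symm
      rw [Finset.sum_congr rfl (fun ξ _ => h3 ξ), Finset.sum_add_distrib, h4,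
        Finset.sum_ite_eq' Finset.univ χ₀ (fun _ => m χ₀ * m χ₀ - 1),
        if_pos (Finset.mem_univ _)]
      ring
    rw [← h2]
    exact Finset.sum_le_sum (fun ξ _ => h1 ξ)
  rw [hint] at hsumT
  rw [hdef]
  -- arithmetic: card - 1 + m₀² ≤ P * m₀ with P = p^(a-ν); goal 4 card ≤ P^2 + 4
  obtain ⟨P, hP⟩ : ∃ P : ℤ, P = (p : ℤ) ^ (a - ν) := ⟨_, rfl⟩
  rw [← hP] at hsumT
  have hgoal : (4 * (Nat.card B : ℤ)) ≤ P ^ 2 + 4 := by
    nlinarith [sq_nonneg (P - 2 * m χ₀)]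
  have hP2 : ((p ^ (2 * (a - ν)) + 4 : ℕ) : ℤ) = P ^ 2 + 4 := by
    rw [hP]
    push_cast
    ring
  have hfin : ((4 * Nat.card B : ℕ) : ℤ) ≤ ((p ^ (2 * (a - ν)) + 4 : ℕ) : ℤ) := by
    rw [hP2]
    push_cast
    exact hgoal
  exact_mod_cast hfin

end BlockInd9

end Cfsg.Agent.Lib.Helper6
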