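import Mathlib
import Cfsg.Prelude.Def_Blocks
import Cfsg.Agent.Lib.Lead.CharBurnside
import Cfsg.Agent.Lib.Lead.CharRing
import Cfsg.Agent.Lib.Lead.CharCons
import Cfsg.Agent.Lib.Lead.CharOrtho
import Cfsg.Agent.Lib.Helper6.BlockOrtho
import Cfsg.Agent.Lib.Helper6.BlockCF
import Cfsg.Agent.Lib.Helper6.BlockBrauer

set_option autoImplicit false

namespace Cfsg.Agent.Lib.Helper6

open Cfsg.Agent.Lib.Lead Cfsg.Agent.Lib.Helper2
open scoped ComplexConjugate

section BlockPQ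

theorem ppart_ne_one {G : Type*} [Group G] (p : ℕ) {g x : G} (hx : Cfsg.IsPPart p g x)
    (hg : p ∣ orderOf g) : x ≠ 1 := by
  rintro rfl
  obtain ⟨y, hxy, _, _, hy⟩ := hx
  rw [one_mul] at hxy
  rw [hxy] at hy
  exact hy hg

theorem no_pq_singular {G : Type*} [Group G] [Finite G] (p q : ℕ) (hp : p.Prime)
    (hq : q.Prime) (hpq : p ≠ q) (hno : ∀ g : G, orderOf g ≠ p * q) (z : G)
    (h1 : p ∣ orderOf z) (h2 : q ∣ orderOf z) : False := by
  have hdvd : p * q ∣ orderOf z :=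
    Nat.Coprime.mul_dvd_of_dvd_of_dvd ((Nat.coprime_primes hp hq).2 hpq) h1 h2
  obtain ⟨m, hm⟩ := hdvd
  have hpos := orderOf_pos z
  have hm0 : m ≠ 0 := by
    rintro rfl
    rw [mul_zero] at hm
    omega
  apply hno (z ^ m)
  rw [orderOf_pow_of_dvd hm0 (Dvd.intro_left _ hm.symm), hm]
  exact Nat.mul_div_cancel _ (Nat.pos_of_ne_zero hm0)

/-- In a group without elements of order `p q`, the sum of `χ(1) χ(y)` over the characters in
both a `p`-block and a `q`-block is divisible by the `q`-part of the group order when `y` is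
`p`-singular. -/
theorem pq_block_main {G : Type*} [Group G] [Finite G] (p q : ℕ) [Fact p.Prime]
    [Fact q.Prime] (hpq : p ≠ q) (Mp Mq : Ideal Cfsg.AlgInt) (hMp : Cfsg.IsPModular p Mp)
    (hMq : Cfsg.IsPModular q Mq) (hno : ∀ g : G, orderOf g ≠ p * q) (b : ℕ)
    (hb : (Nat.card G).factorization q = b) (Bp : Set (Cfsg.IrrCharacter G))
    (hBp : Cfsg.IsPBlock Mp Bp) (Bq : Set (Cfsg.IrrCharacter G)) (hBq : Cfsg.IsPBlock Mq Bq)
    (y : G) (hy : p ∣ orderOf y) :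
    ∃ ω : Cfsg.AlgInt, ∑ᶠ χ ∈ Bp ∩ Bq, (Cfsg.charDegree (χ : G → ℂ) : ℂ) * (χ : G → ℂ) y
      = (q : ℂ) ^ b * (ω : ℂ) := by
  classical
  letI := Fintype.ofFinite G
  haveI : Finite (Cfsg.IrrCharacter G) := irr_finite'
  letI := Fintype.ofFinite (Cfsg.IrrCharacter G)
  have hp := (Fact.out : p.Prime)
  have hq := (Fact.out : q.Prime)
  have hGne : (Nat.card G : ℂ) ≠ 0 := by exact_mod_cast (Nat.card_pos (α := G)).ne'
  -- block orthogonality
  have hoq : ∀ x z : G, q ∣ orderOf x → ¬ q ∣ orderOf z →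
      ∑ ψ : Cfsg.IrrCharacter G,
        (if ψ ∈ Bq then (ψ : G → ℂ) x * (ψ : G → ℂ) z⁻¹ else 0) = 0 := by
    intro x z hx hz
    obtain ⟨w, hw⟩ := exists_ppart q x
    have hw1 : w ≠ 1 := ppart_ne_one q hw hx
    have hz1 : Cfsg.IsPPart q z 1 := ⟨z, one_mul z, Commute.one_left z, ⟨0, by simp⟩, hz⟩
    have hnc : ¬ IsConj w 1 := fun h => hw1 (isConj_one_left.1 h)
    have h := block_ortho q Mq hMq x z w 1 hw hz1 hnc Bq hBq
    rw [finsum_mem_ite] at h
    exact h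
  have hop : ∀ z : G, ¬ p ∣ orderOf z →
      ∑ χ : Cfsg.IrrCharacter G,
        (if χ ∈ Bp then (χ : G → ℂ) z * (χ : G → ℂ) y else 0) = 0 := by
    intro z hz
    obtain ⟨w, hw⟩ := exists_ppart p y⁻¹
    have hw1 : w ≠ 1 := ppart_ne_one p hw (by rw [orderOf_inv]; exact hy)
    have hz1 : Cfsg.IsPPart p z 1 := ⟨z, one_mul z, Commute.one_left z, ⟨0, by simp⟩, hz⟩
    have hnc : ¬ IsConj 1 w := fun h => hw1 (isConj_one_right.1 h)
    have h := block_ortho p Mp hMp z y⁻¹ 1 w hz1 hw hnc Bp hBp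
    rw [finsum_mem_ite] at h
    simp only [inv_inv] at h
    exact h
  -- the key vanishing
  have hvan : ∀ x : G, q ∣ orderOf x →
      ∑ χ : Cfsg.IrrCharacter G,
        (if χ ∈ Bp ∩ Bq then (χ : G → ℂ) y * (χ : G → ℂ) x else 0) = 0 := by
    intro x hx
    obtain ⟨β, hβ⟩ : ∃ β : G → ℂ, ∀ z, β z = (Nat.card G : ℂ)⁻¹
        * ∑ ψ : Cfsg.IrrCharacter G,
          (if ψ ∈ Bq then (ψ : G → ℂ) x * (ψ : G → ℂ) z⁻¹ else 0) :=
      ⟨fun z => _, fun _ => rfl⟩
    have hexp : ∀ χ : Cfsg.IrrCharacter G,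
        ∑ z : G, β z * (χ : G → ℂ) z = (if χ ∈ Bq then (χ : G → ℂ) x else 0) := by
      intro χ
      have h1 : ∀ z : G, β z * (χ : G → ℂ) z
          = ∑ ψ : Cfsg.IrrCharacter G, (if ψ ∈ Bq then (ψ : G → ℂ) x else 0)
            * ((Nat.card G : ℂ)⁻¹ * ((χ : G → ℂ) z * conj ((ψ : G → ℂ) z))) := by
        intro z
        rw [hβ, Finset.mul_sum, Finset.sum_mul]
        apply Finset.sum_congr rfl
        intro ψ _
        rw [isCharacter_inv_eq_conj (isCharacter_of_isIrrCharacter ψ.2) z]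
        split_ifs <;> ring
      rw [Finset.sum_congr rfl (fun z _ => h1 z), Finset.sum_comm]
      have h2 : ∀ ψ : Cfsg.IrrCharacter G,
          ∑ z : G, (if ψ ∈ Bq then (ψ : G → ℂ) x else 0)
            * ((Nat.card G : ℂ)⁻¹ * ((χ : G → ℂ) z * conj ((ψ : G → ℂ) z)))
          = (if χ = ψ then (if ψ ∈ Bq then (ψ : G → ℂ) x else 0) else 0) := by
        intro ψ
        rw [← Finset.mul_sum, ← Finset.mul_sum]
        have h3 := irr_orthonormal χ.2 ψ.2
        unfold Cfsg.classInner at h3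
        rw [h3]
        by_cases hχψ : χ = ψ
        · have h4 : (χ : G → ℂ) = (ψ : G → ℂ) := by rw [hχψ]
          rw [if_pos hχψ, if_pos h4, mul_one]
        · have h4 : ¬ (χ : G → ℂ) = (ψ : G → ℂ) := fun h => hχψ (Subtype.ext h)
          rw [if_neg hχψ, if_neg h4, mul_zero]
      rw [Finset.sum_congr rfl (fun ψ _ => h2 ψ), Finset.sum_ite_eq,
        if_pos (Finset.mem_univ _)]
    have hsplit : ∀ χ : Cfsg.IrrCharacter G,
        (if χ ∈ Bp ∩ Bq then (χ : G → ℂ) y * (χ : G → ℂ) x else 0)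
        = ∑ z : G, β z * (if χ ∈ Bp then (χ : G → ℂ) z * (χ : G → ℂ) y else 0) := by
      intro χ
      have h1 : (if χ ∈ Bp ∩ Bq then (χ : G → ℂ) y * (χ : G → ℂ) x else 0)
          = (if χ ∈ Bp then (χ : G → ℂ) y else 0)
            * (if χ ∈ Bq then (χ : G → ℂ) x else 0) := by
        by_cases h1 : χ ∈ Bp <;> by_cases h2 : χ ∈ Bq <;> simp [h1, h2, Set.mem_inter_iff]
      rw [h1, ← hexp χ, Finset.mul_sum]
      apply Finset.sum_congr rfl
      intro z _
      split_ifs <;> ring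
    rw [Finset.sum_congr rfl (fun χ _ => hsplit χ), Finset.sum_comm]
    apply Finset.sum_eq_zero
    intro z _
    rw [← Finset.mul_sum]
    by_cases hzq : q ∣ orderOf z
    · have hzp : ¬ p ∣ orderOf z := fun h => no_pq_singular p q hp hq hpq hno z h hzq
      rw [hop z hzp, mul_zero]
    · rw [hβ, hoq x z hx hzq, mul_zero, zero_mul]
  -- a Sylow q-subgroup
  obtain ⟨Q⟩ := (inferInstance : Nonempty (Sylow q G))
  letI : Fintype (Q : Subgroup G) := Fintype.ofFinite _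
  have hQcard : Nat.card (Q : Subgroup G) = q ^ b := by
    rw [← hb]
    exact Q.card_eq_multiplicity
  have hn : ∀ χ : Cfsg.IrrCharacter G, ∃ n : ℕ,
      ∑ x : (Q : Subgroup G), (χ : G → ℂ) x = (q : ℂ) ^ b * n := by
    intro χ
    obtain ⟨n, hn⟩ := classInner_isCharacter_nat
      (isCharacter_res (Q : Subgroup G) (isCharacter_of_isIrrCharacter χ.2))
      (isCharacter_of_isIrrCharacter (isIrrCharacter_one (Q : Subgroup G)))
    refine ⟨n, ?_⟩
    unfold Cfsg.classInner at hn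
    simp only [map_one, mul_one] at hn
    have hQne : (Nat.card (Q : Subgroup G) : ℂ) ≠ 0 := by
      exact_mod_cast (Nat.card_pos (α := (Q : Subgroup G))).ne'
    rw [inv_mul_eq_iff_eq_mul₀ hQne] at hn
    rw [hn, hQcard]
    push_cast
    ring
  choose n hn using hn
  obtain ⟨θ, hθ⟩ : ∃ θ : G → ℂ, ∀ x, θ x = ∑ χ : Cfsg.IrrCharacter G,
      (if χ ∈ Bp ∩ Bq then (χ : G → ℂ) y * (χ : G → ℂ) x else 0) :=
    ⟨fun x => _, fun _ => rfl⟩
  have hQsum : ∑ x : (Q : Subgroup G), θ x = θ 1 := by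
    rw [Finset.sum_eq_single (1 : (Q : Subgroup G))]
    · rw [OneMemClass.coe_one]
    · intro x _ hx1
      rw [hθ]
      apply hvan
      obtain ⟨k, hk⟩ := (IsPGroup.iff_orderOf.1 Q.isPGroup') x
      have hk0 : k ≠ 0 := by
        rintro rfl
        rw [pow_zero, orderOf_eq_one_iff] at hk
        exact hx1 hk
      rw [Subgroup.orderOf_coe, hk]
      exact dvd_pow_self q hk0
    · intro h
      exact absurd (Finset.mem_univ _) h
  have hθ1 : θ 1 = (q : ℂ) ^ b * ∑ χ : Cfsg.IrrCharacter G,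
      (if χ ∈ Bp ∩ Bq then (χ : G → ℂ) y * (n χ : ℂ) else 0) := by
    rw [← hQsum]
    simp only [hθ]
    rw [Finset.sum_comm, Finset.mul_sum]
    apply Finset.sum_congr rfl
    intro χ _
    by_cases hχ : χ ∈ Bp ∩ Bq
    · simp only [if_pos hχ]
      rw [← Finset.mul_sum, hn χ]
      ring
    · simp only [if_neg hχ]
      simp
  have hint : IsIntegral ℤ (∑ χ : Cfsg.IrrCharacter G,
      (if χ ∈ Bp ∩ Bq then (χ : G → ℂ) y * (n χ : ℂ) else 0)) := by
    apply IsIntegral.sum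
    intro χ _
    split_ifs
    · exact (bcf_irr_isIntegral χ.2 y).mul (isIntegral_natCast _)
    · exact isIntegral_zero
  have key : ∑ χ : Cfsg.IrrCharacter G,
      (if χ ∈ Bp ∩ Bq then (Cfsg.charDegree (χ : G → ℂ) : ℂ) * (χ : G → ℂ) y else 0)
      = (q : ℂ) ^ b * ∑ χ : Cfsg.IrrCharacter G,
        (if χ ∈ Bp ∩ Bq then (χ : G → ℂ) y * (n χ : ℂ) else 0) := by
    rw [← hθ1, hθ]
    apply Finset.sum_congr rfl
    intro χ _
    rw [isIrrCharacter_one_eq_charDegree χ.2, mul_comm]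
  refine ⟨⟨_, hint⟩, ?_⟩
  rw [finsum_mem_ite]
  exact key

end BlockPQ

end Cfsg.Agent.Lib.Helper6
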