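import Cfsg.Agent.Lib.Helper6.ChevX

set_option autoImplicit false

namespace Cfsg.Agent.Lib.Helper6

open Cfsg Cfsg.Lie

theorem chev_xMat_map {F : Type*} [Field F] (D : ChevalleyDatum) (f : F ≃+* F) (r : Fin D.nroots) (t : F) :
    (D.xMat F r t).map f = D.xMat F r (f t) := by
  ext row col
  rw [Matrix.map_apply]
  unfold ChevalleyDatum.xMat
  rw [Matrix.of_apply, Matrix.of_apply]
  rcases col with i | s
  · rcases row with i' | u
    · simp only [apply_ite f, map_one, map_zero]
    · simp only [apply_ite f, map_zero, map_neg, map_mul, map_intCast]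
  · by_cases hs : s = r
    · rcases row with i' | u
      · simp [hs]
      · simp [hs, apply_ite f]
    · by_cases hs2 : s.val = D.negIdx.getD r.val 0
      · rcases row with i' | u
        · simp only [hs, hs2, if_true, if_false, map_mul, map_intCast]
        · simp only [hs, hs2, if_true, if_false, apply_ite f, map_one, map_zero, map_neg, map_pow]
      · rcases row with i' | u
        · simp only [hs, hs2, if_false, map_zero]
        · simp only [hs, hs2, if_false, map_add, apply_ite f, map_one, map_zero, map_list_sum,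
            List.map_map]
          congr 3
          funext km
          simp only [Function.comp, map_mul, map_intCast, map_pow]

/-- The automorphism of the general linear group induced by a field automorphism. -/
noncomputable def chevFieldEquiv {F : Type*} [Field F] (D : ChevalleyDatum) (f : F ≃+* F) :
    GL D.Idx F ≃* GL D.Idx F :=
  Units.mapEquiv (RingEquiv.mapMatrix f).toMulEquiv

theorem chevFieldEquiv_val {F : Type*} [Field F] (D : ChevalleyDatum) (f : F ≃+* F) (g : GL D.Idx F) :
    ((chevFieldEquiv D f g : GL D.Idx F) : Matrix D.Idx D.Idx F) = (g : Matrix D.Idx D.Idx F).map f := rfl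

theorem chev_x_map {F : Type*} [Field F] (D : ChevalleyDatum) (f : F ≃+* F) (r : ℕ) (hr : r < D.nroots)
    (t : F) : (D.x F r t).map f = D.x F r (f t) := by
  unfold ChevalleyDatum.x
  rw [dif_pos hr, dif_pos hr]
  exact chev_xMat_map D f _ t

theorem chevFieldEquiv_map_group_le {F : Type*} [Field F] (D : ChevalleyDatum) (f : F ≃+* F) :
    (D.group F).map (chevFieldEquiv D f).toMonoidHom ≤ D.group F := by
  unfold ChevalleyDatum.group
  rw [MonoidHom.map_closure, Subgroup.closure_le]
  rintro _ ⟨g, ⟨r, t, hg⟩, rfl⟩
  apply Subgroup.subset_closure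
  refine ⟨r, f t, ?_⟩
  show ((chevFieldEquiv D f g : GL D.Idx F) : Matrix D.Idx D.Idx F) = _
  rw [chevFieldEquiv_val, hg, chev_xMat_map]

theorem chevFieldEquiv_symm_apply {F : Type*} [Field F] (D : ChevalleyDatum) (f : F ≃+* F) (g : GL D.Idx F) :
    chevFieldEquiv D f.symm (chevFieldEquiv D f g) = g := by
  apply Units.ext
  rw [chevFieldEquiv_val, chevFieldEquiv_val]
  ext i j
  simp

theorem chevFieldEquiv_map_group {F : Type*} [Field F] (D : ChevalleyDatum) (f : F ≃+* F) :
    (D.group F).map (chevFieldEquiv D f).toMonoidHom = D.group F := by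
  apply le_antisymm (chevFieldEquiv_map_group_le D f)
  intro g hg
  refine ⟨chevFieldEquiv D f.symm g, ?_, ?_⟩
  · apply chevFieldEquiv_map_group_le D f.symm
    exact ⟨g, hg, rfl⟩
  · have := chevFieldEquiv_symm_apply D f.symm g
    simpa using this

theorem chev_field_aut {F : Type*} [Field F] (D : ChevalleyDatum) (f : F ≃+* F) :
    ∃ α : ↥(D.group F) ≃* ↥(D.group F), ∀ (g : ↥(D.group F)) (r : ℕ) (t : F), r < D.nroots →
      ((g : GL D.Idx F) : Matrix D.Idx D.Idx F) = D.x F r t →
      ((α g : GL D.Idx F) : Matrix D.Idx D.Idx F) = D.x F r (f t) := by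
  refine ⟨((chevFieldEquiv D f).subgroupMap (D.group F)).trans
    (MulEquiv.subgroupCongr (chevFieldEquiv_map_group D f)), ?_⟩
  intro g r t hr hg
  show ((chevFieldEquiv D f (g : GL D.Idx F) : GL D.Idx F) : Matrix D.Idx D.Idx F) = _
  rw [chevFieldEquiv_val, hg, chev_x_map D f r hr]

end Cfsg.Agent.Lib.Helper6
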