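import Cfsg.Agent.Lib.Helper6.ChevTables

set_option autoImplicit false

namespace Cfsg.Agent.Lib.Helper6

open Cfsg Cfsg.Lie

theorem chev_chainCoeff_pos (D : ChevalleyDatum) (r s u : ℕ) :
    ∀ km ∈ D.chainCoeff r s u, km.1 ≠ 0 := by
  intro km hkm
  unfold ChevalleyDatum.chainCoeff at hkm
  rw [List.mem_flatMap] at hkm
  obtain ⟨e, -, he⟩ := hkm
  rw [List.mem_map] at he
  obtain ⟨q, -, rfl⟩ := he
  simp

theorem chev_xMat_zero {F : Type*} [Field F] (D : ChevalleyDatum) (r : Fin D.nroots) :
    D.xMat F r 0 = 1 := by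
  ext row col
  unfold ChevalleyDatum.xMat
  rw [Matrix.of_apply, Matrix.one_apply]
  rcases col with i | s
  · rcases row with i' | u
    · simp
    · simp
  · by_cases hs : s = r
    · rcases row with i' | u
      · simp [hs]
      · simp [hs]
    · by_cases hs2 : s.val = D.negIdx.getD r.val 0
      · rcases row with i' | u
        · simp [hs]
        · simp only [hs, hs2, if_true, if_false]
          simp
      · rcases row with i' | u
        · simp [hs]
        · simp only [hs, hs2, if_false]
          have : ((D.chainCoeff r.val s.val u.val).map fun km => ((km.2 : ℤ) : F) * (0:F) ^ km.1).sum = 0 := by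
            apply List.sum_eq_zero
            intro x hx
            rw [List.mem_map] at hx
            obtain ⟨km, hkm, rfl⟩ := hx
            rw [zero_pow (chev_chainCoeff_pos D _ _ _ km hkm), mul_zero]
          rw [this, add_zero]
          simp

theorem chev_xMat_neg_entry {F : Type*} [Field F] (D : ChevalleyDatum) (r : Fin D.nroots) (t : F)
    (s : Fin D.nroots) (hs : s.val = D.negIdx.getD r.val 0) (hsr : s ≠ r) :
    D.xMat F r t (Sum.inr r) (Sum.inr s) = -(t ^ 2) := by
  unfold ChevalleyDatum.xMat
  rw [Matrix.of_apply]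
  simp only [hsr, hs, if_true, if_false]
  rw [if_neg]
  intro h
  exact hsr h.symm

theorem chev_x_eq_one_iff {F : Type*} [Field F] (D : ChevalleyDatum)
    (hD : D ∈ [chevG2, chevB2, chevD4, chevF4, chevE6, chevE7, chevE8]) (r : ℕ) (hr : r < D.nroots) (t : F) :
    D.x F r t = 1 ↔ t = 0 := by
  unfold ChevalleyDatum.x
  rw [dif_pos hr]
  constructor
  · intro h
    obtain ⟨h1, h2⟩ := chev_neg_ne D hD r hr
    have h3 := chev_xMat_neg_entry (F := F) D ⟨r, hr⟩ t ⟨D.negIdx.getD r 0, h1⟩ rfl
      (by intro h; apply h2; exact congrArg Fin.val h)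
    rw [h, Matrix.one_apply, if_neg] at h3
    · have : t ^ 2 = 0 := by rw [← neg_eq_zero]; exact h3.symm
      exact pow_eq_zero_iff (two_ne_zero) |>.mp this
    · intro h; apply h2; 
      have := Sum.inr.inj h
      exact (congrArg Fin.val this).symm
  · rintro rfl
    exact chev_xMat_zero D _

end Cfsg.Agent.Lib.Helper6
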