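import Mathlib
import Cfsg.Prelude.Def_RootSubgroups

set_option autoImplicit false

namespace Cfsg.Agent.Lib.Helper6

open Cfsg

variable {G : Type*} [Group G]

theorem cb_mem {A : Subgroup G} {g x : G} : x ∈ conjBy A g ↔ g⁻¹ * x * g ∈ A := by
  constructor
  · rintro ⟨y, hy, rfl⟩
    have : g⁻¹ * ((MulAut.conj g).toMonoidHom y) * g = y := by
      simp only [MulEquiv.toMonoidHom_eq_coe, MonoidHom.coe_coe, MulAut.conj_apply]
      group
    rw [this]; exact hy
  · intro h
    refine ⟨g⁻¹ * x * g, h, ?_⟩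
    simp [MulAut.conj_apply, mul_assoc]

theorem cb_mem' {A : Subgroup G} {g y : G} (hy : y ∈ A) : g * y * g⁻¹ ∈ conjBy A g := by
  rw [cb_mem]
  have : g⁻¹ * (g * y * g⁻¹) * g = y := by group
  rw [this]; exact hy

theorem cb_one (A : Subgroup G) : conjBy A 1 = A := by
  ext x
  rw [cb_mem]; simp

theorem cb_cb (A : Subgroup G) (g h : G) : conjBy (conjBy A g) h = conjBy A (h * g) := by
  ext x
  rw [cb_mem, cb_mem, cb_mem]
  have : g⁻¹ * (h⁻¹ * x * h) * g = (h * g)⁻¹ * x * (h * g) := by group
  rw [this]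

theorem cb_of_mem {A : Subgroup G} {g : G} (hg : g ∈ A) : conjBy A g = A := by
  ext x
  rw [cb_mem]
  constructor
  · intro h
    have : x = g * (g⁻¹ * x * g) * g⁻¹ := by group
    rw [this]
    exact mul_mem (mul_mem hg h) (inv_mem hg)
  · intro h
    exact mul_mem (mul_mem (inv_mem hg) h) hg

theorem cb_eq_self_iff {A : Subgroup G} {g : G} :
    conjBy A g = A ↔ g ∈ Subgroup.normalizer (A : Set G) := by
  rw [Subgroup.mem_normalizer_iff]
  constructor
  · intro h x
    constructor
    · intro hx
      rw [← h]; exact cb_mem' hx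
    · intro hx
      rw [← h, cb_mem] at hx
      have : g⁻¹ * (g * x * g⁻¹) * g = x := by group
      rwa [this] at hx
  · intro h
    ext x
    rw [cb_mem]
    have := h (g⁻¹ * x * g)
    have e : g * (g⁻¹ * x * g) * g⁻¹ = x := by group
    rw [e] at this
    exact this

theorem cb_inj {A B : Subgroup G} {g : G} (h : conjBy A g = conjBy B g) : A = B := by
  have := congrArg (fun C => conjBy C g⁻¹) h
  simp only [cb_cb, inv_mul_cancel, cb_one] at this
  exact this

theorem cb_eq_iff {A B : Subgroup G} {g : G} : conjBy A g = B ↔ A = conjBy B g⁻¹ := by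
  constructor
  · rintro rfl
    rw [cb_cb, inv_mul_cancel, cb_one]
  · rintro rfl
    rw [cb_cb, mul_inv_cancel, cb_one]

theorem cb_le_sup {A : Subgroup G} {K : Subgroup G} (hA : A ≤ K) {g : G} (hg : g ∈ K) :
    conjBy A g ≤ K := by
  intro x hx
  rw [cb_mem] at hx
  have : x = g * (g⁻¹ * x * g) * g⁻¹ := by group
  rw [this]
  exact mul_mem (mul_mem hg (hA hx)) (inv_mem hg)

/-- Induction over the join of two subgroups (no inverse case needed). -/
theorem cb_sup_induction {A B : Subgroup G} (P : G → Prop) (hA : ∀ a ∈ A, P a) (hB : ∀ b ∈ B, P b)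
    (hone : P 1) (hmul : ∀ x y, P x → P y → P (x * y)) : ∀ x ∈ A ⊔ B, P x := by
  have key : ∀ x ∈ Subgroup.closure ((A : Set G) ∪ B), P x := by
    intro x hx
    refine Subgroup.closure_induction'' (p := fun g _ => P g) ?_ ?_ hone ?_ hx
    · intro y hy
      rcases hy with hy | hy
      · exact hA y hy
      · exact hB y hy
    · intro y hy
      rcases hy with hy | hy
      · exact hA _ (inv_mem hy)
      · exact hB _ (inv_mem hy)
    · intro y z _ _ hy hz
      exact hmul y z hy hz
  intro x hx
  apply key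
  rw [Subgroup.closure_union, Subgroup.closure_eq, Subgroup.closure_eq]; exact hx

end Cfsg.Agent.Lib.Helper6
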