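import Cfsg.Agent.Lib.Helper6.QuadMod2

set_option autoImplicit false
set_option linter.style.haveILetI false
set_option linter.unusedVariables false

namespace Cfsg.Agent.Lib.Helper6

open Cfsg

variable {G : Type*} [Group G]

/-- An abelian subgroup, written additively. -/
def CMod (N : Subgroup G) : Type _ := Additive ↥N

/-- The identification `N → CMod N`. -/
def cmOf {N : Subgroup G} (x : ↥N) : CMod N := Additive.ofMul x

/-- The identification `CMod N → N`. -/
def cmTo {N : Subgroup G} (m : CMod N) : ↥N := Additive.toMul m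

theorem cmOf_cmTo {N : Subgroup G} (m : CMod N) : cmOf (cmTo m) = m := rfl

theorem cmTo_cmOf {N : Subgroup G} (x : ↥N) : cmTo (cmOf x) = x := rfl

theorem cmOf_injective {N : Subgroup G} : Function.Injective (cmOf (N := N)) := fun _ _ h => h

instance cmodAddGroup (N : Subgroup G) : AddGroup (CMod N) :=
  inferInstanceAs (AddGroup (Additive ↥N))

instance cmodAddCommGroup (N : Subgroup G) [hN : IsMulCommutative ↥N] : AddCommGroup (CMod N) :=
  { cmodAddGroup N with
    add_comm := fun x y => hN.is_comm.comm (cmTo x) (cmTo y) }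

theorem cmOf_mul {N : Subgroup G} (x y : ↥N) : cmOf (x * y) = cmOf x + cmOf y := rfl

theorem cmOf_one {N : Subgroup G} : cmOf (1 : ↥N) = 0 := rfl

theorem cmOf_inv {N : Subgroup G} (x : ↥N) : cmOf x⁻¹ = -cmOf x := rfl

theorem cmOf_eq_zero {N : Subgroup G} {x : ↥N} : cmOf x = 0 ↔ x = 1 := Iff.rfl

/-- Conjugation by an element of the normalizer. -/
def cmConj (N : Subgroup G) (k : ↥(Subgroup.normalizer (N : Set G))) (x : ↥N) : ↥N :=
  ⟨(k : G) * x * (k : G)⁻¹, (Subgroup.mem_normalizer_iff.mp k.2 _).mp x.2⟩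

instance cmodAction (N : Subgroup G) [IsMulCommutative ↥N] :
    DistribMulAction ↥(Subgroup.normalizer (N : Set G)) (CMod N) where
  smul k m := cmOf (cmConj N k (cmTo m))
  one_smul m := by
    show cmOf (cmConj N 1 (cmTo m)) = m
    apply congrArg cmOf
    apply Subtype.ext
    simp [cmConj]
    rfl
  mul_smul k k' m := by
    show cmOf (cmConj N (k * k') (cmTo m)) = cmOf (cmConj N k (cmConj N k' (cmTo m)))
    apply congrArg cmOf
    apply Subtype.ext
    simp [cmConj, mul_assoc]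
  smul_zero k := by
    show cmOf (cmConj N k 1) = cmOf 1
    apply congrArg cmOf
    apply Subtype.ext
    simp [cmConj]
  smul_add k m m' := by
    show cmOf (cmConj N k (cmTo m * cmTo m')) = cmOf (cmConj N k (cmTo m) * cmConj N k (cmTo m'))
    apply congrArg cmOf
    apply Subtype.ext
    simp [cmConj, mul_assoc]

theorem cm_smul (N : Subgroup G) [IsMulCommutative ↥N] (k : ↥(Subgroup.normalizer (N : Set G))) (x : ↥N) :
    k • cmOf x = cmOf (cmConj N k x) := rfl

/-- The commutator `k x k⁻¹ x⁻¹` of a normalizing element with an element of `N`. -/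
def cmComm (N : Subgroup G) (k : ↥(Subgroup.normalizer (N : Set G))) (x : ↥N) : ↥N :=
  ⟨(k : G) * x * (k : G)⁻¹ * (x : G)⁻¹, mul_mem (cmConj N k x).2 (inv_mem x.2)⟩

theorem cm_rho_sub_one (N : Subgroup G) [IsMulCommutative ↥N] (k : ↥(Subgroup.normalizer (N : Set G))) (x : ↥N) :
    (qmRho ↥(Subgroup.normalizer (N : Set G)) (CMod N) k - 1) (cmOf x) = cmOf (cmComm N k x) := by
  show k • cmOf x - cmOf x = cmOf (cmComm N k x)
  rw [cm_smul, sub_eq_add_neg, ← cmOf_inv, ← cmOf_mul]
  rfl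

theorem cm_rho_sub_one' (N : Subgroup G) [IsMulCommutative ↥N] (k : ↥(Subgroup.normalizer (N : Set G)))
    (m : CMod N) :
    (qmRho ↥(Subgroup.normalizer (N : Set G)) (CMod N) k - 1) m = cmOf (cmComm N k (cmTo m)) :=
  cm_rho_sub_one N k (cmTo m)

/-- A product `(ρ k - 1)(ρ k' - 1)` vanishes when `[k', N] ≤ P` and `k` centralizes `P ∩ N`. -/
theorem cm_prod_zero (N : Subgroup G) [IsMulCommutative ↥N] (k k' : ↥(Subgroup.normalizer (N : Set G)))
    (P : Subgroup G) (h1 : ∀ n ∈ N, (k' : G) * n * (k' : G)⁻¹ * n⁻¹ ∈ P)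
    (h2 : ∀ p ∈ P, (k : G) * p * (k : G)⁻¹ * p⁻¹ = 1) :
    (qmRho ↥(Subgroup.normalizer (N : Set G)) (CMod N) k - 1) * (qmRho ↥(Subgroup.normalizer (N : Set G)) (CMod N) k' - 1) = 0 := by
  ext m
  show (qmRho ↥(Subgroup.normalizer (N : Set G)) (CMod N) k - 1) ((qmRho ↥(Subgroup.normalizer (N : Set G)) (CMod N) k' - 1) m) = 0
  rw [cm_rho_sub_one' N k' m, cm_rho_sub_one N k]
  show cmOf _ = cmOf 1
  apply congrArg cmOf
  apply Subtype.ext
  exact h2 _ (h1 _ (cmTo m).2)

/-- The underlying group element. -/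
def cmVal {N : Subgroup G} (m : CMod N) : G := ((cmTo m : ↥N) : G)

theorem cmVal_injective {N : Subgroup G} : Function.Injective (cmVal (N := N)) :=
  fun _ _ h => Subtype.ext h

theorem cmVal_cmOf {N : Subgroup G} (x : ↥N) : cmVal (cmOf x) = x := rfl

theorem cmVal_mem {N : Subgroup G} (m : CMod N) : cmVal m ∈ N := (cmTo m).2

theorem cmVal_zero {N : Subgroup G} [IsMulCommutative ↥N] : cmVal (0 : CMod N) = 1 := rfl

theorem cm_val_sub_one (N : Subgroup G) [IsMulCommutative ↥N]
    (k : ↥(Subgroup.normalizer (N : Set G))) (m : CMod N) :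
    cmVal ((qmRho ↥(Subgroup.normalizer (N : Set G)) (CMod N) k - 1) m) =
      (k : G) * cmVal m * (k : G)⁻¹ * (cmVal m)⁻¹ := by
  rw [cm_rho_sub_one']
  rfl

end Cfsg.Agent.Lib.Helper6
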