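import Mathlib

set_option autoImplicit false

namespace Cfsg.Agent.Lib.Helper6

section FieldAutCent

open Matrix

variable {F : Type*} [Field F]

theorem fa_mem (σ : F ≃+* F) (x : F) :
    x ∈ FixedPoints.subfield (Subgroup.zpowers σ) F ↔ σ x = x := by
  constructor
  · intro h
    exact h ⟨σ, Subgroup.mem_zpowers σ⟩
  · intro h g
    have hst : Subgroup.zpowers σ ≤ MulAction.stabilizer (F ≃+* F) x :=
      (Subgroup.zpowers_le).2 (MulAction.mem_stabilizer_iff.2 h)
    exact MulAction.mem_stabilizer_iff.1 (hst g.2)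

theorem fa_card [Fintype F] {q₀ r : ℕ} (hr : r.Prime) (hF : Fintype.card F = q₀ ^ r)
    (σ : F ≃+* F) (hσ : orderOf σ = r) :
    Nat.card (FixedPoints.subfield (Subgroup.zpowers σ) F) = q₀ := by
  classical
  haveI : Finite (F ≃+* F) :=
    Finite.of_injective (fun e : F ≃+* F => (e : F → F)) DFunLike.coe_injective
  haveI : Fintype (Subgroup.zpowers σ) := Fintype.ofFinite _
  have h1 := FixedPoints.finrank_eq_card (Subgroup.zpowers σ) F
  have h2 : Fintype.card (Subgroup.zpowers σ) = r := by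
    rw [← Nat.card_eq_fintype_card, Nat.card_zpowers, hσ]
  have h3 := Module.natCard_eq_pow_finrank (K := FixedPoints.subfield (Subgroup.zpowers σ) F)
    (V := F)
  rw [h1, h2, Nat.card_eq_fintype_card (α := F), hF] at h3
  exact (Nat.pow_left_injective hr.ne_zero h3).symm

theorem fa_main [Fintype F] {q₀ r n : ℕ} (hr : r.Prime) (hn : 1 ≤ n)
    (hF : Fintype.card F = q₀ ^ r) (σ : F ≃+* F) (hσ : orderOf σ = r) :
    Nat.card {g : GL (Fin n) F // ∃ c : F, c ≠ 0 ∧
        (g : Matrix (Fin n) (Fin n) F).map σ = c • (g : Matrix (Fin n) (Fin n) F)}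
      = (q₀ ^ r - 1) / (q₀ - 1) * ∏ i : Fin n, (q₀ ^ n - q₀ ^ (i : ℕ)) := by
  classical
  obtain ⟨E, hE⟩ : ∃ E : Subfield F, E = FixedPoints.subfield (Subgroup.zpowers σ) F :=
    ⟨_, rfl⟩
  have hEmem : ∀ x, x ∈ E ↔ σ x = x := fun x => by
    rw [hE]
    exact fa_mem σ x
  have hEcard : Nat.card E = q₀ := by
    rw [hE]
    exact fa_card hr hF σ hσ
  haveI : Fintype E := Fintype.ofFinite E
  have hq₀ : 2 ≤ q₀ := by
    rw [← hEcard]
    exact Finite.one_lt_card
  obtain ⟨ι, hι⟩ : ∃ ι : GL (Fin n) E →* GL (Fin n) F,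
      ∀ h i j, (ι h : Matrix (Fin n) (Fin n) F) i j = ((h : Matrix (Fin n) (Fin n) E) i j : F) :=
    ⟨Matrix.GeneralLinearGroup.map E.subtype, fun h i j => rfl⟩
  obtain ⟨Φ, hΦ⟩ : ∃ Φ : Fˣ × GL (Fin n) E →* GL (Fin n) F,
      ∀ μ h, Φ (μ, h) = Matrix.GeneralLinearGroup.scalar (Fin n) μ * ι h :=
    ⟨(Matrix.GeneralLinearGroup.scalar (Fin n)).noncommCoprod ι
      (fun μ h => Matrix.GeneralLinearGroup.scalar_commute μ (ι h)), fun μ h => rfl⟩
  have hΦent : ∀ (μ : Fˣ) (h : GL (Fin n) E) i j, (Φ (μ, h) : Matrix (Fin n) (Fin n) F) i j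
      = (μ : F) * ((h : Matrix (Fin n) (Fin n) E) i j : F) := by
    intro μ h i j
    rw [hΦ, Units.val_mul, Matrix.GeneralLinearGroup.coe_scalar, Matrix.scalar_apply,
      Matrix.diagonal_mul, hι]
  have hrange : ∀ g : GL (Fin n) F, g ∈ Φ.range ↔ ∃ c : F, c ≠ 0 ∧
      (g : Matrix (Fin n) (Fin n) F).map σ = c • (g : Matrix (Fin n) (Fin n) F) := by
    intro g
    constructor
    · rintro ⟨⟨μ, h⟩, rfl⟩
      refine ⟨σ μ * (μ : F)⁻¹, mul_ne_zero ((map_ne_zero σ).2 μ.ne_zero)
        (inv_ne_zero μ.ne_zero), ?_⟩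
      ext i j
      rw [Matrix.map_apply, Matrix.smul_apply, hΦent, map_mul, smul_eq_mul,
        (hEmem _).1 ((h : Matrix (Fin n) (Fin n) E) i j).2]
      have hμ0 : (μ : F) ≠ 0 := μ.ne_zero
      field_simp
    · rintro ⟨c, hc, hg⟩
      have hex : ∃ i j, (g : Matrix (Fin n) (Fin n) F) i j ≠ 0 := by
        by_contra hno
        push Not at hno
        have h1 : (g : Matrix (Fin n) (Fin n) F) = 0 := by
          ext i j
          exact hno i j
        have h2 : (g : Matrix (Fin n) (Fin n) F) * ((g⁻¹ : GL (Fin n) F) : Matrix _ _ F) = 1 := by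
          rw [← Units.val_mul, mul_inv_cancel]
          rfl
        rw [h1, zero_mul] at h2
        have h3 := congrFun (congrFun h2 ⟨0, hn⟩) ⟨0, hn⟩
        simp at h3
      obtain ⟨i₀, j₀, hμ0⟩ := hex
      obtain ⟨μ, hμdef⟩ : ∃ μ : F, μ = (g : Matrix (Fin n) (Fin n) F) i₀ j₀ := ⟨_, rfl⟩
      have hμ : μ ≠ 0 := by
        rw [hμdef]
        exact hμ0
      have hgent : ∀ i j, σ ((g : Matrix (Fin n) (Fin n) F) i j)
          = c * (g : Matrix (Fin n) (Fin n) F) i j := by
        intro i j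
        have h1 := congrFun (congrFun hg i) j
        rw [Matrix.map_apply, Matrix.smul_apply, smul_eq_mul] at h1
        exact h1
      have hσμ : σ μ = c * μ := by
        rw [hμdef]
        exact hgent i₀ j₀
      have hentE : ∀ i j, μ⁻¹ * (g : Matrix (Fin n) (Fin n) F) i j ∈ E := by
        intro i j
        rw [hEmem, map_mul, map_inv₀, hσμ, hgent]
        field_simp
      obtain ⟨h', hh'⟩ : ∃ h' : Matrix (Fin n) (Fin n) E,
          ∀ i j, (h' i j : F) = μ⁻¹ * (g : Matrix (Fin n) (Fin n) F) i j :=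
        ⟨fun i j => ⟨_, hentE i j⟩, fun i j => rfl⟩
      have hdet : h'.det ≠ 0 := by
        intro h0
        have h1 : (E.subtype.mapMatrix h').det = 0 := by
          rw [← RingHom.map_det, h0, map_zero]
        have h2 : E.subtype.mapMatrix h' = μ⁻¹ • (g : Matrix (Fin n) (Fin n) F) := by
          ext i j
          simp [hh']
        rw [h2, Matrix.det_smul] at h1
        have h3 : IsUnit (g : Matrix (Fin n) (Fin n) F).det :=
          (Matrix.isUnit_iff_isUnit_det _).1 g.isUnit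
        exact (mul_ne_zero (pow_ne_zero _ (inv_ne_zero hμ)) h3.ne_zero) h1
      refine ⟨(Units.mk0 μ hμ, Matrix.GeneralLinearGroup.mkOfDetNeZero h' hdet), ?_⟩
      apply Units.ext
      ext i j
      rw [hΦent]
      show μ * ((h' i j : E) : F) = _
      rw [hh']
      field_simp
  have hker : Nat.card Φ.ker = q₀ - 1 := by
    have hcardEu : Nat.card Eˣ = q₀ - 1 := by
      rw [Nat.card_units, hEcard]
    rw [← hcardEu]
    have hmemker : ∀ ν : Eˣ, (((Units.map E.subtype.toMonoidHom ν)⁻¹ : Fˣ),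
        Matrix.GeneralLinearGroup.scalar (Fin n) ν) ∈ Φ.ker := by
      intro ν
      rw [MonoidHom.mem_ker]
      apply Units.ext
      ext i j
      rw [hΦent, Matrix.GeneralLinearGroup.coe_scalar, Matrix.scalar_apply,
        Matrix.diagonal_apply]
      have hν : ((ν : E) : F) ≠ 0 := by
        intro h0
        exact ν.ne_zero (Subtype.ext h0)
      by_cases hij : i = j
      · subst hij
        simp [hν]
      · simp [hij]
    refine (Nat.card_congr (Equiv.ofBijective
      (fun ν : Eˣ => (⟨_, hmemker ν⟩ : Φ.ker)) ⟨?_, ?_⟩)).symm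
    · intro ν ν' h
      have h1 := congrArg (fun x : Φ.ker => (x.1.1 : Fˣ)) h
      simp only [_root_.inv_inj] at h1
      apply Units.ext
      apply Subtype.ext
      have h2 := congrArg (fun u : Fˣ => (u : F)) h1
      simpa using h2
    · rintro ⟨⟨μ, h⟩, hmem⟩
      rw [MonoidHom.mem_ker] at hmem
      have hent : ∀ i j, (μ : F) * ((h : Matrix (Fin n) (Fin n) E) i j : F)
          = if i = j then 1 else 0 := by
        intro i j
        rw [← hΦent, hmem]
        simp [Matrix.one_apply]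
      have hμ0 : (μ : F) ≠ 0 := μ.ne_zero
      have h00 := hent ⟨0, hn⟩ ⟨0, hn⟩
      rw [if_pos rfl] at h00
      have hinvE : (μ : F)⁻¹ ∈ E := by
        have : (μ : F)⁻¹ = ((h : Matrix (Fin n) (Fin n) E) ⟨0, hn⟩ ⟨0, hn⟩ : F) :=
          (eq_inv_of_mul_eq_one_right h00).symm
        rw [this]
        exact ((h : Matrix (Fin n) (Fin n) E) ⟨0, hn⟩ ⟨0, hn⟩).2
      refine ⟨Units.mk0 ⟨(μ : F)⁻¹, hinvE⟩ (fun h0 => inv_ne_zero hμ0 (congrArg Subtype.val h0)),
        ?_⟩
      apply Subtype.ext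
      apply Prod.ext
      · apply Units.ext
        simp
      · apply Units.ext
        ext i j
        show ((Matrix.GeneralLinearGroup.scalar (Fin n)
          (Units.mk0 (⟨(μ : F)⁻¹, hinvE⟩ : E) _) : Matrix (Fin n) (Fin n) E) i j : F)
          = ((h : Matrix (Fin n) (Fin n) E) i j : F)
        rw [Matrix.GeneralLinearGroup.coe_scalar, Matrix.scalar_apply, Matrix.diagonal_apply]
        have h1 := hent i j
        by_cases hij : i = j
        · subst hij
          rw [if_pos rfl] at h1 ⊢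
          show (μ : F)⁻¹ = _
          exact (eq_inv_of_mul_eq_one_right h1).symm
        · rw [if_neg hij] at h1 ⊢
          show (0 : F) = _
          exact ((mul_eq_zero.1 h1).resolve_left hμ0).symm
  have hT : Nat.card {g : GL (Fin n) F // ∃ c : F, c ≠ 0 ∧
        (g : Matrix (Fin n) (Fin n) F).map σ = c • (g : Matrix (Fin n) (Fin n) F)}
      = Nat.card Φ.range :=
    Nat.card_congr (Equiv.subtypeEquivRight (fun g => (hrange g).symm))
  have h1 := Subgroup.card_mul_index Φ.ker
  rw [Subgroup.index_ker, hker, Nat.card_prod, Nat.card_units, Nat.card_eq_fintype_card (α := F),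
    hF, Matrix.card_GL_field, ← Nat.card_eq_fintype_card (α := E), hEcard, ← hT] at h1
  obtain ⟨k, hk⟩ : (q₀ - 1) ∣ (q₀ ^ r - 1) := by
    have := Nat.sub_dvd_pow_sub_pow q₀ 1 r
    rwa [one_pow] at this
  rw [hk, Nat.mul_div_cancel_left k (by omega : 0 < q₀ - 1)]
  rw [hk, mul_assoc] at h1
  exact Nat.eq_of_mul_eq_mul_left (by omega : 0 < q₀ - 1) h1

end FieldAutCent

end Cfsg.Agent.Lib.Helper6
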