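import Mathlib

set_option autoImplicit false
set_option linter.style.haveILetI false

namespace Cfsg.Agent.Lib.Helper6

open Subgroup
open scoped commutatorElement

variable {P : Type*} [Group P]

/-- If `E` is abelian then `⁅E ⊔ γ₂, E ⊔ γ₂⁆ ≤ γ₃`. -/
theorem nc_comm_le (E : Subgroup P) (hE : ∀ x ∈ E, ∀ y ∈ E, x * y = y * x) :
    ⁅E ⊔ (⊤ : Subgroup P).lowerCentralSeries 1, E ⊔ (⊤ : Subgroup P).lowerCentralSeries 1⁆ ≤
      (⊤ : Subgroup P).lowerCentralSeries 2 := by
  have hL2 : (⊤ : Subgroup P).lowerCentralSeries 2 =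
      ⁅(⊤ : Subgroup P).lowerCentralSeries 1, (⊤ : Subgroup P)⁆ := rfl
  haveI hn : ((⊤ : Subgroup P).lowerCentralSeries 2).Normal := inferInstance
  have hk1 : ∀ h ∈ (⊤ : Subgroup P).lowerCentralSeries 1, ∀ k : P,
      ⁅h, k⁆ ∈ (⊤ : Subgroup P).lowerCentralSeries 2 := by
    intro h hh k
    rw [hL2]
    exact Subgroup.commutator_mem_commutator hh (Subgroup.mem_top k)
  have hk2 : ∀ h : P, ∀ k ∈ (⊤ : Subgroup P).lowerCentralSeries 1,
      ⁅h, k⁆ ∈ (⊤ : Subgroup P).lowerCentralSeries 2 := by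
    intro h k hk
    have h1 := hk1 k hk h
    have h2 : ⁅h, k⁆ = ⁅k, h⁆⁻¹ := (commutatorElement_inv k h).symm
    rw [h2]
    exact inv_mem h1
  have hmulr : ∀ h k₁ k₂ : P, ⁅h, k₁⁆ ∈ (⊤ : Subgroup P).lowerCentralSeries 2 →
      ⁅h, k₂⁆ ∈ (⊤ : Subgroup P).lowerCentralSeries 2 →
      ⁅h, k₁ * k₂⁆ ∈ (⊤ : Subgroup P).lowerCentralSeries 2 := by
    intro h k₁ k₂ h1 h2
    have e : ⁅h, k₁ * k₂⁆ = ⁅h, k₁⁆ * (k₁ * ⁅h, k₂⁆ * k₁⁻¹) := by
      simp only [commutatorElement_def]; group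
    rw [e]
    exact mul_mem h1 (hn.conj_mem _ h2 k₁)
  have hmull : ∀ h₁ h₂ k : P, ⁅h₁, k⁆ ∈ (⊤ : Subgroup P).lowerCentralSeries 2 →
      ⁅h₂, k⁆ ∈ (⊤ : Subgroup P).lowerCentralSeries 2 →
      ⁅h₁ * h₂, k⁆ ∈ (⊤ : Subgroup P).lowerCentralSeries 2 := by
    intro h₁ h₂ k h1 h2
    have e : ⁅h₁ * h₂, k⁆ = (h₁ * ⁅h₂, k⁆ * h₁⁻¹) * ⁅h₁, k⁆ := by
      simp only [commutatorElement_def]; group
    rw [e]
    exact mul_mem (hn.conj_mem _ h2 h₁) h1
  have hsup : ∀ (Q : P → Prop), (∀ x ∈ E, Q x) →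
      (∀ x ∈ (⊤ : Subgroup P).lowerCentralSeries 1, Q x) → Q 1 →
      (∀ x y, Q x → Q y → Q (x * y)) →
      ∀ x ∈ E ⊔ (⊤ : Subgroup P).lowerCentralSeries 1, Q x := by
    intro Q h1 h2 h3 h4
    have key : ∀ x ∈ Subgroup.closure ((E : Set P) ∪ ((⊤ : Subgroup P).lowerCentralSeries 1 : Set P)),
        Q x := by
      intro x hx
      refine Subgroup.closure_induction'' (p := fun g _ => Q g) ?_ ?_ h3 ?_ hx
      · intro y hy
        rcases hy with hy | hy
        · exact h1 y hy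
        · exact h2 y hy
      · intro y hy
        rcases hy with hy | hy
        · exact h1 _ (inv_mem hy)
        · exact h2 _ (inv_mem hy)
      · intro y z _ _ hy hz
        exact h4 y z hy hz
    intro x hx
    apply key
    rw [Subgroup.closure_union, Subgroup.closure_eq, Subgroup.closure_eq]; exact hx
  rw [Subgroup.commutator_le]
  intro h hh k hk
  revert k
  refine hsup (fun h => ∀ k ∈ E ⊔ (⊤ : Subgroup P).lowerCentralSeries 1,
    ⁅h, k⁆ ∈ (⊤ : Subgroup P).lowerCentralSeries 2) ?_ ?_ ?_ ?_ h hh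
  · intro x hx
    refine hsup (fun k => ⁅x, k⁆ ∈ (⊤ : Subgroup P).lowerCentralSeries 2) ?_ ?_ ?_ ?_
    · intro y hy
      have : ⁅x, y⁆ = 1 := by
        rw [commutatorElement_def, hE x hx y hy]; group
      rw [this]; exact one_mem _
    · intro y hy; exact hk2 x y hy
    · simp
    · intro y z hy hz; exact hmulr x y z hy hz
  · intro x hx k _
    exact hk1 x hx k
  · intro k _
    simp
  · intro x y hx hy k hk
    exact hmull x y k (hx k hk) (hy k hk)

/-- The normal closure of an abelian subgroup of a non-abelian nilpotent group has smaller class. -/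
theorem nc_normalClosure_class [Group.IsNilpotent P] (hna : ¬ IsMulCommutative P)
    (E : Subgroup P) (hE : IsMulCommutative ↥E) :
    Group.nilpotencyClass ↥(Subgroup.normalClosure (E : Set P)) < Group.nilpotencyClass P := by
  have hEc : ∀ x ∈ E, ∀ y ∈ E, x * y = y * x := fun x hx y hy =>
    congrArg Subtype.val (hE.is_comm.comm ⟨x, hx⟩ ⟨y, hy⟩)
  -- the class of `P` is at least two
  have hc2 : 2 ≤ Group.nilpotencyClass P := by
    by_contra hlt
    have h1 : Group.nilpotencyClass P ≤ 1 := by omega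
    rw [← Subgroup.lowerCentralSeries_eq_bot_iff_nilpotencyClass_le] at h1
    apply hna
    refine ⟨⟨fun a b => ?_⟩⟩
    have h2 : ⁅a, b⁆ ∈ (⊤ : Subgroup P).lowerCentralSeries 1 :=
      Subgroup.commutator_mem_commutator (Subgroup.mem_top a) (Subgroup.mem_top b)
    rw [h1, Subgroup.mem_bot, commutatorElement_def] at h2
    have h3 : a * b = (a * b * a⁻¹ * b⁻¹) * (b * a) := by group
    rw [h3, h2, one_mul]
  -- `N ≤ E γ₂`
  have hNle : Subgroup.normalClosure (E : Set P) ≤ E ⊔ (⊤ : Subgroup P).lowerCentralSeries 1 := by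
    haveI : (E ⊔ (⊤ : Subgroup P).lowerCentralSeries 1).Normal := by
      constructor
      intro x hx g
      have e : g * x * g⁻¹ = ⁅g, x⁆ * x := by
        rw [commutatorElement_def]; group
      rw [e]
      exact mul_mem (Subgroup.mem_sup_right
        (Subgroup.commutator_mem_commutator (Subgroup.mem_top g) (Subgroup.mem_top x))) hx
    exact Subgroup.normalClosure_le_normal (SetLike.coe_subset_coe.mpr le_sup_left)
  -- `γ_{k+1}(N) ≤ γ_{k+2}(P)`
  have hlcs : ∀ k : ℕ, (Subgroup.normalClosure (E : Set P)).lowerCentralSeries (k + 1) ≤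
      (⊤ : Subgroup P).lowerCentralSeries (k + 2) := by
    intro k
    induction k with
    | zero =>
      exact (Subgroup.commutator_mono hNle hNle).trans (nc_comm_le E hEc)
    | succ k ih =>
      exact Subgroup.commutator_mono ih le_top
  obtain ⟨c, hc⟩ : ∃ c, Group.nilpotencyClass P = c + 2 := ⟨Group.nilpotencyClass P - 2, by omega⟩
  have h1 := hlcs c
  rw [← hc, Subgroup.lowerCentralSeries_nilpotencyClass, le_bot_iff] at h1
  have h2 : (⊤ : Subgroup ↥(Subgroup.normalClosure (E : Set P))).lowerCentralSeries (c + 1) = ⊥ := by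
    have h3 := Subgroup.top_subtype_lowerCentralSeries (Subgroup.normalClosure (E : Set P)) (c + 1)
    rw [h1] at h3
    exact (Subgroup.map_eq_bot_iff_of_injective _ (Subgroup.subtype_injective _)).mp h3
  rw [Subgroup.lowerCentralSeries_eq_bot_iff_nilpotencyClass_le] at h2
  omega

end Cfsg.Agent.Lib.Helper6
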