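import Mathlib
import Cfsg.Prelude.Def_RootSubgroups

set_option autoImplicit false
set_option linter.style.haveILetI false

namespace Cfsg.Agent.Lib.Helper6

open Cfsg

variable {G : Type*} [Group G]

theorem ot_sq {D : Set G} (hD : IsRootInvolutionSet D) {d : G} (hd : d ∈ D) : d * d = 1 := by
  rw [← pow_two, ← hD.orderOf_eq d hd]; exact pow_orderOf_eq_one d

theorem ot_inv {D : Set G} (hD : IsRootInvolutionSet D) {d : G} (hd : d ∈ D) : d⁻¹ = d :=
  inv_eq_of_mul_eq_one_left (ot_sq hD hd)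

theorem ot_pCore_normal (G : Type*) [Group G] : (pCore 2 G).Normal :=
  Subgroup.sSup_normal _ (fun _ h => h.1)

theorem ot_pCore_pow {q : G} (hq : q ∈ pCore 2 G) : ∃ k : ℕ, q ^ (2 ^ k) = 1 := by
  have hp : IsPGroup 2 (pCore 2 G) := Sylow.sSup_of_normal _ (fun _ h => h.2) (fun _ h => h.1)
  obtain ⟨k, hk⟩ := hp ⟨q, hq⟩
  refine ⟨k, ?_⟩
  have := congrArg Subtype.val hk
  simpa using this

theorem ot_eq_one_of_odd {q : G} (hq : ∃ k : ℕ, q ^ (2 ^ k) = 1) (hodd : Odd (orderOf q)) :
    q = 1 := by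
  obtain ⟨k, hk⟩ := hq
  have h1 : orderOf q ∣ 2 ^ k := orderOf_dvd_of_pow_eq_one hk
  have h2 : Nat.Coprime (orderOf q) (2 ^ k) :=
    Nat.Coprime.pow_right k (Nat.Coprime.symm (Nat.coprime_two_left.mpr hodd))
  exact orderOf_eq_one_iff.mp (Nat.Coprime.eq_one_of_dvd h2 h1)

/-- Two odd transpositions whose product (or its square) lies in `O₂(G)` commute. -/
theorem ot_commute_of_sq_mem {D : Set G} (hD : IsOddTranspositionSet D) {d e : G} (hd : d ∈ D)
    (he : e ∈ D) (h : (d * e) ^ 2 ∈ pCore 2 G) : d * e = e * d := by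
  rcases hD.1.pair d hd e he with h1 | h1 | h1
  · exact h1
  · obtain ⟨k, hk⟩ := ot_pCore_pow h
    have h2 : d * e = 1 := ot_eq_one_of_odd ⟨k + 1, by rw [pow_succ', pow_mul]; exact hk⟩ h1
    have h3 : e = d := by
      have : e = d⁻¹ := eq_inv_of_mul_eq_one_right h2
      rw [this, ot_inv hD.1 hd]
    rw [h3]
  · exact absurd h1.1 (hD.2 d hd e he)

theorem ot_commute_of_mem {D : Set G} (hD : IsOddTranspositionSet D) {d e : G} (hd : d ∈ D)
    (he : e ∈ D) (h : d * e ∈ pCore 2 G) : d * e = e * d :=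
  ot_commute_of_sq_mem hD hd he (pow_mem h 2)

/-- An odd transposition commutes with its conjugates under `O₂(G)`. -/
theorem ot_commute_conj {D : Set G} (hD : IsOddTranspositionSet D) {d q : G} (hd : d ∈ D)
    (hq : q ∈ pCore 2 G) : d * (q * d * q⁻¹) = (q * d * q⁻¹) * d := by
  apply ot_commute_of_mem hD hd (hD.1.conj_mem d hd q)
  have e : d * (q * d * q⁻¹) = (d * q * d⁻¹) * q⁻¹ := by
    rw [ot_inv hD.1 hd]; group
  rw [e]
  exact mul_mem ((ot_pCore_normal G).conj_mem q hq d) (inv_mem hq)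

theorem ot_zpowers {D : Set G} (hD : IsRootInvolutionSet D) {a x : G} (ha : a ∈ D)
    (hx : x ∈ Subgroup.zpowers a) : x = 1 ∨ x = a := by
  obtain ⟨j, rfl⟩ := Subgroup.mem_zpowers_iff.mp hx
  have hj : a ^ j = a ^ (j % 2) := by
    have := zpow_mod_orderOf a j
    rw [hD.orderOf_eq a ha] at this
    exact_mod_cast this.symm
  rcases Int.emod_two_eq_zero_or_one j with h | h
  · left; rw [hj, h, zpow_zero]
  · right; rw [hj, h, zpow_one]

theorem ot_part1 {D : Set G} (hD : IsOddTranspositionSet D) {a : G} (ha : a ∈ D) :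
    ∀ e ∈ commutingMembers D a, ∀ q ∈ ⁅pCore 2 G, Subgroup.zpowers a⁆, e * q = q * e := by
  rintro e ⟨he, hea⟩
  have hle : ⁅pCore 2 G, Subgroup.zpowers a⁆ ≤ Subgroup.centralizer ({e} : Set G) := by
    rw [Subgroup.commutator_le]
    intro q hq x hx
    rw [Subgroup.mem_centralizer_singleton_iff, commutatorElement_def]
    rcases ot_zpowers hD.1 ha hx with rfl | rfl
    · simp
    · -- `d = q a q⁻¹`
      have hdD : q * x * q⁻¹ ∈ D := hD.1.conj_mem x ha q
      have hxd : x * (q * x * q⁻¹) = (q * x * q⁻¹) * x := ot_commute_conj hD ha hq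
      have hxx := ot_sq hD.1 ha
      have hee := ot_sq hD.1 he
      have hdd := ot_sq hD.1 hdD
      have hzQ : q * x * q⁻¹ * x⁻¹ ∈ pCore 2 G := by
        have : q * x * q⁻¹ * x⁻¹ = q * (x * q⁻¹ * x⁻¹) := by group
        rw [this]
        exact mul_mem hq ((ot_pCore_normal G).conj_mem _ (inv_mem hq) x)
      have hed : e * (q * x * q⁻¹) = (q * x * q⁻¹) * e := by
        apply ot_commute_of_sq_mem hD he hdD
        have key : (e * (q * x * q⁻¹)) ^ 2 = e * (q * x * q⁻¹ * x⁻¹) * e⁻¹ * (q * x * q⁻¹ * x⁻¹)⁻¹ := by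
          rw [ot_inv hD.1 he, ot_inv hD.1 ha]
          have hinv : (q * x * q⁻¹ * x)⁻¹ = x * (q * x * q⁻¹) := by
            rw [mul_inv_rev, ot_inv hD.1 ha, ot_inv hD.1 hdD]
          rw [hinv, pow_two]
          calc e * (q * x * q⁻¹) * (e * (q * x * q⁻¹))
              = e * (q * x * q⁻¹) * e * (q * x * q⁻¹) * (x * x) := by rw [hxx, mul_one]; group
            _ = e * (q * x * q⁻¹) * e * ((q * x * q⁻¹) * x) * x := by group
            _ = e * (q * x * q⁻¹) * e * (x * (q * x * q⁻¹)) * x := by rw [hxd]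
            _ = e * (q * x * q⁻¹) * (e * x) * ((q * x * q⁻¹) * x) := by group
            _ = e * (q * x * q⁻¹) * (x * e) * (x * (q * x * q⁻¹)) := by rw [hea, hxd]
            _ = e * (q * x * q⁻¹ * x) * e * (x * (q * x * q⁻¹)) := by group
        rw [key]
        exact mul_mem ((ot_pCore_normal G).conj_mem _ hzQ e) (inv_mem hzQ)
      rw [ot_inv hD.1 ha]
      calc q * x * q⁻¹ * x * e = (q * x * q⁻¹) * (x * e) := by group
        _ = (q * x * q⁻¹) * (e * x) := by rw [hea]
        _ = ((q * x * q⁻¹) * e) * x := by group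
        _ = (e * (q * x * q⁻¹)) * x := by rw [hed]
        _ = e * (q * x * q⁻¹ * x) := by group
  intro q hq
  have := hle hq
  rw [Subgroup.mem_centralizer_singleton_iff] at this
  exact this.symm

theorem ot_part2 {D : Set G} (hD : IsOddTranspositionSet D) {a : G} (ha : a ∈ D) :
    ∀ b ∈ oddPartners D a,
      pCore 2 G ⊓ Subgroup.centralizer {a * b} =
        pCore 2 G ⊓ Subgroup.centralizer {a} ⊓ Subgroup.centralizer {b} := by
  rintro b ⟨hb, hba, hodd⟩
  ext q
  simp only [Subgroup.mem_inf, Subgroup.mem_centralizer_singleton_iff]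
  constructor
  · rintro ⟨hq, hqab⟩
    have haa := ot_sq hD.1 ha
    have hbb := ot_sq hD.1 hb
    have ha'D : q⁻¹ * a * q ∈ D := by
      have := hD.1.conj_mem a ha q⁻¹
      rwa [inv_inv] at this
    have hb'D : q⁻¹ * b * q ∈ D := by
      have := hD.1.conj_mem b hb q⁻¹
      rwa [inv_inv] at this
    have haa' : a * (q⁻¹ * a * q) = (q⁻¹ * a * q) * a := by
      have := ot_commute_conj hD ha (inv_mem hq)
      rwa [inv_inv] at this
    have hbb' : b * (q⁻¹ * b * q) = (q⁻¹ * b * q) * b := by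
      have := ot_commute_conj hD hb (inv_mem hq)
      rwa [inv_inv] at this
    have ha'a' := ot_sq hD.1 ha'D
    -- `z = a a'`
    have hzz : (a * (q⁻¹ * a * q)) * (a * (q⁻¹ * a * q)) = 1 := by
      calc (a * (q⁻¹ * a * q)) * (a * (q⁻¹ * a * q))
          = a * ((q⁻¹ * a * q) * a) * (q⁻¹ * a * q) := by group
        _ = a * (a * (q⁻¹ * a * q)) * (q⁻¹ * a * q) := by rw [haa']
        _ = (a * a) * ((q⁻¹ * a * q) * (q⁻¹ * a * q)) := by group
        _ = 1 := by rw [haa, ha'a', mul_one]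
    have hza : (a * (q⁻¹ * a * q)) * a = a * (a * (q⁻¹ * a * q)) := by
      rw [mul_assoc, ← haa']
    have hb' : q⁻¹ * b * q = (a * (q⁻¹ * a * q)) * b := by
      have h1 : (q⁻¹ * a * q) * (q⁻¹ * b * q) = a * b := by
        calc (q⁻¹ * a * q) * (q⁻¹ * b * q) = q⁻¹ * (a * b * q) := by group
          _ = q⁻¹ * (q * (a * b)) := by rw [hqab]
          _ = a * b := by group
      calc q⁻¹ * b * q = ((q⁻¹ * a * q) * (q⁻¹ * a * q)) * (q⁻¹ * b * q) := by rw [ha'a', one_mul]
        _ = (q⁻¹ * a * q) * ((q⁻¹ * a * q) * (q⁻¹ * b * q)) := by group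
        _ = (q⁻¹ * a * q) * (a * b) := by rw [h1]
        _ = ((q⁻¹ * a * q) * a) * b := by group
        _ = (a * (q⁻¹ * a * q)) * b := by rw [haa']
    have hzb : (a * (q⁻¹ * a * q)) * b = b * (a * (q⁻¹ * a * q)) := by
      rw [hb'] at hbb'
      calc (a * (q⁻¹ * a * q)) * b = ((a * (q⁻¹ * a * q)) * b * b) * b := by
            rw [mul_assoc _ b b, hbb, mul_one]
        _ = (b * ((a * (q⁻¹ * a * q)) * b)) * b := by rw [hbb']
        _ = b * (a * (q⁻¹ * a * q)) * (b * b) := by group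
        _ = b * (a * (q⁻¹ * a * q)) := by rw [hbb, mul_one]
    have hz1 : a * (q⁻¹ * a * q) = 1 := by
      have ha'b : (q⁻¹ * a * q) * b = (a * (q⁻¹ * a * q)) * (a * b) := by
        calc (q⁻¹ * a * q) * b = (a * a) * (q⁻¹ * a * q) * b := by rw [haa, one_mul]
          _ = a * (a * (q⁻¹ * a * q)) * b := by group
          _ = ((a * (q⁻¹ * a * q)) * a) * b := by rw [hza]
          _ = (a * (q⁻¹ * a * q)) * (a * b) := by group
      have hzt : Commute (a * (q⁻¹ * a * q)) (a * b) := by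
        show (a * (q⁻¹ * a * q)) * (a * b) = (a * b) * (a * (q⁻¹ * a * q))
        calc (a * (q⁻¹ * a * q)) * (a * b) = ((a * (q⁻¹ * a * q)) * a) * b := by group
          _ = (a * (a * (q⁻¹ * a * q))) * b := by rw [hza]
          _ = a * ((a * (q⁻¹ * a * q)) * b) := by group
          _ = a * (b * (a * (q⁻¹ * a * q))) := by rw [hzb]
          _ = (a * b) * (a * (q⁻¹ * a * q)) := by group
      rcases hD.1.pair _ ha'D b hb with h1 | h1 | h1
      · exfalso
        -- `a b = b a`
        rw [ha'b] at h1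
        have h2 : a * b = b * a := by
          have h3 : (a * (q⁻¹ * a * q)) * (a * b) = (a * (q⁻¹ * a * q)) * (b * a) := by
            calc (a * (q⁻¹ * a * q)) * (a * b) = b * (q⁻¹ * a * q) := h1
              _ = b * ((a * a) * (q⁻¹ * a * q)) := by rw [haa, one_mul]
              _ = b * (a * (a * (q⁻¹ * a * q))) := by group
              _ = b * ((a * (q⁻¹ * a * q)) * a) := by rw [hza]
              _ = (b * (a * (q⁻¹ * a * q))) * a := by group
              _ = ((a * (q⁻¹ * a * q)) * b) * a := by rw [hzb]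
              _ = (a * (q⁻¹ * a * q)) * (b * a) := by group
          exact mul_left_cancel h3
        have h4 : (a * b) ^ 2 = 1 := by
          rw [pow_two]
          calc a * b * (a * b) = a * (b * a) * b := by group
            _ = a * (a * b) * b := by rw [h2]
            _ = (a * a) * (b * b) := by group
            _ = 1 := by rw [haa, hbb, mul_one]
        have h5 : a * b = 1 := ot_eq_one_of_odd ⟨1, by rw [pow_one]; exact h4⟩ hodd
        apply hba
        have : b = a⁻¹ := eq_inv_of_mul_eq_one_right h5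
        rw [this, ot_inv hD.1 ha]
      · rw [ha'b] at h1
        obtain ⟨j, hj⟩ := h1
        have h2 : ((a * (q⁻¹ * a * q)) * (a * b)) ^ (2 * j + 1) = 1 := by
          rw [← hj]; exact pow_orderOf_eq_one _
        rw [hzt.mul_pow] at h2
        have h3 : (a * (q⁻¹ * a * q)) ^ (2 * j + 1) = a * (q⁻¹ * a * q) := by
          rw [pow_succ, pow_mul, pow_two, hzz, one_pow, one_mul]
        rw [h3] at h2
        have h4 : a * (q⁻¹ * a * q) = ((a * b) ^ (2 * j + 1))⁻¹ := eq_inv_of_mul_eq_one_left h2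
        have h5 : (a * (q⁻¹ * a * q)) ^ orderOf (a * b) = 1 := by
          rw [h4, inv_pow, ← pow_mul, mul_comm, pow_mul, pow_orderOf_eq_one, one_pow, inv_one]
        have h6 : orderOf (a * (q⁻¹ * a * q)) ∣ orderOf (a * b) := orderOf_dvd_of_pow_eq_one h5
        have h7 : Odd (orderOf (a * (q⁻¹ * a * q))) := by
          obtain ⟨c, hc⟩ := h6
          rw [hc] at hodd
          exact (Nat.odd_mul.mp hodd).1
        exact ot_eq_one_of_odd ⟨1, by rw [pow_one, pow_two]; exact hzz⟩ h7
      · exact absurd h1.1 (hD.2 _ ha'D b hb)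
    have hqa : q * a = a * q := by
      have h1 : q⁻¹ * a * q = a := by
        have : q⁻¹ * a * q = a⁻¹ := eq_inv_of_mul_eq_one_right hz1
        rw [this, ot_inv hD.1 ha]
      calc q * a = q * (q⁻¹ * a * q) := by rw [h1]
        _ = a * q := by group
    refine ⟨⟨hq, hqa⟩, ?_⟩
    calc q * b = q * (a * a) * b := by rw [haa, mul_one]
      _ = (q * a) * (a * b) := by group
      _ = (a * q) * (a * b) := by rw [hqa]
      _ = a * (q * (a * b)) := by group
      _ = a * ((a * b) * q) := by rw [hqab]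
      _ = (a * a) * b * q := by group
      _ = b * q := by rw [haa, one_mul]
  · rintro ⟨⟨hq, hqa⟩, hqb⟩
    refine ⟨hq, ?_⟩
    rw [← mul_assoc, hqa, mul_assoc, hqb, mul_assoc]

end Cfsg.Agent.Lib.Helper6
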