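import Mathlib

set_option autoImplicit false
set_option linter.style.haveILetI false

namespace Cfsg.Agent.Lib.Helper6

open Subgroup

/-- The elements of a cyclic group of order four. -/
theorem o8_zpowers_four {H : Type*} [Group H] (u : H) (hu : orderOf u = 4) :
    ∀ k ∈ zpowers u, k = 1 ∨ k = u ∨ k = u * u ∨ k = u⁻¹ := by
  intro k hk
  have hu4 : u ^ 4 = 1 := by rw [← hu]; exact pow_orderOf_eq_one u
  obtain ⟨j, rfl⟩ := Subgroup.mem_zpowers_iff.mp hk
  have hj : u ^ j = u ^ (j % 4) := by
    have := zpow_mod_orderOf u j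
    rw [hu] at this
    exact_mod_cast this.symm
  obtain ⟨m, hm⟩ : ∃ m : ℕ, j % 4 = (m : ℤ) := ⟨(j % 4).toNat, by omega⟩
  have hm4 : m < 4 := by omega
  rw [hj, hm, zpow_natCast]
  interval_cases m
  · left; simp
  · right; left; simp
  · right; right; left; exact pow_two u
  · right; right; right
    apply eq_inv_of_mul_eq_one_left
    rw [← pow_succ]; exact hu4

theorem o8_sq_ne_one {H : Type*} [Group H] (u : H) (hu : orderOf u = 4) : u * u ≠ 1 := by
  intro h
  have : orderOf u ∣ 2 := orderOf_dvd_of_pow_eq_one (by rw [pow_two]; exact h)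
  rw [hu] at this; omega

theorem o8_ne_inv {H : Type*} [Group H] (u : H) (hu : orderOf u = 4) : u ≠ u⁻¹ := by
  intro h
  apply o8_sq_ne_one u hu
  calc u * u = u * u⁻¹ := by rw [← h]
    _ = 1 := mul_inv_cancel u

theorem o8_sq_sq {H : Type*} [Group H] (u : H) (hu : orderOf u = 4) : (u * u) * (u * u) = 1 := by
  have hu4 : u ^ 4 = 1 := by rw [← hu]; exact pow_orderOf_eq_one u
  have h : u ^ 4 = u * u * (u * u) := by rw [show 4 = 2 + 2 from rfl, pow_add, pow_two]
  rw [← h]; exact hu4

theorem o8_orderOf_sq {H : Type*} [Group H] (u : H) (hu : orderOf u = 4) : orderOf (u * u) = 2 := by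
  have h1 : orderOf (u * u) ∣ 2 := orderOf_dvd_of_pow_eq_one (by rw [pow_two]; exact o8_sq_sq u hu)
  rcases (Nat.dvd_prime Nat.prime_two).mp h1 with h | h
  · exact absurd (orderOf_eq_one_iff.mp h) (o8_sq_ne_one u hu)
  · exact h

section Order8

variable {H : Type*} [Group H]

/-- A subgroup of a group of order 8 properly containing a subgroup of order 4 is everything. -/
theorem o8_eq_top (hH : Nat.card H = 8) (K L : Subgroup H) (hK : Nat.card K = 4) (hKL : K ≤ L)
    (e : H) (heL : e ∈ L) (heK : e ∉ K) : L = ⊤ := by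
  haveI : Finite H := Nat.finite_of_card_ne_zero (by omega)
  apply Subgroup.eq_top_of_card_eq
  have h1 : Nat.card K ∣ Nat.card L := Subgroup.card_dvd_of_le hKL
  have h2 : Nat.card L ∣ 8 := hH ▸ Subgroup.card_subgroup_dvd_card L
  have h3 : Nat.card L ≠ 4 := by
    intro h
    have : K = L := Subgroup.eq_of_le_of_card_ge hKL (by omega)
    exact heK (this ▸ heL)
  rw [hK] at h1
  have h4 : Nat.card L ≤ 8 := Nat.le_of_dvd (by norm_num) h2
  obtain ⟨c, hc⟩ := h1
  have hc2 : c ≤ 2 := by omega
  rw [hH]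
  interval_cases c
  · rw [hc] at h2; omega
  · omega
  · omega

/-- Structure of a non-abelian group of order 8. -/
theorem o8_main (hH : Nat.card H = 8) (hnc : ¬ ∀ a b : H, a * b = b * a) :
    ∃ u : H, orderOf u = 4 ∧ (∃ e : H, e ∉ zpowers u) ∧
      (∀ e : H, e ∉ zpowers u → e * u * e⁻¹ = u⁻¹) ∧
      ((∀ e : H, e ∉ zpowers u → e * e = 1) ∨ (∀ e : H, e ∉ zpowers u → e * e = u * u)) := by
  haveI : Finite H := Nat.finite_of_card_ne_zero (by omega)
  have hord : ∀ g : H, orderOf g ∣ 8 := fun g => hH ▸ orderOf_dvd_natCard g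
  have h8 : ∀ g : H, orderOf g ≠ 8 := by
    intro g hg
    apply hnc
    haveI : IsCyclic H := isCyclic_of_orderOf_eq_card g (by rw [hg, hH])
    intro a b
    exact (IsCyclic.commutative (α := H)).is_comm.comm a b
  obtain ⟨u, hu⟩ : ∃ u : H, orderOf u = 4 := by
    by_contra hno
    push_neg at hno
    apply hnc
    have hsq : ∀ g : H, g * g = 1 := by
      intro g
      have h1 := hord g
      have h2 : orderOf g ≤ 8 := Nat.le_of_dvd (by norm_num) h1
      have h3 := orderOf_pos g
      have h4 := hno g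
      have h5 := h8 g
      have h6 : orderOf g = 1 ∨ orderOf g = 2 := by
        obtain ⟨n, hn⟩ : ∃ n, n = orderOf g := ⟨_, rfl⟩
        rw [← hn] at h1 h2 h3 h4 h5 ⊢
        interval_cases n <;> omega
      rw [← pow_two]
      rcases h6 with h | h
      · rw [orderOf_eq_one_iff.mp h]; simp
      · rw [← h]; exact pow_orderOf_eq_one g
    intro a b
    have h1 := hsq (a * b)
    have h2 := hsq a
    have h3 := hsq b
    calc a * b = a * (a * b * (a * b)) * b := by rw [h1, mul_one]
      _ = (a * a) * b * a * (b * b) := by group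
      _ = b * a := by rw [h2, h3]; group
  refine ⟨u, hu, ?_⟩
  have hK : Nat.card (zpowers u) = 4 := by rw [Nat.card_zpowers, hu]
  have hidx : (zpowers u).index = 2 := by
    have := (zpowers u).card_mul_index
    rw [hK, hH] at this
    omega
  haveI hKn : (zpowers u).Normal := Subgroup.normal_of_index_eq_two hidx
  have hKmem := o8_zpowers_four u hu
  have huu := o8_sq_ne_one u hu
  have hu1 : u ≠ 1 := by rintro rfl; simp at hu
  have huinv := o8_ne_inv u hu
  have hex : ∃ e : H, e ∉ zpowers u := by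
    by_contra hno
    push_neg at hno
    have : zpowers u = ⊤ := by
      ext x; simp [hno x]
    rw [this, Subgroup.card_top, hH] at hK
    omega
  have hconj : ∀ e : H, e ∉ zpowers u → e * u * e⁻¹ = u⁻¹ := by
    intro e he
    have h1 : e * u * e⁻¹ ∈ zpowers u := hKn.conj_mem u (mem_zpowers u) e
    have h2 : orderOf (e * u * e⁻¹) = 4 := by
      have h := (MulAut.conj e).orderOf_eq u
      rw [MulAut.conj_apply] at h
      rw [h, hu]
    rcases hKmem _ h1 with h | h | h | h
    · rw [h] at h2; simp at h2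
    · exfalso
      apply hnc
      have heu : e * u = u * e := by
        calc e * u = e * u * e⁻¹ * e := by group
          _ = u * e := by rw [h]
      have hL1 : centralizer ({u} : Set H) = ⊤ := by
        apply o8_eq_top hH (zpowers u) _ hK _ e _ he
        · rw [zpowers_le, Subgroup.mem_centralizer_singleton_iff]
        · rw [Subgroup.mem_centralizer_singleton_iff]; exact heu
      have hL2 : centralizer ({e} : Set H) = ⊤ := by
        apply o8_eq_top hH (zpowers u) _ hK _ e _ he
        · rw [zpowers_le, Subgroup.mem_centralizer_singleton_iff]; exact heu.symm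
        · rw [Subgroup.mem_centralizer_singleton_iff]
      have hZ : center H = ⊤ := by
        apply o8_eq_top hH (zpowers u) _ hK _ e _ he
        · rw [zpowers_le, Subgroup.mem_center_iff]
          intro g
          have : g ∈ centralizer ({u} : Set H) := hL1 ▸ Subgroup.mem_top g
          rw [Subgroup.mem_centralizer_singleton_iff] at this
          exact this
        · rw [Subgroup.mem_center_iff]
          intro g
          have : g ∈ centralizer ({e} : Set H) := hL2 ▸ Subgroup.mem_top g
          rw [Subgroup.mem_centralizer_singleton_iff] at this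
          exact this
      intro a b
      have : b ∈ center H := hZ ▸ Subgroup.mem_top b
      exact (Subgroup.mem_center_iff.mp this a)
    · exfalso
      rw [h, o8_orderOf_sq u hu] at h2
      omega
    · exact h
  have hsq : ∀ e : H, e ∉ zpowers u → e * e = 1 ∨ e * e = u * u := by
    intro e he
    have h1 : e * e ∈ zpowers u := Subgroup.mul_self_mem_of_index_two hidx e
    have hc := hconj e he
    rcases hKmem _ h1 with h | h | h | h
    · left; exact h
    · exfalso
      apply huinv
      rw [← hc, ← h]; group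
    · right; exact h
    · exfalso
      apply huinv
      have h3 : e * u⁻¹ * e⁻¹ = u⁻¹ := by rw [← h]; group
      have h' : e * u⁻¹ * e⁻¹ = (e * u * e⁻¹)⁻¹ := by group
      rw [h', hc, inv_inv] at h3
      exact h3
  refine ⟨hex, hconj, ?_⟩
  by_cases hex2 : ∃ e₀ : H, e₀ ∉ zpowers u ∧ e₀ * e₀ = 1
  · left
    obtain ⟨e₀, he₀, he₀2⟩ := hex2
    intro e he
    have hk : e * e₀⁻¹ ∈ zpowers u := by
      rw [Subgroup.mul_mem_iff_of_index_two hidx]
      simp [he, he₀]
    have hinv : ∀ k ∈ zpowers u, e₀ * k * e₀⁻¹ = k⁻¹ := by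
      intro k hk
      rcases hKmem k hk with h | h | h | h
      · rw [h]; group
      · rw [h]; exact hconj e₀ he₀
      · rw [h]
        calc e₀ * (u * u) * e₀⁻¹ = (e₀ * u * e₀⁻¹) * (e₀ * u * e₀⁻¹) := by group
          _ = u⁻¹ * u⁻¹ := by rw [hconj e₀ he₀]
          _ = (u * u)⁻¹ := by group
      · rw [h]
        calc e₀ * u⁻¹ * e₀⁻¹ = (e₀ * u * e₀⁻¹)⁻¹ := by group
          _ = u⁻¹⁻¹ := by rw [hconj e₀ he₀]
    have h3 := hinv _ hk
    calc e * e = (e * e₀⁻¹) * (e₀ * (e * e₀⁻¹) * e₀⁻¹) * (e₀ * e₀) := by group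
      _ = 1 := by rw [h3, he₀2]; group
  · right
    push_neg at hex2
    intro e he
    rcases hsq e he with h | h
    · exact absurd h (hex2 e he)
    · exact h

end Order8

/-- Structure of a non-abelian subgroup of order 8. -/
theorem o8_subgroup {G : Type*} [Group G] (T : Subgroup G) (hT : Nat.card T = 8)
    (hnc : ¬ IsMulCommutative T) :
    ∃ u ∈ T, orderOf u = 4 ∧ (∃ e ∈ T, e ∉ zpowers u) ∧
      (∀ e ∈ T, e ∉ zpowers u → e * u * e⁻¹ = u⁻¹) ∧
      ((∀ e ∈ T, e ∉ zpowers u → e * e = 1) ∨ (∀ e ∈ T, e ∉ zpowers u → e * e = u * u)) := by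
  have hnc' : ¬ ∀ a b : T, a * b = b * a := fun h => hnc ⟨⟨h⟩⟩
  obtain ⟨u, hu, ⟨e₀, he₀⟩, hconj, hsq⟩ := o8_main hT hnc'
  have hmem : ∀ e : G, ∀ he : e ∈ T, e ∉ zpowers (u : G) → (⟨e, he⟩ : T) ∉ zpowers u := by
    intro e he hne hmem
    apply hne
    obtain ⟨j, hj⟩ := Subgroup.mem_zpowers_iff.mp hmem
    rw [Subgroup.mem_zpowers_iff]
    refine ⟨j, ?_⟩
    have := congrArg Subtype.val hj
    simpa using this
  have hmem' : ∀ e : T, e ∉ zpowers u → (e : G) ∉ zpowers (u : G) := by
    intro e hne hmem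
    apply hne
    obtain ⟨j, hj⟩ := Subgroup.mem_zpowers_iff.mp hmem
    rw [Subgroup.mem_zpowers_iff]
    refine ⟨j, ?_⟩
    apply Subtype.ext
    simpa using hj
  refine ⟨u, u.2, by rw [Subgroup.orderOf_coe, hu], ⟨e₀, e₀.2, hmem' e₀ he₀⟩, ?_, ?_⟩
  · intro e he hne
    have := congrArg Subtype.val (hconj ⟨e, he⟩ (hmem e he hne))
    simpa using this
  · rcases hsq with h | h
    · left
      intro e he hne
      have := congrArg Subtype.val (h ⟨e, he⟩ (hmem e he hne))
      simpa using this
    · right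
      intro e he hne
      have := congrArg Subtype.val (h ⟨e, he⟩ (hmem e he hne))
      simpa using this

end Cfsg.Agent.Lib.Helper6
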