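import Mathlib

set_option autoImplicit false

namespace Cfsg.Agent.Lib.Helper6

section OrthoNormal2

universe u v

open Module

theorem on_aux {F : Type v} [Field F] [Finite F] [CharP F 2] :
    ∀ (n : ℕ) (V : Type u) [AddCommGroup V] [Module F V] [FiniteDimensional F V],
      Module.finrank F V = n → ∀ (B : LinearMap.BilinForm F V), B.IsSymm → B.Nondegenerate →
      (∃ v : V, B v v ≠ 0) →
      ∃ b : Module.Basis (Fin n) F V, ∀ i j, B (b i) (b j) = if i = j then 1 else 0 := by
  intro n
  induction n with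
  | zero =>
    intro V _ _ _ hV B hS hB hna
    obtain ⟨v, hv⟩ := hna
    exfalso
    have h0 : v = 0 := _root_.finrank_zero_iff_forall_zero.1 hV v
    exact hv (by rw [h0]; simp)
  | succ n ih =>
    intro V _ _ _ hV B hS hB hna
    have hsq : ∀ a : F, ∃ c, c * c = a := by
      intro a
      haveI := Fintype.ofFinite F
      obtain ⟨c, hc⟩ := FiniteField.isSquare_of_char_two (ringChar.eq F 2) a
      exact ⟨c, hc.symm⟩
    have hnorm : ∀ v : V, B v v ≠ 0 → ∃ v', B v' v' = 1 := by
      intro v hv
      obtain ⟨c, hc⟩ := hsq (B v v)⁻¹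
      refine ⟨c • v, ?_⟩
      simp only [map_smul, LinearMap.smul_apply, smul_eq_mul]
      rw [← mul_assoc, hc, inv_mul_cancel₀ hv]
    have hfinrank : ∀ w : V, B w w ≠ 0 → Module.finrank F (B.orthogonal (F ∙ w)) = n := by
      intro w hw
      have h1 := Submodule.finrank_add_eq_of_isCompl
        (LinearMap.BilinForm.isCompl_span_singleton_orthogonal hw)
      rw [finrank_span_singleton (LinearMap.BilinForm.ne_zero_of_not_isOrtho_self w hw), hV]
        at h1
      omega
    obtain ⟨v₀, hv₀⟩ := hna
    obtain ⟨v, hv⟩ := hnorm v₀ hv₀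
    have key : ∃ v₁ : V, B v₁ v₁ = 1 ∧
        (1 ≤ n → ∃ u ∈ B.orthogonal (F ∙ v₁), B u u ≠ 0) := by
      by_cases halt : ∃ u ∈ B.orthogonal (F ∙ v), B u u ≠ 0
      · exact ⟨v, hv, fun _ => halt⟩
      · push Not at halt
        by_cases hn : 1 ≤ n
        · have hv1 : B v v ≠ 0 := by
            rw [hv]
            exact one_ne_zero
          have hfin := hfinrank v hv1
          have hnd := B.restrict_nondegenerate_orthogonal_spanSingleton hB hS.isRefl hv1
          haveI : Nontrivial (B.orthogonal (F ∙ v)) :=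
            Module.nontrivial_of_finrank_pos (R := F) (by omega)
          obtain ⟨e, he⟩ := exists_ne (0 : B.orthogonal (F ∙ v))
          have hf : ∃ f : B.orthogonal (F ∙ v), B e.1 f.1 ≠ 0 := by
            by_contra hno
            push Not at hno
            exact he (hnd.1 e (fun f => hno f))
          obtain ⟨f, hf⟩ := hf
          obtain ⟨f', hf'mem, hf'⟩ : ∃ f' ∈ B.orthogonal (F ∙ v), B e.1 f' = 1 :=
            ⟨(B e.1 f.1)⁻¹ • f.1, Submodule.smul_mem _ _ f.2, by
              rw [map_smul, smul_eq_mul, inv_mul_cancel₀ hf]⟩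
          have hve : B v e.1 = 0 := e.2 v (Submodule.mem_span_singleton_self v)
          have hvf : B v f' = 0 := hf'mem v (Submodule.mem_span_singleton_self v)
          have hee : B e.1 e.1 = 0 := halt e.1 e.2
          have hff : B f' f' = 0 := halt f' hf'mem
          have h11 : (1 : F) + 1 = 0 := CharTwo.add_self_eq_zero 1
          refine ⟨v + e.1, ?_, fun _ => ⟨v + f', ?_, ?_⟩⟩
          · simp only [map_add, LinearMap.add_apply]
            rw [hv, hve, hS.eq e.1 v, hve, hee]
            simp
          · rw [LinearMap.BilinForm.mem_orthogonal_iff]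
            intro x hx
            obtain ⟨c, rfl⟩ := Submodule.mem_span_singleton.1 hx
            simp only [map_add, map_smul, LinearMap.add_apply, LinearMap.smul_apply, smul_eq_mul]
            rw [hv, hvf, hS.eq e.1 v, hve, hf']
            linear_combination c * h11
          · simp only [map_add, LinearMap.add_apply]
            rw [hv, hvf, hS.eq f' v, hvf, hff]
            simp
        · exact ⟨v, hv, fun h => absurd h hn⟩
    obtain ⟨v₁, hv₁, hu⟩ := key
    have hv1 : B v₁ v₁ ≠ 0 := by
      rw [hv₁]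
      exact one_ne_zero
    have hfin := hfinrank v₁ hv1
    have hnd := B.restrict_nondegenerate_orthogonal_spanSingleton hB hS.isRefl hv1
    have hb₁ : ∃ b₁ : Module.Basis (Fin n) F (B.orthogonal (F ∙ v₁)),
        ∀ i j, B (b₁ i).1 (b₁ j).1 = if i = j then 1 else 0 := by
      rcases Nat.eq_zero_or_pos n with hn0 | hnpos
      · subst hn0
        exact ⟨Module.finBasisOfFinrankEq F _ hfin, fun i => i.elim0⟩
      · obtain ⟨u, hu1, hu2⟩ := hu hnpos
        obtain ⟨b₁, hb₁⟩ := ih (B.orthogonal (F ∙ v₁)) hfin (B.restrict _) (hS.restrict _) hnd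
          ⟨⟨u, hu1⟩, hu2⟩
        exact ⟨b₁, hb₁⟩
    obtain ⟨b₁, hb₁⟩ := hb₁
    obtain ⟨b, hb⟩ : ∃ b : Module.Basis (Fin (n + 1)) F V,
        ⇑b = Fin.cons v₁ (Subtype.val ∘ b₁) := by
      refine ⟨Module.Basis.mkFinCons v₁ b₁ ?_ ?_, Module.Basis.coe_mkFinCons _ _ _ _⟩
      · rintro c y hy hc
        rw [add_eq_zero_iff_neg_eq] at hc
        rw [← hc, Submodule.neg_mem_iff] at hy
        have h1 := (LinearMap.BilinForm.isCompl_span_singleton_orthogonal hv1).disjoint
        rw [Submodule.disjoint_def] at h1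
        have h2 := h1 (c • v₁) (Submodule.smul_mem _ _ <| Submodule.mem_span_singleton_self _) hy
        exact (smul_eq_zero.1 h2).resolve_right
          (LinearMap.BilinForm.ne_zero_of_not_isOrtho_self v₁ hv1)
      · intro y
        refine ⟨-B v₁ y, ?_⟩
        rw [LinearMap.BilinForm.mem_orthogonal_iff]
        intro z hz
        obtain ⟨c, rfl⟩ := Submodule.mem_span_singleton.1 hz
        simp only [map_smul, map_add, LinearMap.smul_apply, smul_eq_mul]
        rw [hv₁]
        ring
    refine ⟨b, ?_⟩
    intro i j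
    rw [hb]
    refine Fin.cases ?_ (fun i => ?_) i <;> refine Fin.cases ?_ (fun j => ?_) j
    · simp [hv₁]
    · simp only [Fin.cons_zero, Fin.cons_succ, Function.comp_apply]
      rw [if_neg (Fin.succ_ne_zero j).symm]
      exact (b₁ j).2 v₁ (Submodule.mem_span_singleton_self v₁)
    · simp only [Fin.cons_zero, Fin.cons_succ, Function.comp_apply]
      rw [if_neg (Fin.succ_ne_zero i), hS.eq]
      exact (b₁ i).2 v₁ (Submodule.mem_span_singleton_self v₁)
    · simp only [Fin.cons_succ, Function.comp_apply, hb₁, Fin.succ_inj]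

end OrthoNormal2

end Cfsg.Agent.Lib.Helper6
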