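import Cfsg.Agent.Lib.Helper6.RankOne2
import Cfsg.Prelude.Def_Transfer

set_option autoImplicit false
set_option linter.style.haveILetI false
set_option linter.unusedSimpArgs false
set_option linter.unusedVariables false

namespace Cfsg.Agent.Lib.Helper6

open Cfsg

section ring

variable {R : Type*} [Ring R]

theorem qm_one_add_pow {ν : R} (h : ν * ν = 0) (j : ℕ) : (1 + ν) ^ j = 1 + (j : R) * ν := by
  induction j with
  | zero => simp
  | succ j ih =>
    rw [pow_succ, ih, Nat.cast_succ]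
    simp only [mul_add, add_mul, mul_one, one_mul, mul_assoc, h, mul_zero, add_zero]
    abel

theorem qm_ring_key1 {α β α' β' P : R} (hP : ∀ x, P * x = x * P) (hPα : P * α = 0)
    (hαα : α * α = 0) (hββ : β * β = 0) (hββ' : β * β' = 0) (hβ'β : β' * β = 0)
    (hE : 1 + α' = (1 + β) * (1 - α) * (1 + β') * (1 + α) * (1 - β)) : P * α' = P * β' := by
  have z1 : ∀ x, α * (α * x) = 0 := fun x => by rw [← mul_assoc, hαα, zero_mul]
  have z2 : ∀ x, β * (β * x) = 0 := fun x => by rw [← mul_assoc, hββ, zero_mul]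
  have z3 : ∀ x, β * (β' * x) = 0 := fun x => by rw [← mul_assoc, hββ', zero_mul]
  have z4 : ∀ x, β' * (β * x) = 0 := fun x => by rw [← mul_assoc, hβ'β, zero_mul]
  have p1 : ∀ x, P * (α * x) = 0 := fun x => by rw [← mul_assoc, hPα, zero_mul]
  have p2 : ∀ x, P * (β * x) = β * (P * x) := fun x => by rw [← mul_assoc, hP β, mul_assoc]
  have p3 : ∀ x, P * (β' * x) = β' * (P * x) := fun x => by rw [← mul_assoc, hP β', mul_assoc]
  have e := hE
  simp only [mul_add, add_mul, sub_eq_add_neg, neg_mul, mul_neg, mul_one, one_mul, mul_assoc,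
    hαα, hββ, hββ', hβ'β, z1, z2, z3, z4, mul_zero, zero_mul, add_zero, zero_add, neg_zero,
    neg_neg] at e
  have e2 := congrArg (fun t => P * t) e
  simp only [mul_add, mul_neg, p1, p2, p3, hPα, mul_zero, add_zero, zero_add, neg_zero,
    mul_one] at e2
  linear_combination (norm := abel) e2

theorem qm_ring_key2 {α β γ δ α' α'' : R} (hαα : α * α = 0) (hββ : β * β = 0)
    (hαα' : α * α' = 0) (hδα' : δ * α' = 0) (hα''α : α'' * α = 0) (hα''δ : α'' * δ = 0)
    (hEa : (1 - β) * (1 + α) * (1 + β) = (1 - α) * (1 + γ) * (1 + α))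
    (hEb : (1 - β) * (1 + δ) * (1 + β) = (1 - α) * (1 + β) * (1 + α)) :
    α'' * (γ + β) * α' = 0 := by
  have z1 : ∀ x, α * (α * x) = 0 := fun x => by rw [← mul_assoc, hαα, zero_mul]
  have z2 : ∀ x, β * (β * x) = 0 := fun x => by rw [← mul_assoc, hββ, zero_mul]
  have z3 : ∀ x, α'' * (α * x) = 0 := fun x => by rw [← mul_assoc, hα''α, zero_mul]
  have z4 : ∀ x, α'' * (δ * x) = 0 := fun x => by rw [← mul_assoc, hα''δ, zero_mul]
  have h1 : α'' * (γ * α') = -(α'' * (β * (α * (β * α')))) := by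
    have e := congrArg (fun t => α'' * t * α') hEa
    simp only [mul_add, add_mul, sub_eq_add_neg, neg_mul, mul_neg, mul_one, one_mul, mul_assoc,
      hαα, hββ, hαα', hδα', hα''α, hα''δ, z1, z2, z3, z4, mul_zero, zero_mul, add_zero, zero_add,
      neg_zero, neg_neg] at e
    linear_combination (norm := abel) -e
  have h2 : α'' * (β * α') = -(α'' * (β * (δ * (β * α')))) := by
    have e := congrArg (fun t => α'' * t * α') hEb
    simp only [mul_add, add_mul, sub_eq_add_neg, neg_mul, mul_neg, mul_one, one_mul, mul_assoc,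
      hαα, hββ, hαα', hδα', hα''α, hα''δ, z1, z2, z3, z4, mul_zero, zero_mul, add_zero, zero_add,
      neg_zero, neg_neg] at e
    linear_combination (norm := abel) -e
  have h3 : α'' * (β * (δ * β)) = -(α'' * (β * (α * β))) := by
    have e := congrArg (fun t => α'' * t * β) hEb
    simp only [mul_add, add_mul, sub_eq_add_neg, neg_mul, mul_neg, mul_one, one_mul, mul_assoc,
      hαα, hββ, hαα', hδα', hα''α, hα''δ, z1, z2, z3, z4, mul_zero, zero_mul, add_zero, zero_add,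
      neg_zero, neg_neg] at e
    linear_combination (norm := abel) -e
  have h3' : α'' * (β * (δ * (β * α'))) = -(α'' * (β * (α * (β * α')))) := by
    have e := congrArg (fun t => t * α') h3
    simp only [mul_assoc, neg_mul] at e
    exact e
  rw [mul_add, add_mul, mul_assoc, mul_assoc, h1, h2, h3', neg_neg, neg_add_cancel]

end ring

section module

variable {X : Type*} [Group X] {N : Type*} [AddCommGroup N] [DistribMulAction X N]

/-- The representation of `X` on the additive group `N`. -/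
def qmRho (X : Type*) [Group X] (N : Type*) [AddCommGroup N] [DistribMulAction X N] :
    X →* AddMonoid.End N := DistribMulAction.toAddMonoidEnd X N

theorem qmRho_apply (x : X) (n : N) : qmRho X N x n = x • n := rfl

/-- The subgroup `S` acts quadratically on `N`. -/
def QmQuad (N : Type*) [AddCommGroup N] [DistribMulAction X N] (S : Subgroup X) : Prop :=
  ∀ s ∈ S, ∀ s' ∈ S, (qmRho X N s' - 1) * (qmRho X N s - 1) = 0

theorem qm_quad_of {A : Subgroup X}
    (hq : ∀ a ∈ A, ∀ a' ∈ A, ∀ v : N, a' • (a • v - v) = a • v - v) : QmQuad N A := by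
  intro a ha a' ha'
  ext v
  have := hq a ha a' ha' v
  show qmRho X N a' (qmRho X N a v - v) - (qmRho X N a v - v) = 0
  rw [qmRho_apply, qmRho_apply, this, sub_self]

theorem qm_conj_sub_one (g x : X) :
    qmRho X N (g * x * g⁻¹) - 1 = qmRho X N g * (qmRho X N x - 1) * qmRho X N g⁻¹ := by
  rw [map_mul, map_mul, mul_sub, sub_mul, mul_one, ← map_mul (qmRho X N) g g⁻¹, mul_inv_cancel,
    map_one]

theorem qm_inv_mul (g : X) : qmRho X N g⁻¹ * qmRho X N g = 1 := by
  rw [← map_mul, inv_mul_cancel, map_one]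

theorem qm_mul_inv (g : X) : qmRho X N g * qmRho X N g⁻¹ = 1 := by
  rw [← map_mul, mul_inv_cancel, map_one]

theorem qm_quad_conj {A : Subgroup X} (hA : QmQuad N A) (g : X) : QmQuad N (conjBy A g) := by
  rintro s ⟨x, hx, rfl⟩ s' ⟨x', hx', rfl⟩
  show (qmRho X N (g * x' * g⁻¹) - 1) * (qmRho X N (g * x * g⁻¹) - 1) = 0
  rw [qm_conj_sub_one, qm_conj_sub_one]
  calc qmRho X N g * (qmRho X N x' - 1) * qmRho X N g⁻¹ *
        (qmRho X N g * (qmRho X N x - 1) * qmRho X N g⁻¹)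
      = qmRho X N g * ((qmRho X N x' - 1) * (qmRho X N g⁻¹ * qmRho X N g) *
          (qmRho X N x - 1)) * qmRho X N g⁻¹ := by simp only [mul_assoc]
    _ = 0 := by rw [qm_inv_mul, mul_one, hA _ hx _ hx', mul_zero, zero_mul]

theorem qm_inv {x : X} (hx : (qmRho X N x - 1) * (qmRho X N x - 1) = 0) :
    qmRho X N x⁻¹ = 1 - (qmRho X N x - 1) := by
  obtain ⟨ν, hν⟩ : ∃ ν, ν = qmRho X N x - 1 := ⟨_, rfl⟩
  have hρ : qmRho X N x = 1 + ν := by rw [hν]; abel
  rw [← hν] at hx ⊢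
  have h1 : qmRho X N x * (1 - ν) = 1 := by
    rw [hρ]; simp only [mul_sub, add_mul, mul_one, one_mul, hx]; abel
  calc qmRho X N x⁻¹ = qmRho X N x⁻¹ * (qmRho X N x * (1 - ν)) := by rw [h1, mul_one]
    _ = 1 - ν := by rw [← mul_assoc, qm_inv_mul, one_mul]

theorem qm_pow {x : X} (hx : (qmRho X N x - 1) * (qmRho X N x - 1) = 0) (j : ℕ) :
    qmRho X N (x ^ j) = 1 + (j : AddMonoid.End N) * (qmRho X N x - 1) := by
  have := qm_one_add_pow hx j
  rwa [add_sub_cancel, ← map_pow] at this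

theorem qm_inj (hf : ∀ x : X, (∀ v : N, x • v = v) → x = 1) {x y : X}
    (h : qmRho X N x = qmRho X N y) : x = y := by
  have h1 : x * y⁻¹ = 1 := by
    apply hf
    intro v
    have h2 : qmRho X N (x * y⁻¹) = 1 := by rw [map_mul, h, qm_mul_inv]
    have h3 := congrArg (fun f : AddMonoid.End N => f v) h2
    exact h3
  exact mul_inv_eq_one.mp h1

/-- S5023: a rank one group acting faithfully with `A` quadratic has `A` torsion free or
elementary abelian. -/
theorem qm_elementary_or_torsion_free {A B : Subgroup X} (h : IsRankOneGroup X A B)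
    (hf : ∀ x : X, (∀ v : N, x • v = v) → x = 1)
    (hq : ∀ a ∈ A, ∀ a' ∈ A, ∀ v : N, a' • (a • v - v) = a • v - v) :
    (∀ a ∈ A, a ≠ 1 → ¬ IsOfFinOrder a) ∨ ∃ p : ℕ, p.Prime ∧ IsElementaryAbelian p A := by
  have hQA : QmQuad N A := qm_quad_of hq
  by_cases htf : ∀ a ∈ A, a ≠ 1 → ¬ IsOfFinOrder a
  · exact Or.inl htf
  right
  push_neg at htf
  obtain ⟨a₁, ha₁, ha₁1, hfin⟩ := htf
  have hn1 : orderOf a₁ ≠ 1 := fun h1 => ha₁1 (orderOf_eq_one_iff.mp h1)
  have hn0 : orderOf a₁ ≠ 0 := hfin.orderOf_pos.ne'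
  obtain ⟨p, hp, hpn⟩ := Nat.exists_prime_and_dvd hn1
  obtain ⟨m, hm⟩ := hpn
  have hm0 : m ≠ 0 := by rintro rfl; exact hn0 (by rw [hm, mul_zero])
  have hord : orderOf (a₁ ^ m) = p := by
    rw [orderOf_pow_of_dvd hm0 (Dvd.intro_left p hm.symm), hm,
      Nat.mul_div_cancel _ (Nat.pos_of_ne_zero hm0)]
  obtain ⟨a₀, ha₀def⟩ : ∃ a₀, a₀ = a₁ ^ m := ⟨_, rfl⟩
  rw [← ha₀def] at hord
  have ha₀ : a₀ ∈ A := by rw [ha₀def]; exact pow_mem ha₁ m
  have ha₀1 : a₀ ≠ 1 := by
    intro h1; rw [h1, orderOf_one] at hord; exact hp.ne_one hord.symm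
  have ha₀p : a₀ ^ p = 1 := by rw [← hord]; exact pow_orderOf_eq_one a₀
  obtain ⟨b₀, hb₀, hb₀1, hR⟩ := h.2.cond_left a₀ ha₀ ha₀1
  have hBeq : B = conjBy A (a₀ * b₀⁻¹) := by
    rw [← cb_cb, hR, cb_cb, mul_inv_cancel, cb_one]
  have hQB : QmQuad N B := by rw [hBeq]; exact qm_quad_conj hQA _
  have hcomm : IsMulCommutative A := by
    refine ⟨⟨fun x y => ?_⟩⟩
    apply Subtype.ext
    show (x : X) * y = y * x
    apply qm_inj hf
    have h1 := hQA _ x.2 _ y.2
    have h2 := hQA _ y.2 _ x.2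
    rw [map_mul, map_mul]
    have e : qmRho X N x * qmRho X N y - qmRho X N y * qmRho X N x =
        (qmRho X N x - 1) * (qmRho X N y - 1) - (qmRho X N y - 1) * (qmRho X N x - 1) := by
      simp only [mul_sub, sub_mul, mul_one, one_mul]; abel
    rw [h1, h2, sub_zero] at e
    exact sub_eq_zero.mp e
  refine ⟨p, hp, hcomm, fun a' ha' => ?_⟩
  have hb' : a₀ * b₀⁻¹ * a' * b₀ * a₀⁻¹ ∈ B := by
    have h1 : b₀⁻¹ * a' * b₀ ∈ conjBy A b₀⁻¹ := by
      have := cb_mem' (A := A) (g := b₀⁻¹) ha'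
      rwa [inv_inv] at this
    rw [hR, cb_mem, inv_inv] at h1
    have e : a₀ * (b₀⁻¹ * a' * b₀) * a₀⁻¹ = a₀ * b₀⁻¹ * a' * b₀ * a₀⁻¹ := by group
    rwa [e] at h1
  obtain ⟨b', hb'def⟩ : ∃ b', b' = a₀ * b₀⁻¹ * a' * b₀ * a₀⁻¹ := ⟨_, rfl⟩
  rw [← hb'def] at hb'
  have hrel : a' = b₀ * a₀⁻¹ * b' * a₀ * b₀⁻¹ := by rw [hb'def]; group
  have hαα := hQA _ ha₀ _ ha₀
  have hββ := hQB _ hb₀ _ hb₀
  have hββ' := hQB _ hb' _ hb₀
  have hβ'β := hQB _ hb₀ _ hb'
  have hα'α' := hQA _ ha' _ ha'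
  have hβ'β' := hQB _ hb' _ hb'
  have hE : 1 + (qmRho X N a' - 1) = (1 + (qmRho X N b₀ - 1)) * (1 - (qmRho X N a₀ - 1)) *
      (1 + (qmRho X N b' - 1)) * (1 + (qmRho X N a₀ - 1)) * (1 - (qmRho X N b₀ - 1)) := by
    rw [← qm_inv hαα, ← qm_inv hββ]
    simp only [add_sub_cancel]
    rw [← map_mul, ← map_mul, ← map_mul, ← map_mul, ← hrel]
  have hPα : (p : AddMonoid.End N) * (qmRho X N a₀ - 1) = 0 := by
    have h1 := qm_pow hαα p
    rw [ha₀p, map_one] at h1
    have : (p : AddMonoid.End N) * (qmRho X N a₀ - 1) =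
        (1 + (p : AddMonoid.End N) * (qmRho X N a₀ - 1)) - 1 := by abel
    rw [this, ← h1, sub_self]
  have key := qm_ring_key1 (Nat.cast_comm p) hPα hαα hββ hββ' hβ'β hE
  have heq : a' ^ p = b' ^ p := by
    apply qm_inj hf
    rw [qm_pow hα'α' p, qm_pow hβ'β' p, key]
  have hmem : a' ^ p ∈ A ⊓ Subgroup.normalizer (B : Set X) :=
    Subgroup.mem_inf.mpr ⟨pow_mem ha' p, Subgroup.le_normalizer (by rw [heq]; exact pow_mem hb' p)⟩
  rw [r1_normalizer_left h.2, Subgroup.mem_bot] at hmem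
  exact hmem

end module

end Cfsg.Agent.Lib.Helper6
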