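import Cfsg.Agent.Lib.Helper6.QuadMod

set_option autoImplicit false
set_option linter.style.haveILetI false
set_option linter.unusedSimpArgs false
set_option linter.unusedVariables false

namespace Cfsg.Agent.Lib.Helper6

open Cfsg

variable {X : Type*} [Group X] {N : Type*} [AddCommGroup N] [DistribMulAction X N]

local notation "ρ" => qmRho X N

theorem qm_comm_left (g z : X) : ρ g * (ρ z - 1) = (ρ (g * z * g⁻¹) - 1) * ρ g := by
  rw [qm_conj_sub_one, mul_assoc, qm_inv_mul, mul_one]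

theorem qm_comm_right (y g : X) : (ρ y - 1) * ρ g = ρ g * (ρ (g⁻¹ * y * g) - 1) := by
  have := qm_comm_left (N := N) g (g⁻¹ * y * g)
  have e : g * (g⁻¹ * y * g) * g⁻¹ = y := by group
  rw [e] at this
  exact this.symm

theorem qm_mul_sub_one (x y : X) : ρ (x * y) - 1 = (ρ x - 1) * ρ y + (ρ y - 1) := by
  rw [map_mul, sub_mul, one_mul]; abel

theorem qm_mul_sub_one' (x y : X) : ρ (x * y) - 1 = ρ x * (ρ y - 1) + (ρ x - 1) := by
  rw [map_mul, mul_sub, mul_one]; abel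

theorem qm_inv_sub_one (x : X) : ρ x⁻¹ - 1 = -(ρ x⁻¹ * (ρ x - 1)) := by
  rw [mul_sub, qm_inv_mul, mul_one]; abel

/-- The kernel of the action on `[N, X] / C_{[N,X]}(X)`, in ring terms. -/
def qmK (X : Type*) [Group X] (N : Type*) [AddCommGroup N] [DistribMulAction X N] :
    Subgroup X where
  carrier := {x | ∀ y z : X, (qmRho X N y - 1) * (qmRho X N x - 1) * (qmRho X N z - 1) = 0}
  one_mem' := by
    intro y z
    rw [map_one, sub_self, mul_zero, zero_mul]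
  mul_mem' := by
    intro x x' hx hx' y z
    rw [qm_mul_sub_one, mul_add, add_mul, hx' y z, add_zero]
    rw [mul_assoc, mul_assoc, qm_comm_left, ← mul_assoc, ← mul_assoc, hx y _, zero_mul]
  inv_mem' := by
    intro x hx y z
    rw [qm_inv_sub_one, mul_neg, neg_mul, ← mul_assoc, qm_comm_right, mul_assoc, mul_assoc,
      ← mul_assoc (qmRho X N (x⁻¹⁻¹ * y * x⁻¹) - 1), hx _ z, mul_zero, neg_zero]

theorem qmK_mem {x : X} : x ∈ qmK X N ↔ ∀ y z : X, (ρ y - 1) * (ρ x - 1) * (ρ z - 1) = 0 :=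
  Iff.rfl

theorem qmK_normal : (qmK X N).Normal := by
  refine ⟨fun x hx g y z => ?_⟩
  rw [qm_conj_sub_one]
  have e1 := qm_comm_right (N := N) y g
  have e2 := qm_comm_left (N := N) g⁻¹ z
  calc (ρ y - 1) * (ρ g * (ρ x - 1) * ρ g⁻¹) * (ρ z - 1)
      = ((ρ y - 1) * ρ g) * (ρ x - 1) * (ρ g⁻¹ * (ρ z - 1)) := by simp only [mul_assoc]
    _ = ρ g * ((ρ (g⁻¹ * y * g) - 1) * (ρ x - 1) * (ρ (g⁻¹ * z * g⁻¹⁻¹) - 1)) * ρ g⁻¹ := by
        rw [e1, e2]; simp only [mul_assoc]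
    _ = 0 := by rw [hx _ _, mul_zero, zero_mul]

/-- S5019: a rank one group acting quadratically with `[N, X, X] ≠ 0` is special. -/
theorem qm_special {A B : Subgroup X} (h : IsRankOneGroup X A B)
    (hq : ∀ a ∈ A, ∀ a' ∈ A, ∀ n : N, a' • (a • n - n) = a • n - n)
    (hX : ∃ x y : X, ∃ n : N, y • (x • n - n) ≠ x • n - n) : IsSpecialRankOnePair A B := by
  refine ⟨h.2, fun a ha ha1 b hb hb1 hR => ?_⟩
  have hQA : QmQuad N A := qm_quad_of hq
  have hBeq : B = conjBy A (a * b⁻¹) := by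
    rw [← cb_cb, hR, cb_cb, mul_inv_cancel, cb_one]
  have hQB : QmQuad N B := by rw [hBeq]; exact qm_quad_conj hQA _
  have htop : ∀ x : X, x ∈ A ⊔ B := fun x => h.1 ▸ Subgroup.mem_top x
  -- from `B` to `A`
  have hBA : ∀ b₁ ∈ B, b * a⁻¹ * b₁ * a * b⁻¹ ∈ A := by
    intro b₁ hb₁
    have h1 : a⁻¹ * b₁ * a ∈ conjBy B a⁻¹ := by
      have := cb_mem' (A := B) (g := a⁻¹) hb₁
      rwa [inv_inv] at this
    rw [← hR, cb_mem, inv_inv] at h1
    have e : b * (a⁻¹ * b₁ * a) * b⁻¹ = b * a⁻¹ * b₁ * a * b⁻¹ := by group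
    rwa [e] at h1
  have hb' : a * b⁻¹ * a * b * a⁻¹ ∈ B := by
    have h1 : b⁻¹ * a * b ∈ conjBy A b⁻¹ := by
      have := cb_mem' (A := A) (g := b⁻¹) ha
      rwa [inv_inv] at this
    rw [hR, cb_mem, inv_inv] at h1
    have e : a * (b⁻¹ * a * b) * a⁻¹ = a * b⁻¹ * a * b * a⁻¹ := by group
    rwa [e] at h1
  have hδ := hBA b hb
  obtain ⟨b', hb'def⟩ : ∃ b', b' = a * b⁻¹ * a * b * a⁻¹ := ⟨_, rfl⟩
  obtain ⟨d, hddef⟩ : ∃ d, d = b * a⁻¹ * b * a * b⁻¹ := ⟨_, rfl⟩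
  rw [← hb'def] at hb'
  rw [← hddef] at hδ
  have hrela : b⁻¹ * a * b = a⁻¹ * b' * a := by rw [hb'def]; group
  have hrelb : b⁻¹ * d * b = a⁻¹ * b * a := by rw [hddef]; group
  have hαα : (ρ a - 1) * (ρ a - 1) = 0 := hQA _ ha _ ha
  have hββ : (ρ b - 1) * (ρ b - 1) = 0 := hQB _ hb _ hb
  have hEa : (1 - (ρ b - 1)) * (1 + (ρ a - 1)) * (1 + (ρ b - 1)) =
      (1 - (ρ a - 1)) * (1 + (ρ b' - 1)) * (1 + (ρ a - 1)) := by
    rw [← qm_inv hαα, ← qm_inv hββ]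
    simp only [add_sub_cancel]
    rw [← map_mul, ← map_mul, ← map_mul, ← map_mul, hrela]
  have hEb : (1 - (ρ b - 1)) * (1 + (ρ d - 1)) * (1 + (ρ b - 1)) =
      (1 - (ρ a - 1)) * (1 + (ρ b - 1)) * (1 + (ρ a - 1)) := by
    rw [← qm_inv hαα, ← qm_inv hββ]
    simp only [add_sub_cancel]
    rw [← map_mul, ← map_mul, ← map_mul, ← map_mul, hrelb]
  have hcD : ρ (b' * b) - 1 = (ρ b' - 1) + (ρ b - 1) := by
    have e : ρ (b' * b) - 1 = (ρ b' - 1) * (ρ b - 1) + ((ρ b' - 1) + (ρ b - 1)) := by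
      rw [map_mul]; simp only [mul_sub, sub_mul, mul_one, one_mul]; abel
    rw [e, hQB _ hb _ hb', zero_add]
  have hBD : ∀ b₁ ∈ B, (ρ b₁ - 1) * ((ρ b' - 1) + (ρ b - 1)) = 0 := by
    intro b₁ hb₁
    rw [mul_add, hQB _ hb' _ hb₁, hQB _ hb _ hb₁, add_zero]
  have hDB : ∀ b₁ ∈ B, ((ρ b' - 1) + (ρ b - 1)) * (ρ b₁ - 1) = 0 := by
    intro b₁ hb₁
    rw [add_mul, hQB _ hb₁ _ hb', hQB _ hb₁ _ hb, add_zero]
  have hQ : ∀ z ∈ A ⊔ B, ∀ a'' ∈ A, (ρ a'' - 1) * ((ρ b' - 1) + (ρ b - 1)) * (ρ z - 1) = 0 := by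
    apply cb_sup_induction
    · intro a' ha' a'' ha''
      exact qm_ring_key2 hαα hββ (hQA _ ha' _ ha) (hQA _ ha' _ hδ) (hQA _ ha _ ha'')
        (hQA _ hδ _ ha'') hEa hEb
    · intro b₁ hb₁ a'' ha''
      rw [mul_assoc, hDB b₁ hb₁, mul_zero]
    · intro a'' ha''
      rw [map_one, sub_self, mul_zero]
    · intro z z' hz hz' a'' ha''
      rw [qm_mul_sub_one, mul_add, ← mul_assoc, hz a'' ha'', zero_mul, zero_add, hz' a'' ha'']
  have hQ' : ∀ y ∈ A ⊔ B, ∀ z : X, (ρ y - 1) * ((ρ b' - 1) + (ρ b - 1)) * (ρ z - 1) = 0 := by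
    apply cb_sup_induction
    · intro a'' ha'' z
      exact hQ z (htop z) a'' ha''
    · intro b₁ hb₁ z
      rw [hBD b₁ hb₁, zero_mul]
    · intro z
      rw [map_one, sub_self, zero_mul, zero_mul]
    · intro y y' hy hy' z
      rw [qm_mul_sub_one', add_mul, add_mul, hy z, add_zero]
      have e : ρ y * (ρ y' - 1) * ((ρ b' - 1) + (ρ b - 1)) * (ρ z - 1) =
          ρ y * ((ρ y' - 1) * ((ρ b' - 1) + (ρ b - 1)) * (ρ z - 1)) := by simp only [mul_assoc]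
      rw [e, hy' z, mul_zero]
  have hcK : b' * b ∈ qmK X N := by
    intro y z
    rw [hcD]
    exact hQ' y (htop y) z
  rcases r1_normal_dichotomy h (qmK X N) qmK_normal with hsup | hcen
  · exfalso
    haveI : (qmK X N).Normal := qmK_normal
    have claimA : ∀ b₁ ∈ B, ∀ a' ∈ A, ∀ a'' ∈ A, (ρ a'' - 1) * (ρ b₁ - 1) * (ρ a' - 1) = 0 := by
      intro b₁ hb₁ a' ha' a'' ha''
      have hb₁top : b₁ ∈ qmK X N ⊔ A := hsup ▸ Subgroup.mem_top b₁
      rw [← SetLike.mem_coe, Subgroup.normal_mul] at hb₁top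
      obtain ⟨k, hk, a₁, ha₁, rfl⟩ := Set.mem_mul.mp hb₁top
      have e1 : ρ a₁ * (ρ a' - 1) = ρ a' - 1 := by
        have h0 := hQA _ ha' _ ha₁
        have e : ρ a₁ * (ρ a' - 1) = (ρ a₁ - 1) * (ρ a' - 1) + (ρ a' - 1) := by
          rw [sub_mul, one_mul]; abel
        rw [e, h0, zero_add]
      calc (ρ a'' - 1) * (ρ (k * a₁) - 1) * (ρ a' - 1)
          = (ρ a'' - 1) * (ρ k - 1) * (ρ a₁ * (ρ a' - 1)) +
            (ρ a'' - 1) * (ρ a₁ - 1) * (ρ a' - 1) := by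
            rw [qm_mul_sub_one]; simp only [mul_add, add_mul, mul_assoc]
        _ = 0 := by rw [e1, hk a'' a', hQA _ ha₁ _ ha'', zero_mul, add_zero]
    have claimB : ∀ b₁ ∈ B, ∀ a'' ∈ A, (ρ a'' - 1) * (ρ b₁ - 1) = 0 := by
      intro b₁ hb₁ a'' ha''
      have ha' := hBA b₁ hb₁
      obtain ⟨a', ha'def⟩ : ∃ a', a' = b * a⁻¹ * b₁ * a * b⁻¹ := ⟨_, rfl⟩
      rw [← ha'def] at ha'
      have hrel : b⁻¹ * a' * b = a⁻¹ * b₁ * a := by rw [ha'def]; group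
      have hE : (1 - (ρ b - 1)) * (1 + (ρ a' - 1)) * (1 + (ρ b - 1)) =
          (1 - (ρ a - 1)) * (1 + (ρ b₁ - 1)) * (1 + (ρ a - 1)) := by
        rw [← qm_inv hαα, ← qm_inv hββ]
        simp only [add_sub_cancel]
        rw [← map_mul, ← map_mul, ← map_mul, ← map_mul, hrel]
      obtain ⟨α, hα⟩ : ∃ α, α = ρ a - 1 := ⟨_, rfl⟩
      obtain ⟨β, hβ⟩ : ∃ β, β = ρ b - 1 := ⟨_, rfl⟩
      obtain ⟨α', hα'⟩ : ∃ α', α' = ρ a' - 1 := ⟨_, rfl⟩
      obtain ⟨α'', hα''⟩ : ∃ α'', α'' = ρ a'' - 1 := ⟨_, rfl⟩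
      obtain ⟨β₁, hβ₁⟩ : ∃ β₁, β₁ = ρ b₁ - 1 := ⟨_, rfl⟩
      have c1 : α'' * α = 0 := by rw [hα'', hα]; exact hQA _ ha _ ha''
      have c2 : α'' * α' = 0 := by rw [hα'', hα']; exact hQA _ ha' _ ha''
      have c3 : α * α = 0 := by rw [hα]; exact hαα
      have c4 : β * β = 0 := by rw [hβ]; exact hββ
      have c5 : α'' * (β * α') = 0 := by
        rw [hα'', hβ, hα', ← mul_assoc]; exact claimA b hb a' ha' a'' ha''
      have z1 : ∀ x, α'' * (α * x) = 0 := fun x => by rw [← mul_assoc, c1, zero_mul]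
      have z2 : ∀ x, α'' * (α' * x) = 0 := fun x => by rw [← mul_assoc, c2, zero_mul]
      have z3 : ∀ x, α * (α * x) = 0 := fun x => by rw [← mul_assoc, c3, zero_mul]
      have z4 : ∀ x, β * (β * x) = 0 := fun x => by rw [← mul_assoc, c4, zero_mul]
      have z5 : ∀ x, α'' * (β * (α' * x)) = 0 := fun x => by
        rw [← mul_assoc β, ← mul_assoc, c5, zero_mul]
      rw [← hα, ← hβ, ← hα', ← hβ₁] at hE
      rw [← hα'', ← hβ₁]
      have e := congrArg (fun t => α'' * t * (1 - α)) hE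
      simp only [mul_add, add_mul, sub_eq_add_neg, neg_mul, mul_neg, mul_one, one_mul, mul_assoc,
        c1, c2, c3, c4, c5, z1, z2, z3, z4, z5, mul_zero, zero_mul, add_zero, zero_add,
        neg_zero, neg_neg] at e
      linear_combination (norm := abel) -e
    have claimC : ∀ a'' ∈ A, ∀ z ∈ A ⊔ B, (ρ a'' - 1) * (ρ z - 1) = 0 := by
      intro a'' ha''
      apply cb_sup_induction
      · intro a' ha'
        exact hQA _ ha' _ ha''
      · intro b₁ hb₁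
        exact claimB b₁ hb₁ a'' ha''
      · rw [map_one, sub_self, mul_zero]
      · intro z z' hz hz'
        rw [qm_mul_sub_one, mul_add, ← mul_assoc, hz, zero_mul, zero_add, hz']
    have claimD : ∀ b₁ ∈ B, ∀ z : X, (ρ b₁ - 1) * (ρ z - 1) = 0 := by
      intro b₁ hb₁ z
      rw [hBeq] at hb₁
      obtain ⟨x, hx, rfl⟩ := hb₁
      show (ρ ((a * b⁻¹) * x * (a * b⁻¹)⁻¹) - 1) * (ρ z - 1) = 0
      rw [qm_conj_sub_one, mul_assoc, qm_comm_left (a * b⁻¹)⁻¹ z, ← mul_assoc,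
        mul_assoc (ρ (a * b⁻¹)), claimC x hx _ (htop _), mul_zero, zero_mul]
    have claimE : ∀ y ∈ A ⊔ B, ∀ z : X, (ρ y - 1) * (ρ z - 1) = 0 := by
      apply cb_sup_induction
      · intro a'' ha'' z
        exact claimC a'' ha'' z (htop z)
      · exact claimD
      · intro z
        rw [map_one, sub_self, zero_mul]
      · intro y y' hy hy' z
        rw [qm_mul_sub_one', add_mul, mul_assoc, hy' z, mul_zero, zero_add, hy z]
    obtain ⟨x, y, n, hne⟩ := hX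
    apply hne
    have h2 := claimE y (htop y) x
    have h3 := congrArg (fun f : AddMonoid.End N => f n) h2
    exact sub_eq_zero.mp h3
  · have hc : b' * b ∈ Subgroup.center X := hcen hcK
    have hc1 : b' * b = 1 := by
      have hmem : b' * b ∈ B ⊓ Subgroup.normalizer (A : Set X) :=
        Subgroup.mem_inf.mpr ⟨mul_mem hb' hb, (Subgroup.center_le_normalizer _) hc⟩
      rw [r1_normalizer_left (RankOnePair_symm h.2), Subgroup.mem_bot] at hmem
      exact hmem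
    have hb'eq : b' = b⁻¹ := mul_eq_one_iff_eq_inv.mp hc1
    rw [hrela, hb'eq]

end Cfsg.Agent.Lib.Helper6
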