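import Mathlib
import Cfsg.Prelude.Def_RootSubgroups

set_option autoImplicit false
set_option linter.style.haveILetI false

namespace Cfsg.Agent.Lib.Helper6

open Cfsg

universe u

variable {k : Type u} [Field k] {M : Type u} [AddCommGroup M] [Module k M]

/-- A unit `1 + a` for `a` of square zero. -/
def qpUnit (a : M →ₗ[k] M) (ha : a * a = 0) : LinearMap.GeneralLinearGroup k M :=
  ⟨1 + a, 1 - a, by rw [mul_sub, add_mul, one_mul, mul_one, add_mul, one_mul, ha]; abel,
    by rw [mul_add, sub_mul, one_mul, mul_one, sub_mul, one_mul, ha]; abel⟩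

theorem qpUnit_coe (a : M →ₗ[k] M) (ha : a * a = 0) :
    ((qpUnit a ha : LinearMap.GeneralLinearGroup k M) : M →ₗ[k] M) = 1 + a := rfl

theorem qp_mul_eq_zero {n n' : M →ₗ[k] M}
    (h : LinearMap.range n' ≤ LinearMap.ker n) : n * n' = 0 := by
  ext m
  have : n' m ∈ LinearMap.ker n := h (LinearMap.mem_range_self n' m)
  simpa using this

section

variable [FiniteDimensional k M] {G : Subgroup (LinearMap.GeneralLinearGroup k M)}
  {σ : LinearMap.GeneralLinearGroup k M}

theorem qp_range_le_ker (hσ : σ ∈ minimalQuadraticElements G) :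
    LinearMap.range ((σ : M →ₗ[k] M) - 1) ≤ LinearMap.ker ((σ : M →ₗ[k] M) - 1) := by
  rintro _ ⟨m, rfl⟩
  have h := hσ.1.2.1.1
  rw [LinearMap.mem_ker]
  have := congrArg (fun f : M →ₗ[k] M => f m) h
  simpa using this

/-- Membership in `E_σ` in terms of kernel and range. -/
theorem qp_mem_iff (hσ : σ ∈ minimalQuadraticElements G) (τ : LinearMap.GeneralLinearGroup k M) :
    τ ∈ sameActionClass G σ ↔ τ ∈ G ∧ scalarFamily τ ⊆ (G : Set (LinearMap.GeneralLinearGroup k M)) ∧
      LinearMap.ker ((τ : M →ₗ[k] M) - 1) = LinearMap.ker ((σ : M →ₗ[k] M) - 1) ∧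
      LinearMap.range ((τ : M →ₗ[k] M) - 1) = LinearMap.range ((σ : M →ₗ[k] M) - 1) := by
  constructor
  · rintro ⟨⟨⟨h1, -, h3⟩, -⟩, h5, h6⟩
    exact ⟨h1, h3, h5, h6⟩
  · rintro ⟨h1, h3, h5, h6⟩
    have hq : IsQuadraticOn τ := by
      refine ⟨qp_mul_eq_zero ?_, ?_⟩
      · rw [h5, h6]; exact qp_range_le_ker hσ
      · intro h0
        have := hσ.1.2.1.2
        apply this
        have h7 : LinearMap.range ((σ : M →ₗ[k] M) - 1) = ⊥ := by
          rw [← h6, h0, LinearMap.range_zero]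
        exact LinearMap.range_eq_bot.mp h7
    refine ⟨⟨⟨h1, hq, h3⟩, ?_⟩, h5, h6⟩
    intro ρ hρ
    have := hσ.2 ρ hρ
    unfold commutatorRank at this ⊢
    rw [h6]; exact this

theorem qp_inv_coe (τ : LinearMap.GeneralLinearGroup k M)
    (hn : ((τ : M →ₗ[k] M) - 1) * ((τ : M →ₗ[k] M) - 1) = 0) :
    ((τ⁻¹ : LinearMap.GeneralLinearGroup k M) : M →ₗ[k] M) - 1 = -((τ : M →ₗ[k] M) - 1) := by
  have h1 : τ⁻¹ = qpUnit (-((τ : M →ₗ[k] M) - 1)) (by rw [neg_mul_neg]; exact hn) := by
    apply inv_eq_of_mul_eq_one_right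
    apply Units.ext
    rw [Units.val_mul, qpUnit_coe, Units.val_one]
    have e : (τ : M →ₗ[k] M) = 1 + ((τ : M →ₗ[k] M) - 1) := by abel
    rw [e]
    simp only [add_sub_cancel_left]
    rw [add_mul, one_mul, mul_add, mul_one, mul_neg, hn]
    abel
  rw [h1, qpUnit_coe]; abel

theorem qp_inv_mem (hσ : σ ∈ minimalQuadraticElements G) {τ : LinearMap.GeneralLinearGroup k M}
    (hτ : τ ∈ sameActionClass G σ) : τ⁻¹ ∈ sameActionClass G σ := by
  have hq := hτ.1.1.2.1.1
  rw [qp_mem_iff hσ] at hτ ⊢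
  obtain ⟨h1, h3, h5, h6⟩ := hτ
  have hc := qp_inv_coe τ hq
  refine ⟨inv_mem h1, ?_, ?_, ?_⟩
  · rintro ρ ⟨c, hc'⟩
    apply h3
    refine ⟨-c, ?_⟩
    rw [hc', hc, neg_smul, smul_neg]
  · rw [hc, LinearMap.ker_neg, h5]
  · rw [hc, LinearMap.range_neg, h6]

theorem qp_mul_mem (hσ : σ ∈ minimalQuadraticElements G) {τ τ' : LinearMap.GeneralLinearGroup k M}
    (hτ : τ ∈ sameActionClass G σ) (hτ' : τ' ∈ sameActionClass G σ) :
    τ * τ' ∈ sameActionClass G σ ∨ τ * τ' = 1 := by
  have hRK := qp_range_le_ker hσ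
  have hq := hτ.1.1.2.1.1
  have hq' := hτ'.1.1.2.1.1
  have hτ0 := (qp_mem_iff hσ τ).mp hτ
  have hτ0' := (qp_mem_iff hσ τ').mp hτ'
  obtain ⟨h1, h3, h5, h6⟩ := hτ0
  obtain ⟨h1', h3', h5', h6'⟩ := hτ0'
  have hnn' : ((τ : M →ₗ[k] M) - 1) * ((τ' : M →ₗ[k] M) - 1) = 0 :=
    qp_mul_eq_zero (by rw [h5, h6']; exact hRK)
  have hn'n : ((τ' : M →ₗ[k] M) - 1) * ((τ : M →ₗ[k] M) - 1) = 0 :=
    qp_mul_eq_zero (by rw [h5', h6]; exact hRK)
  have hcoe : ((τ * τ' : LinearMap.GeneralLinearGroup k M) : M →ₗ[k] M) - 1 =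
      ((τ : M →ₗ[k] M) - 1) + ((τ' : M →ₗ[k] M) - 1) := by
    rw [Units.val_mul]
    have e : (τ : M →ₗ[k] M) * (τ' : M →ₗ[k] M) =
        1 + ((τ : M →ₗ[k] M) - 1) + ((τ' : M →ₗ[k] M) - 1) +
          ((τ : M →ₗ[k] M) - 1) * ((τ' : M →ₗ[k] M) - 1) := by
      rw [sub_mul, mul_sub, mul_sub, one_mul, mul_one, mul_one]; abel
    rw [e, hnn']; abel
  by_cases h0 : ((τ : M →ₗ[k] M) - 1) + ((τ' : M →ₗ[k] M) - 1) = 0
  · right
    apply Units.ext
    rw [Units.val_one]
    have := hcoe
    rw [h0] at this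
    exact sub_eq_zero.mp this
  · left
    have hsq : (((τ : M →ₗ[k] M) - 1) + ((τ' : M →ₗ[k] M) - 1)) *
        (((τ : M →ₗ[k] M) - 1) + ((τ' : M →ₗ[k] M) - 1)) = 0 := by
      rw [add_mul, mul_add, mul_add, hq, hq', hnn', hn'n]; simp
    have hfam : scalarFamily (τ * τ') ⊆ (G : Set (LinearMap.GeneralLinearGroup k M)) := by
      rintro ρ ⟨c, hc⟩
      have hcn : (c • ((τ : M →ₗ[k] M) - 1)) * (c • ((τ : M →ₗ[k] M) - 1)) = 0 := by
        rw [smul_mul_assoc, mul_smul_comm, hq, smul_zero, smul_zero]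
      have hcn' : (c • ((τ' : M →ₗ[k] M) - 1)) * (c • ((τ' : M →ₗ[k] M) - 1)) = 0 := by
        rw [smul_mul_assoc, mul_smul_comm, hq', smul_zero, smul_zero]
      have hρ : ρ = qpUnit _ hcn * qpUnit _ hcn' := by
        apply Units.ext
        rw [Units.val_mul, qpUnit_coe, qpUnit_coe, hc, hcoe]
        rw [add_mul, one_mul, mul_add, mul_one, smul_mul_assoc, mul_smul_comm, hnn', smul_zero,
          smul_zero, smul_add]
        abel
      rw [hρ]
      exact mul_mem (h3 ⟨c, qpUnit_coe _ _⟩) (h3' ⟨c, qpUnit_coe _ _⟩)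
    have hqel : τ * τ' ∈ quadraticElements G := by
      refine ⟨mul_mem h1 h1', ⟨?_, ?_⟩, hfam⟩
      · rw [hcoe]; exact hsq
      · rw [hcoe]; exact h0
    have hrank := hσ.2 _ hqel
    unfold commutatorRank at hrank
    have hrle : LinearMap.range ((τ * τ' : LinearMap.GeneralLinearGroup k M) - 1 : M →ₗ[k] M) ≤
        LinearMap.range ((σ : M →ₗ[k] M) - 1) := by
      rw [hcoe]
      rintro _ ⟨m, rfl⟩
      rw [LinearMap.add_apply]
      apply add_mem
      · rw [← h6]; exact LinearMap.mem_range_self _ m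
      · rw [← h6']; exact LinearMap.mem_range_self _ m
    have hreq := Submodule.eq_of_le_of_finrank_le hrle hrank
    have hkle : LinearMap.ker ((σ : M →ₗ[k] M) - 1) ≤
        LinearMap.ker ((τ * τ' : LinearMap.GeneralLinearGroup k M) - 1 : M →ₗ[k] M) := by
      rw [hcoe]
      intro m hm
      rw [LinearMap.mem_ker, LinearMap.add_apply]
      have e1 : ((τ : M →ₗ[k] M) - 1) m = 0 := by
        rw [← LinearMap.mem_ker, h5]; exact hm
      have e2 : ((τ' : M →ₗ[k] M) - 1) m = 0 := by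
        rw [← LinearMap.mem_ker, h5']; exact hm
      rw [e1, e2, add_zero]
    have hkeq : LinearMap.ker ((σ : M →ₗ[k] M) - 1) =
        LinearMap.ker ((τ * τ' : LinearMap.GeneralLinearGroup k M) - 1 : M →ₗ[k] M) := by
      apply Submodule.eq_of_le_of_finrank_le hkle
      have r1 := LinearMap.finrank_range_add_finrank_ker ((σ : M →ₗ[k] M) - 1)
      have r2 := LinearMap.finrank_range_add_finrank_ker
        ((τ * τ' : LinearMap.GeneralLinearGroup k M) - 1 : M →ₗ[k] M)
      rw [hreq] at r2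
      omega
    rw [qp_mem_iff hσ]
    exact ⟨mul_mem h1 h1', hfam, hkeq.symm, hreq⟩

theorem qp_closure_eq (hσ : σ ∈ minimalQuadraticElements G) :
    (sameActionSubgroup G σ : Set (LinearMap.GeneralLinearGroup k M)) =
      sameActionClass G σ ∪ {1} := by
  have key : ∀ x ∈ Subgroup.closure (sameActionClass G σ), x ∈ sameActionClass G σ ∪ {1} := by
    intro x hx'
    induction hx' using Subgroup.closure_induction with
    | mem y hy => exact Or.inl hy
    | one => exact Or.inr rfl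
    | mul y z _ _ hy hz =>
      rcases hy with hy | hy
      · rcases hz with hz | hz
        · rcases qp_mul_mem hσ hy hz with h | h
          · exact Or.inl h
          · exact Or.inr h
        · rw [Set.mem_singleton_iff] at hz
          rw [hz, mul_one]; exact Or.inl hy
      · rw [Set.mem_singleton_iff] at hy
        rw [hy, one_mul]; exact hz
    | inv y _ hy =>
      rcases hy with hy | hy
      · exact Or.inl (qp_inv_mem hσ hy)
      · rw [Set.mem_singleton_iff] at hy
        rw [hy, inv_one]; exact Or.inr rfl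
  apply Set.Subset.antisymm
  · intro x hx
    exact key x hx
  · rintro x (hx | hx)
    · exact Subgroup.subset_closure hx
    · rw [Set.mem_singleton_iff] at hx
      rw [hx]; exact one_mem _

theorem qp_comm (hσ : σ ∈ minimalQuadraticElements G) :
    IsMulCommutative ↥(sameActionSubgroup G σ) := by
  refine ⟨⟨fun a b => ?_⟩⟩
  apply Subtype.ext
  show (a : LinearMap.GeneralLinearGroup k M) * b = b * a
  have ha : (a : LinearMap.GeneralLinearGroup k M) ∈ sameActionClass G σ ∪ {1} := by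
    rw [← qp_closure_eq hσ]; exact a.2
  have hb : (b : LinearMap.GeneralLinearGroup k M) ∈ sameActionClass G σ ∪ {1} := by
    rw [← qp_closure_eq hσ]; exact b.2
  rcases ha with ha | ha
  · rcases hb with hb | hb
    · have hRK := qp_range_le_ker hσ
      obtain ⟨-, -, h5, h6⟩ := (qp_mem_iff hσ _).mp ha
      obtain ⟨-, -, h5', h6'⟩ := (qp_mem_iff hσ _).mp hb
      have hnn' : (((a : LinearMap.GeneralLinearGroup k M) : M →ₗ[k] M) - 1) *
          (((b : LinearMap.GeneralLinearGroup k M) : M →ₗ[k] M) - 1) = 0 :=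
        qp_mul_eq_zero (by rw [h5, h6']; exact hRK)
      have hn'n : (((b : LinearMap.GeneralLinearGroup k M) : M →ₗ[k] M) - 1) *
          (((a : LinearMap.GeneralLinearGroup k M) : M →ₗ[k] M) - 1) = 0 :=
        qp_mul_eq_zero (by rw [h5', h6]; exact hRK)
      apply Units.ext
      rw [Units.val_mul, Units.val_mul]
      have e1 : ((a : LinearMap.GeneralLinearGroup k M) : M →ₗ[k] M) *
          ((b : LinearMap.GeneralLinearGroup k M) : M →ₗ[k] M) =
          ((b : LinearMap.GeneralLinearGroup k M) : M →ₗ[k] M) *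
          ((a : LinearMap.GeneralLinearGroup k M) : M →ₗ[k] M) +
          ((((a : LinearMap.GeneralLinearGroup k M) : M →ₗ[k] M) - 1) *
            (((b : LinearMap.GeneralLinearGroup k M) : M →ₗ[k] M) - 1) -
           (((b : LinearMap.GeneralLinearGroup k M) : M →ₗ[k] M) - 1) *
            (((a : LinearMap.GeneralLinearGroup k M) : M →ₗ[k] M) - 1)) := by
        simp only [sub_mul, mul_sub, one_mul, mul_one]; abel
      rw [e1, hnn', hn'n, sub_zero, add_zero]
    · rw [Set.mem_singleton_iff] at hb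
      rw [hb, mul_one, one_mul]
  · rw [Set.mem_singleton_iff] at ha
    rw [ha, mul_one, one_mul]

theorem qp_pow (hσ : σ ∈ minimalQuadraticElements G) (p : ℕ) (hp : ringChar k = p) :
    ∀ x ∈ sameActionSubgroup G σ, x ^ p = 1 := by
  intro x hx
  have hx' : x ∈ sameActionClass G σ ∪ {1} := by
    rw [← qp_closure_eq hσ]; exact hx
  rcases hx' with hx' | hx'
  · have hq := hx'.1.1.2.1.1
    have hpow : ∀ j : ℕ, ((x : M →ₗ[k] M)) ^ j = 1 + (j : k) • ((x : M →ₗ[k] M) - 1) := by
      intro j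
      induction j with
      | zero => simp
      | succ j ih =>
        rw [pow_succ, ih]
        have e : (x : M →ₗ[k] M) = 1 + ((x : M →ₗ[k] M) - 1) := by abel
        conv_lhs => rw [e]
        simp only [add_sub_cancel_left]
        rw [add_mul, one_mul, mul_add, mul_one, smul_mul_assoc, hq, smul_zero, add_zero]
        rw [Nat.cast_succ, add_smul, one_smul]
        abel
    apply Units.ext
    rw [Units.val_pow_eq_pow_val, hpow p, Units.val_one]
    haveI : CharP k p := by rw [← hp]; exact ringChar.charP k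
    rw [CharP.cast_eq_zero, zero_smul, add_zero]
  · rw [Set.mem_singleton_iff] at hx'
    rw [hx', one_pow]

end

end Cfsg.Agent.Lib.Helper6
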