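import Cfsg.Agent.Lib.Helper6.ConjBy

set_option autoImplicit false

namespace Cfsg.Agent.Lib.Helper6

open Cfsg

variable {G : Type*} [Group G]

theorem r1_normalizer_left {A B : Subgroup G} (h : IsRankOnePair A B) :
    A ⊓ Subgroup.normalizer (B : Set G) = ⊥ := by
  rw [eq_bot_iff]
  intro a ha
  obtain ⟨haA, haN⟩ := Subgroup.mem_inf.mp ha
  rw [Subgroup.mem_bot]
  by_contra ha1
  obtain ⟨b, hbB, hb1, hAB⟩ := h.cond_left a haA ha1
  have h1 : conjBy B a⁻¹ = B := cb_eq_self_iff.mpr (inv_mem haN)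
  rw [h1] at hAB
  have h2 : A = conjBy B b⁻¹⁻¹ := cb_eq_iff.mp hAB
  rw [inv_inv, cb_of_mem hbB] at h2
  exact h.ne h2

theorem r1_unique_right {A B : Subgroup G} (h : IsRankOnePair A B) {a b b' : G} (hb : b ∈ B)
    (hb' : b' ∈ B) (h1 : conjBy A b⁻¹ = conjBy B a⁻¹) (h2 : conjBy A b'⁻¹ = conjBy B a⁻¹) :
    b = b' := by
  have h3 : conjBy A (b' * b⁻¹) = A := by
    rw [← cb_cb, h1, ← h2, cb_cb, mul_inv_cancel, cb_one]
  have h4 : b' * b⁻¹ ∈ B ⊓ Subgroup.normalizer (A : Set G) :=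
    Subgroup.mem_inf.mpr ⟨mul_mem hb' (inv_mem hb), cb_eq_self_iff.mp h3⟩
  rw [r1_normalizer_left (RankOnePair_symm h), Subgroup.mem_bot] at h4
  exact (mul_inv_eq_one.mp h4).symm

theorem r1_unique_left {A B : Subgroup G} (h : IsRankOnePair A B) {a a' b : G} (ha : a ∈ A)
    (ha' : a' ∈ A) (h1 : conjBy A b⁻¹ = conjBy B a⁻¹) (h2 : conjBy A b⁻¹ = conjBy B a'⁻¹) :
    a = a' :=
  r1_unique_right (RankOnePair_symm h) ha ha' h1.symm h2.symm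

theorem r1_ne_bot_left {A B : Subgroup G} (h : IsRankOnePair A B) : ∃ a ∈ A, a ≠ 1 := by
  by_contra hA
  push_neg at hA
  by_cases hB : ∃ b ∈ B, b ≠ 1
  · obtain ⟨b, hb, hb1⟩ := hB
    obtain ⟨a, ha, ha1, -⟩ := h.cond_right b hb hb1
    exact ha1 (hA a ha)
  · push_neg at hB
    apply h.ne
    ext x
    constructor
    · intro hx; rw [hA x hx]; exact one_mem _
    · intro hx; rw [hB x hx]; exact one_mem _

/-- `B^a ≠ A`. -/
theorem r1_conj_ne {A B : Subgroup G} (h : IsRankOnePair A B) {a : G} (ha : a ∈ A) :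
    conjBy B a ≠ A := by
  intro h1
  have h2 : B = conjBy A a⁻¹ := cb_eq_iff.mp h1
  rw [cb_of_mem (inv_mem ha)] at h2
  exact h.ne h2.symm

/-- `A` acts freely on the conjugates of `B`. -/
theorem r1_conj_inj {A B : Subgroup G} (h : IsRankOnePair A B) {a a' : G} (ha : a ∈ A)
    (ha' : a' ∈ A) (h1 : conjBy B a = conjBy B a') : a = a' := by
  have h2 : conjBy B (a'⁻¹ * a) = B := by
    rw [← cb_cb, h1, cb_cb, inv_mul_cancel, cb_one]
  have h4 : a'⁻¹ * a ∈ A ⊓ Subgroup.normalizer (B : Set G) :=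
    Subgroup.mem_inf.mpr ⟨mul_mem (inv_mem ha') ha, cb_eq_self_iff.mp h2⟩
  rw [r1_normalizer_left h, Subgroup.mem_bot] at h4
  exact (inv_mul_eq_one.mp h4).symm

/-- `A^b` is `A` or a conjugate of `B` under `A`. -/
theorem r1_conj_A_by_B {A B : Subgroup G} (h : IsRankOnePair A B) {b : G} (hb : b ∈ B) :
    conjBy A b = A ∨ ∃ a ∈ A, conjBy A b = conjBy B a := by
  by_cases hb1 : b = 1
  · left; rw [hb1, cb_one]
  · right
    have hb1' : b⁻¹ ≠ 1 := by simpa using hb1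
    obtain ⟨a, ha, -, hab⟩ := h.cond_right b⁻¹ (inv_mem hb) hb1'
    rw [inv_inv] at hab
    exact ⟨a⁻¹, inv_mem ha, hab.symm⟩

/-- The orbit of `A` under `⟨A, B⟩` is `{A} ∪ B^A`. -/
theorem r1_orbit {A B : Subgroup G} (h : IsRankOnePair A B) :
    ∀ x ∈ A ⊔ B, ∀ C : Subgroup G, (C = A ∨ ∃ a ∈ A, C = conjBy B a) →
      (conjBy C x = A ∨ ∃ a ∈ A, conjBy C x = conjBy B a) := by
  apply cb_sup_induction
  · intro a' ha' C hC
    rcases hC with rfl | ⟨a, ha, rfl⟩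
    · left; exact cb_of_mem ha'
    · right; exact ⟨a' * a, mul_mem ha' ha, cb_cb _ _ _⟩
  · intro b hb C hC
    rcases hC with rfl | ⟨a, ha, rfl⟩
    · exact r1_conj_A_by_B h hb
    · by_cases ha1 : a = 1
      · right
        refine ⟨1, one_mem _, ?_⟩
        rw [ha1, cb_one]
        exact cb_of_mem hb
      · have ha1' : a⁻¹ ≠ 1 := by simpa using ha1
        obtain ⟨b₀, hb₀, -, hab⟩ := h.cond_left a⁻¹ (inv_mem ha) ha1'
        rw [inv_inv] at hab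
        rw [← hab, cb_cb]
        exact r1_conj_A_by_B h (mul_mem hb (inv_mem hb₀))
  · intro C hC
    rw [cb_one]; exact hC
  · intro x y hx hy C hC
    rw [← cb_cb]
    exact hx _ (hy C hC)

theorem r1_orbit' {A B : Subgroup G} (h : IsRankOnePair A B) {C : Subgroup G}
    (hC : C ∈ unipotentSubgroups A B) : C = A ∨ ∃ a ∈ A, C = conjBy B a := by
  obtain ⟨x, hx, rfl⟩ := hC
  exact r1_orbit h x hx A (Or.inl rfl)

theorem r1_B_mem {A B : Subgroup G} (h : IsRankOnePair A B) {a : G} (ha : a ∈ A) :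
    conjBy B a ∈ unipotentSubgroups A B := by
  obtain ⟨a₀, ha₀, ha₀1⟩ := r1_ne_bot_left h
  obtain ⟨b₀, hb₀, -, hab⟩ := h.cond_left a₀ ha₀ ha₀1
  have hB : B = conjBy A (a₀ * b₀⁻¹) := by
    rw [← cb_cb, hab, cb_cb, mul_inv_cancel, cb_one]
  refine ⟨a * (a₀ * b₀⁻¹), ?_, ?_⟩
  · exact mul_mem (Subgroup.mem_sup_left ha)
      (mul_mem (Subgroup.mem_sup_left ha₀) (Subgroup.mem_sup_right (inv_mem hb₀)))
  · rw [← cb_cb, ← hB]

theorem r1_conj_mem {A B : Subgroup G} {C : Subgroup G} (hC : C ∈ unipotentSubgroups A B)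
    {x : G} (hx : x ∈ A ⊔ B) : conjBy C x ∈ unipotentSubgroups A B := by
  obtain ⟨y, hy, rfl⟩ := hC
  exact ⟨x * y, mul_mem hx hy, cb_cb _ _ _⟩

/-- `A` is regular on the unipotent subgroups other than `A`. -/
theorem r1_regular {A B : Subgroup G} (h : IsRankOnePair A B) {C D : Subgroup G}
    (hC : C ∈ unipotentSubgroups A B) (hD : D ∈ unipotentSubgroups A B) (hCA : C ≠ A)
    (hDA : D ≠ A) : ∃! a : G, a ∈ A ∧ conjBy C a = D := by
  rcases r1_orbit' h hC with rfl | ⟨a₁, ha₁, rfl⟩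
  · exact absurd rfl hCA
  rcases r1_orbit' h hD with rfl | ⟨a₂, ha₂, rfl⟩
  · exact absurd rfl hDA
  refine ⟨a₂ * a₁⁻¹, ⟨mul_mem ha₂ (inv_mem ha₁), ?_⟩, ?_⟩
  · rw [cb_cb, inv_mul_cancel_right]
  · rintro a ⟨ha, hab⟩
    rw [cb_cb] at hab
    have := r1_conj_inj h (mul_mem ha ha₁) ha₂ hab
    rw [← this, mul_inv_cancel_right]

theorem r1_three {A B : Subgroup G} (h : IsRankOnePair A B) :
    ∃ C₁ ∈ unipotentSubgroups A B, ∃ C₂ ∈ unipotentSubgroups A B, ∃ C₃ ∈ unipotentSubgroups A B,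
      C₁ ≠ C₂ ∧ C₁ ≠ C₃ ∧ C₂ ≠ C₃ := by
  obtain ⟨a₀, ha₀, ha₀1⟩ := r1_ne_bot_left h
  refine ⟨A, ⟨1, one_mem _, (cb_one A).symm⟩, B, ?_, conjBy B a₀, r1_B_mem h ha₀, h.ne,
    (r1_conj_ne h ha₀).symm, ?_⟩
  · have := r1_B_mem h (one_mem A)
    rwa [cb_one] at this
  · intro h1
    have h2 : conjBy B 1 = conjBy B a₀ := by rw [cb_one]; exact h1
    exact ha₀1 (r1_conj_inj h (one_mem A) ha₀ h2).symm

theorem r1_two_transitive {A B : Subgroup G} (h : IsRankOnePair A B) {C₁ C₂ D₁ D₂ : Subgroup G}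
    (hC₁ : C₁ ∈ unipotentSubgroups A B) (hC₂ : C₂ ∈ unipotentSubgroups A B)
    (hD₁ : D₁ ∈ unipotentSubgroups A B) (hD₂ : D₂ ∈ unipotentSubgroups A B)
    (hC : C₁ ≠ C₂) (hD : D₁ ≠ D₂) :
    ∃ x ∈ A ⊔ B, conjBy C₁ x = D₁ ∧ conjBy C₂ x = D₂ := by
  obtain ⟨x₁, hx₁, rfl⟩ := hC₁
  obtain ⟨y₁, hy₁, rfl⟩ := hD₁
  have hC₂' : conjBy C₂ x₁⁻¹ ≠ A := by
    intro h1
    apply hC
    rw [cb_eq_iff.mp h1, inv_inv]
  have hD₂' : conjBy D₂ y₁⁻¹ ≠ A := by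
    intro h1
    apply hD
    rw [cb_eq_iff.mp h1, inv_inv]
  obtain ⟨a, ⟨ha, hab⟩, -⟩ := r1_regular h (r1_conj_mem hC₂ (inv_mem hx₁))
    (r1_conj_mem hD₂ (inv_mem hy₁)) hC₂' hD₂'
  refine ⟨y₁ * a * x₁⁻¹, mul_mem (mul_mem hy₁ (Subgroup.mem_sup_left ha)) (inv_mem hx₁), ?_, ?_⟩
  · rw [cb_cb, inv_mul_cancel_right, ← cb_cb, cb_of_mem ha]
  · have : conjBy C₂ (y₁ * a * x₁⁻¹) = conjBy (conjBy (conjBy C₂ x₁⁻¹) a) y₁ := by
      rw [cb_cb, cb_cb, mul_assoc]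
    rw [this, hab, cb_cb, mul_inv_cancel, cb_one]

end Cfsg.Agent.Lib.Helper6
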