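import Cfsg.Agent.Lib.Helper6.RankOne

set_option autoImplicit false
set_option linter.style.haveILetI false

namespace Cfsg.Agent.Lib.Helper6

open Cfsg

variable {X : Type*} [Group X]

/-- A normal subgroup normalizing `A` and `B`-conjugates centralizes `A`. -/
theorem r1_comm_of_normalizes {A B : Subgroup X} (hp : IsRankOnePair A B) (N : Subgroup X)
    (hN : N.Normal) (hnA : ∀ n ∈ N, conjBy A n = A) (hnB : ∀ n ∈ N, conjBy B n = B) :
    ∀ n ∈ N, ∀ a ∈ A, a * n = n * a := by
  intro n hn a ha
  have h1 : n * a * n⁻¹ * a⁻¹ ∈ A ⊓ Subgroup.normalizer (B : Set X) := by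
    refine Subgroup.mem_inf.mpr ⟨mul_mem ?_ (inv_mem ha), ?_⟩
    · have := cb_mem' (A := A) (g := n) ha
      rwa [hnA n hn] at this
    · have h2 : n * a * n⁻¹ * a⁻¹ ∈ N := by
        have : n * a * n⁻¹ * a⁻¹ = n * (a * n⁻¹ * a⁻¹) := by group
        rw [this]; exact mul_mem hn (hN.conj_mem _ (inv_mem hn) a)
      exact cb_eq_self_iff.mp (hnB _ h2)
  rw [r1_normalizer_left hp, Subgroup.mem_bot] at h1
  have h3 : n * a = (n * a * n⁻¹ * a⁻¹) * (a * n) := by group
  rw [h3, h1, one_mul]

/-- A normal subgroup of a rank one group `X = ⟨A, B⟩` satisfies `X = NA` or `N ≤ Z(X)`. -/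
theorem r1_normal_dichotomy {A B : Subgroup X} (h : IsRankOneGroup X A B) (N : Subgroup X)
    (hN : N.Normal) : N ⊔ A = ⊤ ∨ N ≤ Subgroup.center X := by
  obtain ⟨htop, hp⟩ := h
  have hB_mem := r1_B_mem hp (one_mem A)
  rw [cb_one] at hB_mem
  by_cases hnorm : ∀ n ∈ N, conjBy A n = A
  · right
    obtain ⟨x, -, hBx⟩ := hB_mem
    have hnormB : ∀ n ∈ N, conjBy B n = B := by
      intro n hn
      have e : n * x = x * (x⁻¹ * n * x) := by group
      rw [hBx, cb_cb, e, ← cb_cb, hnorm _ (hN.conj_mem' n hn x)]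
    have hcA := r1_comm_of_normalizes hp N hN hnorm hnormB
    have hcB := r1_comm_of_normalizes (RankOnePair_symm hp) N hN hnormB hnorm
    intro n hn
    rw [Subgroup.mem_center_iff]
    have hall : ∀ g ∈ A ⊔ B, g * n = n * g := by
      apply cb_sup_induction
      · exact hcA n hn
      · exact hcB n hn
      · simp
      · intro x y hx hy
        rw [mul_assoc, hy, ← mul_assoc, hx, mul_assoc]
    intro g
    exact hall g (htop ▸ Subgroup.mem_top g)
  · left
    push_neg at hnorm
    obtain ⟨n, hn, hnA⟩ := hnorm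
    have hA_mem : A ∈ unipotentSubgroups A B := ⟨1, one_mem _, (cb_one A).symm⟩
    have hn_mem : conjBy A n ∈ unipotentSubgroups A B := ⟨n, htop ▸ Subgroup.mem_top n, rfl⟩
    obtain ⟨x, -, hx1, hx2⟩ :=
      r1_two_transitive hp hA_mem hn_mem hA_mem hB_mem (Ne.symm hnA) hp.ne
    have hB : B = conjBy A (x * n * x⁻¹) := by
      have e : conjBy A (x * n * x⁻¹) = conjBy (conjBy (conjBy A x⁻¹) n) x := by
        rw [cb_cb, cb_cb, mul_assoc]
      rw [e, ← cb_eq_iff.mp hx1, hx2]
    rw [eq_top_iff, ← htop, sup_le_iff]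
    refine ⟨le_sup_right, ?_⟩
    rw [hB]
    exact cb_le_sup le_sup_right (Subgroup.mem_sup_left (hN.conj_mem n hn x))

/-- A perfect rank one group is quasisimple. -/
theorem r1_quasisimple {A B : Subgroup X} (h : IsRankOneGroup X A B) (hperf : Group.IsPerfect X) :
    IsQuasisimple X := by
  refine ⟨hperf, ?_⟩
  have hnt : Nontrivial (X ⧸ Subgroup.center X) := by
    by_contra hnt
    rw [not_nontrivial_iff_subsingleton] at hnt
    have hZ : Subgroup.center X = ⊤ := QuotientGroup.subgroup_eq_top_of_subsingleton _ hnt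
    haveI : IsMulCommutative X := ⟨⟨fun a b => by
      have : a ∈ Subgroup.center X := hZ ▸ Subgroup.mem_top a
      exact (Subgroup.mem_center_iff.mp this b).symm⟩⟩
    haveI : Subsingleton X := Group.IsPerfect.subsingleton_of_isMulCommutative
    exact h.2.ne (Subsingleton.elim _ _)
  refine { exists_pair_ne := hnt.exists_pair_ne, eq_bot_or_eq_top_of_normal := ?_ }
  intro M hM
  have hNn : (M.comap (QuotientGroup.mk' (Subgroup.center X))).Normal := hM.comap _
  rcases r1_normal_dichotomy h _ hNn with h1 | h1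
  · right
    have hsurj : Function.Surjective
        ((QuotientGroup.mk' (M.comap (QuotientGroup.mk' (Subgroup.center X)))).comp A.subtype) := by
      intro q
      obtain ⟨x, rfl⟩ := QuotientGroup.mk'_surjective _ q
      have hx : x ∈ M.comap (QuotientGroup.mk' (Subgroup.center X)) ⊔ A := h1 ▸ Subgroup.mem_top x
      rw [← SetLike.mem_coe, Subgroup.normal_mul] at hx
      obtain ⟨n, hn, a, ha, rfl⟩ := Set.mem_mul.mp hx
      refine ⟨⟨a, ha⟩, ?_⟩
      simp only [MonoidHom.coe_comp, Function.comp_apply, Subgroup.coe_subtype,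
        QuotientGroup.mk'_apply, QuotientGroup.mk_mul]
      rw [(QuotientGroup.eq_one_iff n).mpr hn, one_mul]
    haveI : Group.IsNilpotent ↥A := h.2.nilpotent_left
    have hnilq : Group.IsNilpotent (X ⧸ M.comap (QuotientGroup.mk' (Subgroup.center X))) :=
      Group.nilpotent_of_surjective _ hsurj
    have hsub : Subsingleton (X ⧸ M.comap (QuotientGroup.mk' (Subgroup.center X))) := by
      by_contra hns
      rw [not_subsingleton_iff_nontrivial] at hns
      exact Group.IsPerfect.not_isNilpotent _ hnilq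
    have hNtop := QuotientGroup.subgroup_eq_top_of_subsingleton _ hsub
    rw [eq_top_iff]
    intro m _
    obtain ⟨x, rfl⟩ := QuotientGroup.mk'_surjective _ m
    have : x ∈ M.comap (QuotientGroup.mk' (Subgroup.center X)) := hNtop ▸ Subgroup.mem_top x
    exact this
  · left
    rw [eq_bot_iff]
    intro m hm
    obtain ⟨x, rfl⟩ := QuotientGroup.mk'_surjective _ m
    have hx : x ∈ Subgroup.center X := h1 hm
    rw [Subgroup.mem_bot]
    exact (QuotientGroup.eq_one_iff x).mpr hx

theorem r1_not_central {A B : Subgroup X} (h : IsRankOneGroup X A B)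
    (hc : Subgroup.center X ⊔ A = ⊤) : False := by
  obtain ⟨htop, hp⟩ := h
  have hB_mem := r1_B_mem hp (one_mem A)
  rw [cb_one] at hB_mem
  obtain ⟨x, -, hBx⟩ := hB_mem
  have hAn : ∀ g : X, conjBy A g = A := by
    intro g
    have hg : g ∈ Subgroup.center X ⊔ A := hc ▸ Subgroup.mem_top g
    rw [← SetLike.mem_coe, Subgroup.normal_mul] at hg
    obtain ⟨z, hz, a', ha', rfl⟩ := Set.mem_mul.mp hg
    rw [← cb_cb, cb_of_mem ha']
    ext y
    rw [cb_mem]
    have e : z⁻¹ * y * z = y := by
      have := Subgroup.mem_center_iff.mp hz y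
      rw [mul_assoc, this, inv_mul_cancel_left]
    rw [e]
  exact hp.ne (by rw [hBx, hAn x])

/-- The second centre of a rank one group equals its centre. -/
theorem r1_ucs_two {A B : Subgroup X} (h : IsRankOneGroup X A B) :
    Subgroup.upperCentralSeries X 2 = Subgroup.center X := by
  apply le_antisymm
  · rcases r1_normal_dichotomy h (Subgroup.upperCentralSeries X 2) inferInstance with h1 | h1
    · exfalso
      apply r1_not_central h
      obtain ⟨htop, hp⟩ := h
      have hB_mem := r1_B_mem hp (one_mem A)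
      rw [cb_one] at hB_mem
      obtain ⟨x, -, hBx⟩ := hB_mem
      have key : ∀ g : X, conjBy A g ≤ Subgroup.center X ⊔ A := by
        intro g
        have hg : g ∈ Subgroup.upperCentralSeries X 2 ⊔ A := h1 ▸ Subgroup.mem_top g
        rw [← SetLike.mem_coe, Subgroup.normal_mul] at hg
        obtain ⟨n, hn, a', ha', rfl⟩ := Set.mem_mul.mp hg
        rw [← cb_cb, cb_of_mem ha']
        intro y hy
        rw [cb_mem] at hy
        have hn' : ∀ w : X, n * w * n⁻¹ * w⁻¹ ∈ Subgroup.center X := by
          intro w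
          have := (Subgroup.mem_upperCentralSeries_succ_iff (n := 1)).mp hn w
          rwa [Subgroup.upperCentralSeries_one, commutatorElement_def] at this
        have e : y = (n * (n⁻¹ * y * n) * n⁻¹ * (n⁻¹ * y * n)⁻¹) * (n⁻¹ * y * n) := by group
        rw [e]
        exact mul_mem (Subgroup.mem_sup_left (hn' _)) (Subgroup.mem_sup_right hy)
      rw [eq_top_iff, ← htop, sup_le_iff]
      exact ⟨le_sup_right, hBx ▸ key x⟩
    · exact h1
  · rw [← Subgroup.upperCentralSeries_one]
    exact Subgroup.upperCentralSeries_mono X one_le_two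

/-- A rank one group is not nilpotent. -/
theorem r1_not_nilpotent {A B : Subgroup X} (h : IsRankOneGroup X A B) :
    ¬ Group.IsNilpotent X := by
  intro hnil
  obtain ⟨n, hn⟩ := hnil.nilpotent'
  have h12 : Subgroup.upperCentralSeries X 1 = Subgroup.upperCentralSeries X (1 + 1) := by
    rw [Subgroup.upperCentralSeries_one]; exact (r1_ucs_two h).symm
  have h1 := Subgroup.upperCentralSeries.eq_ge_of_eq_succ (le_max_right n 1) h12
  have h2 : Subgroup.upperCentralSeries X (max n 1) = ⊤ := by
    rw [eq_top_iff, ← hn]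
    exact Subgroup.upperCentralSeries_mono X (le_max_left n 1)
  rw [h2, Subgroup.upperCentralSeries_one] at h1
  apply r1_not_central h
  rw [h1, top_sup_eq]

end Cfsg.Agent.Lib.Helper6
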