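import Mathlib

set_option autoImplicit false

namespace Cfsg.Agent.Lib.Helper6

section RegUnip

open Matrix

/-- The centraliser in `GL_n(q)` of a regular unipotent element has order `(q - 1) q ^ (n - 1)`. -/
theorem ru_cent {F : Type*} [Field F] [Fintype F] {q n : ℕ} (hF : Fintype.card F = q)
    (hn : 1 ≤ n) (u : GL (Fin n) F)
    (hnil : ((u : Matrix (Fin n) (Fin n) F) - 1) ^ n = 0)
    (hreg : ((u : Matrix (Fin n) (Fin n) F) - 1).rank = n - 1) :
    Nat.card ↥(Subgroup.centralizer ({u} : Set (GL (Fin n) F))) = (q - 1) * q ^ (n - 1) := by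
  classical
  obtain ⟨N, hN⟩ : ∃ N : Matrix (Fin n) (Fin n) F, N = (u : Matrix (Fin n) (Fin n) F) - 1 :=
    ⟨_, rfl⟩
  rw [← hN] at hnil hreg
  obtain ⟨R, hR⟩ : ∃ R : Submodule F (Fin n → F), R = LinearMap.range N.mulVecLin := ⟨_, rfl⟩
  have hRrank : Module.finrank F R = n - 1 := by rw [hR]; exact hreg
  obtain ⟨A, hA⟩ : ∃ A : Subalgebra F (Matrix (Fin n) (Fin n) F),
      A = Algebra.adjoin F ({N} : Set (Matrix (Fin n) (Fin n) F)) := ⟨_, rfl⟩
  have hcomm : ∀ S ∈ A, ∀ T : Matrix (Fin n) (Fin n) F, T * N = N * T → S * T = T * S := by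
    intro S hS T hT
    have h1 : S ∈ Subalgebra.centralizer F
        (Subalgebra.centralizer F ({N} : Set (Matrix (Fin n) (Fin n) F)) : Set _) :=
      Algebra.adjoin_le_centralizer_centralizer F _ (hA ▸ hS)
    have h2 : T ∈ Subalgebra.centralizer F ({N} : Set (Matrix (Fin n) (Fin n) F)) := by
      rw [Subalgebra.mem_centralizer_iff]
      intro g hg
      rw [Set.mem_singleton_iff] at hg
      rw [hg]; exact hT.symm
    exact ((Subalgebra.mem_centralizer_iff F).1 h1 T h2).symm
  have hNA : N ∈ A := hA ▸ Algebra.subset_adjoin (Set.mem_singleton _)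
  have hAN : ∀ S ∈ A, S * N = N * S := fun S hS => hcomm S hS N rfl
  have hRinv : ∀ S ∈ A, ∀ w ∈ R, S *ᵥ w ∈ R := by
    intro S hS w hw
    rw [hR] at hw ⊢
    obtain ⟨y, rfl⟩ := hw
    refine ⟨S *ᵥ y, ?_⟩
    simp only [Matrix.mulVecLin_apply, Matrix.mulVec_mulVec]
    rw [hAN S hS]
  have hL1 : ∀ v : Fin n → F, v ∉ R → ∀ w : Fin n → F, ∃ S ∈ A, S *ᵥ v = w := by
    intro v hv
    let W : Submodule F (Fin n → F) :=
      { carrier := {w | ∃ S ∈ A, S *ᵥ v = w}
        add_mem' := by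
          rintro _ _ ⟨S, hS, rfl⟩ ⟨T, hT, rfl⟩
          exact ⟨S + T, add_mem hS hT, Matrix.add_mulVec _ _ _⟩
        zero_mem' := ⟨0, zero_mem _, Matrix.zero_mulVec _⟩
        smul_mem' := by
          rintro c _ ⟨S, hS, rfl⟩
          exact ⟨c • S, Subalgebra.smul_mem _ hS c, Matrix.smul_mulVec _ _ _⟩ }
    have hvW : v ∈ W := ⟨1, one_mem _, Matrix.one_mulVec v⟩
    have hWinv : ∀ S ∈ A, ∀ w ∈ W, S *ᵥ w ∈ W := by
      rintro S hS _ ⟨T, hT, rfl⟩
      exact ⟨S * T, mul_mem hS hT, (Matrix.mulVec_mulVec _ _ _).symm⟩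
    have hsup : W ⊔ R = ⊤ := by
      apply Submodule.eq_top_of_finrank_eq
      have hlt : R < W ⊔ R := by
        refine lt_of_le_of_ne le_sup_right ?_
        intro h
        apply hv
        rw [h]
        exact Submodule.mem_sup_left hvW
      have h1 := Submodule.finrank_lt_finrank_of_lt hlt
      have hle : Module.finrank F ↥(W ⊔ R) ≤ Module.finrank F (Fin n → F) :=
        Submodule.finrank_le _
      rw [Module.finrank_fin_fun] at hle ⊢
      omega
    have hk : ∀ k : ℕ, W ⊔ LinearMap.range (N ^ k).mulVecLin = ⊤ := by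
      intro k
      induction k with
      | zero =>
        rw [pow_zero, Matrix.mulVecLin_one, LinearMap.range_id, sup_top_eq]
      | succ k ih =>
        rw [eq_top_iff]
        intro x _
        have hx : x ∈ W ⊔ LinearMap.range (N ^ k).mulVecLin := by rw [ih]; trivial
        obtain ⟨w, hw, _, ⟨y, rfl⟩, rfl⟩ := Submodule.mem_sup.1 hx
        have hy : y ∈ W ⊔ R := by rw [hsup]; trivial
        obtain ⟨w', hw', r, hr, rfl⟩ := Submodule.mem_sup.1 hy
        rw [hR] at hr
        obtain ⟨z, rfl⟩ := hr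
        have h2 : w + (N ^ k).mulVecLin (w' + N.mulVecLin z) =
            (w + (N ^ k) *ᵥ w') + (N ^ (k + 1)).mulVecLin z := by
          simp only [Matrix.mulVecLin_apply, Matrix.mulVec_add, Matrix.mulVec_mulVec, pow_succ]
          rw [add_assoc]
        rw [h2]
        exact Submodule.add_mem_sup (W.add_mem hw (hWinv _ (Subalgebra.pow_mem _ hNA k) w' hw'))
          ⟨z, rfl⟩
    have hWtop : W = ⊤ := by
      have h3 := hk n
      rw [hnil] at h3
      simpa using h3
    intro w
    have h4 : w ∈ W := by rw [hWtop]; trivial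
    exact h4
  have hL2 : ∀ v : Fin n → F, v ∉ R → ∀ T : Matrix (Fin n) (Fin n) F, T * N = N * T →
      T *ᵥ v = 0 → T = 0 := by
    intro v hv T hT hTv
    have h : ∀ w, T *ᵥ w = 0 := by
      intro w
      obtain ⟨S, hS, rfl⟩ := hL1 v hv w
      rw [Matrix.mulVec_mulVec, ← hcomm S hS T hT, ← Matrix.mulVec_mulVec, hTv,
        Matrix.mulVec_zero]
    ext i j
    have h5 := congrFun (h (Pi.single j 1)) i
    simpa using h5
  have hRne : R ≠ ⊤ := by
    intro h
    rw [h, finrank_top, Module.finrank_fin_fun] at hRrank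
    omega
  obtain ⟨v, hv⟩ : ∃ v : Fin n → F, v ∉ R := by
    by_contra hcon
    push_neg at hcon
    exact hRne (eq_top_iff.2 fun x _ => hcon x)
  have hcent : ∀ g : GL (Fin n) F, g ∈ Subgroup.centralizer ({u} : Set (GL (Fin n) F)) ↔
      (g : Matrix (Fin n) (Fin n) F) * N = N * (g : Matrix (Fin n) (Fin n) F) := by
    intro g
    rw [Subgroup.mem_centralizer_iff]
    constructor
    · intro h
      have h1 := congrArg Units.val (h u rfl)
      rw [Units.val_mul, Units.val_mul] at h1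
      rw [hN, mul_sub, sub_mul, mul_one, one_mul, h1]
    · intro h g' hg'
      rw [Set.mem_singleton_iff] at hg'
      rw [hg']
      apply Units.ext
      rw [Units.val_mul, Units.val_mul]
      rw [hN, mul_sub, sub_mul, mul_one, one_mul] at h
      exact (sub_left_injective h).symm
  have hwd : ∀ g : Subgroup.centralizer ({u} : Set (GL (Fin n) F)),
      ((g : GL (Fin n) F) : Matrix (Fin n) (Fin n) F) *ᵥ v ∉ R := by
    intro g hgv
    have hgN := (hcent g).1 g.2
    have hall : ∀ w, ((g : GL (Fin n) F) : Matrix (Fin n) (Fin n) F) *ᵥ w ∈ R := by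
      intro w
      obtain ⟨S, hS, rfl⟩ := hL1 v hv w
      rw [Matrix.mulVec_mulVec, ← hcomm S hS _ hgN, ← Matrix.mulVec_mulVec]
      exact hRinv S hS _ hgv
    apply hv
    have h6 := hall ((((g : GL (Fin n) F)⁻¹ : GL (Fin n) F) : Matrix (Fin n) (Fin n) F) *ᵥ v)
    rw [Matrix.mulVec_mulVec, ← Units.val_mul, mul_inv_cancel, Units.val_one,
      Matrix.one_mulVec] at h6
    exact h6
  have hbij : Function.Bijective (fun g : Subgroup.centralizer ({u} : Set (GL (Fin n) F)) =>
      (⟨((g : GL (Fin n) F) : Matrix (Fin n) (Fin n) F) *ᵥ v, hwd g⟩ :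
        {w : Fin n → F // w ∉ R})) := by
    constructor
    · intro g g' h
      have h1 : ((g : GL (Fin n) F) : Matrix (Fin n) (Fin n) F) *ᵥ v =
          ((g' : GL (Fin n) F) : Matrix (Fin n) (Fin n) F) *ᵥ v := congrArg Subtype.val h
      have h2 : ((g : GL (Fin n) F) : Matrix (Fin n) (Fin n) F) -
          ((g' : GL (Fin n) F) : Matrix (Fin n) (Fin n) F) = 0 := by
        apply hL2 v hv
        · rw [sub_mul, mul_sub, (hcent g).1 g.2, (hcent g').1 g'.2]
        · rw [Matrix.sub_mulVec, h1, sub_self]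
      exact Subtype.ext (Units.ext (sub_eq_zero.1 h2))
    · rintro ⟨w, hw⟩
      obtain ⟨S, hS, hSv⟩ := hL1 v hv w
      obtain ⟨S', hS', hS'w⟩ := hL1 w hw v
      have h1 : S' * S = 1 := by
        have h7 : S' * S - 1 = 0 := by
          apply hL2 v hv
          · rw [sub_mul, mul_sub, mul_one, one_mul, mul_assoc, hAN S hS, ← mul_assoc,
              hAN S' hS', mul_assoc]
          · rw [Matrix.sub_mulVec, ← Matrix.mulVec_mulVec, hSv, hS'w, Matrix.one_mulVec,
              sub_self]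
        exact sub_eq_zero.1 h7
      have h2 : S * S' = 1 := mul_eq_one_comm.1 h1
      refine ⟨⟨⟨S, S', h2, h1⟩, (hcent _).2 (hAN S hS)⟩, ?_⟩
      exact Subtype.ext hSv
  rw [Nat.card_eq_of_bijective _ hbij]
  have h1 : Nat.card {w : Fin n → F // w ∉ R} =
      Nat.card (((R : Set (Fin n → F))ᶜ : Set (Fin n → F))) := rfl
  have hV : Nat.card (Fin n → F) = q ^ n := by
    rw [Nat.card_eq_fintype_card, Fintype.card_fun, Fintype.card_fin, hF]
  have hRc : (R : Set (Fin n → F)).ncard = q ^ (n - 1) := by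
    rw [← Nat.card_coe_set_eq]
    show Nat.card R = _
    rw [Module.natCard_eq_pow_finrank (K := F) (V := R), hRrank, Nat.card_eq_fintype_card, hF]
  rw [h1, Nat.card_coe_set_eq, Set.ncard_compl, hV, hRc]
  obtain ⟨k, rfl⟩ : ∃ k, n = k + 1 := ⟨n - 1, by omega⟩
  rw [Nat.add_sub_cancel, pow_succ, Nat.sub_mul, one_mul, mul_comm]

end RegUnip

end Cfsg.Agent.Lib.Helper6
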