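import Cfsg.Agent.Lib.Helper6.RootSL2

set_option autoImplicit false
set_option linter.style.haveILetI false
set_option linter.unusedVariables false
set_option linter.unusedSimpArgs false

namespace Cfsg.Agent.Lib.Helper6

open Cfsg
open scoped commutatorElement

variable {G : Type*} [Group G]

theorem cc_comm_mem {A B : Subgroup G} {a b : G} (ha : a ∈ A) (hb : b ∈ B) :
    a * b * a⁻¹ * b⁻¹ ∈ ⁅A, B⁆ := by
  have := Subgroup.commutator_mem_commutator ha hb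
  rwa [commutatorElement_def] at this

theorem cc_comm_of_bot {A B : Subgroup G} (h : ⁅A, B⁆ = ⊥) {a b : G} (ha : a ∈ A) (hb : b ∈ B) :
    a * b = b * a := by
  have h1 := cc_comm_mem ha hb
  rw [h, Subgroup.mem_bot] at h1
  calc a * b = (a * b * a⁻¹ * b⁻¹) * (b * a) := by group
    _ = b * a := by rw [h1, one_mul]

theorem cc_bot_of_comm {A B : Subgroup G} (h : ∀ a ∈ A, ∀ b ∈ B, a * b = b * a) : ⁅A, B⁆ = ⊥ := by
  rw [Subgroup.commutator_eq_bot_iff_le_centralizer]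
  intro a ha
  rw [Subgroup.mem_centralizer_iff]
  intro b hb
  exact (h a ha b hb).symm

theorem cc_conj_eq {a b : G} (h : a * b = b * a) : b⁻¹ * a * b = a := by
  calc b⁻¹ * a * b = b⁻¹ * (a * b) := by group
    _ = b⁻¹ * (b * a) := by rw [h]
    _ = a := by group

theorem cc_conj_eq' {a b : G} (h : a * b = b * a) : b * a * b⁻¹ = a := by
  calc b * a * b⁻¹ = (b * a) * b⁻¹ := by group
    _ = (a * b) * b⁻¹ := by rw [h]
    _ = a := by group

theorem cc_surj_right {S : Set (Subgroup G)} {A B : Subgroup G} (hcc : RootCommutatorCase S A B)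
    {a : G} (ha : a ∈ A) (ha1 : a ≠ 1) {c : G} (hc : c ∈ ⁅A, B⁆) :
    ∃ b ∈ B, a * b * a⁻¹ * b⁻¹ = c := by
  have hgen := hcc.2.2.1 a ha ha1
  have hcen : ∀ z ∈ ⁅A, B⁆, ∀ b ∈ B, z * b = b * z :=
    fun z hz b hb => hcc.2.1 z hz b (Subgroup.mem_sup_right hb)
  have key : ∀ c ∈ Subgroup.closure ((fun b : G => a * b * a⁻¹ * b⁻¹) '' (B : Set G)),
      ∃ b ∈ B, a * b * a⁻¹ * b⁻¹ = c := by
    intro c hc
    induction hc using Subgroup.closure_induction with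
    | mem y hy =>
      obtain ⟨b, hb, rfl⟩ := hy
      exact ⟨b, hb, rfl⟩
    | one => exact ⟨1, one_mem _, by group⟩
    | mul x y _ _ hx hy =>
      obtain ⟨b₁, hb₁, rfl⟩ := hx
      obtain ⟨b₂, hb₂, rfl⟩ := hy
      refine ⟨b₁ * b₂, mul_mem hb₁ hb₂, ?_⟩
      have hz := hcen _ (cc_comm_mem ha hb₂) b₁⁻¹ (inv_mem hb₁)
      calc a * (b₁ * b₂) * a⁻¹ * (b₁ * b₂)⁻¹
          = a * b₁ * a⁻¹ * ((a * b₂ * a⁻¹ * b₂⁻¹) * b₁⁻¹) := by group
        _ = a * b₁ * a⁻¹ * (b₁⁻¹ * (a * b₂ * a⁻¹ * b₂⁻¹)) := by rw [hz]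
        _ = (a * b₁ * a⁻¹ * b₁⁻¹) * (a * b₂ * a⁻¹ * b₂⁻¹) := by group
    | inv x _ hx =>
      obtain ⟨b, hb, rfl⟩ := hx
      refine ⟨b⁻¹, inv_mem hb, ?_⟩
      have hz := hcen _ (cc_comm_mem ha hb) b⁻¹ (inv_mem hb)
      calc a * b⁻¹ * a⁻¹ * b⁻¹⁻¹ = (b⁻¹ * (a * b * a⁻¹ * b⁻¹) * b)⁻¹ := by group
        _ = ((a * b * a⁻¹ * b⁻¹) * b⁻¹ * b)⁻¹ := by rw [← hz]
        _ = (a * b * a⁻¹ * b⁻¹)⁻¹ := by group
  exact key c (by rw [hgen]; exact hc)

theorem cc_surj_left {S : Set (Subgroup G)} {A B : Subgroup G} (hcc : RootCommutatorCase S A B)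
    {b : G} (hb : b ∈ B) (hb1 : b ≠ 1) {c : G} (hc : c ∈ ⁅A, B⁆) :
    ∃ a ∈ A, a * b * a⁻¹ * b⁻¹ = c := by
  have hgen := hcc.2.2.2 b hb hb1
  have hcen : ∀ z ∈ ⁅A, B⁆, ∀ a ∈ A, z * a = a * z :=
    fun z hz a ha => hcc.2.1 z hz a (Subgroup.mem_sup_left ha)
  have key : ∀ c ∈ Subgroup.closure ((fun a : G => a * b * a⁻¹ * b⁻¹) '' (A : Set G)),
      ∃ a ∈ A, a * b * a⁻¹ * b⁻¹ = c := by
    intro c hc
    induction hc using Subgroup.closure_induction with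
    | mem y hy =>
      obtain ⟨a, ha, rfl⟩ := hy
      exact ⟨a, ha, rfl⟩
    | one => exact ⟨1, one_mem _, by group⟩
    | mul x y _ _ hx hy =>
      obtain ⟨a₁, ha₁, rfl⟩ := hx
      obtain ⟨a₂, ha₂, rfl⟩ := hy
      refine ⟨a₂ * a₁, mul_mem ha₂ ha₁, ?_⟩
      have hz := hcen _ (cc_comm_mem ha₁ hb) a₂⁻¹ (inv_mem ha₂)
      calc a₂ * a₁ * b * (a₂ * a₁)⁻¹ * b⁻¹
          = a₂ * ((a₁ * b * a₁⁻¹ * b⁻¹) * a₂⁻¹) * (a₂ * b * a₂⁻¹ * b⁻¹) := by group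
        _ = a₂ * (a₂⁻¹ * (a₁ * b * a₁⁻¹ * b⁻¹)) * (a₂ * b * a₂⁻¹ * b⁻¹) := by rw [hz]
        _ = (a₁ * b * a₁⁻¹ * b⁻¹) * (a₂ * b * a₂⁻¹ * b⁻¹) := by group
    | inv x _ hx =>
      obtain ⟨a, ha, rfl⟩ := hx
      refine ⟨a⁻¹, inv_mem ha, ?_⟩
      have hz := hcen _ (cc_comm_mem ha hb) a ha
      calc a⁻¹ * b * a⁻¹⁻¹ * b⁻¹ = (a⁻¹ * ((a * b * a⁻¹ * b⁻¹) * a))⁻¹ := by group
        _ = (a⁻¹ * (a * (a * b * a⁻¹ * b⁻¹)))⁻¹ := by rw [hz]
        _ = (a * b * a⁻¹ * b⁻¹)⁻¹ := by group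
  exact key c (by rw [hgen]; exact hc)

theorem cc_decomp {A B : Subgroup G} (h : ∀ a ∈ A, ∀ b ∈ B, a * b = b * a) :
    ∀ x ∈ A ⊔ B, ∃ a ∈ A, ∃ b ∈ B, x = a * b := by
  apply cb_sup_induction
  · intro a ha; exact ⟨a, ha, 1, one_mem _, (mul_one a).symm⟩
  · intro b hb; exact ⟨1, one_mem _, b, hb, (one_mul b).symm⟩
  · exact ⟨1, one_mem _, 1, one_mem _, (mul_one 1).symm⟩
  · rintro x y ⟨a, ha, b, hb, rfl⟩ ⟨a', ha', b', hb', rfl⟩
    refine ⟨a * a', mul_mem ha ha', b * b', mul_mem hb hb', ?_⟩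
    have := h a' ha' b hb
    calc a * b * (a' * b') = a * (b * a') * b' := by group
      _ = a * (a' * b) * b' := by rw [this]
      _ = a * a' * (b * b') := by group

/-- Key lemma: a rank one pair `(A, C)`, `B` commuting with `A` and `E = [B, C] ∈ S` give an
`SL₂`-configuration on `[E, A] E`. -/
theorem kl_config {S : Set (Subgroup G)} (hS : IsRootSubgroupSet S) {A B C : Subgroup G}
    (hA : A ∈ S) (hB : B ∈ S) (hC : C ∈ S) (hAC : IsRankOnePair A C) (hAB : ⁅A, B⁆ = ⊥)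
    (hE : ⁅B, C⁆ ∈ S) : Sl2Config S ⁅⁅B, C⁆, A⁆ C ⁅B, C⁆ A := by
  obtain ⟨a, ha0⟩ := (Subgroup.ne_bot_iff_exists_ne_one).mp (hS.ne_bot A hA)
  have ha1 : (a : G) ≠ 1 := fun h' => ha0 (Subtype.ext h')
  obtain ⟨c, hc, hc1, hac⟩ := hAC.cond_left a a.2 ha1
  have hccBC : RootCommutatorCase S B C := rl_comm_case hS hB hC hE
  have hE' : ⁅C, B⁆ ∈ S := by rw [Subgroup.commutator_comm C B]; exact hE
  have hccCB : RootCommutatorCase S C B := rl_comm_case hS hC hB hE'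
  have hEC : ∀ e ∈ ⁅B, C⁆, ∀ c ∈ C, e * c = c * e :=
    fun e he c hc => hccBC.2.1 e he c (Subgroup.mem_sup_right hc)
  have hab : ∀ a' ∈ A, ∀ b ∈ B, a' * b = b * a' :=
    fun a' ha' b hb => cc_comm_of_bot hAB ha' hb
  have h1 : ⁅conjBy B c, A⁆ = ⁅⁅B, C⁆, A⁆ := by
    apply le_antisymm
    · rw [Subgroup.commutator_le]
      intro x hx a' ha'
      rw [cb_mem] at hx
      have hε : c * (c⁻¹ * x * c) * c⁻¹ * (c⁻¹ * x * c)⁻¹ ∈ ⁅B, C⁆ := by
        have := cc_comm_mem hc hx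
        rwa [Subgroup.commutator_comm C B] at this
      have hcomm := hab a' ha' _ hx
      have e : ⁅x, a'⁆ = ⁅c * (c⁻¹ * x * c) * c⁻¹ * (c⁻¹ * x * c)⁻¹, a'⁆ := by
        rw [commutatorElement_def, commutatorElement_def]
        have e1 : (c⁻¹ * x * c)⁻¹ * a' * (c⁻¹ * x * c) = a' := cc_conj_eq hcomm
        calc x * a' * x⁻¹ * a'⁻¹
            = x * ((c⁻¹ * x * c)⁻¹ * a' * (c⁻¹ * x * c)) * x⁻¹ * a'⁻¹ := by rw [e1]
          _ = _ := by group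
      rw [e]
      exact Subgroup.commutator_mem_commutator hε ha'
    · rw [Subgroup.commutator_le]
      intro e he a' ha'
      have he' : e ∈ ⁅C, B⁆ := by rw [Subgroup.commutator_comm C B]; exact he
      obtain ⟨b', hb', rfl⟩ := cc_surj_right hccCB hc hc1 he'
      have hcomm := hab a' ha' b' hb'
      have e : ⁅c * b' * c⁻¹ * b'⁻¹, a'⁆ = ⁅c * b' * c⁻¹, a'⁆ := by
        rw [commutatorElement_def, commutatorElement_def]
        have e1 : b'⁻¹ * a' * b' = a' := cc_conj_eq hcomm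
        calc c * b' * c⁻¹ * b'⁻¹ * a' * (c * b' * c⁻¹ * b'⁻¹)⁻¹ * a'⁻¹
            = c * b' * c⁻¹ * (b'⁻¹ * a' * b') * (c * b' * c⁻¹)⁻¹ * a'⁻¹ := by group
          _ = _ := by rw [e1]
      rw [e]
      exact Subgroup.commutator_mem_commutator (cb_mem' hb') ha'
  have hBa : conjBy B (a : G)⁻¹ = B :=
    cb_of_centralizes_inv (fun x hx => (hab a a.2 x hx).symm)
  have h2 : conjBy ⁅B, C⁆ (a : G)⁻¹ = conjBy ⁅⁅B, C⁆, A⁆ c⁻¹ := by
    calc conjBy ⁅B, C⁆ (a : G)⁻¹ = ⁅conjBy B (a : G)⁻¹, conjBy C (a : G)⁻¹⁆ :=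
          Subgroup.map_commutator _ _ _
      _ = ⁅B, conjBy A c⁻¹⁆ := by rw [hBa, ← hac]
      _ = ⁅conjBy (conjBy B c) c⁻¹, conjBy A c⁻¹⁆ := by rw [cb_cb, inv_mul_cancel, cb_one]
      _ = conjBy ⁅conjBy B c, A⁆ c⁻¹ := (Subgroup.map_commutator _ _ _).symm
      _ = conjBy ⁅⁅B, C⁆, A⁆ c⁻¹ := by rw [h1]
  have hK : ⁅⁅B, C⁆, A⁆ = conjBy ⁅B, C⁆ (c * (a : G)⁻¹) := by
    have := cb_eq_iff.mp h2.symm
    rw [inv_inv, cb_cb] at this
    exact this
  have hKS : ⁅⁅B, C⁆, A⁆ ∈ S := by rw [hK]; exact hS.conj_mem _ hE _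
  have hEc : conjBy ⁅B, C⁆ c⁻¹ = ⁅B, C⁆ := cb_of_centralizes_inv (fun e he => hEC e he c hc)
  have hCA : conjBy A ((a : G) * c⁻¹) = C := by
    rw [← cb_cb, hac, cb_cb, mul_inv_cancel, cb_one]
  have h3 : ⁅conjBy ⁅B, C⁆ (a : G), C⁆ = ⁅B, C⁆ := by
    have e0 : (a : G) * c⁻¹ * (c * (a : G)⁻¹) = 1 := by group
    calc ⁅conjBy ⁅B, C⁆ (a : G), C⁆
        = ⁅conjBy ⁅B, C⁆ ((a : G) * c⁻¹), conjBy A ((a : G) * c⁻¹)⁆ := by
          rw [hCA, ← cb_cb, hEc]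
      _ = conjBy ⁅⁅B, C⁆, A⁆ ((a : G) * c⁻¹) := (Subgroup.map_commutator _ _ _).symm
      _ = ⁅B, C⁆ := by rw [hK, cb_cb, e0, cb_one]
  have hccAE : RootCommutatorCase S A ⁅B, C⁆ :=
    rl_comm_case hS hA hE (by rw [Subgroup.commutator_comm A ⁅B, C⁆]; exact hKS)
  have h4 : ⁅conjBy ⁅B, C⁆ (a : G), C⁆ = ⁅⁅⁅B, C⁆, A⁆, C⁆ := by
    apply le_antisymm
    · rw [Subgroup.commutator_le]
      intro x hx c' hc'
      rw [cb_mem] at hx
      have hk : (a : G) * ((a : G)⁻¹ * x * a) * (a : G)⁻¹ * ((a : G)⁻¹ * x * a)⁻¹ ∈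
          ⁅⁅B, C⁆, A⁆ := by
        have := cc_comm_mem a.2 hx
        rwa [Subgroup.commutator_comm A ⁅B, C⁆] at this
      have hcomm := hEC _ hx c' hc'
      have e : ⁅x, c'⁆ =
          ⁅(a : G) * ((a : G)⁻¹ * x * a) * (a : G)⁻¹ * ((a : G)⁻¹ * x * a)⁻¹, c'⁆ := by
        rw [commutatorElement_def, commutatorElement_def]
        have e1 : ((a : G)⁻¹ * x * a)⁻¹ * c' * ((a : G)⁻¹ * x * a) = c' :=
          cc_conj_eq hcomm.symm
        calc x * c' * x⁻¹ * c'⁻¹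
            = x * (((a : G)⁻¹ * x * a)⁻¹ * c' * ((a : G)⁻¹ * x * a)) * x⁻¹ * c'⁻¹ := by
              rw [e1]
          _ = _ := by group
      rw [e]
      exact Subgroup.commutator_mem_commutator hk hc'
    · rw [Subgroup.commutator_le]
      intro k hk c' hc'
      have hk' : k ∈ ⁅A, ⁅B, C⁆⁆ := by rw [Subgroup.commutator_comm A ⁅B, C⁆]; exact hk
      obtain ⟨e, he, rfl⟩ := cc_surj_right hccAE a.2 ha1 hk'
      have hcomm := hEC e he c' hc'
      have e2 : ⁅(a : G) * e * (a : G)⁻¹ * e⁻¹, c'⁆ = ⁅(a : G) * e * (a : G)⁻¹, c'⁆ := by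
        rw [commutatorElement_def, commutatorElement_def]
        have e1 : e⁻¹ * c' * e = c' := cc_conj_eq hcomm.symm
        calc (a : G) * e * (a : G)⁻¹ * e⁻¹ * c' * ((a : G) * e * (a : G)⁻¹ * e⁻¹)⁻¹ * c'⁻¹
            = (a : G) * e * (a : G)⁻¹ * (e⁻¹ * c' * e) * ((a : G) * e * (a : G)⁻¹)⁻¹ * c'⁻¹ := by
              group
          _ = _ := by rw [e1]
      rw [e2]
      exact Subgroup.commutator_mem_commutator (cb_mem' he) hc'
  exact ⟨hS, hKS, hC, hE, hA, by rw [← h4, h3], Subgroup.commutator_comm A ⁅B, C⁆⟩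

/-- The third point on a line through `A` and `B` is a rank one partner of a rank one partner
`C` of `A`, unless `(B, C)` is a rank one pair. -/
theorem s31_rank_one {S : Set (Subgroup G)} (hS : IsRootSubgroupSet S) {A B C L : Subgroup G}
    (hA : A ∈ S) (hB : B ∈ S) (hC : C ∈ S) (hL : L ∈ S)
    (hAC : IsRankOnePair A C) (hAB : ⁅A, B⁆ = ⊥) (hBC : ¬ IsRankOnePair B C)
    {a b : G} (ha : a ∈ A) (ha1 : a ≠ 1) (hb : b ∈ B) (hb1 : b ≠ 1) (hLle : L ≤ A ⊔ B)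
    (hab : a * b ∈ L) : IsRankOnePair C L := by
  have hcomm : ∀ a' ∈ A, ∀ b' ∈ B, a' * b' = b' * a' :=
    fun a' ha' b' hb' => cc_comm_of_bot hAB ha' hb'
  have hAni : ¬ IsIsolatedIn (FAdj S) S A := rl_not_isolated_of_rankOne hA hC hAC
  have hABne : A ≠ B := fun h => hBC (h ▸ hAC)
  have hinf : A ⊓ B = ⊥ := by
    rcases rs_inf_eq_bot hS hAni hA B hB with h | h
    · exact h
    · exact absurd h hABne
  have hab1 : a * b ≠ 1 := by
    intro h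
    have hbA : b ∈ A := by
      have : b = a⁻¹ := eq_inv_of_mul_eq_one_right h
      rw [this]; exact inv_mem ha
    have : b ∈ A ⊓ B := Subgroup.mem_inf.mpr ⟨hbA, hb⟩
    rw [hinf, Subgroup.mem_bot] at this
    exact hb1 this
  have hBCne : ⁅B, C⁆ ≠ ⊥ := by
    intro h0
    have hbC : ∀ c' ∈ C, b * c' = c' * b := fun c' hc' => cc_comm_of_bot h0 hb hc'
    have key : ∀ x ∈ A ⊔ C, x * b = b * x := by
      apply cb_sup_induction (P := fun x => x * b = b * x)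
      · intro a' ha'; exact hcomm a' ha' b hb
      · intro c' hc'; exact (hbC c' hc').symm
      · rw [one_mul, mul_one]
      · intro x y hx hy
        show x * y * b = b * (x * y)
        rw [mul_assoc, hy, ← mul_assoc, hx, mul_assoc]
    have hz : b ∈ Subgroup.centralizer ((A ⊔ C : Subgroup G) : Set G) :=
      Subgroup.mem_centralizer_iff.mpr (fun x hx => key x hx)
    have hno := rs_coset_no_root hS hA hC hAC hz hb1 a ha ha1
    apply hno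
    refine ⟨?_, L, hL, ?_⟩
    · rw [← hcomm a ha b hb]; exact hab1
    · rw [← hcomm a ha b hb]; exact hab
  have hE : ⁅B, C⁆ ∈ S := by
    rcases hS.pair B hB C hC with h | h | h
    · exact absurd h hBCne
    · exact absurd h hBC
    · exact h.1
  have cfg := kl_config hS hA hB hC hAC hAB hE
  have hEB : ∀ e ∈ ⁅B, C⁆, ∀ b' ∈ B, e * b' = b' * e :=
    fun e he b' hb' => (rl_comm_case hS hB hC hE).2.1 e he b' (Subgroup.mem_sup_left hb')
  have hLE : ⁅L, ⁅B, C⁆⁆ = ⁅⁅B, C⁆, A⁆ := by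
    apply le_antisymm
    · rw [Subgroup.commutator_le]
      intro l hl e he
      obtain ⟨a', ha', b', hb', rfl⟩ := cc_decomp hcomm l (hLle hl)
      have h1 : ⁅a' * b', e⁆ = ⁅a', e⁆ := by
        rw [commutatorElement_def, commutatorElement_def]
        have e1 : b' * e * b'⁻¹ = e := cc_conj_eq' (hEB e he b' hb')
        calc a' * b' * e * (a' * b')⁻¹ * e⁻¹ = a' * (b' * e * b'⁻¹) * a'⁻¹ * e⁻¹ := by group
          _ = _ := by rw [e1]
      rw [h1]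
      have := Subgroup.commutator_mem_commutator ha' he
      rwa [Subgroup.commutator_comm A ⁅B, C⁆] at this
    · intro k hk
      obtain ⟨e, he, rfl⟩ := cfg.symm.surj_A ha ha1 hk
      have h1 : a * e * a⁻¹ * e⁻¹ = ⁅a * b, e⁆ := by
        rw [commutatorElement_def]
        have e1 : b * e * b⁻¹ = e := cc_conj_eq' (hEB e he b hb)
        calc a * e * a⁻¹ * e⁻¹ = a * (b * e * b⁻¹) * a⁻¹ * e⁻¹ := by rw [e1]
          _ = _ := by group
      rw [h1]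
      exact Subgroup.commutator_mem_commutator hab he
  have cfg' : Sl2Config S ⁅⁅B, C⁆, A⁆ C ⁅B, C⁆ L := ⟨hS, cfg.hA, hC, hE, hL, cfg.hAB, hLE⟩
  exact cfg'.rank_one

theorem comp_eq_of_rtg {adj : Subgroup G → Subgroup G → Prop} (hsymm : ∀ x y, adj x y → adj y x)
    {S : Set (Subgroup G)} {A B : Subgroup G} (h : Relation.ReflTransGen adj A B) :
    componentOf adj S A = componentOf adj S B := by
  have h' : Relation.ReflTransGen adj B A := by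
    induction h with
    | refl => exact Relation.ReflTransGen.refl
    | tail _ hstep ih => exact Relation.ReflTransGen.head (hsymm _ _ hstep) ih
  ext X
  constructor
  · rintro ⟨hX, hAX⟩; exact ⟨hX, h'.trans hAX⟩
  · rintro ⟨hX, hBX⟩; exact ⟨hX, h.trans hBX⟩

theorem fadj_symm {S : Set (Subgroup G)} : ∀ x y, FAdj S x y → FAdj S y x :=
  fun x y h => ⟨h.2.1, h.1, RankOnePair_symm h.2.2⟩

/-- S5031. -/
theorem s31_main {S : Set (Subgroup G)} (hS : IsRootSubgroupSet S) {A B : Subgroup G}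
    (hA : A ∈ S) (hB : B ∈ S)
    (hne : componentOf (FAdj S) S A ≠ componentOf (FAdj S) S B)
    (hA2 : ∃ A' ∈ componentOf (FAdj S) S A, A' ≠ A)
    (hB2 : ∃ B' ∈ componentOf (FAdj S) S B, B' ≠ B) :
    B ∉ linePartners S A := by
  rintro ⟨⟨-, hBA, hcomm⟩, hpart⟩
  have hex : ∀ {X : Subgroup G}, (∃ X' ∈ componentOf (FAdj S) S X, X' ≠ X) →
      ∃ C, FAdj S X C := by
    rintro X ⟨X', ⟨-, hrtg⟩, hX'⟩
    rcases Relation.ReflTransGen.cases_head hrtg with h | ⟨C, hC, -⟩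
    · exact absurd h.symm hX'
    · exact ⟨C, hC⟩
  obtain ⟨C, -, hC, hAC⟩ := hex hA2
  obtain ⟨D, -, hD, hBD⟩ := hex hB2
  have hcA : componentOf (FAdj S) S A = componentOf (FAdj S) S C :=
    comp_eq_of_rtg fadj_symm (Relation.ReflTransGen.single ⟨hA, hC, hAC⟩)
  have hcB : componentOf (FAdj S) S B = componentOf (FAdj S) S D :=
    comp_eq_of_rtg fadj_symm (Relation.ReflTransGen.single ⟨hB, hD, hBD⟩)
  have hBC : ¬ IsRankOnePair B C := by
    intro h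
    apply hne
    rw [hcA]
    exact (comp_eq_of_rtg fadj_symm (Relation.ReflTransGen.single ⟨hB, hC, h⟩)).symm
  have hAD : ¬ IsRankOnePair A D := by
    intro h
    apply hne
    rw [hcB]
    exact comp_eq_of_rtg fadj_symm (Relation.ReflTransGen.single ⟨hA, hD, h⟩)
  obtain ⟨a, ha0⟩ := (Subgroup.ne_bot_iff_exists_ne_one).mp (hS.ne_bot A hA)
  have ha1 : (a : G) ≠ 1 := fun h' => ha0 (Subtype.ext h')
  obtain ⟨b, hb0⟩ := (Subgroup.ne_bot_iff_exists_ne_one).mp (hS.ne_bot B hB)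
  have hb1 : (b : G) ≠ 1 := fun h' => hb0 (Subtype.ext h')
  have hAni : ¬ IsIsolatedIn (FAdj S) S A := rl_not_isolated_of_rankOne hA hC hAC
  have hinf : A ⊓ B = ⊥ := by
    rcases rs_inf_eq_bot hS hAni hA B hB with h | h
    · exact h
    · exact absurd h.symm hBA
  have hab1 : (a : G) * b ≠ 1 := by
    intro h
    have hbA : (b : G) ∈ A := by
      have : (b : G) = (a : G)⁻¹ := eq_inv_of_mul_eq_one_right h
      rw [this]; exact inv_mem a.2
    have : (b : G) ∈ A ⊓ B := Subgroup.mem_inf.mpr ⟨hbA, b.2⟩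
    rw [hinf, Subgroup.mem_bot] at this
    exact hb1 this
  obtain ⟨L, ⟨hL, hLle⟩, habL⟩ := hpart.2.1 _
    (mul_mem (Subgroup.mem_sup_left a.2) (Subgroup.mem_sup_right b.2)) hab1
  have h1 : IsRankOnePair C L :=
    s31_rank_one hS hA hB hC hL hAC hcomm hBC a.2 ha1 b.2 hb1 hLle habL
  have hcomm' : ⁅B, A⁆ = ⊥ := by rw [Subgroup.commutator_comm B A]; exact hcomm
  have hba : (b : G) * a = a * b := (cc_comm_of_bot hcomm a.2 b.2).symm
  have h2 : IsRankOnePair D L :=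
    s31_rank_one hS hB hA hD hL hBD hcomm' hAD b.2 hb1 a.2 ha1
      (by rw [sup_comm]; exact hLle) (by rw [hba]; exact habL)
  apply hne
  rw [hcA, hcB]
  exact (comp_eq_of_rtg fadj_symm (Relation.ReflTransGen.single ⟨hC, hL, h1⟩)).trans
    (comp_eq_of_rtg fadj_symm (Relation.ReflTransGen.single ⟨hD, hL, h2⟩)).symm

end Cfsg.Agent.Lib.Helper6
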