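import Cfsg.Agent.Lib.Helper6.RootComp

set_option autoImplicit false
set_option linter.style.haveILetI false
set_option linter.unusedVariables false
set_option linter.unusedSimpArgs false

namespace Cfsg.Agent.Lib.Helper6

open Cfsg
open scoped commutatorElement

variable {G : Type*} [Group G]

theorem rtg_symm {adj : Subgroup G → Subgroup G → Prop} (hsymm : ∀ x y, adj x y → adj y x)
    {A B : Subgroup G} (h : Relation.ReflTransGen adj A B) : Relation.ReflTransGen adj B A := by
  induction h with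
  | refl => exact Relation.ReflTransGen.refl
  | tail _ hstep ih => exact Relation.ReflTransGen.head (hsymm _ _ hstep) ih

theorem s32_conj_of_rtg {S : Set (Subgroup G)} {A B : Subgroup G}
    (h : Relation.ReflTransGen (FAdj S) A B) : ∃ g : G, B = conjBy A g := by
  induction h with
  | refl => exact ⟨1, (cb_one A).symm⟩
  | @tail C D _ hstep ih =>
    obtain ⟨g, rfl⟩ := ih
    obtain ⟨-, -, hr⟩ := hstep
    obtain ⟨b, hb, hb1⟩ := r1_ne_bot_left hr
    obtain ⟨d, hd, -, hbd⟩ := hr.cond_left b hb hb1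
    refine ⟨b * d⁻¹ * g, ?_⟩
    have : D = conjBy (conjBy (conjBy A g) d⁻¹) b := by
      rw [hbd, cb_cb, mul_inv_cancel, cb_one]
    rw [this, cb_cb, cb_cb]

theorem s32_forward {S : Set (Subgroup G)} (h2 : ∃ A ∈ S, ∃ B ∈ S, A ≠ B)
    (hconn : IsConnectedFamily (FAdj S) S) :
    IsConjClassOfSubgroups S ∧ ∃ A ∈ S, ¬ IsIsolatedIn (FAdj S) S A := by
  obtain ⟨A, hA, B, hB, hAB⟩ := h2
  refine ⟨⟨⟨A, hA⟩, fun X hX Y hY => s32_conj_of_rtg (hconn X hX Y hY)⟩, A, hA, ?_⟩
  intro hiso
  rcases Relation.ReflTransGen.cases_head (hconn A hA B hB) with h | ⟨C, hC, -⟩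
  · exact hAB h
  · exact (hiso.2 C).1 hC

/-- In a set of root subgroups all of whose members are non-isolated, members of different
components commute. -/
theorem s32_commute {S : Set (Subgroup G)} (hS : IsRootSubgroupSet S)
    (hall : ∀ X ∈ S, ¬ IsIsolatedIn (FAdj S) S X) {M D : Subgroup G} (hM : M ∈ S) (hD : D ∈ S)
    (hne : componentOf (FAdj S) S M ≠ componentOf (FAdj S) S D) : ⁅M, D⁆ = ⊥ := by
  have hbig : ∀ X ∈ S, ∃ X' ∈ componentOf (FAdj S) S X, X' ≠ X := by
    intro X hX
    obtain ⟨C, hC, hXC⟩ := rs_not_isolated (hall X hX) hX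
    exact ⟨C, ⟨hC, Relation.ReflTransGen.single ⟨hX, hC, hXC⟩⟩, hXC.ne.symm⟩
  rcases hS.pair M hM D hD with h | h | h
  · exact h
  · exfalso; exact hne (comp_eq_of_rtg fadj_symm (Relation.ReflTransGen.single ⟨hM, hD, h⟩))
  · exfalso
    have hE := h.1
    have hl1 := rl_line hS (hall M hM) hM hD hE
    have hE' : ⁅D, M⁆ ∈ S := by rw [Subgroup.commutator_comm D M]; exact hE
    have hl2 := rl_line hS (hall D hD) hD hM hE'
    rw [Subgroup.commutator_comm D M] at hl2
    have hEM : ⁅M, D⁆ ∈ linePartners S M :=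
      ⟨⟨hE, fun h' => hl1.2.2.1.1.2.1 h'.symm,
        by rw [Subgroup.commutator_comm M ⁅M, D⁆]; exact hl1.2.2.1.1.2.2⟩, hl1.2.1⟩
    have hED : ⁅M, D⁆ ∈ linePartners S D :=
      ⟨⟨hE, fun h' => hl2.2.2.1.1.2.1 h'.symm,
        by rw [Subgroup.commutator_comm D ⁅M, D⁆]; exact hl2.2.2.1.1.2.2⟩, hl2.2.1⟩
    by_cases hc : componentOf (FAdj S) S M = componentOf (FAdj S) S ⁅M, D⁆
    · have hc' : componentOf (FAdj S) S D ≠ componentOf (FAdj S) S ⁅M, D⁆ :=
        fun h' => hne (hc.trans h'.symm)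
      exact s31_main hS hD hE hc' (hbig D hD) (hbig _ hE) hED
    · exact s31_main hS hM hE hc (hbig M hM) (hbig _ hE) hEM

theorem s32_conj_rtg {S : Set (Subgroup G)} (hS : IsRootSubgroupSet S) (m : G) {X Y : Subgroup G}
    (h : Relation.ReflTransGen (FAdj S) X Y) :
    Relation.ReflTransGen (FAdj S) (conjBy X m) (conjBy Y m) := by
  induction h with
  | refl => exact Relation.ReflTransGen.refl
  | tail _ hst ih =>
    exact ih.tail ⟨hS.conj_mem _ hst.1 m, hS.conj_mem _ hst.2.1 m, rl_conj_rankOne hst.2.2 m⟩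

/-- If all members are non-isolated, each component is invariant under conjugation. -/
theorem s32_invariant {S : Set (Subgroup G)} (hS : IsRootSubgroupSet S)
    (hall : ∀ X ∈ S, ¬ IsIsolatedIn (FAdj S) S X) {A : Subgroup G} (hA : A ∈ S) :
    ∀ g : G, ∀ D ∈ componentOf (FAdj S) S A, conjBy D g ∈ componentOf (FAdj S) S A := by
  have hstep : ∀ M ∈ S, ∀ m ∈ M, ∀ D ∈ componentOf (FAdj S) S A,
      conjBy D m ∈ componentOf (FAdj S) S A := by
    intro M hM m hm D hD
    by_cases hMΔ : M ∈ componentOf (FAdj S) S A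
    · have h1 := s32_conj_rtg hS m hMΔ.2
      rw [cb_of_mem hm] at h1
      have h2 := s32_conj_rtg hS m hD.2
      have h3 : Relation.ReflTransGen (FAdj S) M (conjBy A m) := rtg_symm fadj_symm h1
      exact ⟨hS.conj_mem D hD.1 m, (hMΔ.2.trans h3).trans h2⟩
    · have hne : componentOf (FAdj S) S M ≠ componentOf (FAdj S) S D := by
        intro h
        apply hMΔ
        have hDA : componentOf (FAdj S) S A = componentOf (FAdj S) S D :=
          comp_eq_of_rtg fadj_symm hD.2
        have : M ∈ componentOf (FAdj S) S M := ⟨hM, Relation.ReflTransGen.refl⟩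
        rw [h, ← hDA] at this
        exact this
      have hc := s32_commute hS hall hM hD.1 hne
      have : conjBy D m = D := cb_of_centralizes (fun x hx => (cc_comm_of_bot hc hm hx).symm)
      rw [this]; exact hD
  let T : Subgroup G :=
    { carrier := {g | ∀ D ∈ componentOf (FAdj S) S A,
        conjBy D g ∈ componentOf (FAdj S) S A ∧ conjBy D g⁻¹ ∈ componentOf (FAdj S) S A}
      mul_mem' := by
        intro x y hx hy D hD
        constructor
        · rw [← cb_cb]; exact (hx _ (hy D hD).1).1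
        · rw [mul_inv_rev, ← cb_cb]; exact (hy _ (hx D hD).2).2
      one_mem' := by
        intro D hD
        rw [inv_one, cb_one]; exact ⟨hD, hD⟩
      inv_mem' := by
        intro x hx D hD
        exact ⟨(hx D hD).2, by rw [inv_inv]; exact (hx D hD).1⟩ }
  have hT : ∀ M ∈ S, M ≤ T :=
    fun M hM m hm D hD => ⟨hstep M hM m hm D hD, hstep M hM m⁻¹ (inv_mem hm) D hD⟩
  have htop : (⊤ : Subgroup G) ≤ T := by rw [← hS.generates]; exact iSup₂_le hT
  intro g D hD
  exact (htop (Subgroup.mem_top g) D hD).1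

theorem s32_backward {S : Set (Subgroup G)} (hS : IsRootSubgroupSet S)
    (hcl : IsConjClassOfSubgroups S) (hni : ∃ A ∈ S, ¬ IsIsolatedIn (FAdj S) S A) :
    IsConnectedFamily (FAdj S) S := by
  obtain ⟨A₀, hA₀, hA₀ni⟩ := hni
  have hall : ∀ X ∈ S, ¬ IsIsolatedIn (FAdj S) S X := by
    intro X hX
    obtain ⟨g, rfl⟩ := hcl.2 A₀ hA₀ X hX
    exact rl_not_isolated_conj hS hA₀ni hA₀ g
  intro A hA B hB
  obtain ⟨g, rfl⟩ := hcl.2 A hA B hB
  exact (s32_invariant hS hall hA g A ⟨hA, Relation.ReflTransGen.refl⟩).2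

end Cfsg.Agent.Lib.Helper6
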