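import Cfsg.Agent.Lib.Helper6.RootSpecial

set_option autoImplicit false
set_option linter.style.haveILetI false
set_option linter.unusedVariables false
set_option linter.unusedSimpArgs false

namespace Cfsg.Agent.Lib.Helper6

open Cfsg
open scoped commutatorElement

variable {G : Type*} [Group G] {S : Set (Subgroup G)} {A B C D : Subgroup G}

/-- In a non-degenerate class every member is non-isolated. -/
theorem nd_all_nonisolated (hS : IsRootSubgroupClass S) (hnd : IsNondegenerateRootSet S) :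
    ∀ X ∈ S, ¬ IsIsolatedIn (FAdj S) S X := by
  obtain ⟨A₀, hA₀, B₀, hB₀, hr⟩ := hnd.2.1
  intro X hX
  obtain ⟨g, rfl⟩ := hS.2.2 A₀ hA₀ X hX
  exact rl_not_isolated_conj hS.1 (rl_not_isolated_of_rankOne hA₀ hB₀ hr) hA₀ g

theorem nd_fconnected (hS : IsRootSubgroupClass S) (hnd : IsNondegenerateRootSet S) :
    IsConnectedFamily (FAdj S) S := by
  obtain ⟨A₀, hA₀, B₀, hB₀, hr⟩ := hnd.2.1
  exact s32_backward hS.1 hS.2 ⟨A₀, hA₀, rl_not_isolated_of_rankOne hA₀ hB₀ hr⟩

/-- An `F`-edge gives an `E`-path of length three. -/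
theorem s41_edge (hS : IsRootSubgroupClass S) (hnd : IsNondegenerateRootSet S)
    (h : FAdj S A B) : Relation.ReflTransGen (EAdj S S) A B := by
  obtain ⟨hA, hB, hAB⟩ := h
  have hni := nd_all_nonisolated hS hnd
  obtain ⟨⟨C, hCl, hC, hBC⟩, -⟩ := s34_main hS hnd hA ⟨hB, hAB⟩
  have hCB : ⁅C, B⁆ ∈ S := by rw [Subgroup.commutator_comm C B]; exact hBC
  have e1 : EAdj S S A C := ⟨hA, hC, hCl⟩
  have e2 : EAdj S S C ⁅C, B⁆ := ⟨hC, hCB, rl_line_partner hS.1 (hni C hC) hC hB hCB⟩
  have e3 : EAdj S S ⁅C, B⁆ B := by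
    refine ⟨hCB, hB, ?_⟩
    have := (rl_line hS.1 (hni B hB) hB hC hBC).2.2.1
    rwa [Subgroup.commutator_comm B C] at this
  exact ((Relation.ReflTransGen.single e1).tail e2).tail e3

theorem s41_path (hS : IsRootSubgroupClass S) (hnd : IsNondegenerateRootSet S) {X Y : Subgroup G}
    (h : Relation.ReflTransGen (FAdj S) X Y) : Relation.ReflTransGen (EAdj S S) X Y := by
  induction h with
  | refl => exact Relation.ReflTransGen.refl
  | tail _ hstep ih => exact ih.trans (s41_edge hS hnd hstep)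

theorem s41_path' {X Y : Subgroup G}
    (h : Relation.ReflTransGen (EAdj S S) X Y) : Relation.ReflTransGen (DAdj S) X Y := by
  induction h with
  | refl => exact Relation.ReflTransGen.refl
  | tail _ hXY ih =>
    exact ih.tail ⟨hXY.1, hXY.2.1, fun h => hXY.2.2.1.2.1 h.symm, hXY.2.2.1.2.2⟩

theorem s41_main (hS : IsRootSubgroupClass S) (hnd : IsNondegenerateRootSet S) :
    IsConnectedFamily (EAdj S S) S ∧ IsConnectedFamily (DAdj S) S := by
  have hF := nd_fconnected hS hnd
  exact ⟨fun A hA B hB => s41_path hS hnd (hF A hA B hB),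
    fun A hA B hB => s41_path' (s41_path hS hnd (hF A hA B hB))⟩

end Cfsg.Agent.Lib.Helper6
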