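import Cfsg.Agent.Lib.Helper6.RootTrans2
import Cfsg.Agent.Lib.Helper6.RootELine

set_option autoImplicit false
set_option linter.style.haveILetI false
set_option linter.unusedVariables false
set_option linter.unusedSimpArgs false

namespace Cfsg.Agent.Lib.Helper6

open Cfsg
open scoped commutatorElement

variable {G : Type*} [Group G] {S : Set (Subgroup G)} {A B C D : Subgroup G}

theorem lp_symm (hA : A ∈ S) (h : B ∈ linePartners S A) : A ∈ linePartners S B := by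
  obtain ⟨⟨hBS, hBA, hAB⟩, hpart⟩ := h
  exact ⟨⟨hA, fun h => hBA h.symm, by rw [Subgroup.commutator_comm B A]; exact hAB⟩,
    by rw [sup_comm B A]; exact hpart⟩

theorem lp_conj (hS : IsRootSubgroupSet S) (hF : ∀ X ∈ S, ¬ IsIsolatedIn (FAdj S) S X)
    (h : C ∈ linePartners S A) (g : G) : conjBy C g ∈ linePartners S (conjBy A g) := by
  obtain ⟨⟨hCS, hCA, hAC⟩, hp1, hp2, hp3⟩ := h
  have hsup : conjBy A g ⊔ conjBy C g = conjBy (A ⊔ C) g := (Subgroup.map_sup _ _ _).symm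
  refine ⟨⟨hS.conj_mem C hCS g, fun h' => hCA (cb_inj h'), ?_⟩, ?_, ?_, ?_⟩
  · have : ⁅conjBy A g, conjBy C g⁆ = conjBy ⁅A, C⁆ g := (Subgroup.map_commutator _ _ _).symm
    rw [this, hAC]; exact Subgroup.map_bot _
  · intro X hX; exact hX.2
  · intro x hx hx1
    rw [hsup, cb_mem] at hx
    have hx1' : g⁻¹ * x * g ≠ 1 := by
      intro h'; apply hx1
      have : x = g * (g⁻¹ * x * g) * g⁻¹ := by group
      rw [this, h']; group
    obtain ⟨X, ⟨hXS, hXle⟩, hxX⟩ := hp2 _ hx hx1'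
    refine ⟨conjBy X g, ⟨hS.conj_mem X hXS g, ?_⟩, cb_mem.mpr hxX⟩
    rw [hsup]; exact Subgroup.map_mono hXle
  · intro X hX Y hY hXY
    rcases rs_inf_eq_bot hS (hF X hX.1) hX.1 Y hY.1 with h' | h'
    · exact h'
    · exact absurd h' hXY

/-- `M` is `H`-good: its line partners lie in `H` and it has a rank one partner inside `H`. -/
def HGood (S : Set (Subgroup G)) (H M : Subgroup G) : Prop :=
  (∀ C ∈ linePartners S M, C ≤ H) ∧ ∃ D ∈ S, D ≤ H ∧ IsRankOnePair M D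

theorem good_conj (hS : IsRootSubgroupSet S) (hF : ∀ X ∈ S, ¬ IsIsolatedIn (FAdj S) S X)
    {H M : Subgroup G} (hM : HGood S H M) {x : G} (hx : x ∈ H) : HGood S H (conjBy M x) := by
  obtain ⟨h1, D, hD, hDH, hMD⟩ := hM
  refine ⟨?_, conjBy D x, hS.conj_mem D hD x, cb_le_sup hDH hx, rl_conj_rankOne hMD x⟩
  intro C hC
  have h2 := lp_conj hS hF hC x⁻¹
  rw [cb_cb, inv_mul_cancel, cb_one] at h2
  have h3 := h1 _ h2
  have h4 : C = conjBy (conjBy C x⁻¹) x := by rw [cb_cb, mul_inv_cancel, cb_one]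
  rw [h4]; exact cb_le_sup h3 hx

/-- Every line through `A` is `A [A, [L, D]]` for a given rank one partner `D` of `A`. -/
theorem s42_step (hS : IsRootSubgroupSet S) (hF : ∀ X ∈ S, ¬ IsIsolatedIn (FAdj S) S X)
    (hA : A ∈ S) (hD : D ∈ S) (hAD : IsRankOnePair A D) (hB : B ∈ linePartners S A) :
    ∃ L ∈ S, L ≤ A ⊔ B ∧ ⁅L, D⁆ ∈ S ∧ ⁅A, ⁅L, D⁆⁆ = L ∧ A ⊔ L = A ⊔ B := by
  obtain ⟨L, hL, hLle, hAL, hLD, q, hq, hq1, a, ha, hqa⟩ := s38_exists_L hS hA hD hAD hB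
  obtain ⟨⟨hBS, hBA, hAB⟩, hpart⟩ := hB
  have hroot : ∀ a ∈ A, ∀ l ∈ L, a * l ≠ 1 → a * l ∈ rootElements S := by
    intro a' ha' l hl hne
    obtain ⟨M', ⟨hM', -⟩, hmem⟩ := hpart.2.1 (a' * l)
      (mul_mem (Subgroup.mem_sup_left ha') (hLle hl)) hne
    exact ⟨hne, M', hM', hmem⟩
  have hK := lk_eq hS hA hD hL hAD hAL (hF L hL) hroot hLD
  have hATL : ⁅A, ⁅L, D⁆⁆ = L := by rw [Subgroup.commutator_comm A ⁅L, D⁆]; exact hK
  refine ⟨L, hL, hLle, hLD, hATL, ?_⟩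
  apply le_antisymm (sup_le le_sup_left hLle)
  apply sup_le le_sup_left
  have hATS : ⁅A, ⁅L, D⁆⁆ ∈ S := by rw [hATL]; exact hL
  have hl := rl_line hS (hF A hA) hA hLD hATS
  rw [hATL] at hl
  have hqAL : q ∈ A ⊔ L := by
    have : q = (q * a) * a⁻¹ := by group
    rw [this]
    exact mul_mem (Subgroup.mem_sup_right hqa) (Subgroup.mem_sup_left (inv_mem ha))
  obtain ⟨M', ⟨hM', hM'le⟩, hqM'⟩ := hl.2.1.2.1 q hqAL hq1
  rcases rs_inf_eq_bot hS (hF B hBS) hBS M' hM' with h | h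
  · exfalso
    have : q ∈ B ⊓ M' := Subgroup.mem_inf.mpr ⟨hq, hqM'⟩
    rw [h, Subgroup.mem_bot] at this
    exact hq1 this
  · rw [h]; exact hM'le

theorem s42_exists_U (hS : IsRootSubgroupSet S) (hF : ∀ X ∈ S, ¬ IsIsolatedIn (FAdj S) S X)
    {L M : Subgroup G} (hL : L ∈ S) (hM : M ∈ linePartners S L) : ∃ U ∈ S, ⁅L, U⁆ = M := by
  obtain ⟨L₂, hL₂, T₂, hT₂, hL₂le, hLT, hsup⟩ := s38_step hS hF hL hM
  have hLT₂S : ⁅L, T₂⁆ ∈ S := by rw [hLT]; exact hL₂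
  have hcc := rl_comm_case hS hL hT₂ hLT₂S
  have hne : L ≠ L₂ := by have := rl_ne hS hcc; rwa [hLT] at this
  have hML : M ≠ L := hM.1.2.1
  have h1 : L ∈ membersIn S (L ⊔ M) := ⟨hL, le_sup_left⟩
  have h2 : L₂ ∈ membersIn S (L ⊔ M) := ⟨hL₂, hL₂le⟩
  have h3 : M ∈ membersIn S (L ⊔ M) := ⟨hM.1.1, le_sup_right⟩
  obtain ⟨x, -, hx1, hx2⟩ := s38_main hS hF hL hM L h1 L₂ h2 L h1 M h3 hne (fun h => hML h.symm)
  refine ⟨conjBy T₂ x, hS.conj_mem T₂ hT₂ x, ?_⟩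
  have : conjBy ⁅L, T₂⁆ x = ⁅conjBy L x, conjBy T₂ x⁆ := Subgroup.map_commutator _ _ _
  rw [hLT, hx2, hx1] at this
  exact this.symm

theorem s42_conj_ne (hS : IsRootSubgroupSet S) (hAni : ¬ IsIsolatedIn (FAdj S) S A) (hA : A ∈ S)
    {T : Subgroup G} (hT : T ∈ S) (hAT : ⁅A, T⁆ ∈ S) {t : G} (ht : t ∈ T) (ht1 : t ≠ 1) :
    conjBy A t ≠ A := by
  intro h
  have hcc := rl_comm_case hS hA hT hAT
  obtain ⟨a, ha0⟩ := (Subgroup.ne_bot_iff_exists_ne_one).mp (hS.ne_bot A hA)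
  have ha1 : (a : G) ≠ 1 := fun h' => ha0 (Subtype.ext h')
  have h1 : t * a * t⁻¹ ∈ A := by
    have := cb_mem' (A := A) (g := t) a.2
    rwa [h] at this
  have h2 : t * a * t⁻¹ * (a : G)⁻¹ ∈ A ⊓ ⁅A, T⁆ := by
    refine Subgroup.mem_inf.mpr ⟨mul_mem h1 (inv_mem a.2), ?_⟩
    have := cc_comm_mem (A := T) (B := A) ht a.2
    rwa [Subgroup.commutator_comm T A] at this
  rcases rs_inf_eq_bot hS hAni hA _ hAT with h3 | h3
  · rw [h3, Subgroup.mem_bot] at h2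
    apply rl_no_commute hS hAni hA hcc a.2 ha1 ht ht1
    calc (a : G) * t = (t * a * t⁻¹ * (a : G)⁻¹)⁻¹ * (t * a) := by group
      _ = t * a := by rw [h2, inv_one, one_mul]
  · exact rl_ne hS hcc h3

theorem good_step (hS : IsRootSubgroupSet S) (hF : ∀ X ∈ S, ¬ IsIsolatedIn (FAdj S) S X)
    {H M : Subgroup G} (hM : M ∈ S) (hg : HGood S H M) (hC : C ∈ linePartners S M) :
    HGood S H C := by
  have hgood := hg
  obtain ⟨hΛ, D, hD, hDH, hMD⟩ := hg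
  obtain ⟨L, hL, hLle, hT, hMT, hsup⟩ := s42_step hS hF hM hD hMD hC
  have hMTS : ⁅M, ⁅L, D⁆⁆ ∈ S := by rw [hMT]; exact hL
  have hl := rl_line hS (hF M hM) hM hT hMTS
  have hLΛ : L ∈ linePartners S M := by
    have := rl_line_partner hS (hF M hM) hM hT hMTS
    rwa [hMT] at this
  rw [hMT] at hl
  have hLH : L ≤ H := hΛ L hLΛ
  have hTH : ⁅L, D⁆ ≤ H := rl_comm_le.trans (sup_le hLH hDH)
  have hpts : ∀ X ∈ membersIn S (M ⊔ L), X ≠ L → HGood S H X := by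
    intro X hX hne
    rw [hl.1] at hX
    rcases hX with ⟨t, ht, rfl⟩ | h
    · exact good_conj hS hF hgood (hTH ht)
    · exact absurd h hne
  by_cases hCL : C = L
  · rw [hCL]
    have hML : M ∈ linePartners S L := lp_symm hM hLΛ
    obtain ⟨U, hU, hLU⟩ := s42_exists_U hS hF hL hML
    have hUL : ⁅U, L⁆ ∈ S := by rw [Subgroup.commutator_comm U L, hLU]; exact hM
    have hUΛ : U ∈ linePartners S M := by
      have := (rl_line hS (hF U hU) hU hL hUL).2.2.1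
      rwa [Subgroup.commutator_comm U L, hLU] at this
    have hUH : U ≤ H := hΛ U hUΛ
    obtain ⟨u, hu0⟩ := (Subgroup.ne_bot_iff_exists_ne_one).mp (hS.ne_bot U hU)
    have hu1 : (u : G) ≠ 1 := fun h' => hu0 (Subtype.ext h')
    have hLUS : ⁅L, U⁆ ∈ S := by rw [hLU]; exact hM
    have hl2 := rl_line hS (hF L hL) hL hU hLUS
    rw [hLU] at hl2
    have hmem : conjBy L (u : G) ∈ membersIn S (M ⊔ L) := by
      rw [sup_comm, hl2.1]; exact Or.inl ⟨u, u.2, rfl⟩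
    have hne : conjBy L (u : G) ≠ L := s42_conj_ne hS (hF L hL) hL hU hLUS u.2 hu1
    have hg1 := hpts _ hmem hne
    have hg2 := good_conj hS hF hg1 (inv_mem (hUH u.2))
    rwa [cb_cb, inv_mul_cancel, cb_one] at hg2
  · exact hpts C ⟨hC.1.1, by rw [hsup]; exact le_sup_right⟩ hCL

/-- S5042. -/
theorem s42_main (hS : IsRootSubgroupClass S) (hnd : IsNondegenerateRootSet S)
    (hA : A ∈ S) (hB : B ∈ rankOnePartners S A) :
    (⨆ C ∈ linePartners S A, C) ⊔ B = ⊤ := by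
  have hF := nd_all_nonisolated hS hnd
  have hS' := hS.1
  have hgA : HGood S ((⨆ C ∈ linePartners S A, C) ⊔ B) A :=
    ⟨fun C hC => le_sup_of_le_left (le_biSup (fun C => C) hC), B, hB.1, le_sup_right, hB.2⟩
  have hall : ∀ M, Relation.ReflTransGen (EAdj S S) A M →
      HGood S ((⨆ C ∈ linePartners S A, C) ⊔ B) M := by
    intro M hrt
    induction hrt with
    | refl => exact hgA
    | tail _ hstep ih => exact good_step hS' hF hstep.1 ih hstep.2.2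
  have hle : ∀ M ∈ S, M ≤ (⨆ C ∈ linePartners S A, C) ⊔ B := by
    intro M hM
    obtain ⟨D, hD, hMD⟩ := rs_not_isolated (hF M hM) hM
    obtain ⟨⟨C, hC, -⟩, -⟩ := s34_main hS hnd hM ⟨hD, hMD⟩
    have hgC := hall C ((s41_main hS hnd).1 A hA C hC.1.1)
    exact hgC.1 M (lp_symm hM hC)
  rw [eq_top_iff, ← hS'.generates]
  exact iSup₂_le hle

end Cfsg.Agent.Lib.Helper6
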