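import Mathlib
import Cfsg.Prelude
import Cfsg.Agent.Lib.Helper5.BaerSuzuki
import Cfsg.Agent.Lib.Helper5.Dih

set_option autoImplicit false

namespace Cfsg.Agent.Lib.Helper6

open Cfsg

section
variable {G : Type*} [Group G]

theorem ri_sq {D : Set G} (hD : IsRootInvolutionSet D) {d : G} (hd : d ∈ D) : d * d = 1 :=
  Cfsg.Agent.Lib.Helper5.sq_of_order_two (hD.orderOf_eq d hd)

theorem ri_inv {D : Set G} (hD : IsRootInvolutionSet D) {d : G} (hd : d ∈ D) : d⁻¹ = d :=
  Cfsg.Agent.Lib.Helper5.inv_of_order_two (hD.orderOf_eq d hd)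

theorem ri_ne_one {D : Set G} (hD : IsRootInvolutionSet D) {d : G} (hd : d ∈ D) : d ≠ 1 :=
  Cfsg.Agent.Lib.Helper5.ne_one_of_order_two (hD.orderOf_eq d hd)

theorem ri_ord_conj (g x : G) : orderOf (g * x * g⁻¹) = orderOf x := by
  simpa using (MulAut.conj g).orderOf_eq x

theorem ri_ord_comm (a b : G) : orderOf (b * a) = orderOf (a * b) := by
  have h := ri_ord_conj a⁻¹ (a * b)
  rw [← h]
  congr 1
  group

theorem oa_symm {D : Set G} {a b : G} (h : OddAdj D a b) : OddAdj D b a := by
  obtain ⟨ha, hb, hne, ho⟩ := h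
  refine ⟨hb, ha, hne.symm, ?_⟩
  rwa [ri_ord_comm]

theorem oa_conj {D : Set G} (hD : IsRootInvolutionSet D) {a b : G} (h : OddAdj D a b) (g : G) :
    OddAdj D (g * a * g⁻¹) (g * b * g⁻¹) := by
  obtain ⟨ha, hb, hne, ho⟩ := h
  refine ⟨hD.conj_mem a ha g, hD.conj_mem b hb g, ?_, ?_⟩
  · intro h
    apply hne
    have := congrArg (fun t => g⁻¹ * t * g) h
    simpa [mul_assoc] using this
  · have : g * a * g⁻¹ * (g * b * g⁻¹) = g * (a * b) * g⁻¹ := by group
    rw [this, ri_ord_conj]
    exact ho

theorem oa_rtg_symm {D : Set G} {a b : G} (h : Relation.ReflTransGen (OddAdj D) a b) :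
    Relation.ReflTransGen (OddAdj D) b a := by
  induction h with
  | refl => exact Relation.ReflTransGen.refl
  | tail _ hbc ih => exact Relation.ReflTransGen.head (oa_symm hbc) ih

theorem oa_comp_eq {D : Set G} {a b : G} (h : Relation.ReflTransGen (OddAdj D) a b) :
    elemComponentOf (OddAdj D) D a = elemComponentOf (OddAdj D) D b := by
  ext c
  constructor
  · rintro ⟨hc, hac⟩
    exact ⟨hc, (oa_rtg_symm h).trans hac⟩
  · rintro ⟨hc, hbc⟩
    exact ⟨hc, h.trans hbc⟩

/-- step 1: an involution commuting with `a` and with `c`, whose product with `a` still satisfies the pair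
condition with `c`, cannot exist when `a c` has odd order `≠ 1`. -/
theorem ri_step1 {x a c : G} (hx : x * x = 1) (hx1 : x ≠ 1) (hxa : Commute x a)
    (k : ℕ) (hk : (a * c) ^ (2 * k + 1) = 1) (hac : a * c ≠ 1)
    (hpair : (x * a * c) * (x * a * c) = 1 ∨ Odd (orderOf (x * a * c)) ∨ orderOf (x * a * c) = 4) :
    ¬ Commute x c := by
  intro hxc
  have hxr : Commute x (a * c) := hxa.mul_right hxc
  have hg : x * a * c = x * (a * c) := mul_assoc _ _ _
  have hpow : ∀ n : ℕ, (x * a * c) ^ n = x ^ n * (a * c) ^ n := by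
    intro n
    rw [hg, hxr.mul_pow]
  have hx2 : ∀ n : ℕ, x ^ (2 * n) = 1 := by
    intro n
    rw [pow_mul, pow_two, hx, one_pow]
  have hr1 : ∀ n : ℕ, (a * c) ^ n = 1 → orderOf (a * c) ∣ n := fun n h => orderOf_dvd_of_pow_eq_one h
  have hodd := hr1 _ hk
  have hone : ∀ n : ℕ, orderOf (a * c) ∣ n → orderOf (a * c) ∣ 2 * k + 1 → n ≤ 4 → 0 < n → Even n →
      False := by
    intro n h1 h2 h3 h4 h5
    have hpos : 0 < orderOf (a * c) := Nat.pos_of_dvd_of_pos h1 h4
    have hle : orderOf (a * c) ≤ n := Nat.le_of_dvd h4 h1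
    have hne1 : orderOf (a * c) ≠ 1 := by
      intro h
      exact hac (orderOf_eq_one_iff.mp h)
    obtain ⟨j, hj⟩ := h5
    interval_cases n <;> interval_cases h : orderOf (a * c) <;> omega
  rcases hpair with h | h | h
  · have h2 : (x * a * c) ^ 2 = 1 := by rw [pow_two]; exact h
    have hxx : x ^ 2 = 1 := by rw [pow_two]; exact hx
    rw [hpow, hxx, one_mul] at h2
    exact hone 2 (hr1 _ h2) hodd (by norm_num) (by norm_num) (by decide)
  · obtain ⟨j, hj⟩ := h
    have h3 : (x * a * c) ^ (2 * j + 1) = 1 := by rw [← hj]; exact pow_orderOf_eq_one _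
    rw [hpow, pow_succ, hx2 j, one_mul] at h3
    have h4 : x = ((a * c) ^ (2 * j + 1))⁻¹ := eq_inv_of_mul_eq_one_left h3
    have h5 : x ^ (2 * k + 1) = 1 := by
      rw [h4, inv_pow, ← pow_mul, mul_comm, pow_mul, hk, one_pow, inv_one]
    rw [pow_succ, hx2 k, one_mul] at h5
    exact hx1 h5
  · have h4 : (x * a * c) ^ 4 = 1 := by rw [← h]; exact pow_orderOf_eq_one _
    have hxx : x ^ 4 = 1 := hx2 2
    rw [hpow, hxx, one_mul] at h4
    exact hone 4 (hr1 _ h4) hodd (by norm_num) (by norm_num) (by decide)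

/-- step 3: the two remaining members of a four-group cannot both have product of order four with `c`. -/
theorem ri_step3 {x a c : G} (hx : x * x = 1) (ha : a * a = 1) (hc : c * c = 1) (hxa : Commute x a)
    (k : ℕ) (hk : (a * c) ^ (2 * k + 1) = 1)
    (h1 : (x * c) ^ 4 = 1) (h2 : (x * a * c) ^ 4 = 1) : a * c = 1 := by
  have hxinv : x⁻¹ = x := inv_eq_of_mul_eq_one_left hx
  have hainv : a⁻¹ = a := inv_eq_of_mul_eq_one_left ha
  have hcinv : c⁻¹ = c := inv_eq_of_mul_eq_one_left hc
  have hax : a * x = x * a := hxa.eq.symm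
  have key : ∀ y : G, y * y = 1 → (y * c) ^ 4 = 1 → Commute (y * c * y) c := by
    intro y hy h
    have hyinv : y⁻¹ = y := inv_eq_of_mul_eq_one_left hy
    have h4 : (y * c * y * c) * (y * c * y * c) = 1 := by
      have : (y * c) ^ 4 = (y * c * y * c) * (y * c * y * c) := by
        simp only [pow_succ, pow_zero, one_mul, mul_assoc]
      rw [← this]; exact h
    have h5 : y * c * y * c = (y * c * y * c)⁻¹ := eq_inv_of_mul_eq_one_left h4
    rw [mul_inv_rev, mul_inv_rev, mul_inv_rev, hyinv, hcinv] at h5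
    show y * c * y * c = c * (y * c * y)
    rw [h5]
    simp only [mul_assoc]
  have hP1 : Commute (x * c * x) c := key x hx h1
  have hy : (x * a) * (x * a) = 1 := by
    calc (x * a) * (x * a) = x * (a * x) * a := by simp only [mul_assoc]
      _ = x * (x * a) * a := by rw [hax]
      _ = (x * x) * (a * a) := by simp only [mul_assoc]
      _ = 1 := by rw [hx, ha, one_mul]
  have hQ : Commute (x * a * c * (x * a)) c := key (x * a) hy h2
  have hP2 : Commute (x * c * x) (a * c * a) := by
    have e1 : x * a * c * (x * a) = x * (a * c * a) * x := by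
      calc x * a * c * (x * a) = x * a * c * (a * x) := by rw [hax]
        _ = x * (a * c * a) * x := by simp only [mul_assoc]
    rw [e1] at hQ
    have e2 : x * c * x = x * c * x⁻¹ := by rw [hxinv]
    have e3 : a * c * a = x * (x * (a * c * a) * x) * x⁻¹ := by
      rw [hxinv]
      calc a * c * a = (x * x) * (a * c * a) * (x * x) := by rw [hx, one_mul, mul_one]
        _ = x * (x * (a * c * a) * x) * x := by simp only [mul_assoc]
    rw [e2, e3]
    exact (Commute.conj_iff x).mpr hQ.symm
  have hP3 : Commute (x * c * x) ((a * c) ^ 2) := by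
    have : (a * c) ^ 2 = (a * c * a) * c := by rw [pow_two]; simp only [mul_assoc]
    rw [this]
    exact hP2.mul_right hP1
  have hP4 : Commute (x * c * x) (a * c) := by
    have h := hP3.pow_right (k + 1)
    have e : ((a * c) ^ 2) ^ (k + 1) = a * c := by
      rw [← pow_mul]
      have : 2 * (k + 1) = (2 * k + 1) + 1 := by ring
      rw [this, pow_succ, hk, one_mul]
    rwa [e] at h
  have hP5 : Commute (x * c * x) a := by
    have h := hP4.mul_right hP1
    have e : a * c * c = a := by rw [mul_assoc, hc, mul_one]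
    rwa [e] at h
  have hP6 : (x * c * x) * (x * c * x) = 1 := by
    calc (x * c * x) * (x * c * x) = x * c * (x * x) * c * x := by simp only [mul_assoc]
      _ = x * (c * c) * x := by rw [hx, mul_one]; simp only [mul_assoc]
      _ = 1 := by rw [hc, mul_one, hx]
  have h7 : (a * (x * c * x)) * (a * (x * c * x)) = 1 := by
    calc (a * (x * c * x)) * (a * (x * c * x)) = a * ((x * c * x) * a) * (x * c * x) := by
          simp only [mul_assoc]
      _ = a * (a * (x * c * x)) * (x * c * x) := by rw [hP5.eq]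
      _ = (a * a) * ((x * c * x) * (x * c * x)) := by simp only [mul_assoc]
      _ = 1 := by rw [ha, hP6, one_mul]
  have e8 : a * (x * c * x) = x * (a * c) * x := by
    calc a * (x * c * x) = (a * x) * c * x := by simp only [mul_assoc]
      _ = (x * a) * c * x := by rw [hax]
      _ = x * (a * c) * x := by simp only [mul_assoc]
  rw [e8] at h7
  have h9 : (a * c) * (a * c) = 1 := by
    have : x * (a * c) * x * (x * (a * c) * x) = x * ((a * c) * (a * c)) * x := by
      calc x * (a * c) * x * (x * (a * c) * x) = x * (a * c) * (x * x) * (a * c) * x := by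
            simp only [mul_assoc]
        _ = x * ((a * c) * (a * c)) * x := by rw [hx, mul_one]; simp only [mul_assoc]
    rw [this] at h7
    have h10 : (a * c) * (a * c) = x * (x * ((a * c) * (a * c)) * x) * x := by
      calc (a * c) * (a * c) = (x * x) * ((a * c) * (a * c)) * (x * x) := by rw [hx, one_mul, mul_one]
        _ = x * (x * ((a * c) * (a * c)) * x) * x := by simp only [mul_assoc]
    rw [h10, h7, mul_one, hx]
  have h11 : (a * c) ^ (2 * k + 1) = a * c := by
    rw [pow_succ, pow_mul, pow_two, h9, one_pow, one_mul]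
  rw [← h11]; exact hk

/-- the key lemma: a neighbour of `a` is a neighbour of `x` or of `x a`. -/
theorem ri_key {D : Set G} (hD : IsRootInvolutionSet D) {a x c : G} (ha : a ∈ D) (hx : x ∈ D)
    (hax : x * a = a * x) (hxa : x * a ∈ D) (hc : OddAdj D a c) :
    OddAdj D x c ∨ OddAdj D (x * a) c := by
  obtain ⟨_, hcD, hne, ⟨k, hk⟩⟩ := hc
  have hk' : (a * c) ^ (2 * k + 1) = 1 := by rw [← hk]; exact pow_orderOf_eq_one _
  have ha2 := ri_sq hD ha
  have hx2 := ri_sq hD hx
  have hc2 := ri_sq hD hcD
  have hy2 := ri_sq hD hxa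
  have hac : a * c ≠ 1 := by
    intro h
    apply hne
    have : a = c⁻¹ := eq_inv_of_mul_eq_one_left h
    rw [this, ri_inv hD hcD]
  have hcomm : Commute x a := hax
  have conv : ∀ y : G, y ∈ D → (y * c = c * y ∨ Odd (orderOf (y * c)) ∨ (orderOf (y * c) = 4 ∧ (y * c) ^ 2 ∈ D)) →
      (y * c) * (y * c) = 1 ∨ Odd (orderOf (y * c)) ∨ orderOf (y * c) = 4 := by
    intro y hy h
    rcases h with h | h | h
    · left
      have hyy := ri_sq hD hy
      calc (y * c) * (y * c) = y * (c * y) * c := by simp only [mul_assoc]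
        _ = y * (y * c) * c := by rw [h]
        _ = (y * y) * (c * c) := by simp only [mul_assoc]
        _ = 1 := by rw [hyy, hc2, one_mul]
    · exact Or.inr (Or.inl h)
    · exact Or.inr (Or.inr h.1)
  have nc_x : ¬ Commute x c :=
    ri_step1 hx2 (ri_ne_one hD hx) hcomm k hk' hac (conv _ hxa (hD.pair _ hxa c hcD))
  have nc_y : ¬ Commute (x * a) c := by
    have hya : Commute (x * a) a := hcomm.mul_left (Commute.refl a)
    have e : x * a * a = x := by rw [mul_assoc, ha2, mul_one]
    have hp := conv _ hx (hD.pair _ hx c hcD)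
    rw [← e] at hp
    exact ri_step1 hy2 (ri_ne_one hD hxa) hya k hk' hac hp
  rcases hD.pair x hx c hcD with h | h | ⟨h4, _⟩
  · exact absurd h nc_x
  · refine Or.inl ⟨hx, hcD, ?_, h⟩
    rintro rfl
    exact nc_x (Commute.refl x)
  · rcases hD.pair (x * a) hxa c hcD with h' | h' | ⟨h4', _⟩
    · exact absurd h' nc_y
    · refine Or.inr ⟨hxa, hcD, ?_, h'⟩
      intro hh
      rw [← hh] at nc_y
      exact nc_y (Commute.refl _)
    · exfalso
      apply hac
      refine ri_step3 hx2 ha2 hc2 hcomm k hk' ?_ ?_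
      · rw [← h4]; exact pow_orderOf_eq_one _
      · rw [← h4']; exact pow_orderOf_eq_one _

/-- two non-isolated members of a four-group inside `D ∪ {1}` are connected. -/
theorem ri_connect {D : Set G} (hD : IsRootInvolutionSet D) {a x c e : G} (ha : a ∈ D) (hx : x ∈ D)
    (hax : x * a = a * x) (hxa : x * a ∈ D) (hc : OddAdj D a c) (he : OddAdj D x e) :
    Relation.ReflTransGen (OddAdj D) a x := by
  have h1 := ri_key hD ha hx hax hxa hc
  have hxa' : a * x ∈ D := by rw [← hax]; exact hxa
  have h2 := ri_key hD hx ha hax.symm hxa' he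
  rw [← hax] at h2
  rcases h1 with h1 | h1
  · exact (Relation.ReflTransGen.single hc).tail (oa_symm h1)
  · rcases h2 with h2 | h2
    · exact (Relation.ReflTransGen.single h2).tail (oa_symm he)
    · exact (((Relation.ReflTransGen.single hc).tail (oa_symm h1)).tail h2).tail (oa_symm he)

end

end Cfsg.Agent.Lib.Helper6
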