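import Cfsg.Agent.Lib.Helper6.RootMap

set_option autoImplicit false
set_option linter.style.haveILetI false
set_option linter.unusedVariables false

namespace Cfsg.Agent.Lib.Helper6

open Cfsg
open scoped commutatorElement Pointwise

variable {G : Type*} [Group G]

theorem rl_not_isolated_of_rankOne {S : Set (Subgroup G)} {A D : Subgroup G} (hA : A ∈ S)
    (hD : D ∈ S) (hAD : IsRankOnePair A D) : ¬ IsIsolatedIn (FAdj S) S A :=
  fun h => (h.2 D).1 ⟨hA, hD, hAD⟩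

theorem rl_conj_rankOne {A D : Subgroup G} (hAD : IsRankOnePair A D) (g : G) :
    IsRankOnePair (conjBy A g) (conjBy D g) :=
  rm_rankOne_map (MulAut.conj g).toMonoidHom hAD (fun h => hAD.ne (cb_inj h))

theorem rl_not_isolated_conj {S : Set (Subgroup G)} (hS : IsRootSubgroupSet S) {A : Subgroup G}
    (hA : ¬ IsIsolatedIn (FAdj S) S A) (hAS : A ∈ S) (g : G) :
    ¬ IsIsolatedIn (FAdj S) S (conjBy A g) := by
  obtain ⟨D, hD, hAD⟩ := rs_not_isolated hA hAS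
  exact rl_not_isolated_of_rankOne (hS.conj_mem A hAS g) (hS.conj_mem D hD g)
    (rl_conj_rankOne hAD g)

/-- `⁅A, B⁆` is normalized by `A`. -/
theorem rl_comm_conj_left {A B : Subgroup G} {a : G} (ha : a ∈ A) :
    conjBy ⁅A, B⁆ a = ⁅A, B⁆ := by
  have key : ∀ a ∈ A, conjBy ⁅A, B⁆ a ≤ ⁅A, B⁆ := by
    intro a ha
    show (⁅A, B⁆).map (MulAut.conj a).toMonoidHom ≤ ⁅A, B⁆
    rw [Subgroup.map_commutator, Subgroup.commutator_le]
    rintro _ ⟨a', ha', rfl⟩ _ ⟨b, hb, rfl⟩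
    have e : ⁅(MulAut.conj a).toMonoidHom a', (MulAut.conj a).toMonoidHom b⁆ =
        ⁅a * a', b⁆ * ⁅a, b⁆⁻¹ := by
      simp only [commutatorElement_def, MulEquiv.toMonoidHom_eq_coe, MonoidHom.coe_coe,
        MulAut.conj_apply]
      group
    rw [e]
    exact mul_mem (Subgroup.commutator_mem_commutator (mul_mem ha ha') hb)
      (inv_mem (Subgroup.commutator_mem_commutator ha hb))
  apply le_antisymm (key a ha)
  have h1 := key a⁻¹ (inv_mem ha)
  intro x hx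
  rw [cb_mem]
  have h2 := h1 (cb_mem' (g := a⁻¹) hx)
  rwa [inv_inv] at h2

theorem rl_comm_conj {A B : Subgroup G} : ∀ x ∈ A ⊔ B, conjBy ⁅A, B⁆ x = ⁅A, B⁆ := by
  apply cb_sup_induction
  · intro a ha; exact rl_comm_conj_left ha
  · intro b hb
    rw [Subgroup.commutator_comm]
    exact rl_comm_conj_left hb
  · exact cb_one _
  · intro x y hx hy
    rw [← cb_cb, hy, hx]

theorem rl_comm_le {A B : Subgroup G} : ⁅A, B⁆ ≤ A ⊔ B := by
  rw [Subgroup.commutator_le]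
  intro a ha b hb
  rw [commutatorElement_def]
  exact mul_mem (mul_mem (mul_mem (Subgroup.mem_sup_left ha) (Subgroup.mem_sup_right hb))
    (inv_mem (Subgroup.mem_sup_left ha))) (inv_mem (Subgroup.mem_sup_right hb))

/-- Two members of `S` whose commutator is a member are in the commutator case. -/
theorem rl_comm_case {S : Set (Subgroup G)} (hS : IsRootSubgroupSet S) {A B : Subgroup G}
    (hAS : A ∈ S) (hB : B ∈ S) (hC : ⁅A, B⁆ ∈ S) : RootCommutatorCase S A B := by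
  rcases hS.pair A hAS B hB with h1 | h1 | h1
  · exact absurd h1 (hS.ne_bot _ hC)
  · exfalso
    have hle : ⁅A, B⁆ ≤ A ⊔ B := rl_comm_le
    have hnA : ¬ RootCommutatorCase S ⁅A, B⁆ A := rs_no_comm_case hS hC hAS hB h1 hle
    have hnB : ¬ RootCommutatorCase S ⁅A, B⁆ B :=
      rs_no_comm_case hS hC hB hAS (RankOnePair_symm h1) (by rw [sup_comm]; exact hle)
    have hCA : ⁅⁅A, B⁆, A⁆ = ⊥ := by
      rcases hS.pair _ hC A hAS with h2 | h2 | h2
      · exact h2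
      · exfalso
        have hm := rs_mem_unipotent hS hC h2 hAS hB h1 (sup_le hle le_sup_left)
        obtain ⟨x, hx, hx'⟩ := hm
        have h3 := cb_eq_iff.mp hx'.symm
        rw [rl_comm_conj x⁻¹ (inv_mem hx)] at h3
        exact h2.ne h3.symm
      · exact absurd h2 hnA
    obtain ⟨a, ha0⟩ := (Subgroup.ne_bot_iff_exists_ne_one).mp (hS.ne_bot A hAS)
    have ha1 : (a : G) ≠ 1 := fun h' => ha0 (Subtype.ext h')
    obtain ⟨b, hb, hb1, hR⟩ := h1.cond_left a a.2 ha1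
    have hb' : (a : G) * b⁻¹ * a * b * (a : G)⁻¹ ∈ B := by
      have h2 : b⁻¹ * (a : G) * b ∈ conjBy A b⁻¹ := by
        have := cb_mem' (A := A) (g := b⁻¹) a.2
        rwa [inv_inv] at this
      rw [hR, cb_mem, inv_inv] at h2
      have e : (a : G) * (b⁻¹ * a * b) * (a : G)⁻¹ = a * b⁻¹ * a * b * (a : G)⁻¹ := by group
      rwa [e] at h2
    have hz : (a : G)⁻¹ * b⁻¹ * a * b ∈ ⁅A, B⁆ := by
      have := Subgroup.commutator_mem_commutator (H₁ := A) (H₂ := B) (inv_mem a.2) (inv_mem hb)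
      rwa [commutatorElement_def, inv_inv, inv_inv] at this
    have hza : (a : G) * ((a : G)⁻¹ * b⁻¹ * a * b) = ((a : G)⁻¹ * b⁻¹ * a * b) * a := by
      have h2 := (Subgroup.commutator_eq_bot_iff_le_centralizer.mp hCA) hz
      exact Subgroup.mem_centralizer_iff.mp h2 a a.2
    have e : (a : G) * b⁻¹ * a * b * (a : G)⁻¹ = a * ((a : G)⁻¹ * b⁻¹ * a * b) := by
      calc (a : G) * b⁻¹ * a * b * (a : G)⁻¹
          = a * (a * ((a : G)⁻¹ * b⁻¹ * a * b)) * (a : G)⁻¹ := by group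
        _ = a * (((a : G)⁻¹ * b⁻¹ * a * b) * a) * (a : G)⁻¹ := by rw [hza]
        _ = a * ((a : G)⁻¹ * b⁻¹ * a * b) := by group
    have hcomm : (a : G) * ((a : G) * b⁻¹ * a * b * (a : G)⁻¹) =
        ((a : G) * b⁻¹ * a * b * (a : G)⁻¹) * a := by
      calc (a : G) * ((a : G) * b⁻¹ * a * b * (a : G)⁻¹)
          = a * (a * ((a : G)⁻¹ * b⁻¹ * a * b)) := by rw [e]
        _ = a * (((a : G)⁻¹ * b⁻¹ * a * b) * a) := by rw [hza]
        _ = (a * ((a : G)⁻¹ * b⁻¹ * a * b)) * a := by group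
        _ = ((a : G) * b⁻¹ * a * b * (a : G)⁻¹) * a := by rw [e]
    have hb'1 : (a : G) * b⁻¹ * a * b * (a : G)⁻¹ ≠ 1 := by
      intro h2
      apply ha1
      have : (a : G) = b * ((a : G)⁻¹ * ((a : G) * b⁻¹ * a * b * (a : G)⁻¹) * a) * b⁻¹ := by group
      rw [this, h2]; group
    exact r1_no_commute h1 a.2 ha1 hb' hb'1 hcomm
  · exact h1

theorem rl_ne {S : Set (Subgroup G)} (hS : IsRootSubgroupSet S) {A B : Subgroup G}
    (hcc : RootCommutatorCase S A B) : A ≠ ⁅A, B⁆ := by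
  intro h
  obtain ⟨hF, hcen, -, -⟩ := hcc
  apply hS.ne_bot _ hF
  rw [Subgroup.commutator_eq_bot_iff_le_centralizer]
  intro a ha
  rw [Subgroup.mem_centralizer_iff]
  intro b hb
  have ha' : a ∈ ⁅A, B⁆ := by rw [← h]; exact ha
  exact (hcen a ha' b (Subgroup.mem_sup_right hb)).symm

/-- In the commutator case with `A` not isolated, non-identity elements never commute. -/
theorem rl_no_commute {S : Set (Subgroup G)} (hS : IsRootSubgroupSet S) {A B : Subgroup G}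
    (hA : ¬ IsIsolatedIn (FAdj S) S A) (hAS : A ∈ S) (hcc : RootCommutatorCase S A B)
    {a b : G} (ha : a ∈ A) (ha1 : a ≠ 1) (hb : b ∈ B) (hb1 : b ≠ 1) : a * b ≠ b * a := by
  intro hab
  have hne := rl_ne hS hcc
  obtain ⟨hF, hcen, hgenA, hgenB⟩ := hcc
  have hconj : conjBy A b = A := by
    rcases rs_inf_eq_bot hS hA hAS (conjBy A b) (hS.conj_mem A hAS b) with h1 | h1
    · exfalso
      have h2 : a ∈ A ⊓ conjBy A b := by
        refine Subgroup.mem_inf.mpr ⟨ha, ?_⟩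
        rw [cb_mem]
        have : b⁻¹ * a * b = a := by rw [mul_assoc, hab, inv_mul_cancel_left]
        rw [this]; exact ha
      rw [h1, Subgroup.mem_bot] at h2
      exact ha1 h2
    · exact h1.symm
  have hle : ⁅A, B⁆ ≤ A := by
    rw [← hgenB b hb hb1, Subgroup.closure_le]
    rintro _ ⟨a', ha', rfl⟩
    have h1 : b * a'⁻¹ * b⁻¹ ∈ A := by
      have := cb_mem' (A := A) (g := b) (inv_mem ha')
      rwa [hconj] at this
    have e : a' * b * a'⁻¹ * b⁻¹ = a' * (b * a'⁻¹ * b⁻¹) := by group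
    show a' * b * a'⁻¹ * b⁻¹ ∈ A
    rw [e]; exact mul_mem ha' h1
  rcases rs_inf_eq_bot hS hA hAS _ hF with h1 | h1
  · apply hS.ne_bot _ hF
    rw [← inf_eq_right.mpr hle, h1]
  · exact hne h1

/-- In the commutator case with `A` not isolated, `b ↦ [a, b]` is an isomorphism `B → [A, B]`. -/
theorem rl_iso {S : Set (Subgroup G)} (hS : IsRootSubgroupSet S) {A B : Subgroup G}
    (hA : ¬ IsIsolatedIn (FAdj S) S A) (hAS : A ∈ S) (hcc : RootCommutatorCase S A B)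
    {a : G} (ha : a ∈ A) (ha1 : a ≠ 1) :
    ∃ φ : ↥B ≃* ↥⁅A, B⁆, ∀ b : ↥B, (φ b : G) = a⁻¹ * (b : G)⁻¹ * a * b := by
  have hcc' := hcc
  obtain ⟨hF, hcen, hgenA, hgenB⟩ := hcc
  have hmem : ∀ b ∈ B, a⁻¹ * b⁻¹ * a * b ∈ ⁅A, B⁆ := by
    intro b hb
    have := Subgroup.commutator_mem_commutator (H₁ := A) (H₂ := B) (inv_mem ha) (inv_mem hb)
    rwa [commutatorElement_def, inv_inv, inv_inv] at this
  have hmul : ∀ b b' : ↥B,
      (⟨a⁻¹ * ((b * b' : ↥B) : G)⁻¹ * a * ((b * b' : ↥B) : G), hmem _ (b * b').2⟩ : ↥⁅A, B⁆) =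
      ⟨a⁻¹ * (b : G)⁻¹ * a * b, hmem _ b.2⟩ * ⟨a⁻¹ * (b' : G)⁻¹ * a * b', hmem _ b'.2⟩ := by
    intro b b'
    apply Subtype.ext
    show a⁻¹ * ((b : G) * b')⁻¹ * a * ((b : G) * b') =
      (a⁻¹ * (b : G)⁻¹ * a * b) * (a⁻¹ * (b' : G)⁻¹ * a * b')
    have hz := hcen _ (hmem b b.2) b' (Subgroup.mem_sup_right b'.2)
    have hz2 := hcen _ (hmem b b.2) (a⁻¹ * (b' : G)⁻¹ * a * b')
      (rl_comm_le (hmem b' b'.2))
    calc a⁻¹ * ((b : G) * b')⁻¹ * a * ((b : G) * b')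
        = (a⁻¹ * (b' : G)⁻¹ * a) * ((a⁻¹ * (b : G)⁻¹ * a * b) * b') := by group
      _ = (a⁻¹ * (b' : G)⁻¹ * a) * (b' * (a⁻¹ * (b : G)⁻¹ * a * b)) := by rw [hz]
      _ = (a⁻¹ * (b' : G)⁻¹ * a * b') * (a⁻¹ * (b : G)⁻¹ * a * b) := by group
      _ = (a⁻¹ * (b : G)⁻¹ * a * b) * (a⁻¹ * (b' : G)⁻¹ * a * b') := hz2.symm
  let φ : ↥B →* ↥⁅A, B⁆ :=
    MonoidHom.mk' (fun b => ⟨a⁻¹ * (b : G)⁻¹ * a * b, hmem _ b.2⟩) hmul
  have hφ : ∀ b : ↥B, (φ b : G) = a⁻¹ * (b : G)⁻¹ * a * b := fun b => rfl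
  have hinj : Function.Injective φ := by
    rw [injective_iff_map_eq_one]
    intro b hb
    by_contra hb1
    have h1 : a⁻¹ * (b : G)⁻¹ * a * b = 1 := by
      rw [← hφ, hb]; rfl
    have h2 : a * (b : G) = b * a := by
      have : a * (b : G) = b * a * (a⁻¹ * (b : G)⁻¹ * a * b) := by group
      rw [this, h1, mul_one]
    exact rl_no_commute hS hA hAS hcc' ha ha1 b.2 (fun h => hb1 (Subtype.ext h)) h2
  have hsurj : Function.Surjective φ := by
    intro c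
    have hc : (c : G) ∈ Subgroup.closure ((fun b : G => a⁻¹ * b * a⁻¹⁻¹ * b⁻¹) '' (B : Set G)) := by
      rw [hgenA a⁻¹ (inv_mem ha) (by simpa using ha1)]; exact c.2
    have hle : Subgroup.closure ((fun b : G => a⁻¹ * b * a⁻¹⁻¹ * b⁻¹) '' (B : Set G)) ≤
        (φ.range).map (Subgroup.subtype _) := by
      rw [Subgroup.closure_le]
      rintro _ ⟨b, hb, rfl⟩
      refine ⟨φ ⟨b⁻¹, inv_mem hb⟩, ⟨_, rfl⟩, ?_⟩
      show a⁻¹ * (b⁻¹)⁻¹ * a * b⁻¹ = a⁻¹ * b * a⁻¹⁻¹ * b⁻¹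
      rw [inv_inv, inv_inv]
    obtain ⟨_, ⟨b, rfl⟩, hb⟩ := hle hc
    exact ⟨b, Subtype.ext hb⟩
  exact ⟨MulEquiv.ofBijective φ ⟨hinj, hsurj⟩, hφ⟩

theorem rl_surj {S : Set (Subgroup G)} (hS : IsRootSubgroupSet S) {A B : Subgroup G}
    (hA : ¬ IsIsolatedIn (FAdj S) S A) (hAS : A ∈ S) (hcc : RootCommutatorCase S A B)
    {a : G} (ha : a ∈ A) (ha1 : a ≠ 1) {c : G} (hc : c ∈ ⁅A, B⁆) :
    ∃ b ∈ B, c = a⁻¹ * b⁻¹ * a * b := by
  obtain ⟨φ, hφ⟩ := rl_iso hS hA hAS hcc ha ha1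
  obtain ⟨b, hb⟩ := φ.surjective ⟨c, hc⟩
  refine ⟨b, b.2, ?_⟩
  rw [← hφ, hb]

theorem rl_inj {S : Set (Subgroup G)} (hS : IsRootSubgroupSet S) {A B : Subgroup G}
    (hA : ¬ IsIsolatedIn (FAdj S) S A) (hAS : A ∈ S) (hcc : RootCommutatorCase S A B)
    {a : G} (ha : a ∈ A) (ha1 : a ≠ 1) {b b' : G} (hb : b ∈ B) (hb' : b' ∈ B)
    (h : a⁻¹ * b⁻¹ * a * b = a⁻¹ * b'⁻¹ * a * b') : b = b' := by
  obtain ⟨φ, hφ⟩ := rl_iso hS hA hAS hcc ha ha1
  have h1 : φ ⟨b, hb⟩ = φ ⟨b', hb'⟩ := by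
    apply Subtype.ext
    rw [hφ, hφ]; exact h
  exact congrArg Subtype.val (φ.injective h1)

/-- S5029: the line through a non-isolated root subgroup. -/
theorem rl_line {S : Set (Subgroup G)} (hS : IsRootSubgroupSet S) {A B : Subgroup G}
    (hA : ¬ IsIsolatedIn (FAdj S) S A) (hAS : A ∈ S) (hB : B ∈ S) (hC : ⁅A, B⁆ ∈ S) :
    membersIn S (A ⊔ ⁅A, B⁆) = (fun b : G => conjBy A b) '' (B : Set G) ∪ {⁅A, B⁆} ∧
    IsSubgroupPartition (A ⊔ ⁅A, B⁆) (membersIn S (A ⊔ ⁅A, B⁆)) ∧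
    A ∈ linePartners S ⁅A, B⁆ ∧
    ∀ a ∈ A, a ≠ 1 → ∃ φ : ↥B ≃* ↥⁅A, B⁆, ∀ b : ↥B, (φ b : G) = a⁻¹ * (b : G)⁻¹ * a * b := by
  have hcc := rl_comm_case hS hAS hB hC
  have hne := rl_ne hS hcc
  have hcen := hcc.2.1
  have hcoe : ((A ⊔ ⁅A, B⁆ : Subgroup G) : Set G) = (A : Set G) * ((⁅A, B⁆ : Subgroup G) : Set G) := by
    apply Subgroup.coe_mul_of_left_le_normalizer_right
    intro a ha
    exact cb_eq_self_iff.mp (rl_comm_conj_left ha)
  have hcov : ∀ x ∈ A ⊔ ⁅A, B⁆, x ≠ 1 → x ∈ ⁅A, B⁆ ∨ ∃ b ∈ B, x ∈ conjBy A b := by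
    intro x hx hx1
    rw [← SetLike.mem_coe, hcoe] at hx
    obtain ⟨a, ha, c, hc, rfl⟩ := Set.mem_mul.mp hx
    by_cases ha1 : a = 1
    · left; rw [ha1, one_mul]; exact hc
    · right
      obtain ⟨b, hb, hcb⟩ := rl_surj hS hA hAS hcc ha ha1 hc
      refine ⟨b⁻¹, inv_mem hb, ?_⟩
      rw [cb_mem, inv_inv, hcb]
      have : b * (a * (a⁻¹ * b⁻¹ * a * b)) * b⁻¹ = a := by group
      rw [this]; exact ha
  have hAb : ∀ b ∈ B, conjBy A b ≤ A ⊔ ⁅A, B⁆ := by
    intro b hb x hx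
    rw [cb_mem] at hx
    have e : x = (b⁻¹ * x * b) * ((b⁻¹ * x * b)⁻¹ * b * (b⁻¹ * x * b) * b⁻¹) := by group
    rw [e]
    refine mul_mem (Subgroup.mem_sup_left hx) (Subgroup.mem_sup_right ?_)
    have := Subgroup.commutator_mem_commutator (H₁ := A) (H₂ := B) (inv_mem hx) hb
    rwa [commutatorElement_def, inv_inv] at this
  have hni : ∀ b : G, ∀ E ∈ S, conjBy A b ⊓ E = ⊥ ∨ conjBy A b = E := fun b =>
    rs_inf_eq_bot hS (rl_not_isolated_conj hS hA hAS b) (hS.conj_mem A hAS b)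
  -- a member inside `⁅A, B⁆` equals it
  have hEC : ∀ E ∈ S, E ≤ ⁅A, B⁆ → E = ⁅A, B⁆ := by
    intro E hE hle
    obtain ⟨D, hD, hAD⟩ := rs_not_isolated hA hAS
    obtain ⟨a, ha0⟩ := (Subgroup.ne_bot_iff_exists_ne_one).mp (hS.ne_bot A hAS)
    have ha1 : (a : G) ≠ 1 := fun h' => ha0 (Subtype.ext h')
    obtain ⟨e, he0⟩ := (Subgroup.ne_bot_iff_exists_ne_one).mp (hS.ne_bot E hE)
    have he1 : (e : G) ≠ 1 := fun h' => he0 (Subtype.ext h')
    have heC : (e : G) ∈ ⁅A, B⁆ := hle e.2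
    have hED : ⁅E, D⁆ ≠ ⊥ := by
      intro h0
      obtain ⟨b, hb, heb⟩ := rl_surj hS hA hAS hcc a.2 ha1 heC
      have hcent : (e : G) ∈ Subgroup.centralizer ((A ⊔ D : Subgroup G) : Set G) := by
        rw [Subgroup.mem_centralizer_iff]
        apply cb_sup_induction
        · intro a' ha'
          exact (hcen e heC a' (Subgroup.mem_sup_left ha')).symm
        · intro d hd
          have h2 := (Subgroup.commutator_eq_bot_iff_le_centralizer.mp h0) e.2
          exact Subgroup.mem_centralizer_iff.mp h2 d hd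
        · simp
        · intro x y hx hy
          rw [mul_assoc, hy, ← mul_assoc, hx, mul_assoc]
      have hno := rs_coset_no_root hS hAS hD hAD hcent he1 a a.2 ha1
      apply hno
      have hw : (e : G) * a = b⁻¹ * a * b := by
        rw [hcen e heC a (Subgroup.mem_sup_left a.2), heb]; group
      refine ⟨?_, conjBy A b⁻¹, hS.conj_mem A hAS b⁻¹, ?_⟩
      · rw [hw]
        intro h2
        apply ha1
        have : (a : G) = b * (b⁻¹ * a * b) * b⁻¹ := by group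
        rw [this, h2]; group
      · rw [hw]
        have := cb_mem' (A := A) (g := b⁻¹) a.2
        rwa [inv_inv] at this
    have hCD : ⁅⁅A, B⁆, D⁆ ≠ ⊥ := by
      intro h0
      apply hED
      rw [eq_bot_iff, ← h0]
      exact Subgroup.commutator_mono hle le_rfl
    rcases hS.pair E hE D hD with h1 | h1 | h1
    · exact absurd h1 hED
    · rcases rs_inf_eq_bot hS (rl_not_isolated_of_rankOne hE hD h1) hE _ hC with h2 | h2
      · exfalso
        apply hS.ne_bot E hE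
        rw [← inf_eq_left.mpr hle, h2]
      · exact h2
    · rcases hS.pair _ hC D hD with h2 | h2 | h2
      · exact absurd h2 hCD
      · rcases rs_inf_eq_bot hS (rl_not_isolated_of_rankOne hC hD h2) hC E hE with h3 | h3
        · exfalso
          apply hS.ne_bot E hE
          rw [← inf_eq_right.mpr hle, h3]
        · exact h3.symm
      · have hDni := rl_not_isolated_of_rankOne hD hAS (RankOnePair_symm hAD)
        have hDE := rl_comm_case hS hD hE (by rw [Subgroup.commutator_comm]; exact h1.1)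
        have hDC := rl_comm_case hS hD hC (by rw [Subgroup.commutator_comm]; exact h2.1)
        have heq : ⁅D, E⁆ = ⁅D, ⁅A, B⁆⁆ := by
          rw [← hDE.2.2.2 e e.2 he1, ← hDC.2.2.2 e heC he1]
        obtain ⟨d, hd0⟩ := (Subgroup.ne_bot_iff_exists_ne_one).mp (hS.ne_bot D hD)
        have hd1 : (d : G) ≠ 1 := fun h' => hd0 (Subtype.ext h')
        apply le_antisymm hle
        intro c hc
        have hf : (d : G)⁻¹ * c⁻¹ * d * c ∈ ⁅D, E⁆ := by
          rw [heq]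
          have := Subgroup.commutator_mem_commutator (H₁ := D) (H₂ := ⁅A, B⁆) (inv_mem d.2)
            (inv_mem hc)
          rwa [commutatorElement_def, inv_inv, inv_inv] at this
        obtain ⟨e', he', hfe⟩ := rl_surj hS hDni hD hDE d.2 hd1 hf
        have := rl_inj hS hDni hD hDC d.2 hd1 hc (hle he') hfe
        rw [this]; exact he'
  have hchar : ∀ E, E ∈ membersIn S (A ⊔ ⁅A, B⁆) →
      E ∈ (fun b : G => conjBy A b) '' (B : Set G) ∪ {⁅A, B⁆} := by
    rintro E ⟨hE, hle⟩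
    by_cases hall : E ≤ ⁅A, B⁆
    · right
      exact hEC E hE hall
    · left
      obtain ⟨e, he, heC⟩ := SetLike.not_le_iff_exists.mp hall
      have he1 : e ≠ 1 := by rintro rfl; exact heC (one_mem _)
      rcases hcov e (hle he) he1 with h1 | ⟨b, hb, h1⟩
      · exact absurd h1 heC
      · refine ⟨b, hb, ?_⟩
        rcases hni b E hE with h2 | h2
        · exfalso
          have h3 : e ∈ conjBy A b ⊓ E := Subgroup.mem_inf.mpr ⟨h1, he⟩
          rw [h2, Subgroup.mem_bot] at h3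
          exact he1 h3
        · exact h2
  have hpart : IsSubgroupPartition (A ⊔ ⁅A, B⁆) (membersIn S (A ⊔ ⁅A, B⁆)) := by
    refine ⟨fun E hE => hE.2, ?_, ?_⟩
    · intro x hx hx1
      rcases hcov x hx hx1 with h | ⟨b, hb, h⟩
      · exact ⟨_, ⟨hC, le_sup_right⟩, h⟩
      · exact ⟨_, ⟨hS.conj_mem A hAS b, hAb b hb⟩, h⟩
    · intro E hE E' hE' hne'
      rcases hchar E hE with ⟨b, hb, rfl⟩ | h
      · rcases hni b E' hE'.1 with h | h
        · exact h
        · exact absurd h hne'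
      · rcases hchar E' hE' with ⟨b, hb, rfl⟩ | h'
        · rcases hni b E hE.1 with h2 | h2
          · rw [inf_comm]; exact h2
          · exact absurd h2.symm hne'
        · rw [Set.mem_singleton_iff] at h h'
          exact absurd (h.trans h'.symm) hne'
  refine ⟨?_, hpart, ?_, fun a ha ha1 => rl_iso hS hA hAS hcc ha ha1⟩
  · ext E
    constructor
    · exact hchar E
    · rintro (⟨b, hb, rfl⟩ | h)
      · exact ⟨hS.conj_mem A hAS b, hAb b hb⟩
      · rw [Set.mem_singleton_iff] at h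
        rw [h]
        exact ⟨hC, le_sup_right⟩
  · refine ⟨⟨hAS, hne, ?_⟩, ?_⟩
    · rw [Subgroup.commutator_eq_bot_iff_le_centralizer]
      intro c hc
      rw [Subgroup.mem_centralizer_iff]
      intro a ha
      exact (hcen c hc a (Subgroup.mem_sup_left ha)).symm
    · rw [sup_comm]; exact hpart

end Cfsg.Agent.Lib.Helper6
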