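import Cfsg.Agent.Lib.Helper6.RootSub2

set_option autoImplicit false
set_option linter.style.haveILetI false
set_option linter.unusedVariables false

namespace Cfsg.Agent.Lib.Helper6

open Cfsg

variable {G H : Type*} [Group G] [Group H]

theorem rm_map_conjBy (f : G →* H) (A : Subgroup G) (g : G) :
    (conjBy A g).map f = conjBy (A.map f) (f g) := by
  ext y
  constructor
  · rintro ⟨x, ⟨a, ha, rfl⟩, rfl⟩
    refine ⟨f a, ⟨a, ha, rfl⟩, ?_⟩
    simp [MulAut.conj_apply]
  · rintro ⟨x, ⟨a, ha, rfl⟩, rfl⟩
    refine ⟨g * a * g⁻¹, ⟨a, ha, ?_⟩, ?_⟩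
    · simp [MulAut.conj_apply]
    · simp [MulAut.conj_apply]

theorem rm_comm_map (f : G →* H) {A : Subgroup G} (hA : IsMulCommutative A) :
    IsMulCommutative ↥(A.map f) := by
  refine ⟨⟨fun x y => ?_⟩⟩
  apply Subtype.ext
  obtain ⟨a, ha, hx⟩ := x.2
  obtain ⟨b, hb, hy⟩ := y.2
  show (x : H) * y = y * x
  rw [← hx, ← hy, ← map_mul, ← map_mul]
  exact congrArg f (congrArg Subtype.val (hA.is_comm.comm ⟨a, ha⟩ ⟨b, hb⟩))

theorem rm_rankOne_map (f : G →* H) {A B : Subgroup G} (hAB : IsRankOnePair A B)
    (hne : A.map f ≠ B.map f) : IsRankOnePair (A.map f) (B.map f) := by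
  have key : ∀ {A B : Subgroup G}, IsRankOnePair A B → A.map f ≠ B.map f →
      RankOneCondition (A.map f) (B.map f) := by
    intro A B hAB hne y hy hy1
    obtain ⟨a, ha, rfl⟩ := hy
    have ha1 : a ≠ 1 := by rintro rfl; exact hy1 (map_one f)
    obtain ⟨b, hb, hb1, hR⟩ := hAB.cond_left a ha ha1
    have hR' := congrArg (fun C : Subgroup G => C.map f) hR
    simp only [rm_map_conjBy, map_inv] at hR'
    refine ⟨f b, ⟨b, hb, rfl⟩, ?_, hR'⟩
    intro hfb
    rw [hfb, inv_one, cb_one] at hR'
    apply hne
    have h2 := (cb_eq_iff (A := B.map f) (g := (f a)⁻¹) (B := A.map f)).mp hR'.symm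
    rw [inv_inv, cb_of_mem (Subgroup.mem_map_of_mem f ha)] at h2
    exact h2.symm
  refine ⟨hne, ?_, ?_, key hAB hne, key (RankOnePair_symm hAB) hne.symm⟩
  · haveI := hAB.nilpotent_left
    exact Group.nilpotent_of_surjective (f.subgroupMap A) (f.subgroupMap_surjective A)
  · haveI := hAB.nilpotent_right
    exact Group.nilpotent_of_surjective (f.subgroupMap B) (f.subgroupMap_surjective B)

theorem rm_comm_self {A : Subgroup H} (hA : IsMulCommutative A) : ⁅A, A⁆ = ⊥ := by
  rw [Subgroup.commutator_eq_bot_iff_le_centralizer]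
  intro x hx
  rw [Subgroup.mem_centralizer_iff]
  intro y hy
  exact congrArg Subtype.val (hA.is_comm.comm ⟨y, hy⟩ ⟨x, hx⟩)

/-- S5035: homomorphic images of connected sets of abstract root subgroups. -/
theorem rm_image {S : Set (Subgroup G)} (hS : IsRootSubgroupSet S)
    (hc : IsConnectedFamily (FAdj S) S) (f : G →* H) (hf : Function.Surjective f) :
    (IsRootSubgroupSet ((fun A : Subgroup G => A.map f) '' S) ∧
      IsConnectedFamily (FAdj ((fun A : Subgroup G => A.map f) '' S))
        ((fun A : Subgroup G => A.map f) '' S)) ∨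
    ∃ A ∈ S, A.map f = ⊤ := by
  by_cases hker : ∃ A ∈ S, A.map f = ⊥
  · right
    obtain ⟨A, hA, hAf⟩ := hker
    have hall : ∀ B : Subgroup G, Relation.ReflTransGen (FAdj S) A B → B.map f = ⊥ := by
      intro B hB
      induction hB with
      | refl => exact hAf
      | @tail C D _ hstep ih =>
        obtain ⟨hCS, hDS, hCD⟩ := hstep
        obtain ⟨c, hc0⟩ := (Subgroup.ne_bot_iff_exists_ne_one).mp (hS.ne_bot C hCS)
        have hc1 : (c : G) ≠ 1 := fun h' => hc0 (Subtype.ext h')
        obtain ⟨d, hd, hd1, hR⟩ := hCD.cond_left c c.2 hc1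
        have hD : D = conjBy C ((c : G) * d⁻¹) := by
          rw [← cb_cb, hR, cb_cb, mul_inv_cancel, cb_one]
        rw [hD, rm_map_conjBy, ih]
        ext y
        rw [cb_mem, Subgroup.mem_bot, Subgroup.mem_bot]
        constructor
        · intro h1
          have : y = f ((c : G) * d⁻¹) * ((f ((c : G) * d⁻¹))⁻¹ * y * f ((c : G) * d⁻¹)) *
              (f ((c : G) * d⁻¹))⁻¹ := by group
          rw [this, h1]; group
        · rintro rfl; group
    have htop : (⊤ : Subgroup H) = ⊥ := by
      rw [← Subgroup.map_top_of_surjective f hf, ← hS.generates, Subgroup.map_iSup]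
      simp only [Subgroup.map_iSup]
      apply le_antisymm
      · apply iSup_le; intro B; apply iSup_le; intro hB
        rw [hall B (hc A hA B hB)]
      · exact bot_le
    exact ⟨A, hA, by rw [hAf, htop]⟩
  · left
    push_neg at hker
    have hmem : ∀ A ∈ S, A.map f ∈ (fun A : Subgroup G => A.map f) '' S :=
      fun A hA => ⟨A, hA, rfl⟩
    constructor
    · refine ⟨?_, ?_, ?_, ?_, ?_⟩
      · rintro _ ⟨A, hA, rfl⟩
        exact rm_comm_map f (hS.commutative A hA)
      · rintro _ ⟨A, hA, rfl⟩
        exact hker A hA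
      · rw [iSup_image]
        have := congrArg (fun C : Subgroup G => C.map f) hS.generates
        simp only [Subgroup.map_iSup, Subgroup.map_top_of_surjective f hf] at this
        exact this
      · rintro _ ⟨A, hA, rfl⟩ h
        obtain ⟨g, rfl⟩ := hf h
        rw [← rm_map_conjBy]
        exact hmem _ (hS.conj_mem A hA g)
      · rintro _ ⟨A, hA, rfl⟩ _ ⟨B, hB, rfl⟩
        show ⁅A.map f, B.map f⁆ = ⊥ ∨ IsRankOnePair (A.map f) (B.map f) ∨
          RootCommutatorCase _ (A.map f) (B.map f)
        rcases hS.pair A hA B hB with h1 | h1 | h1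
        · left
          rw [← Subgroup.map_commutator, h1, Subgroup.map_bot]
        · by_cases hne : A.map f = B.map f
          · left
            rw [← hne]
            exact rm_comm_self (rm_comm_map f (hS.commutative A hA))
          · right; left
            exact rm_rankOne_map f h1 hne
        · right; right
          obtain ⟨hF, hcen, hgenA, hgenB⟩ := h1
          refine ⟨?_, ?_, ?_, ?_⟩
          · rw [← Subgroup.map_commutator]
            exact hmem _ hF
          · intro c hc' x hx
            rw [← Subgroup.map_commutator] at hc'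
            rw [← Subgroup.map_sup] at hx
            obtain ⟨c₀, hc₀, rfl⟩ := hc'
            obtain ⟨x₀, hx₀, rfl⟩ := hx
            rw [← map_mul, ← map_mul, hcen c₀ hc₀ x₀ hx₀]
          · rintro _ ⟨a, ha, rfl⟩ ha1
            have ha1' : a ≠ 1 := by rintro rfl; exact ha1 (map_one f)
            have h2 := congrArg (fun C : Subgroup G => C.map f) (hgenA a ha ha1')
            simp only [MonoidHom.map_closure, Subgroup.map_commutator] at h2
            rw [← h2]
            congr 1
            ext y
            constructor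
            · rintro ⟨_, ⟨b, hb, rfl⟩, rfl⟩
              exact ⟨_, ⟨b, hb, rfl⟩, by simp⟩
            · rintro ⟨_, ⟨b, hb, rfl⟩, rfl⟩
              exact ⟨f b, ⟨b, hb, rfl⟩, by simp⟩
          · rintro _ ⟨b, hb, rfl⟩ hb1
            have hb1' : b ≠ 1 := by rintro rfl; exact hb1 (map_one f)
            have h2 := congrArg (fun C : Subgroup G => C.map f) (hgenB b hb hb1')
            simp only [MonoidHom.map_closure, Subgroup.map_commutator] at h2
            rw [← h2]
            congr 1
            ext y
            constructor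
            · rintro ⟨_, ⟨a, ha, rfl⟩, rfl⟩
              exact ⟨_, ⟨a, ha, rfl⟩, by simp⟩
            · rintro ⟨_, ⟨a, ha, rfl⟩, rfl⟩
              exact ⟨f a, ⟨a, ha, rfl⟩, by simp⟩
    · rintro _ ⟨A, hA, rfl⟩ _ ⟨B, hB, rfl⟩
      have hpath := hc A hA B hB
      show Relation.ReflTransGen _ (A.map f) (B.map f)
      induction hpath with
      | refl => exact Relation.ReflTransGen.refl
      | @tail C D _ hstep ih =>
        obtain ⟨hCS, hDS, hCD⟩ := hstep
        by_cases hne : C.map f = D.map f
        · rw [← hne]; exact ih hCS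
        · exact Relation.ReflTransGen.tail (ih hCS)
            ⟨hmem C hCS, hmem D hDS, rm_rankOne_map f hCD hne⟩

end Cfsg.Agent.Lib.Helper6
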