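import Cfsg.Agent.Lib.Helper6.RootTrans

set_option autoImplicit false
set_option linter.style.haveILetI false
set_option linter.unusedVariables false
set_option linter.unusedSimpArgs false

namespace Cfsg.Agent.Lib.Helper6

open Cfsg
open scoped commutatorElement

variable {G : Type*} [Group G]

/-! ### Generic commutator lemmas -/

theorem gen_left {N R : Subgroup G} (hN : ∀ r ∈ R, ∀ n ∈ N, r * n * r⁻¹ ∈ N) {P : Set G}
    (hP : P ⊆ R) {r : G} (h : ∀ x ∈ P, ⁅x, r⁆ ∈ N) : ∀ x ∈ Subgroup.closure P, ⁅x, r⁆ ∈ N := by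
  intro x hx
  have hPR : Subgroup.closure P ≤ R := (Subgroup.closure_le R).mpr hP
  induction hx using Subgroup.closure_induction with
  | mem x hx => exact h x hx
  | one => rw [commutatorElement_def]; simp
  | mul x y hx hy ihx ihy =>
    have e : ⁅x * y, r⁆ = x * ⁅y, r⁆ * x⁻¹ * ⁅x, r⁆ := by
      simp only [commutatorElement_def]; group
    rw [e]
    exact mul_mem (hN x (hPR hx) _ ihy) ihx
  | inv x hx ih =>
    have e : ⁅x⁻¹, r⁆ = x⁻¹ * ⁅x, r⁆⁻¹ * x⁻¹⁻¹ := by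
      simp only [commutatorElement_def]; group
    rw [e]
    exact hN x⁻¹ (inv_mem (hPR hx)) _ (inv_mem ih)

theorem gen_right {N R : Subgroup G} (hN : ∀ r ∈ R, ∀ n ∈ N, r * n * r⁻¹ ∈ N) {Q : Set G}
    (hQ : Q ⊆ R) {x : G} (h : ∀ r ∈ Q, ⁅x, r⁆ ∈ N) : ∀ r ∈ Subgroup.closure Q, ⁅x, r⁆ ∈ N := by
  intro r hr
  have hQR : Subgroup.closure Q ≤ R := (Subgroup.closure_le R).mpr hQ
  induction hr using Subgroup.closure_induction with
  | mem r hr => exact h r hr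
  | one => rw [commutatorElement_def]; simp
  | mul r s hr hs ihr ihs =>
    have e : ⁅x, r * s⁆ = ⁅x, r⁆ * (r * ⁅x, s⁆ * r⁻¹) := by
      simp only [commutatorElement_def]; group
    rw [e]
    exact mul_mem ihr (hN r (hQR hr) _ ihs)
  | inv r hr ih =>
    have e : ⁅x, r⁻¹⁆ = r⁻¹ * ⁅x, r⁆⁻¹ * r⁻¹⁻¹ := by
      simp only [commutatorElement_def]; group
    rw [e]
    exact hN r⁻¹ (inv_mem (hQR hr)) _ (inv_mem ih)

theorem gen_both {N R : Subgroup G} (hN : ∀ r ∈ R, ∀ n ∈ N, r * n * r⁻¹ ∈ N) {P Q : Set G}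
    (hP : P ⊆ R) (hQ : Q ⊆ R) (h : ∀ x ∈ P, ∀ r ∈ Q, ⁅x, r⁆ ∈ N) :
    ∀ x ∈ Subgroup.closure P, ∀ r ∈ Subgroup.closure Q, ⁅x, r⁆ ∈ N := by
  intro x hx r hr
  exact gen_right hN hQ (fun r hr => gen_left hN hP (fun x hx => h x hx r hr) x hx) r hr

/-- normality from a commutator condition. -/
theorem norm_of_comm {N K R : Subgroup G} (hNK : N ≤ K) (h : ∀ x ∈ K, ∀ r ∈ R, ⁅x, r⁆ ∈ N) :
    ∀ r ∈ R, ∀ k ∈ K, r * k * r⁻¹ ∈ K := by
  intro r hr k hk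
  have e : r * k * r⁻¹ = ⁅k, r⁆⁻¹ * k := by
    simp only [commutatorElement_def]; group
  rw [e]
  exact mul_mem (inv_mem (hNK (h k hk r hr))) hk

theorem nilp_of_series {R : Subgroup G} (K : ℕ → Subgroup G) (n : ℕ) (h0 : R ≤ K 0)
    (hn : K n = ⊥) (hstep : ∀ i, ∀ x ∈ K i, ∀ r ∈ R, ⁅x, r⁆ ∈ K (i + 1)) :
    Group.IsNilpotent ↥R := by
  rw [Subgroup.nilpotent_iff_finite_descending_central_series]
  refine ⟨n, fun i => (K i).subgroupOf R, ⟨?_, ?_⟩, ?_⟩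
  · exact Subgroup.subgroupOf_eq_top.mpr h0
  · intro x i hx g
    rw [Subgroup.mem_subgroupOf] at hx ⊢
    have := hstep i x hx g g.2
    simpa [commutatorElement_def] using this
  · show (K n).subgroupOf R = ⊥
    rw [hn]; exact Subgroup.bot_subgroupOf R

theorem nilp4 {R K1 K2 K3 : Subgroup G}
    (h0 : ∀ x ∈ R, ∀ r ∈ R, ⁅x, r⁆ ∈ K1) (h1 : ∀ x ∈ K1, ∀ r ∈ R, ⁅x, r⁆ ∈ K2)
    (h2 : ∀ x ∈ K2, ∀ r ∈ R, ⁅x, r⁆ ∈ K3) (h3 : ∀ x ∈ K3, ∀ r ∈ R, ⁅x, r⁆ = 1) :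
    Group.IsNilpotent ↥R := by
  let K : ℕ → Subgroup G := fun i => match i with
    | 0 => R
    | 1 => K1
    | 2 => K2
    | 3 => K3
    | _ => ⊥
  apply nilp_of_series K 4 (le_refl _) rfl
  intro i
  match i with
  | 0 => exact h0
  | 1 => exact h1
  | 2 => exact h2
  | 3 =>
    intro x hx r hr
    show ⁅x, r⁆ ∈ (⊥ : Subgroup G)
    rw [h3 x hx r hr]; exact one_mem _
  | (k + 4) =>
    intro x hx r hr
    have hx' : x ∈ (⊥ : Subgroup G) := hx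
    rw [Subgroup.mem_bot] at hx'
    subst hx'
    rw [commutatorElement_one_left]; exact one_mem _

theorem nc_abelian_sup {A B : Subgroup G} (hA : IsMulCommutative A) (hB : IsMulCommutative B)
    (hAB : ∀ a ∈ A, ∀ b ∈ B, a * b = b * a) : ∀ x ∈ A ⊔ B, ∀ y ∈ A ⊔ B, x * y = y * x := by
  have h1 : ∀ a ∈ A, ∀ y ∈ A ⊔ B, y * a = a * y := fun a ha =>
    cc_comm_sup (fun a' ha' => sr_comm hA ha' ha) (fun b hb => (hAB a ha b hb).symm)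
  have h2 : ∀ b ∈ B, ∀ y ∈ A ⊔ B, y * b = b * y := fun b hb =>
    cc_comm_sup (fun a ha => hAB a ha b hb) (fun b' hb' => sr_comm hB hb' hb)
  intro x hx y hy
  exact cc_comm_sup (y := y) (fun a ha => (h1 a ha y hy).symm) (fun b hb => (h2 b hb y hy).symm) x hx

theorem nc_comm_of_sup {A B : Subgroup G} (h : ∀ x ∈ A ⊔ B, ∀ y ∈ A ⊔ B, x * y = y * x) :
    IsMulCommutative ↥(A ⊔ B) :=
  ⟨⟨fun x y => Subtype.ext (h x x.2 y y.2)⟩⟩

theorem nc_class_two {A B : Subgroup G} (hA : IsMulCommutative A) (hB : IsMulCommutative B)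
    (hcen : ∀ c ∈ ⁅A, B⁆, ∀ x ∈ A ⊔ B, c * x = x * c) :
    ⁅⁅A ⊔ B, A ⊔ B⁆, A ⊔ B⁆ = ⊥ := by
  have hN : ∀ r ∈ A ⊔ B, ∀ n ∈ ⁅A, B⁆, r * n * r⁻¹ ∈ ⁅A, B⁆ := by
    intro r hr n hn
    rw [cc_conj_eq' (hcen n hn r hr)]; exact hn
  have hcl : Subgroup.closure ((A : Set G) ∪ B) = A ⊔ B := by
    rw [Subgroup.closure_union, Subgroup.closure_eq, Subgroup.closure_eq]
  have hsub : ((A : Set G) ∪ B) ⊆ (A ⊔ B : Subgroup G) := by
    rintro x (hx | hx)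
    · exact Subgroup.mem_sup_left hx
    · exact Subgroup.mem_sup_right hx
  have h1 : ⁅A ⊔ B, A ⊔ B⁆ ≤ ⁅A, B⁆ := by
    rw [Subgroup.commutator_le]
    intro x hx y hy
    rw [← hcl] at hx hy
    refine gen_both hN hsub hsub ?_ x hx y hy
    rintro x (hx | hx) r (hr | hr)
    · rw [commutatorElement_def, sr_comm hA hx hr]; simp
    · exact Subgroup.commutator_mem_commutator hx hr
    · have e : ⁅x, r⁆ = ⁅r, x⁆⁻¹ := by simp only [commutatorElement_def]; group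
      rw [e]; exact inv_mem (Subgroup.commutator_mem_commutator hr hx)
    · rw [commutatorElement_def, sr_comm hB hx hr]; simp
  apply cc_bot_of_comm
  intro z hz x hx
  exact hcen z (h1 hz) x hx

theorem comm_one' {x r : G} (h : x * r = r * x) : ⁅x, r⁆ = 1 := by
  rw [commutatorElement_def, h]; group

theorem comm_split {p q r s : G} (hqr : Commute q r) (hqp : Commute q p) (hsp : Commute s p)
    (hsr : Commute s r) : ⁅p * q, s * r⁆ = ⁅p, r⁆ * ⁅q, s⁆ := by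
  simp only [commutatorElement_def]
  have h1 : Commute (q * s) r := hqr.mul_left hsr
  have hq : Commute q (p⁻¹ * r⁻¹) := hqp.inv_right.mul_right hqr.inv_right
  have hs : Commute s (p⁻¹ * r⁻¹) := hsp.inv_right.mul_right hsr.inv_right
  have h2 : Commute (q * s * q⁻¹) (p⁻¹ * r⁻¹) := (hq.mul_left hs).mul_left hq.inv_left
  calc p * q * (s * r) * (p * q)⁻¹ * (s * r)⁻¹
      = p * ((q * s) * r) * (q⁻¹ * p⁻¹ * r⁻¹) * s⁻¹ := by group
    _ = p * (r * (q * s)) * (q⁻¹ * p⁻¹ * r⁻¹) * s⁻¹ := by rw [h1.eq]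
    _ = p * r * ((q * s * q⁻¹) * (p⁻¹ * r⁻¹)) * s⁻¹ := by group
    _ = p * r * ((p⁻¹ * r⁻¹) * (q * s * q⁻¹)) * s⁻¹ := by rw [h2.eq]
    _ = p * r * p⁻¹ * r⁻¹ * (q * s * q⁻¹ * s⁻¹) := by group

/-! ### The configuration of S5030 -/

variable {S : Set (Subgroup G)} {A B C E F : Subgroup G}

structure NConfig (S : Set (Subgroup G)) (A B C E F : Subgroup G) : Prop where
  hS : IsRootSubgroupSet S
  hA : A ∈ S
  hB : B ∈ S
  hC : C ∈ S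
  hE : E ∈ S
  hF : F ∈ S
  hAB : ⁅A, B⁆ = E
  hCB : ⁅C, B⁆ = F
  hAC : ⁅A, C⁆ = ⊥

namespace NConfig

theorem symm (h : NConfig S A B C E F) : NConfig S C B A F E :=
  ⟨h.hS, h.hC, h.hB, h.hA, h.hF, h.hE, h.hCB, h.hAB, by
    rw [Subgroup.commutator_comm C A]; exact h.hAC⟩

theorem ccAB (h : NConfig S A B C E F) : RootCommutatorCase S A B :=
  rl_comm_case h.hS h.hA h.hB (by rw [h.hAB]; exact h.hE)

theorem cAC (h : NConfig S A B C E F) {a c : G} (ha : a ∈ A) (hc : c ∈ C) : a * c = c * a :=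
  cc_comm_of_bot h.hAC ha hc

theorem cEA (h : NConfig S A B C E F) {e a : G} (he : e ∈ E) (ha : a ∈ A) : e * a = a * e :=
  h.ccAB.2.1 e (by rw [h.hAB]; exact he) a (Subgroup.mem_sup_left ha)

theorem cEB (h : NConfig S A B C E F) {e b : G} (he : e ∈ E) (hb : b ∈ B) : e * b = b * e :=
  h.ccAB.2.1 e (by rw [h.hAB]; exact he) b (Subgroup.mem_sup_right hb)

theorem AE_comm (h : NConfig S A B C E F) : ∀ x ∈ A ⊔ E, ∀ y ∈ A ⊔ E, x * y = y * x :=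
  nc_abelian_sup (h.hS.commutative A h.hA) (h.hS.commutative E h.hE)
    (fun a ha e he => (h.cEA he ha).symm)

theorem comm_mem (h : NConfig S A B C E F) {a b' : G} (ha : a ∈ A) (hb' : b' ∈ B) :
    b' * a * b'⁻¹ * a⁻¹ ∈ E := by
  have := Subgroup.commutator_mem_commutator (H₁ := B) (H₂ := A) hb' ha
  rw [Subgroup.commutator_comm B A, h.hAB, commutatorElement_def] at this
  exact this

theorem f_mem (h : NConfig S A B C E F) {a b : G} (ha : a ∈ A) (hb : b ∈ B) :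
    a⁻¹ * (b⁻¹ * a * b) ∈ E := by
  have := Subgroup.commutator_mem_commutator (H₁ := A) (H₂ := B) (inv_mem ha) (inv_mem hb)
  rw [h.hAB, commutatorElement_def] at this
  have e : a⁻¹ * (b⁻¹ * a * b) = a⁻¹ * b⁻¹ * a⁻¹⁻¹ * b⁻¹⁻¹ := by group
  rw [e]; exact this

theorem conj_le (h : NConfig S A B C E F) {b' : G} (hb' : b' ∈ B) : conjBy A b' ≤ A ⊔ E := by
  intro x hx
  rw [cb_mem] at hx
  have e : x = (b' * (b'⁻¹ * x * b') * b'⁻¹ * (b'⁻¹ * x * b')⁻¹) * (b'⁻¹ * x * b') := by group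
  rw [e]
  exact mul_mem (Subgroup.mem_sup_right (h.comm_mem hx hb')) (Subgroup.mem_sup_left hx)

theorem surj (h : NConfig S A B C E F) {b : G} (hb : b ∈ B) (hb1 : b ≠ 1) {e : G} (he : e ∈ E) :
    ∃ a ∈ A, a⁻¹ * (b⁻¹ * a * b) = e := by
  obtain ⟨a₀, ha₀, h0⟩ := cc_surj_left h.ccAB (inv_mem hb) (inv_ne_one.mpr hb1)
    (c := e) (by rw [h.hAB]; exact he)
  refine ⟨a₀⁻¹, inv_mem ha₀, ?_⟩
  rw [← h0]; group

theorem mem_conj {A : Subgroup G} {a : G} (ha : a ∈ A) (b : G) : b⁻¹ * a * b ∈ conjBy A b⁻¹ := by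
  rw [cb_mem]
  have : b⁻¹⁻¹ * (b⁻¹ * a * b) * b⁻¹ = a := by group
  rw [this]; exact ha

theorem E_le (h : NConfig S A B C E F) {b : G} (hb : b ∈ B) (hb1 : b ≠ 1) :
    E ≤ A ⊔ conjBy A b⁻¹ := by
  intro e he
  obtain ⟨a, ha, rfl⟩ := h.surj hb hb1 he
  exact mul_mem (Subgroup.mem_sup_left (inv_mem ha)) (Subgroup.mem_sup_right (mem_conj ha b))

/-- `X = A ⊔ C^b` and `Y = A^b ⊔ C` commute elementwise. -/
theorem XY_comm (h : NConfig S A B C E F) {b : G} (hb : b ∈ B) :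
    ∀ x ∈ A ⊔ conjBy C b⁻¹, ∀ y ∈ conjBy A b⁻¹ ⊔ C, x * y = y * x := by
  have hbi : b⁻¹ ∈ B := inv_mem hb
  have h1 : ∀ a ∈ A, ∀ y ∈ conjBy A b⁻¹, a * y = y * a := fun a ha y hy =>
    h.AE_comm a (Subgroup.mem_sup_left ha) y (h.conj_le hbi hy)
  have h2 : ∀ x ∈ conjBy C b⁻¹, ∀ c ∈ C, x * c = c * x := fun x hx c hc =>
    h.symm.AE_comm x (h.symm.conj_le hbi hx) c (Subgroup.mem_sup_left hc)
  have h3 : ∀ x ∈ conjBy C b⁻¹, ∀ y ∈ conjBy A b⁻¹, x * y = y * x := by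
    intro x hx y hy
    rw [cb_mem] at hx hy
    have := h.cAC hy hx
    calc x * y = b⁻¹ * ((b⁻¹⁻¹ * x * b⁻¹) * (b⁻¹⁻¹ * y * b⁻¹)) * b⁻¹⁻¹ := by group
      _ = b⁻¹ * ((b⁻¹⁻¹ * y * b⁻¹) * (b⁻¹⁻¹ * x * b⁻¹)) * b⁻¹⁻¹ := by rw [this]
      _ = y * x := by group
  have hy1 : ∀ y ∈ conjBy A b⁻¹, ∀ x ∈ A ⊔ conjBy C b⁻¹, x * y = y * x := fun y hy =>
    cc_comm_sup (fun a ha => h1 a ha y hy) (fun x hx => h3 x hx y hy)
  have hy2 : ∀ c ∈ C, ∀ x ∈ A ⊔ conjBy C b⁻¹, x * c = c * x := fun c hc =>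
    cc_comm_sup (fun a ha => h.cAC ha hc) (fun x hx => h2 x hx c hc)
  intro x hx y hy
  exact (cc_comm_sup (y := x) (fun y hy => (hy1 y hy x hx).symm)
    (fun c hc => (hy2 c hc x hx).symm) y hy).symm

theorem not_r1 (h : NConfig S A B C E F) {b : G} (hb : b ∈ B) (hb1 : b ≠ 1) :
    ¬ IsRankOnePair A (conjBy C b⁻¹) := by
  intro h1
  obtain ⟨e, he, he1⟩ : ∃ e ∈ E, e ≠ 1 := by
    obtain ⟨e, he0⟩ := (Subgroup.ne_bot_iff_exists_ne_one).mp (h.hS.ne_bot E h.hE)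
    exact ⟨e, e.2, fun h' => he0 (Subtype.ext h')⟩
  obtain ⟨a, ha, hae⟩ := h.surj hb hb1 he
  have hz : b⁻¹ * a * b ∈ conjBy A b⁻¹ := mem_conj ha b
  have ha1 : a ≠ 1 := by
    rintro rfl
    apply he1; rw [← hae]; group
  have hz1 : b⁻¹ * a * b ≠ 1 := by
    intro h'
    apply ha1
    have : a = b * (b⁻¹ * a * b) * b⁻¹ := by group
    rw [this, h']; group
  have hzc : b⁻¹ * a * b ∈ Subgroup.centralizer ((A ⊔ conjBy C b⁻¹ : Subgroup G) : Set G) := by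
    rw [Subgroup.mem_centralizer_iff]
    intro x hx
    exact h.XY_comm hb x hx _ (Subgroup.mem_sup_left hz)
  have hC' : conjBy C b⁻¹ ∈ S := h.hS.conj_mem C h.hC b⁻¹
  have := rs_coset_no_root h.hS h.hA hC' h1 hzc hz1 a⁻¹ (inv_mem ha) (inv_ne_one.mpr ha1)
  apply this
  refine ⟨?_, E, h.hE, ?_⟩
  · intro h'
    apply he1
    rw [← hae]
    have e3 : b⁻¹ * a * b = a := by
      have e2 : b⁻¹ * a * b = (b⁻¹ * a * b * a⁻¹) * a := by group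
      rw [e2, h', one_mul]
    rw [e3]; group
  · have := h.comm_mem ha (inv_mem hb)
    rwa [inv_inv] at this

theorem W_central (h : NConfig S A B C E F) {b : G} (hb : b ∈ B) (hb1 : b ≠ 1) :
    ∀ w ∈ ⁅A, conjBy C b⁻¹⁆, ∀ x ∈ A ⊔ conjBy C b⁻¹, w * x = x * w := by
  have hC' : conjBy C b⁻¹ ∈ S := h.hS.conj_mem C h.hC b⁻¹
  rcases h.hS.pair A h.hA _ hC' with h1 | h1 | h1
  · intro w hw x hx
    rw [h1, Subgroup.mem_bot] at hw
    rw [hw, one_mul, mul_one]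
  · exact absurd h1 (h.not_r1 hb hb1)
  · exact h1.2.1

theorem comm_conj_eq (h : NConfig S A B C E F) {a c b : G} (ha : a ∈ A) (hc : c ∈ C)
    (hb : b ∈ B) : ⁅a, b⁻¹ * c * b⁆ = ⁅a, c⁻¹ * (b⁻¹ * c * b)⁆ := by
  have hf : c⁻¹ * (b⁻¹ * c * b) ∈ F := h.symm.f_mem hc hb
  have e1 : b⁻¹ * c * b = c * (c⁻¹ * (b⁻¹ * c * b)) := by group
  rw [e1]
  generalize c⁻¹ * (b⁻¹ * c * b) = f at hf ⊢
  have hca : Commute c a := (h.cAC ha hc).symm
  have hcf : Commute c f := (h.symm.cEA hf hc).symm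
  have hcc : Commute c (a * f * a⁻¹ * f⁻¹) :=
    ((hca.mul_right hcf).mul_right hca.inv_right).mul_right hcf.inv_right
  have e2 : c⁻¹ * (c * f) = f := by group
  rw [e2]
  simp only [commutatorElement_def]
  calc a * (c * f) * a⁻¹ * (c * f)⁻¹ = (a * c) * f * a⁻¹ * f⁻¹ * c⁻¹ := by group
    _ = (c * a) * f * a⁻¹ * f⁻¹ * c⁻¹ := by rw [hca.eq]
    _ = c * (a * f * a⁻¹ * f⁻¹) * c⁻¹ := by group
    _ = a * f * a⁻¹ * f⁻¹ := cc_conj_eq' hcc.eq.symm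

theorem W_eq (h : NConfig S A B C E F) {b : G} (hb : b ∈ B) (hb1 : b ≠ 1) :
    ⁅A, conjBy C b⁻¹⁆ = ⁅A, F⁆ := by
  apply le_antisymm
  · rw [Subgroup.commutator_le]
    intro a ha x hx
    rw [cb_mem] at hx
    have e : x = b⁻¹ * (b⁻¹⁻¹ * x * b⁻¹) * b := by group
    rw [e, h.comm_conj_eq ha hx hb]
    exact Subgroup.commutator_mem_commutator ha (h.symm.f_mem hx hb)
  · rw [Subgroup.commutator_le]
    intro a ha f hf
    obtain ⟨c, hc, rfl⟩ := h.symm.surj hb hb1 hf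
    rw [← h.comm_conj_eq ha hc hb]
    exact Subgroup.commutator_mem_commutator ha (mem_conj hc b)

theorem X_class (h : NConfig S A B C E F) {b : G} (hb : b ∈ B) (hb1 : b ≠ 1) :
    ⁅⁅A ⊔ conjBy C b⁻¹, A ⊔ conjBy C b⁻¹⁆, A ⊔ conjBy C b⁻¹⁆ = ⊥ :=
  nc_class_two (h.hS.commutative A h.hA) (h.hS.commutative _ (h.hS.conj_mem C h.hC b⁻¹))
    (h.W_central hb hb1)

theorem X_comm_iff (h : NConfig S A B C E F) {b : G} (hb : b ∈ B) (hb1 : b ≠ 1) :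
    IsMulCommutative ↥(A ⊔ conjBy C b⁻¹) ↔ ⁅A, F⁆ = ⊥ := by
  rw [← h.W_eq hb hb1]
  constructor
  · intro hc
    apply cc_bot_of_comm
    intro a ha x hx
    exact sr_comm hc (Subgroup.mem_sup_left ha) (Subgroup.mem_sup_right hx)
  · intro h0
    exact nc_comm_of_sup (nc_abelian_sup (h.hS.commutative A h.hA)
      (h.hS.commutative _ (h.hS.conj_mem C h.hC b⁻¹)) (fun a ha x hx => cc_comm_of_bot h0 ha hx))

theorem W_bot_imp (h : NConfig S A B C E F) (h0 : ⁅A, F⁆ = ⊥) : ⁅C, E⁆ = ⊥ := by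
  have h1 : ⁅⁅C, B⁆, A⁆ = ⊥ := by rw [h.hCB, Subgroup.commutator_comm F A]; exact h0
  have h2 : ⁅⁅A, C⁆, B⁆ = ⊥ := by rw [h.hAC]; exact Subgroup.commutator_bot_left (H₁ := B)
  have h3 : ⁅⁅B, A⁆, C⁆ = ⊥ := Subgroup.commutator_commutator_eq_bot_of_rotate h2 h1
  rw [Subgroup.commutator_comm B A, h.hAB, Subgroup.commutator_comm E C] at h3
  exact h3

theorem AE_le (h : NConfig S A B C E F) {b : G} (hb : b ∈ B) (hb1 : b ≠ 1) :
    A ⊔ E ≤ (A ⊔ conjBy C b⁻¹) ⊔ (conjBy A b⁻¹ ⊔ C) :=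
  sup_le (le_sup_of_le_left le_sup_left)
    ((h.E_le hb hb1).trans (sup_le (le_sup_of_le_left le_sup_left)
      (le_sup_of_le_right le_sup_left)))

theorem CF_le (h : NConfig S A B C E F) {b : G} (hb : b ∈ B) (hb1 : b ≠ 1) :
    C ⊔ F ≤ (A ⊔ conjBy C b⁻¹) ⊔ (conjBy A b⁻¹ ⊔ C) :=
  sup_le (le_sup_of_le_right le_sup_right)
    ((h.symm.E_le hb hb1).trans (sup_le (le_sup_of_le_right le_sup_right)
      (le_sup_of_le_left le_sup_right)))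

theorem XY_normal (h : NConfig S A B C E F) {b : G} (hb : b ∈ B) (hb1 : b ≠ 1) :
    ∀ r ∈ A ⊔ B ⊔ C, conjBy ((A ⊔ conjBy C b⁻¹) ⊔ (conjBy A b⁻¹ ⊔ C)) r =
      (A ⊔ conjBy C b⁻¹) ⊔ (conjBy A b⁻¹ ⊔ C) := by
  have hle : A ⊔ B ⊔ C ≤ Subgroup.normalizer
      (((A ⊔ conjBy C b⁻¹) ⊔ (conjBy A b⁻¹ ⊔ C) : Subgroup G) : Set G) := by
    refine sup_le (sup_le ?_ ?_) ?_
    · exact (le_sup_of_le_left le_sup_left).trans Subgroup.le_normalizer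
    · apply norm_of_conj_le
      intro t ht
      show ((A ⊔ conjBy C b⁻¹) ⊔ (conjBy A b⁻¹ ⊔ C)).map _ ≤ _
      rw [Subgroup.map_sup, Subgroup.map_sup, Subgroup.map_sup]
      have hAE := h.AE_le hb hb1
      have hCF := h.CF_le hb hb1
      have htb : t * b⁻¹ ∈ B := mul_mem ht (inv_mem hb)
      refine sup_le (sup_le ?_ ?_) (sup_le ?_ ?_)
      · exact (h.conj_le ht).trans hAE
      · have : (conjBy C b⁻¹).map (MulAut.conj t).toMonoidHom = conjBy C (t * b⁻¹) :=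
          cb_cb C b⁻¹ t
        rw [this]; exact (h.symm.conj_le htb).trans hCF
      · have : (conjBy A b⁻¹).map (MulAut.conj t).toMonoidHom = conjBy A (t * b⁻¹) :=
          cb_cb A b⁻¹ t
        rw [this]; exact (h.conj_le htb).trans hAE
      · exact (h.symm.conj_le ht).trans hCF
    · exact (le_sup_of_le_right le_sup_right).trans Subgroup.le_normalizer
  intro r hr
  exact cb_eq_self_iff.mpr (hle hr)

theorem XYB_eq (h : NConfig S A B C E F) {b : G} (hb : b ∈ B) :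
    ((A ⊔ conjBy C b⁻¹) ⊔ (conjBy A b⁻¹ ⊔ C)) ⊔ B = A ⊔ B ⊔ C := by
  have hbR : b⁻¹ ∈ A ⊔ B ⊔ C := Subgroup.mem_sup_left (Subgroup.mem_sup_right (inv_mem hb))
  apply le_antisymm
  · refine sup_le (sup_le (sup_le ?_ ?_) (sup_le ?_ ?_)) ?_
    · exact le_sup_of_le_left le_sup_left
    · exact cb_le_sup le_sup_right hbR
    · exact cb_le_sup (le_sup_of_le_left le_sup_left) hbR
    · exact le_sup_right
    · exact le_sup_of_le_left le_sup_right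
  · refine sup_le (sup_le ?_ ?_) ?_
    · exact le_sup_of_le_left (le_sup_of_le_left le_sup_left)
    · exact le_sup_right
    · exact le_sup_of_le_left (le_sup_of_le_right le_sup_right)

theorem W_comm (h : NConfig S A B C E F) {b : G} (hb : b ∈ B) (hb1 : b ≠ 1) {w : G}
    (hw : w ∈ ⁅A, F⁆) :
    ∀ m ∈ (A ⊔ conjBy C b⁻¹) ⊔ (conjBy A b⁻¹ ⊔ C), w * m = m * w := by
  rw [← h.W_eq hb hb1] at hw
  have hwX : w ∈ A ⊔ conjBy C b⁻¹ := rl_comm_le hw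
  exact fun m hm => (cc_comm_sup (y := w) (fun x hx => (h.W_central hb hb1 w hw x hx).symm)
    (fun y hy => (h.XY_comm hb w hwX y hy).symm) m hm).symm

theorem W_comm_AE (h : NConfig S A B C E F) {b : G} (hb : b ∈ B) (hb1 : b ≠ 1) {w : G}
    (hw : w ∈ ⁅A, F⁆) : ∀ m ∈ A ⊔ E, w * m = m * w :=
  fun m hm => h.W_comm hb hb1 hw m (h.AE_le hb hb1 hm)

theorem W_comm_CF (h : NConfig S A B C E F) {b : G} (hb : b ∈ B) (hb1 : b ≠ 1) {w : G}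
    (hw : w ∈ ⁅A, F⁆) : ∀ m ∈ C ⊔ F, w * m = m * w :=
  fun m hm => h.W_comm hb hb1 hw m (h.CF_le hb hb1 hm)

theorem V_le (h : NConfig S A B C E F) {b : G} (hb : b ∈ B) (hb1 : b ≠ 1) :
    ⁅E, F⁆ ≤ ⁅A, F⁆ ⊔ ⁅C, E⁆ := by
  rw [Subgroup.commutator_le]
  intro ε hε φ hφ
  obtain ⟨a, ha, rfl⟩ := h.surj hb hb1 hε
  obtain ⟨c, hc, rfl⟩ := h.symm.surj hb hb1 hφ
  have hy : b⁻¹ * a * b ∈ conjBy A b⁻¹ := mem_conj ha b
  have hx : b⁻¹ * c * b ∈ conjBy C b⁻¹ := mem_conj hc b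
  have hXY := h.XY_comm hb
  have hqr : Commute (b⁻¹ * a * b) (b⁻¹ * c * b) :=
    (hXY _ (Subgroup.mem_sup_right hx) _ (Subgroup.mem_sup_left hy)).symm
  have hqp : Commute (b⁻¹ * a * b) a⁻¹ :=
    (hXY _ (Subgroup.mem_sup_left (inv_mem ha)) _ (Subgroup.mem_sup_left hy)).symm
  have hsp : Commute c⁻¹ a⁻¹ :=
    (hXY _ (Subgroup.mem_sup_left (inv_mem ha)) _ (Subgroup.mem_sup_right (inv_mem hc))).symm
  have hsr : Commute c⁻¹ (b⁻¹ * c * b) :=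
    (hXY _ (Subgroup.mem_sup_right hx) _ (Subgroup.mem_sup_right (inv_mem hc))).symm
  rw [comm_split hqr hqp hsp hsr]
  refine mul_mem (Subgroup.mem_sup_left ?_) (Subgroup.mem_sup_right ?_)
  · rw [← h.W_eq hb hb1]; exact Subgroup.commutator_mem_commutator (inv_mem ha) hx
  · rw [← h.symm.W_eq hb hb1, Subgroup.commutator_comm C (conjBy A b⁻¹)]
    exact Subgroup.commutator_mem_commutator hy (inv_mem hc)

theorem exists_b (h : NConfig S A B C E F) : ∃ b ∈ B, b ≠ 1 := by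
  obtain ⟨b, hb0⟩ := (Subgroup.ne_bot_iff_exists_ne_one).mp (h.hS.ne_bot B h.hB)
  exact ⟨b, b.2, fun h' => hb0 (Subtype.ext h')⟩

theorem V_central (h : NConfig S A B C E F) :
    ∀ v ∈ ⁅E, F⁆, ∀ r ∈ A ⊔ B ⊔ C, v * r = r * v := by
  obtain ⟨b, hb, hb1⟩ := h.exists_b
  intro v hv
  have hvEF : v ∈ E ⊔ F := rl_comm_le hv
  have hvW := h.V_le hb hb1 hv
  have hA : ∀ a ∈ A, a * v = v * a := by
    intro a ha
    exact (cc_comm_sup (y := a)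
      (fun w hw => h.W_comm_AE hb hb1 hw a (Subgroup.mem_sup_left ha))
      (fun w hw => h.symm.W_comm_CF hb hb1 hw a (Subgroup.mem_sup_left ha)) v hvW).symm
  have hB : ∀ b' ∈ B, b' * v = v * b' := by
    intro b' hb'
    exact (cc_comm_sup (y := b') (fun e he => h.cEB he hb') (fun f hf => h.symm.cEB hf hb')
      v hvEF).symm
  have hC : ∀ c ∈ C, c * v = v * c := by
    intro c hc
    exact (cc_comm_sup (y := c)
      (fun w hw => h.W_comm_CF hb hb1 hw c (Subgroup.mem_sup_left hc))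
      (fun w hw => h.symm.W_comm_AE hb hb1 hw c (Subgroup.mem_sup_left hc)) v hvW).symm
  intro r hr
  exact (cc_comm_sup (y := v) (cc_comm_sup hA hB) hC r hr).symm

theorem W_B (h : NConfig S A B C E F) : ∀ w ∈ ⁅A, F⁆, ∀ b₂ ∈ B, ⁅w, b₂⁆ ∈ ⁅E, F⁆ := by
  intro w hw b₂ hb₂
  have hVc := h.V_central
  have hN : ∀ r ∈ A ⊔ B ⊔ C, ∀ n ∈ ⁅E, F⁆, r * n * r⁻¹ ∈ ⁅E, F⁆ := by
    intro r hr n hn
    rw [cc_conj_eq' (hVc n hn r hr)]; exact hn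
  rw [Subgroup.commutator_def] at hw
  refine gen_left hN ?_ ?_ w hw
  · rintro _ ⟨a, ha, f, hf, rfl⟩
    have haR : a ∈ A ⊔ B ⊔ C := Subgroup.mem_sup_left (Subgroup.mem_sup_left ha)
    have hfR : f ∈ A ⊔ B ⊔ C := by
      have : f ∈ C ⊔ B := by rw [← h.hCB] at hf; exact rl_comm_le hf
      exact (sup_le le_sup_right (le_sup_of_le_left le_sup_right) : C ⊔ B ≤ A ⊔ B ⊔ C) this
    show ⁅a, f⁆ ∈ A ⊔ B ⊔ C
    rw [commutatorElement_def]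
    exact mul_mem (mul_mem (mul_mem haR hfR) (inv_mem haR)) (inv_mem hfR)
  · rintro _ ⟨a, ha, f, hf, rfl⟩
    obtain ⟨ε, hε, e1⟩ : ∃ ε ∈ E, b₂ * a * b₂⁻¹ = ε * a :=
      ⟨b₂ * a * b₂⁻¹ * a⁻¹, h.comm_mem ha hb₂, by group⟩
    have e2 : b₂ * f * b₂⁻¹ = f := cc_conj_eq' (h.symm.cEB hf hb₂)
    have hεa : ε * a = a * ε := h.cEA hε ha
    have hεa' : a⁻¹ * ε = ε * a⁻¹ := by
      calc a⁻¹ * ε = a⁻¹ * (ε * a) * a⁻¹ := by group
        _ = a⁻¹ * (a * ε) * a⁻¹ := by rw [hεa]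
        _ = ε * a⁻¹ := by group
    have hv : f * ε * f⁻¹ * ε⁻¹ ∈ ⁅E, F⁆ := by
      have := inv_mem (Subgroup.commutator_mem_commutator hε hf)
      have e : f * ε * f⁻¹ * ε⁻¹ = ⁅ε, f⁆⁻¹ := by simp only [commutatorElement_def]; group
      rw [e]; exact this
    have hav : f * ε * f⁻¹ * ε⁻¹ * a = a * (f * ε * f⁻¹ * ε⁻¹) :=
      hVc _ hv a (Subgroup.mem_sup_left (Subgroup.mem_sup_left ha))
    have key : ⁅⁅a, f⁆, b₂⁆ = f * ε * f⁻¹ * ε⁻¹ := by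
      simp only [commutatorElement_def]
      calc a * f * a⁻¹ * f⁻¹ * b₂ * (a * f * a⁻¹ * f⁻¹)⁻¹ * b₂⁻¹
          = (a * f * a⁻¹ * f⁻¹) * ((b₂ * f * b₂⁻¹) * (b₂ * a * b₂⁻¹) * (b₂ * f * b₂⁻¹)⁻¹
              * (b₂ * a * b₂⁻¹)⁻¹) := by group
        _ = (a * f * a⁻¹ * f⁻¹) * (f * (ε * a) * f⁻¹ * (ε * a)⁻¹) := by rw [e1, e2]
        _ = a * f * (a⁻¹ * ε * a) * f⁻¹ * a⁻¹ * ε⁻¹ := by group
        _ = a * f * ε * f⁻¹ * a⁻¹ * ε⁻¹ := by rw [cc_conj_eq hεa]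
        _ = a * (f * ε * f⁻¹ * ε⁻¹) * (ε * a⁻¹ * ε⁻¹) := by group
        _ = a * (f * ε * f⁻¹ * ε⁻¹) * a⁻¹ := by rw [cc_conj_eq' hεa']
        _ = f * ε * f⁻¹ * ε⁻¹ := cc_conj_eq' hav
    rw [key]; exact hv

theorem nilp (h : NConfig S A B C E F) : Group.IsNilpotent ↥(A ⊔ B ⊔ C) := by
  obtain ⟨b, hb, hb1⟩ := h.exists_b
  have hVc := h.V_central
  have hVle := h.V_le hb hb1
  have hAR : A ≤ A ⊔ B ⊔ C := le_sup_of_le_left le_sup_left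
  have hBR : B ≤ A ⊔ B ⊔ C := le_sup_of_le_left le_sup_right
  have hCR : C ≤ A ⊔ B ⊔ C := le_sup_right
  have hER : E ≤ A ⊔ B ⊔ C := by rw [← h.hAB]; exact rl_comm_le.trans (sup_le hAR hBR)
  have hFR : F ≤ A ⊔ B ⊔ C := by rw [← h.hCB]; exact rl_comm_le.trans (sup_le hCR hBR)
  have hWR : ⁅A, F⁆ ≤ A ⊔ B ⊔ C := rl_comm_le.trans (sup_le hAR hFR)
  have hW'R : ⁅C, E⁆ ≤ A ⊔ B ⊔ C := rl_comm_le.trans (sup_le hCR hER)
  have hclR : Subgroup.closure ((A : Set G) ∪ B ∪ C) = A ⊔ B ⊔ C := by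
    rw [Subgroup.closure_union, Subgroup.closure_union, Subgroup.closure_eq,
      Subgroup.closure_eq, Subgroup.closure_eq]
  have hQ : ((A : Set G) ∪ B ∪ C) ⊆ (A ⊔ B ⊔ C : Subgroup G) := by
    rintro x ((hx | hx) | hx)
    · exact hAR hx
    · exact hBR hx
    · exact hCR hx
  -- step 3
  have h3 : ∀ x ∈ ⁅E, F⁆, ∀ r ∈ A ⊔ B ⊔ C, ⁅x, r⁆ = 1 :=
    fun x hx r hr => comm_one' (hVc x hx r hr)
  have hN3 : ∀ r ∈ A ⊔ B ⊔ C, ∀ n ∈ ⁅E, F⁆, r * n * r⁻¹ ∈ ⁅E, F⁆ := by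
    intro r hr n hn
    rw [cc_conj_eq' (hVc n hn r hr)]; exact hn
  -- step 2
  have h2 : ∀ x ∈ ⁅A, F⁆ ⊔ ⁅C, E⁆, ∀ r ∈ A ⊔ B ⊔ C, ⁅x, r⁆ ∈ ⁅E, F⁆ := by
    have hclP : Subgroup.closure (((⁅A, F⁆ : Subgroup G) : Set G) ∪ (⁅C, E⁆ : Subgroup G)) =
        ⁅A, F⁆ ⊔ ⁅C, E⁆ := by
      rw [Subgroup.closure_union, Subgroup.closure_eq, Subgroup.closure_eq]
    intro x hx r hr
    rw [← hclP] at hx
    rw [← hclR] at hr
    refine gen_both hN3 ?_ hQ ?_ x hx r hr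
    · rintro x (hx | hx)
      · exact hWR hx
      · exact hW'R hx
    · rintro x (hx | hx) r ((hr | hr) | hr)
      · rw [comm_one' (h.W_comm_AE hb hb1 hx r (Subgroup.mem_sup_left hr))]; exact one_mem _
      · exact h.W_B x hx r hr
      · rw [comm_one' (h.W_comm_CF hb hb1 hx r (Subgroup.mem_sup_left hr))]; exact one_mem _
      · rw [comm_one' (h.symm.W_comm_CF hb hb1 hx r (Subgroup.mem_sup_left hr))]
        exact one_mem _
      · have := h.symm.W_B x hx r hr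
        rwa [Subgroup.commutator_comm F E] at this
      · rw [comm_one' (h.symm.W_comm_AE hb hb1 hx r (Subgroup.mem_sup_left hr))]
        exact one_mem _
  have hN2 : ∀ r ∈ A ⊔ B ⊔ C, ∀ n ∈ ⁅A, F⁆ ⊔ ⁅C, E⁆, r * n * r⁻¹ ∈ ⁅A, F⁆ ⊔ ⁅C, E⁆ :=
    norm_of_comm hVle h2
  -- step 1
  have h1 : ∀ x ∈ E ⊔ F ⊔ ⁅A, F⁆ ⊔ ⁅C, E⁆, ∀ r ∈ A ⊔ B ⊔ C, ⁅x, r⁆ ∈ ⁅A, F⁆ ⊔ ⁅C, E⁆ := by
    have hclP : Subgroup.closure ((E : Set G) ∪ F ∪ (⁅A, F⁆ : Subgroup G) ∪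
        (⁅C, E⁆ : Subgroup G)) = E ⊔ F ⊔ ⁅A, F⁆ ⊔ ⁅C, E⁆ := by
      rw [Subgroup.closure_union, Subgroup.closure_union, Subgroup.closure_union,
        Subgroup.closure_eq, Subgroup.closure_eq, Subgroup.closure_eq, Subgroup.closure_eq]
    intro x hx r hr
    rw [← hclP] at hx
    rw [← hclR] at hr
    refine gen_both hN2 ?_ hQ ?_ x hx r hr
    · rintro x (((hx | hx) | hx) | hx)
      · exact hER hx
      · exact hFR hx
      · exact hWR hx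
      · exact hW'R hx
    · rintro x (((hx | hx) | hx) | hx) r hr
      · rcases hr with (hr | hr) | hr
        · rw [comm_one' (h.cEA hx hr)]; exact one_mem _
        · rw [comm_one' (h.cEB hx hr)]; exact one_mem _
        · have := Subgroup.commutator_mem_commutator hx hr
          rw [Subgroup.commutator_comm E C] at this
          exact Subgroup.mem_sup_right this
      · rcases hr with (hr | hr) | hr
        · have := Subgroup.commutator_mem_commutator hx hr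
          rw [Subgroup.commutator_comm F A] at this
          exact Subgroup.mem_sup_left this
        · rw [comm_one' (h.symm.cEB hx hr)]; exact one_mem _
        · rw [comm_one' (h.symm.cEA hx hr)]; exact one_mem _
      · exact hVle (h2 x (Subgroup.mem_sup_left hx) r (hQ hr))
      · exact hVle (h2 x (Subgroup.mem_sup_right hx) r (hQ hr))
  have hK21 : ⁅A, F⁆ ⊔ ⁅C, E⁆ ≤ E ⊔ F ⊔ ⁅A, F⁆ ⊔ ⁅C, E⁆ :=
    sup_le (le_sup_of_le_left le_sup_right) le_sup_right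
  have hN1 := norm_of_comm hK21 h1
  -- step 0
  have hEK : E ≤ E ⊔ F ⊔ ⁅A, F⁆ ⊔ ⁅C, E⁆ :=
    le_sup_of_le_left (le_sup_of_le_left le_sup_left)
  have hFK : F ≤ E ⊔ F ⊔ ⁅A, F⁆ ⊔ ⁅C, E⁆ :=
    le_sup_of_le_left (le_sup_of_le_left le_sup_right)
  have h0 : ∀ x ∈ A ⊔ B ⊔ C, ∀ r ∈ A ⊔ B ⊔ C, ⁅x, r⁆ ∈ E ⊔ F ⊔ ⁅A, F⁆ ⊔ ⁅C, E⁆ := by
    intro x hx r hr
    rw [← hclR] at hx hr
    refine gen_both hN1 hQ hQ ?_ x hx r hr
    rintro x ((hx | hx) | hx) r ((hr | hr) | hr)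
    · rw [comm_one' (sr_comm (h.hS.commutative A h.hA) hx hr)]; exact one_mem _
    · have := Subgroup.commutator_mem_commutator hx hr
      rw [h.hAB] at this
      exact hEK this
    · rw [comm_one' (h.cAC hx hr)]; exact one_mem _
    · have := Subgroup.commutator_mem_commutator hx hr
      rw [Subgroup.commutator_comm B A, h.hAB] at this
      exact hEK this
    · rw [comm_one' (sr_comm (h.hS.commutative B h.hB) hx hr)]; exact one_mem _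
    · have := Subgroup.commutator_mem_commutator hx hr
      rw [Subgroup.commutator_comm B C, h.hCB] at this
      exact hFK this
    · rw [comm_one' (h.cAC hr hx).symm]; exact one_mem _
    · have := Subgroup.commutator_mem_commutator hx hr
      rw [h.hCB] at this
      exact hFK this
    · rw [comm_one' (sr_comm (h.hS.commutative C h.hC) hx hr)]; exact one_mem _
  exact nilp4 h0 h1 h2 h3

end NConfig

/-- S5030. -/
theorem s30_main {S : Set (Subgroup G)} (hS : IsRootSubgroupSet S)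
    {A B C : Subgroup G} (hA : A ∈ S) (hB : B ∈ S) (hC : C ∈ S) (hAB : ⁅A, B⁆ ∈ S)
    (hBC : ⁅B, C⁆ ∈ S) (hAC : C ∈ commutingPartners S A)
    {b : G} (hb : b ∈ B) (hb1 : b ≠ 1) :
    ((IsMulCommutative ↥(A ⊔ conjBy C b⁻¹) ∧ IsMulCommutative ↥(conjBy A b⁻¹ ⊔ C)) ∨
      ((¬ IsMulCommutative ↥(A ⊔ conjBy C b⁻¹) ∧
          ⁅⁅A ⊔ conjBy C b⁻¹, A ⊔ conjBy C b⁻¹⁆, A ⊔ conjBy C b⁻¹⁆ = ⊥) ∧
        (¬ IsMulCommutative ↥(conjBy A b⁻¹ ⊔ C) ∧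
          ⁅⁅conjBy A b⁻¹ ⊔ C, conjBy A b⁻¹ ⊔ C⁆, conjBy A b⁻¹ ⊔ C⁆ = ⊥))) ∧
    ⁅A ⊔ conjBy C b⁻¹, conjBy A b⁻¹ ⊔ C⁆ = ⊥ ∧
    (∀ r ∈ A ⊔ B ⊔ C, conjBy ((A ⊔ conjBy C b⁻¹) ⊔ (conjBy A b⁻¹ ⊔ C)) r =
      (A ⊔ conjBy C b⁻¹) ⊔ (conjBy A b⁻¹ ⊔ C)) ∧
    ((A ⊔ conjBy C b⁻¹) ⊔ (conjBy A b⁻¹ ⊔ C)) ⊔ B = A ⊔ B ⊔ C ∧
    Group.IsNilpotent ↥(A ⊔ B ⊔ C) := by
  have hCB : ⁅C, B⁆ ∈ S := by rw [Subgroup.commutator_comm C B]; exact hBC
  have h : NConfig S A B C ⁅A, B⁆ ⁅C, B⁆ := ⟨hS, hA, hB, hC, hAB, hCB, rfl, rfl, hAC.2.2⟩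
  have hX := h.X_comm_iff hb hb1
  have hY := h.symm.X_comm_iff hb hb1
  have hXc := h.X_class hb hb1
  have hYc := h.symm.X_class hb hb1
  rw [sup_comm C (conjBy A b⁻¹)] at hY hYc
  refine ⟨?_, cc_bot_of_comm (h.XY_comm hb), h.XY_normal hb hb1, h.XYB_eq hb, h.nilp⟩
  by_cases hW : ⁅A, ⁅C, B⁆⁆ = ⊥
  · left; exact ⟨hX.mpr hW, hY.mpr (h.W_bot_imp hW)⟩
  · right
    exact ⟨⟨fun hc => hW (hX.mp hc), hXc⟩, ⟨fun hc => hW (h.symm.W_bot_imp (hY.mp hc)), hYc⟩⟩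

end Cfsg.Agent.Lib.Helper6
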