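import Cfsg.Agent.Lib.Helper6.RootGen
import Cfsg.Agent.Lib.Helper6.RootNilp

set_option autoImplicit false
set_option linter.style.haveILetI false
set_option linter.unusedVariables false
set_option linter.unusedSimpArgs false

namespace Cfsg.Agent.Lib.Helper6

open Cfsg
open scoped commutatorElement

variable {G : Type*} [Group G] {S : Set (Subgroup G)} {A B C D : Subgroup G}

/-- For a commutator pair `(A, B)` there is a rank one partner of `B` commuting with `A`. -/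
theorem ti_exists_Y (hS : IsRootSubgroupSet S) (hF : ∀ X ∈ S, ¬ IsIsolatedIn (FAdj S) S X)
    (hA : A ∈ S) (hB : B ∈ S) (hL : ⁅A, B⁆ ∈ S) :
    ∃ Y ∈ S, ⁅A, Y⁆ = ⊥ ∧ IsRankOnePair B Y ∧ ⁅⁅A, B⁆, Y⁆ = A := by
  have hcc := rl_comm_case hS hA hB hL
  have hl := rl_line hS (hF A hA) hA hB hL
  have hAΛ : A ∈ linePartners S ⁅A, B⁆ := hl.2.2.1
  have hLA : ⁅⁅A, B⁆, A⁆ = ⊥ := hAΛ.1.2.2
  obtain ⟨D₀, hD₀, hLD₀⟩ := rs_not_isolated (hF _ hL) hL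
  obtain ⟨P, hP, hPle, hT, hLT, hsup⟩ := s42_step hS hF hL hD₀ hLD₀ hAΛ
  have hPne : ⁅A, B⁆ ≠ P := by
    have hLTS : ⁅⁅A, B⁆, ⁅P, D₀⁆⁆ ∈ S := by rw [hLT]; exact hP
    have := rl_ne hS (rl_comm_case hS hL hT hLTS)
    rwa [hLT] at this
  have hPmem : P ∈ membersIn S (A ⊔ ⁅A, B⁆) := ⟨hP, by rw [sup_comm]; exact hPle⟩
  rw [hl.1] at hPmem
  rcases hPmem with ⟨b, hb, hbP⟩ | h
  swap
  · exact absurd h.symm hPne
  have hbP' : conjBy A b = P := hbP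
  have hLb : conjBy ⁅A, B⁆ b⁻¹ = ⁅A, B⁆ := by
    apply cb_of_centralizes
    intro x hx
    exact hcc.2.1 x hx b⁻¹ (Subgroup.mem_sup_right (inv_mem hb))
  have hLD : IsRankOnePair ⁅A, B⁆ (conjBy D₀ b⁻¹) := by
    have := rl_conj_rankOne hLD₀ b⁻¹
    rwa [hLb] at this
  have hD : conjBy D₀ b⁻¹ ∈ S := hS.conj_mem D₀ hD₀ b⁻¹
  have hAP : conjBy P b⁻¹ = A := by rw [← hbP', cb_cb, inv_mul_cancel, cb_one]
  have hAD : ⁅A, conjBy D₀ b⁻¹⁆ ∈ S := by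
    have h1 : conjBy ⁅P, D₀⁆ b⁻¹ = ⁅conjBy P b⁻¹, conjBy D₀ b⁻¹⁆ := Subgroup.map_commutator _ _ _
    rw [hAP] at h1
    rw [← h1]; exact hS.conj_mem _ hT b⁻¹
  have hroot : ∀ l ∈ ⁅A, B⁆, ∀ a ∈ A, l * a ≠ 1 → l * a ∈ rootElements S := by
    intro l hl' a ha hne
    obtain ⟨M', ⟨hM', -⟩, hmem⟩ := hl.2.1.2.1 (l * a)
      (mul_mem (Subgroup.mem_sup_right hl') (Subgroup.mem_sup_left ha)) hne
    exact ⟨hne, M', hM', hmem⟩
  have hK := lk_eq hS hL hD hA hLD hLA (hF A hA) hroot hAD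
  have cfg := kl_config hS hL hA hD hLD hLA hAD
  rw [hK] at cfg
  have hY := cfg.hC
  have hAY : ⁅A, ⁅A, conjBy D₀ b⁻¹⁆⁆ = ⊥ :=
    cc_bot_of_comm (fun a ha y hy => (cfg.cA hy ha).symm)
  have hLY : ⁅⁅A, B⁆, ⁅A, conjBy D₀ b⁻¹⁆⁆ = A := cfg.hDC
  refine ⟨⁅A, conjBy D₀ b⁻¹⁆, hY, hAY, ?_, hLY⟩
  rcases hS.pair B hB _ hY with h | h | h
  · exfalso
    have h1 : ⁅⁅B, ⁅A, conjBy D₀ b⁻¹⁆⁆, A⁆ = ⊥ := by
      rw [h]; exact Subgroup.commutator_bot_left (H₁ := A)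
    have h2 : ⁅⁅⁅A, conjBy D₀ b⁻¹⁆, A⁆, B⁆ = ⊥ := by
      rw [Subgroup.commutator_comm ⁅A, conjBy D₀ b⁻¹⁆ A, hAY]
      exact Subgroup.commutator_bot_left (H₁ := B)
    have h3 := Subgroup.commutator_commutator_eq_bot_of_rotate h1 h2
    rw [hLY] at h3
    exact hS.ne_bot A hA h3
  · exact h
  · exfalso
    have hLB : ⁅⁅A, B⁆, B⁆ = ⊥ :=
      cc_bot_of_comm (fun l hl' b' hb' => hcc.2.1 l hl' b' (Subgroup.mem_sup_right hb'))
    have nc : NConfig S ⁅A, B⁆ ⁅A, conjBy D₀ b⁻¹⁆ B A ⁅B, ⁅A, conjBy D₀ b⁻¹⁆⁆ :=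
      ⟨hS, hL, hY, hB, hA, h.1, hLY, rfl, hLB⟩
    obtain ⟨y, hy, hy1⟩ := nc.exists_b
    have h1 : ⁅⁅A, B⁆, ⁅B, ⁅A, conjBy D₀ b⁻¹⁆⁆⁆ = ⊥ := by
      apply cc_bot_of_comm
      intro l hl' k hk
      have hl'' : l ∈ ⁅B, A⁆ := by rw [Subgroup.commutator_comm B A]; exact hl'
      exact nc.symm.W_comm_AE hy hy1 hl'' k (Subgroup.mem_sup_right hk)
    have h2 := nc.W_bot_imp h1
    rw [Subgroup.commutator_comm B A] at h2
    exact hS.ne_bot _ hL h2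

/-- The stabilizer of a family under conjugation. -/
def tiStab (Δ : Set (Subgroup G)) : Subgroup G where
  carrier := {x | ∀ X ∈ Δ, conjBy X x ∈ Δ ∧ conjBy X x⁻¹ ∈ Δ}
  mul_mem' := by
    intro x y hx hy X hX
    refine ⟨?_, ?_⟩
    · rw [← cb_cb]; exact (hx _ (hy X hX).1).1
    · rw [mul_inv_rev, ← cb_cb]; exact (hy _ (hx X hX).2).2
  one_mem' := by
    intro X hX
    rw [inv_one, cb_one]; exact ⟨hX, hX⟩
  inv_mem' := by
    intro x hx X hX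
    rw [inv_inv]; exact ⟨(hx X hX).2, (hx X hX).1⟩

theorem ti_stab_le {Δ : Set (Subgroup G)} (hΔ : IsWeakTISubset S Δ) {X : Subgroup G}
    (hC : C ∈ S) (hX : X ∈ Δ) (hfix : ∀ c ∈ C, conjBy X c = X) : C ≤ tiStab Δ := by
  intro c hc
  by_cases hc1 : c = 1
  · rw [hc1]; exact one_mem _
  have hroot : c ∈ rootElements S := ⟨hc1, C, hC, hc⟩
  rcases hΔ.2.2.2 c hroot with h | h
  · intro X' hX'
    refine ⟨?_, ?_⟩
    · have h1 : conjBy X' c ∈ (fun A => conjBy A c) '' Δ := ⟨X', hX', rfl⟩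
      rwa [h] at h1
    · have h2 : X' ∈ (fun A => conjBy A c) '' Δ := by rw [h]; exact hX'
      obtain ⟨X'', hX'', rfl⟩ := h2
      show conjBy (conjBy X'' c) c⁻¹ ∈ Δ
      rw [cb_cb, inv_mul_cancel, cb_one]; exact hX''
  · exact absurd hX (Set.disjoint_left.mp h ⟨X, hX, hfix c hc⟩)

/-- S5040. -/
theorem s40_main (hS : IsRootSubgroupClass S) (hnd : IsNondegenerateRootSet S)
    {Δ : Set (Subgroup G)} (hΔ : IsWeakTISubset S Δ) : IsAbelianFamily Δ := by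
  by_contra hna
  unfold IsAbelianFamily at hna
  push_neg at hna
  obtain ⟨A, hA, B, hB, a, ha, b, hb, hab⟩ := hna
  have hsub := hΔ.1
  have hne := hΔ.2.2.1
  have hF := nd_all_nonisolated hS hnd
  have htop : tiStab Δ = ⊤ → False := by
    intro h
    apply hne
    apply Set.Subset.antisymm hsub
    intro M hM
    obtain ⟨g, rfl⟩ := hS.2.2 A (hsub hA) M hM
    have hg : g ∈ tiStab Δ := by rw [h]; exact Subgroup.mem_top g
    exact (hg A hA).1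
  have hΛ : ∀ X ∈ Δ, ∀ C ∈ linePartners S X, C ≤ tiStab Δ := by
    intro X hX C hC
    apply ti_stab_le hΔ hC.1.1 hX
    intro c hc
    apply cb_of_centralizes
    intro x hx
    exact cc_comm_of_bot hC.1.2.2 hx hc
  have hself : ∀ X ∈ Δ, X ≤ tiStab Δ := fun X hX =>
    ti_stab_le hΔ (hsub hX) hX (fun c hc => cb_of_mem hc)
  rcases hS.1.pair A (hsub hA) B (hsub hB) with h | h | h
  · exact hab (cc_comm_of_bot h ha hb)
  · apply htop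
    rw [eq_top_iff, ← s42_main hS hnd (hsub hA) ⟨hsub hB, h⟩]
    exact sup_le (iSup₂_le (hΛ A hA)) (hself B hB)
  · obtain ⟨Y, hY, hAY, hBY, -⟩ := ti_exists_Y hS.1 hF (hsub hA) (hsub hB) h.1
    apply htop
    rw [eq_top_iff, ← s42_main hS hnd (hsub hB) ⟨hY, hBY⟩]
    refine sup_le (iSup₂_le (hΛ B hB)) (ti_stab_le hΔ hY hA ?_)
    intro c hc
    apply cb_of_centralizes
    intro x hx
    exact cc_comm_of_bot hAY hx hc

end Cfsg.Agent.Lib.Helper6
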