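import Cfsg.Agent.Lib.Helper6.SpecialPerf
import Cfsg.Agent.Lib.Helper6.RootTI
import Mathlib.GroupTheory.IsPerfect

set_option autoImplicit false
set_option linter.style.haveILetI false
set_option linter.unusedVariables false
set_option linter.unusedSimpArgs false

namespace Cfsg.Agent.Lib.Helper6

open Cfsg
open scoped commutatorElement

variable {G : Type*} [Group G] {S : Set (Subgroup G)}

theorem qs_conj' {N : Subgroup G} (hN : N.Normal) {n : G} (hn : n ∈ N) (g : G) :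
    g⁻¹ * n * g ∈ N := by
  have := hN.conj_mem n hn g⁻¹
  rwa [inv_inv] at this

theorem qs_mem_conj {A : Subgroup G} {a : G} (ha : a ∈ A) (b : G) :
    b⁻¹ * a * b ∈ conjBy A b⁻¹ := by
  rw [cb_mem]
  have : b⁻¹⁻¹ * (b⁻¹ * a * b) * b⁻¹ = a := by group
  rw [this]; exact ha

/-- A normal subgroup meeting a root subgroup non-trivially is everything (for perfect `G`). -/
theorem qs_inter_top (hS : IsRootSubgroupSet S) (hconn : IsConnectedFamily (FAdj S) S)
    (hperf : commutator G = ⊤) {N : Subgroup G} (hN : N.Normal) {A : Subgroup G} (hA : A ∈ S)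
    (hAN : A ⊓ N ≠ ⊥) : N = ⊤ := by
  have key : ∀ M, Relation.ReflTransGen (FAdj S) A M → M ⊓ N ≠ ⊥ ∧ M ≤ A ⊔ N := by
    intro M hrt
    induction hrt with
    | refl => exact ⟨hAN, le_sup_left⟩
    | @tail M M' _ hstep ih =>
      obtain ⟨hMN, hMle⟩ := ih
      obtain ⟨hMS, hM'S, hr⟩ := hstep
      obtain ⟨m, hm, hm1⟩ : ∃ m ∈ M ⊓ N, m ≠ 1 := by
        obtain ⟨m, hm0⟩ := (Subgroup.ne_bot_iff_exists_ne_one).mp hMN
        exact ⟨m, m.2, fun h' => hm0 (Subtype.ext h')⟩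
      obtain ⟨hmM, hmN⟩ := Subgroup.mem_inf.mp hm
      obtain ⟨b, hb, hb1, hc⟩ := hr.cond_left m hmM hm1
      have h1 : b⁻¹ * m * b ∈ conjBy M' m⁻¹ := by
        rw [← hc]; exact qs_mem_conj hmM b
      rw [cb_mem, inv_inv] at h1
      have h2 : m * (b⁻¹ * m * b) * m⁻¹ ∈ N := hN.conj_mem _ (qs_conj' hN hmN b) m
      have h3 : m * (b⁻¹ * m * b) * m⁻¹ ≠ 1 := by
        intro h'
        apply hm1
        have : m = b * (m⁻¹ * (m * (b⁻¹ * m * b) * m⁻¹) * m) * b⁻¹ := by group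
        rw [this, h']; group
      have hM'N : M' ⊓ N ≠ ⊥ := by
        intro h'
        have : m * (b⁻¹ * m * b) * m⁻¹ ∈ M' ⊓ N := Subgroup.mem_inf.mpr ⟨h1, h2⟩
        rw [h', Subgroup.mem_bot] at this
        exact h3 this
      refine ⟨hM'N, ?_⟩
      obtain ⟨m₁, hm₁, -, hc₁⟩ := hr.cond_right _ h1 h3
      intro y hy
      have hy1 : m₁⁻¹ * y * m₁ ∈ conjBy M (m * (b⁻¹ * m * b) * m⁻¹)⁻¹ := by
        rw [← hc₁]; exact qs_mem_conj hy m₁
      rw [cb_mem, inv_inv] at hy1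
      have hNle : N ≤ A ⊔ N := le_sup_right
      have e : y = m₁ * ((m * (b⁻¹ * m * b) * m⁻¹)⁻¹ *
          ((m * (b⁻¹ * m * b) * m⁻¹) * (m₁⁻¹ * y * m₁) * (m * (b⁻¹ * m * b) * m⁻¹)⁻¹) *
          (m * (b⁻¹ * m * b) * m⁻¹)) * m₁⁻¹ := by group
      rw [e]
      exact mul_mem (mul_mem (hMle hm₁) (mul_mem (mul_mem (hNle (inv_mem h2)) (hMle hy1))
        (hNle h2))) (inv_mem (hMle hm₁))
  have htop : A ⊔ N = ⊤ := by
    rw [eq_top_iff, ← hS.generates]
    exact iSup₂_le (fun M hM => (key M (hconn A hA M hM)).2)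
  have hcl : Subgroup.closure ((A : Set G) ∪ N) = ⊤ := by
    rw [Subgroup.closure_union, Subgroup.closure_eq, Subgroup.closure_eq, htop]
  have hsub : ((A : Set G) ∪ N) ⊆ ((⊤ : Subgroup G) : Set G) := fun x _ => Subgroup.mem_top x
  have hcomm : commutator G ≤ N := by
    rw [commutator_def, Subgroup.commutator_le]
    intro x _ y _
    have hx : x ∈ Subgroup.closure ((A : Set G) ∪ N) := by rw [hcl]; exact Subgroup.mem_top x
    have hy : y ∈ Subgroup.closure ((A : Set G) ∪ N) := by rw [hcl]; exact Subgroup.mem_top y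
    refine gen_both (N := N) (R := ⊤) (fun r _ n hn => hN.conj_mem n hn r) hsub hsub ?_ x hx y hy
    rintro x (hx | hx) r (hr | hr)
    · rw [comm_one' (sr_comm (hS.commutative A hA) hx hr)]; exact one_mem _
    · rw [commutatorElement_def]
      exact mul_mem (hN.conj_mem r hr x) (inv_mem hr)
    · have e : ⁅x, r⁆ = x * (r * x⁻¹ * r⁻¹) := by rw [commutatorElement_def]; group
      rw [e]; exact mul_mem hx (hN.conj_mem _ (inv_mem hx) r)
    · have e : ⁅x, r⁆ = x * (r * x⁻¹ * r⁻¹) := by rw [commutatorElement_def]; group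
      rw [e]; exact mul_mem hx (hN.conj_mem _ (inv_mem hx) r)
  rw [hperf] at hcomm
  exact top_le_iff.mp hcomm

/-- Non-degenerate case: a normal subgroup containing the commutator subgroup of a rank one
group is everything. -/
theorem qs_r1_top_nd (hS : IsRootSubgroupClass S) (hnd : IsNondegenerateRootSet S)
    (hconn : IsConnectedFamily (FAdj S) S) (hperf : commutator G = ⊤)
    {N : Subgroup G} (hN : N.Normal) {M C : Subgroup G} (hM : M ∈ S) (hC : C ∈ S)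
    (hr : IsRankOnePair M C) (hle : ⁅M ⊔ C, M ⊔ C⁆ ≤ N) : N = ⊤ := by
  have hF := nd_all_nonisolated hS hnd
  obtain ⟨⟨D, hDΛ, hDC⟩, -⟩ := s34_main hS hnd hM ⟨hC, hr⟩
  have hD : D ∈ S := hDΛ.1.1
  have hMD : ⁅M, D⁆ = ⊥ := hDΛ.1.2.2
  have hT : ⁅D, C⁆ ∈ S := by rw [Subgroup.commutator_comm D C]; exact hDC.2
  have hroot : ∀ a ∈ M, ∀ d ∈ D, a * d ≠ 1 → a * d ∈ rootElements S := by
    intro a ha d hd hne
    obtain ⟨M', ⟨hM', -⟩, hmem⟩ := hDΛ.2.2.1 (a * d)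
      (mul_mem (Subgroup.mem_sup_left ha) (Subgroup.mem_sup_right hd)) hne
    exact ⟨hne, M', hM', hmem⟩
  have hK := lk_eq hS.1 hM hC hD hr hMD (hF D hD) hroot hT
  have cfg := kl_config hS.1 hM hD hC hr hMD hT
  rw [hK] at cfg
  have hccDC : RootCommutatorCase S D C := rl_comm_case hS.1 hD hC hT
  have hMTS : ⁅M, ⁅D, C⁆⁆ ∈ S := by rw [cfg.hDC]; exact hD
  have hccMT : RootCommutatorCase S M ⁅D, C⁆ := rl_comm_case hS.1 hM hT hMTS
  obtain ⟨d, hd, hd1⟩ : ∃ d ∈ D, d ≠ 1 := by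
    obtain ⟨d, hd0⟩ := (Subgroup.ne_bot_iff_exists_ne_one).mp (hS.1.ne_bot D hD)
    exact ⟨d, d.2, fun h' => hd0 (Subtype.ext h')⟩
  obtain ⟨a, ha, ha1⟩ : ∃ a ∈ M, a ≠ 1 := by
    obtain ⟨a, ha0⟩ := (Subgroup.ne_bot_iff_exists_ne_one).mp (hS.1.ne_bot M hM)
    exact ⟨a, a.2, fun h' => ha0 (Subtype.ext h')⟩
  obtain ⟨c, hc, hc1⟩ : ∃ c ∈ C, c ≠ 1 := by
    obtain ⟨c, hc0⟩ := (Subgroup.ne_bot_iff_exists_ne_one).mp (hS.1.ne_bot C hC)
    exact ⟨c, c.2, fun h' => hc0 (Subtype.ext h')⟩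
  have huN : a * c * a⁻¹ * c⁻¹ ∈ N :=
    hle (cc_comm_mem (Subgroup.mem_sup_left ha) (Subgroup.mem_sup_right hc))
  have hda : Commute d a := (cc_comm_of_bot hMD ha hd).symm
  -- `d` does not commute with `u`
  have hdu : d * (a * c * a⁻¹ * c⁻¹) ≠ (a * c * a⁻¹ * c⁻¹) * d := by
    intro h'
    have h1 : Commute d (a * c * a⁻¹ * c⁻¹) := h'
    have h2 : Commute d (c * a⁻¹ * c⁻¹) := by
      have := hda.inv_right.mul_right h1
      have e : a⁻¹ * (a * c * a⁻¹ * c⁻¹) = c * a⁻¹ * c⁻¹ := by group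
      rwa [e] at this
    have h3 : Commute (c⁻¹ * d * c) a⁻¹ := by
      show c⁻¹ * d * c * a⁻¹ = a⁻¹ * (c⁻¹ * d * c)
      calc c⁻¹ * d * c * a⁻¹ = c⁻¹ * (d * (c * a⁻¹ * c⁻¹)) * c := by group
        _ = c⁻¹ * ((c * a⁻¹ * c⁻¹) * d) * c := by rw [h2.eq]
        _ = a⁻¹ * (c⁻¹ * d * c) := by group
    have h4 : Commute (c⁻¹ * d * c) a := by
      have := h3.inv_right
      rwa [inv_inv] at this
    have h5 : Commute (d⁻¹ * (c⁻¹ * d * c)) a := hda.inv_left.mul_left h4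
    have ht : d⁻¹ * (c⁻¹ * d * c) ∈ ⁅D, C⁆ := by
      have := cc_comm_mem (A := D) (B := C) (inv_mem hd) (inv_mem hc)
      have e : d⁻¹ * c⁻¹ * d⁻¹⁻¹ * c⁻¹⁻¹ = d⁻¹ * (c⁻¹ * d * c) := by group
      rwa [e] at this
    have ht1 : d⁻¹ * (c⁻¹ * d * c) ≠ 1 := by
      intro h''
      apply rl_no_commute hS.1 (hF D hD) hD hccDC hd hd1 hc hc1
      calc d * c = c * (d * (d⁻¹ * (c⁻¹ * d * c))) := by group
        _ = c * d := by rw [h'', mul_one]
    exact rl_no_commute hS.1 (hF M hM) hM hccMT ha ha1 ht ht1 h5.eq.symm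
  -- the commutator `w = [d, u]`
  have hwN : d * (a * c * a⁻¹ * c⁻¹) * d⁻¹ * (a * c * a⁻¹ * c⁻¹)⁻¹ ∈ N :=
    mul_mem (hN.conj_mem _ huN d) (inv_mem huN)
  have hw1 : d * (a * c * a⁻¹ * c⁻¹) * d⁻¹ * (a * c * a⁻¹ * c⁻¹)⁻¹ ≠ 1 := by
    intro h'
    apply hdu
    calc d * (a * c * a⁻¹ * c⁻¹)
        = (d * (a * c * a⁻¹ * c⁻¹) * d⁻¹ * (a * c * a⁻¹ * c⁻¹)⁻¹) * ((a * c * a⁻¹ * c⁻¹) * d) := by
          group
      _ = (a * c * a⁻¹ * c⁻¹) * d := by rw [h', one_mul]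
  have hconjC : ∀ c' ∈ C, ∀ n ∈ D ⊔ ⁅D, C⁆, c' * n * c'⁻¹ ∈ D ⊔ ⁅D, C⁆ := by
    intro c' hc' n hn
    have h1 := cfg.comm_N hc' hn
    have e : c' * n * c'⁻¹ = (c' * n * c'⁻¹ * n⁻¹) * n := by group
    rw [e]; exact mul_mem (Subgroup.mem_sup_right h1) hn
  have hconjM : ∀ a' ∈ M, ∀ n ∈ D ⊔ ⁅D, C⁆, a' * n * a'⁻¹ ∈ D ⊔ ⁅D, C⁆ := by
    intro a' ha' n hn
    have hn' : n ∈ ⁅D, C⁆ ⊔ D := by rw [sup_comm]; exact hn
    have h1 := cfg.symm.comm_N ha' hn'
    have e : a' * n * a'⁻¹ = (a' * n * a'⁻¹ * n⁻¹) * n := by group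
    rw [e]; exact mul_mem (Subgroup.mem_sup_left h1) hn
  have hwDT : d * (a * c * a⁻¹ * c⁻¹) * d⁻¹ * (a * c * a⁻¹ * c⁻¹)⁻¹ ∈ D ⊔ ⁅D, C⁆ := by
    have hdDT : d⁻¹ ∈ D ⊔ ⁅D, C⁆ := Subgroup.mem_sup_left (inv_mem hd)
    have h1 := hconjC c⁻¹ (inv_mem hc) _ hdDT
    have h2 := hconjM a⁻¹ (inv_mem ha) _ h1
    have h3 := hconjC c hc _ h2
    have h4 := hconjM a ha _ h3
    have e : d * (a * c * a⁻¹ * c⁻¹) * d⁻¹ * (a * c * a⁻¹ * c⁻¹)⁻¹ =
        d * (a * (c * (a⁻¹ * (c⁻¹ * d⁻¹ * c⁻¹⁻¹) * a⁻¹⁻¹) * c⁻¹) * a⁻¹) := by group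
    rw [e]
    exact mul_mem (Subgroup.mem_sup_left hd) h4
  have hTΛ := rl_line_partner hS.1 (hF D hD) hD hC hT
  obtain ⟨M', ⟨hM', -⟩, hwM'⟩ := hTΛ.2.2.1 _ hwDT hw1
  apply qs_inter_top hS.1 hconn hperf hN hM'
  intro h'
  have : d * (a * c * a⁻¹ * c⁻¹) * d⁻¹ * (a * c * a⁻¹ * c⁻¹)⁻¹ ∈ M' ⊓ N :=
    Subgroup.mem_inf.mpr ⟨hwM', hwN⟩
  rw [h', Subgroup.mem_bot] at this
  exact hw1 this

/-- A normal subgroup is everything or central. -/
theorem qs_normal (hS : IsRootSubgroupSet S) (hconn : IsConnectedFamily (FAdj S) S)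
    (hperf : commutator G = ⊤)
    (h2' : ∀ A ∈ S, ∀ C ∈ S, A ≠ C → centralizingMembers S A ≠ centralizingMembers S C)
    (hr1 : ∀ N : Subgroup G, N.Normal → ∀ M ∈ S, ∀ C ∈ S, IsRankOnePair M C →
      ⁅M ⊔ C, M ⊔ C⁆ ≤ N → N = ⊤)
    {N : Subgroup G} (hN : N.Normal) : N = ⊤ ∨ N ≤ Subgroup.center G := by
  by_cases htop : N = ⊤
  · left; exact htop
  right
  have hα : ∀ M ∈ S, M ⊓ N = ⊥ := fun M hM => by
    by_contra h; exact htop (qs_inter_top hS hconn hperf hN hM h)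
  have hcent : ∀ A ∈ S, ∀ n ∈ N,
      centralizingMembers S A ⊆ centralizingMembers S (conjBy A n) := by
    rintro A hA n hn M ⟨hM, hMA⟩
    refine ⟨hM, ?_⟩
    have hAn : conjBy A n ∈ S := hS.conj_mem A hA n
    have hmc : ∀ m ∈ M, ∀ c ∈ conjBy A n, ⁅m, c⁆ ∈ N := by
      intro m hm c hc
      rw [cb_mem] at hc
      have hcomm : (n⁻¹ * c * n) * m = m * (n⁻¹ * c * n) :=
        Subgroup.mem_centralizer_iff.mp (hMA hm) _ hc
      have e : ⁅m, c⁆ = (m * n * m⁻¹) * ((m * (n⁻¹ * c * n) * m⁻¹) * ((m * n * m⁻¹)⁻¹ * n) *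
          (n⁻¹ * c * n)⁻¹) * n⁻¹ := by
        rw [commutatorElement_def]; group
      rw [e, cc_conj_eq' hcomm]
      exact mul_mem (mul_mem (hN.conj_mem n hn m)
        (hN.conj_mem _ (mul_mem (inv_mem (hN.conj_mem n hn m)) hn) _)) (inv_mem hn)
    have hle : ⁅M ⊔ conjBy A n, M ⊔ conjBy A n⁆ ≤ N := by
      have hcl : Subgroup.closure ((M : Set G) ∪ (conjBy A n : Subgroup G)) = M ⊔ conjBy A n := by
        rw [Subgroup.closure_union, Subgroup.closure_eq, Subgroup.closure_eq]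
      have hsub : ((M : Set G) ∪ (conjBy A n : Subgroup G)) ⊆ ((⊤ : Subgroup G) : Set G) :=
        fun x _ => Subgroup.mem_top x
      rw [Subgroup.commutator_le]
      intro x hx y hy
      rw [← hcl] at hx hy
      refine gen_both (N := N) (R := ⊤) (fun r _ n' hn' => hN.conj_mem n' hn' r) hsub hsub ?_
        x hx y hy
      rintro x (hx | hx) r (hr | hr)
      · rw [comm_one' (sr_comm (hS.commutative M hM) hx hr)]; exact one_mem _
      · exact hmc x hx r hr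
      · have e : ⁅x, r⁆ = ⁅r, x⁆⁻¹ := by simp only [commutatorElement_def]; group
        rw [e]; exact inv_mem (hmc r hr x hx)
      · rw [comm_one' (sr_comm (hS.commutative _ hAn) hx hr)]; exact one_mem _
    rcases hS.pair M hM _ hAn with h | h | h
    · exact Subgroup.commutator_eq_bot_iff_le_centralizer.mp h
    · exact absurd (hr1 N hN M hM _ hAn h hle) htop
    · exfalso
      have h1 : ⁅M, conjBy A n⁆ ≤ N := by
        rw [Subgroup.commutator_le]; exact hmc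
      have h2 := hα _ h.1
      rw [inf_eq_left.mpr h1] at h2
      exact hS.ne_bot _ h.1 h2
  have hfix : ∀ A ∈ S, ∀ n ∈ N, conjBy A n = A := by
    intro A hA n hn
    by_contra hne
    apply h2' (conjBy A n) (hS.conj_mem A hA n) A hA hne
    apply Set.Subset.antisymm
    · have := hcent (conjBy A n) (hS.conj_mem A hA n) n⁻¹ (inv_mem hn)
      rwa [cb_cb, inv_mul_cancel, cb_one] at this
    · exact hcent A hA n hn
  intro n hn
  rw [Subgroup.mem_center_iff]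
  have hcomm : ∀ A ∈ S, ∀ a ∈ A, a * n = n * a := by
    intro A hA a ha
    have h1 : n * a * n⁻¹ ∈ A := by
      have := cb_mem' (A := A) (g := n) ha
      rwa [hfix A hA n hn] at this
    have h2 : n * a * n⁻¹ * a⁻¹ ∈ A ⊓ N := by
      refine Subgroup.mem_inf.mpr ⟨mul_mem h1 (inv_mem ha), ?_⟩
      have e : n * a * n⁻¹ * a⁻¹ = n * (a * n⁻¹ * a⁻¹) := by group
      rw [e]; exact mul_mem hn (hN.conj_mem _ (inv_mem hn) a)
    rw [hα A hA, Subgroup.mem_bot] at h2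
    calc a * n = (n * a * n⁻¹ * a⁻¹)⁻¹ * (n * a) := by group
      _ = n * a := by rw [h2, inv_one, one_mul]
  have hle : (⨆ A ∈ S, A) ≤ Subgroup.centralizer ({n} : Set G) := by
    refine iSup₂_le (fun A hA a ha => ?_)
    rw [Subgroup.mem_centralizer_iff]
    intro h hh
    rw [Set.mem_singleton_iff.mp hh]
    exact (hcomm A hA a ha).symm
  intro g
  have hg : g ∈ Subgroup.centralizer ({n} : Set G) := by
    apply hle; rw [hS.generates]; exact Subgroup.mem_top g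
  exact (Subgroup.mem_centralizer_iff.mp hg n rfl).symm

/-- quasisimplicity of a perfect group whose normal subgroups are central or everything. -/
theorem qs_of_top (hperf : commutator G = ⊤)
    (hN : ∀ N : Subgroup G, N.Normal → N = ⊤ ∨ N ≤ Subgroup.center G)
    (hnc : ∃ x y : G, x * y ≠ y * x) : IsQuasisimple ↥(commutator G) := by
  have hsimple : IsSimpleGroup (G ⧸ Subgroup.center G) := by
    haveI : Nontrivial (G ⧸ Subgroup.center G) := by
      rw [QuotientGroup.nontrivial_iff]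
      intro h
      obtain ⟨x, y, hxy⟩ := hnc
      have hx : x ∈ Subgroup.center G := by rw [h]; exact Subgroup.mem_top x
      exact hxy (Subgroup.mem_center_iff.mp hx y).symm
    refine ⟨fun H hH => ?_⟩
    have hcomap : (H.comap (QuotientGroup.mk' (Subgroup.center G))).Normal := hH.comap _
    rcases hN _ hcomap with h | h
    · right
      rw [eq_top_iff]
      intro q _
      obtain ⟨g, rfl⟩ := QuotientGroup.mk_surjective q
      have : g ∈ H.comap (QuotientGroup.mk' (Subgroup.center G)) := by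
        rw [h]; exact Subgroup.mem_top g
      exact this
    · left
      rw [eq_bot_iff]
      intro q hq
      obtain ⟨g, rfl⟩ := QuotientGroup.mk_surjective q
      have : g ∈ Subgroup.center G := h hq
      rw [Subgroup.mem_bot]
      exact (QuotientGroup.eq_one_iff g).mpr this
  refine ⟨?_, ?_⟩
  · rw [Subgroup.isPerfect_iff, hperf]; exact hperf
  · have he : (Subgroup.center ↥(commutator G)).map
        (((MulEquiv.subgroupCongr hperf).trans Subgroup.topEquiv : ↥(commutator G) ≃* G) :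
          ↥(commutator G) →* G) = Subgroup.center G := by
      ext x
      constructor
      · rintro ⟨z, hz, rfl⟩
        rw [Subgroup.mem_center_iff]
        intro g
        have hz' := Subgroup.mem_center_iff.mp hz
          (((MulEquiv.subgroupCongr hperf).trans Subgroup.topEquiv).symm g)
        have h2 := congrArg ((MulEquiv.subgroupCongr hperf).trans Subgroup.topEquiv) hz'
        simpa using h2
      · intro hx
        refine ⟨((MulEquiv.subgroupCongr hperf).trans Subgroup.topEquiv).symm x, ?_, by simp⟩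
        rw [SetLike.mem_coe, Subgroup.mem_center_iff]
        intro g
        apply ((MulEquiv.subgroupCongr hperf).trans Subgroup.topEquiv).injective
        have := Subgroup.mem_center_iff.mp hx
          (((MulEquiv.subgroupCongr hperf).trans Subgroup.topEquiv) g)
        simpa using this
    exact (QuotientGroup.congr _ _ ((MulEquiv.subgroupCongr hperf).trans Subgroup.topEquiv)
      he).isSimpleGroup

/-- S5033. -/
theorem s33_main (hS : IsRootSubgroupSet S) (h2 : ∃ A ∈ S, ∃ B ∈ S, A ≠ B)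
    (h1 : IsConnectedFamily (FAdj S) S)
    (h2' : ∀ A ∈ S, ∀ C ∈ S, A ≠ C → centralizingMembers S A ≠ centralizingMembers S C)
    (h3 : IsDegenerateRootSet S → ∀ A ∈ S, 3 < ENat.card A)
    (h4 : ∀ A ∈ S, ∀ B ∈ rankOnePartners S A, IsSpecialRankOnePair A B) :
    (∀ A ∈ S, commutator G ⊔ A = ⊤ ∧ A ⊓ commutator G ≠ ⊥) ∧ IsQuasisimple ↥(commutator G) ∧
    (IsNondegenerateRootSet S → commutator G = ⊤) ∧
    ((∃ A ∈ S, ∃ B ∈ rankOnePartners S A, Group.IsPerfect ↥(A ⊔ B)) → commutator G = ⊤) := by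
  obtain ⟨hcl, A₀, hA₀, hA₀ni⟩ := s32_forward h2 h1
  have hclass : IsRootSubgroupClass S := ⟨hS, hcl⟩
  have hF : ∀ X ∈ S, ¬ IsIsolatedIn (FAdj S) S X := by
    intro X hX
    obtain ⟨g, rfl⟩ := hcl.2 A₀ hA₀ X hX
    exact rl_not_isolated_conj hS hA₀ni hA₀ g
  obtain ⟨D₀, hD₀, hA₀D₀⟩ := rs_not_isolated hA₀ni hA₀
  have hle : ∀ A ∈ S, A ≤ commutator G := by
    by_cases hdeg : IsDegenerateRootSet S
    · intro A hA
      obtain ⟨B, hB, hAB⟩ := rs_not_isolated (hF A hA) hA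
      exact (sp_perfect (h4 A hA B ⟨hB, hAB⟩) (h3 hdeg A hA)).trans
        (Subgroup.commutator_mono le_top le_top)
    · unfold IsDegenerateRootSet at hdeg
      push_neg at hdeg
      obtain ⟨A₁, hA₁, B₁, hB₁, hcc⟩ := hdeg
      intro A hA
      obtain ⟨g, rfl⟩ := hcl.2 _ hcc.1 A hA
      intro x hx
      rw [cb_mem] at hx
      have h5 : g⁻¹ * x * g ∈ commutator G :=
        (Subgroup.commutator_mono le_top le_top : ⁅A₁, B₁⁆ ≤ ⁅(⊤ : Subgroup G), ⊤⁆) hx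
      have := (inferInstance : (commutator G).Normal).conj_mem _ h5 g
      have e : g * (g⁻¹ * x * g) * g⁻¹ = x := by group
      rwa [e] at this
  have hperf : commutator G = ⊤ := by
    rw [eq_top_iff, ← hS.generates]; exact iSup₂_le hle
  have hr1 : ∀ N : Subgroup G, N.Normal → ∀ M ∈ S, ∀ C ∈ S, IsRankOnePair M C →
      ⁅M ⊔ C, M ⊔ C⁆ ≤ N → N = ⊤ := by
    by_cases hdeg : IsDegenerateRootSet S
    · intro N hN M hM C hC hr hle'
      have h5 : M ≤ N := (sp_perfect (h4 M hM C ⟨hC, hr⟩) (h3 hdeg M hM)).trans hle'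
      apply qs_inter_top hS h1 hperf hN hM
      rw [inf_eq_left.mpr h5]; exact hS.ne_bot M hM
    · unfold IsDegenerateRootSet at hdeg
      push_neg at hdeg
      obtain ⟨A₁, hA₁, B₁, hB₁, hcc⟩ := hdeg
      have hnd : IsNondegenerateRootSet S :=
        ⟨⟨A₁, hA₁, ⁅A₁, B₁⁆, hcc.1, rl_ne hS hcc,
          cc_bot_of_comm (fun a ha l hl => (hcc.2.1 l hl a (Subgroup.mem_sup_left ha)).symm)⟩,
          ⟨A₀, hA₀, D₀, hD₀, hA₀D₀⟩, ⟨A₁, hA₁, B₁, hB₁, hcc⟩⟩
      intro N hN M hM C hC hr hle'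
      exact qs_r1_top_nd hclass hnd h1 hperf hN hM hC hr hle'
  have hnc : ∃ x y : G, x * y ≠ y * x := by
    obtain ⟨a, ha, ha1⟩ := r1_ne_bot_left hA₀D₀
    obtain ⟨d, hd, hd1⟩ := r1_ne_bot_left (RankOnePair_symm hA₀D₀)
    exact ⟨a, d, fun h => r1_no_commute hA₀D₀ ha ha1 hd hd1 h⟩
  refine ⟨fun A hA => ⟨by rw [hperf, top_sup_eq], by
      rw [hperf, inf_top_eq]; exact hS.ne_bot A hA⟩,
    qs_of_top hperf (fun N hN => qs_normal hS h1 hperf h2' hr1 hN) hnc,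
    fun _ => hperf, fun _ => hperf⟩

end Cfsg.Agent.Lib.Helper6
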