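import Cfsg.Agent.Lib.Helper6.RankOne2
import Cfsg.Prelude.Def_Transfer

set_option autoImplicit false
set_option linter.style.haveILetI false
set_option linter.unusedVariables false

namespace Cfsg.Agent.Lib.Helper6

open Cfsg

variable {G : Type*} [Group G]

/-- `a ∈ A#`, `b ∈ B#` with `A^b = B^a`. -/
def R1Rel (A B : Subgroup G) (a b : G) : Prop :=
  a ∈ A ∧ a ≠ 1 ∧ b ∈ B ∧ b ≠ 1 ∧ conjBy A b⁻¹ = conjBy B a⁻¹

theorem sr_symm {A B : Subgroup G} {a b : G} (h : R1Rel A B a b) : R1Rel B A b a :=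
  ⟨h.2.2.1, h.2.2.2.1, h.1, h.2.1, h.2.2.2.2.symm⟩

theorem sr_exists_right {A B : Subgroup G} (h : IsRankOnePair A B) {a : G} (ha : a ∈ A)
    (ha1 : a ≠ 1) : ∃ b, R1Rel A B a b := by
  obtain ⟨b, hb, hb1, hR⟩ := h.cond_left a ha ha1
  exact ⟨b, ha, ha1, hb, hb1, hR⟩

theorem sr_exists_left {A B : Subgroup G} (h : IsRankOnePair A B) {b : G} (hb : b ∈ B)
    (hb1 : b ≠ 1) : ∃ a, R1Rel A B a b := by
  obtain ⟨a, ha, ha1, hR⟩ := h.cond_right b hb hb1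
  exact ⟨a, ha, ha1, hb, hb1, hR.symm⟩

theorem sr_unique_right {A B : Subgroup G} (h : IsRankOnePair A B) {a b b' : G}
    (h1 : R1Rel A B a b) (h2 : R1Rel A B a b') : b = b' :=
  r1_unique_right h h1.2.2.1 h2.2.2.1 h1.2.2.2.2 h2.2.2.2.2

theorem sr_unique_left {A B : Subgroup G} (h : IsRankOnePair A B) {a a' b : G}
    (h1 : R1Rel A B a b) (h2 : R1Rel A B a' b) : a = a' :=
  r1_unique_left h h1.1 h2.1 h1.2.2.2.2 h2.2.2.2.2

theorem sr_special_symm {A B : Subgroup G} (hs : IsSpecialRankOnePair A B) :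
    IsSpecialRankOnePair B A := by
  refine ⟨RankOnePair_symm hs.1, fun b hb hb1 a ha ha1 hR => ?_⟩
  have h1 := hs.2 a ha ha1 b hb hb1 hR.symm
  calc a⁻¹ * b * a = (a⁻¹ * b⁻¹ * a)⁻¹ := by group
    _ = (b⁻¹ * a * b)⁻¹ := by rw [h1]
    _ = b⁻¹ * a⁻¹ * b := by group

theorem sr_comm {A : Subgroup G} (hA : IsMulCommutative A) {x y : G} (hx : x ∈ A) (hy : y ∈ A) :
    x * y = y * x :=
  congrArg Subtype.val (hA.is_comm.comm ⟨x, hx⟩ ⟨y, hy⟩)

/-- elements of `B` are determined by the image of `A`. -/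
theorem sr_B_inj {A B : Subgroup G} (h : IsRankOnePair A B) {u v : G} (hu : u ∈ B) (hv : v ∈ B)
    (huv : conjBy A u⁻¹ = conjBy A v⁻¹) : u = v := by
  have := r1_conj_inj (RankOnePair_symm h) (inv_mem hu) (inv_mem hv) huv
  exact inv_injective this

/-- In a special rank one pair, `b(a⁻¹) = b(a)⁻¹`. -/
theorem sr_inv {A B : Subgroup G} (hs : IsSpecialRankOnePair A B) {a b : G}
    (hR : R1Rel A B a b) : R1Rel A B a⁻¹ b⁻¹ := by
  obtain ⟨ha, ha1, hb, hb1, hc⟩ := hR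
  have h := hs.1
  have hsp := hs.2 a ha ha1 b hb hb1 hc
  have h1 : a⁻¹ * b * a = b⁻¹ * a⁻¹ * b := by
    calc a⁻¹ * b * a = (a⁻¹ * b⁻¹ * a)⁻¹ := by group
      _ = (b⁻¹ * a * b)⁻¹ := by rw [hsp]
      _ = b⁻¹ * a⁻¹ * b := by group
  have braid : a⁻¹ * b * a⁻¹ = b * a⁻¹ * b := by
    calc a⁻¹ * b * a⁻¹ = b * (b⁻¹ * a⁻¹ * b) * a⁻¹ := by group
      _ = b * (a⁻¹ * b * a) * a⁻¹ := by rw [h1]
      _ = b * a⁻¹ * b := by group
  refine ⟨inv_mem ha, by simpa using ha1, inv_mem hb, by simpa using hb1, ?_⟩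
  rw [inv_inv, inv_inv]
  -- `D = conjBy A (a⁻¹ * b)` is fixed by `b`
  have hD : conjBy (conjBy A (a⁻¹ * b)) b = conjBy A (a⁻¹ * b) := by
    rw [cb_cb, ← mul_assoc, ← braid]
    have e : a⁻¹ * b * a⁻¹ = (a⁻¹ * b) * a⁻¹ := rfl
    rw [e, ← cb_cb, cb_of_mem (inv_mem ha)]
  have hDB : conjBy A (a⁻¹ * b) = B := by
    rcases r1_conj_A_by_B h hb with h2 | ⟨a', ha', h2⟩
    · exfalso
      have h4 : b ∈ B ⊓ Subgroup.normalizer (A : Set G) :=
        Subgroup.mem_inf.mpr ⟨hb, cb_eq_self_iff.mp h2⟩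
      rw [r1_normalizer_left (RankOnePair_symm h), Subgroup.mem_bot] at h4
      exact hb1 h4
    · have hDc : conjBy A (a⁻¹ * b) = conjBy B (a⁻¹ * a') := by
        rw [← cb_cb, h2, cb_cb]
      by_cases hc1 : a⁻¹ * a' = 1
      · rw [hDc, hc1, cb_one]
      · exfalso
        have hcA : a⁻¹ * a' ∈ A := mul_mem (inv_mem ha) ha'
        obtain ⟨b₂, hb₂, hb₂1, hc2⟩ := h.cond_left (a⁻¹ * a')⁻¹ (inv_mem hcA) (inv_ne_one.mpr hc1)
        rw [inv_inv] at hc2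
        rw [hDc, ← hc2, cb_cb] at hD
        have h3 : conjBy A (b₂ * b * b₂⁻¹) = A := by
          have := congrArg (fun C => conjBy C b₂) hD
          simp only [cb_cb, mul_inv_cancel, cb_one] at this
          rw [mul_assoc]; exact this
        have h4 : b₂ * b * b₂⁻¹ ∈ B ⊓ Subgroup.normalizer (A : Set G) :=
          Subgroup.mem_inf.mpr ⟨mul_mem (mul_mem hb₂ hb) (inv_mem hb₂), cb_eq_self_iff.mp h3⟩
        rw [r1_normalizer_left (RankOnePair_symm h), Subgroup.mem_bot] at h4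
        apply hb1
        have : b = b₂⁻¹ * (b₂ * b * b₂⁻¹) * b₂ := by group
        rw [this, h4]; group
  rw [← cb_cb] at hDB
  have := cb_eq_iff.mp hDB
  rw [inv_inv] at this
  exact this

/-- The Weyl element `n = a b⁻¹ a` of a special rank one pair. -/
theorem sr_weyl {A B : Subgroup G} (hs : IsSpecialRankOnePair A B) {a b : G}
    (hR : R1Rel A B a b) :
    a * b⁻¹ * a = b⁻¹ * a * b⁻¹ ∧ conjBy A (a * b⁻¹ * a) = B ∧ conjBy A (a * b⁻¹ * a)⁻¹ = B ∧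
      (a * b⁻¹ * a)⁻¹ * a * (a * b⁻¹ * a) = b⁻¹ := by
  have hRi := sr_inv hs hR
  obtain ⟨ha, ha1, hb, hb1, hc⟩ := hR
  have hsp := hs.2 a ha ha1 b hb hb1 hc
  have hspi := hs.2 a⁻¹ hRi.1 hRi.2.1 b⁻¹ hRi.2.2.1 hRi.2.2.2.1 hRi.2.2.2.2
  rw [inv_inv, inv_inv] at hspi
  have hci := hRi.2.2.2.2
  rw [inv_inv, inv_inv] at hci
  have hBeq : B = conjBy A (a * b⁻¹) := by
    rw [← cb_cb, hc, cb_cb, mul_inv_cancel, cb_one]
  refine ⟨?_, ?_, ?_, ?_⟩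
  · calc a * b⁻¹ * a = a * (b⁻¹ * a * b) * b⁻¹ := by group
      _ = a * (a⁻¹ * b⁻¹ * a) * b⁻¹ := by rw [hsp]
      _ = b⁻¹ * a * b⁻¹ := by group
  · have e : a * b⁻¹ * a = (a * b⁻¹) * a := rfl
    rw [e, ← cb_cb, cb_of_mem ha, ← hBeq]
  · have e : (a * b⁻¹ * a)⁻¹ = a⁻¹ * (b * a⁻¹) := by group
    rw [e, ← cb_cb, ← cb_cb, cb_of_mem (inv_mem ha), hci, cb_cb, inv_mul_cancel, cb_one]
  · have h2 : b * a * b⁻¹ = a * b⁻¹ * a⁻¹ := by
      calc b * a * b⁻¹ = (b * a⁻¹ * b⁻¹)⁻¹ := by group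
        _ = (a * b * a⁻¹)⁻¹ := by rw [hspi]
        _ = a * b⁻¹ * a⁻¹ := by group
    calc (a * b⁻¹ * a)⁻¹ * a * (a * b⁻¹ * a) = a⁻¹ * (b * a * b⁻¹) * a := by group
      _ = a⁻¹ * (a * b⁻¹ * a⁻¹) * a := by rw [h2]
      _ = b⁻¹ := by group

theorem sr_conj_pow (g x : G) (m : ℕ) : g⁻¹ * x ^ m * g = (g⁻¹ * x * g) ^ m := by
  induction m with
  | zero => simp
  | succ m ih =>
    rw [pow_succ, pow_succ, ← ih]; group

/-- The action of the Weyl element on `A`, in terms of the map `a ↦ b(a)`. -/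
theorem sr_formula {A B : Subgroup G} (hs : IsSpecialRankOnePair A B) {a b x d y₁ : G}
    (hR : R1Rel A B a b) (hx : R1Rel A B x d) (hy : R1Rel A B y₁ (d * b⁻¹)) :
    y₁ * a ≠ 1 ∧ ∀ b₂, R1Rel A B (y₁ * a) b₂ →
      (a * b⁻¹ * a)⁻¹ * x * (a * b⁻¹ * a) = b₂ * b⁻¹ := by
  have h := hs.1
  obtain ⟨hbraid, hn1, hn2, -⟩ := sr_weyl hs hR
  have hu : (a * b⁻¹ * a)⁻¹ * x * (a * b⁻¹ * a) ∈ B := by
    have := cb_mem' (A := A) (g := (a * b⁻¹ * a)⁻¹) hx.1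
    rwa [hn2, inv_inv] at this
  -- the image of `A`
  have key : conjBy A ((a * b⁻¹ * a)⁻¹ * x * (a * b⁻¹ * a))⁻¹ = conjBy B (b * (y₁ * a)⁻¹) := by
    have e1 : ((a * b⁻¹ * a)⁻¹ * x * (a * b⁻¹ * a))⁻¹ = (a * b⁻¹ * a)⁻¹ * (x⁻¹ * (a * b⁻¹ * a)) := by
      group
    rw [e1, ← cb_cb, ← cb_cb, hn1, ← hx.2.2.2.2, cb_cb]
    have e2 : (a * b⁻¹ * a)⁻¹ * d⁻¹ = (b * a⁻¹) * (d * b⁻¹)⁻¹ := by
      rw [hbraid]; group
    rw [e2, ← cb_cb, hy.2.2.2.2, cb_cb]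
    have e3 : b * a⁻¹ * y₁⁻¹ = b * (y₁ * a)⁻¹ := by group
    rw [e3]
  have hne : y₁ * a ≠ 1 := by
    intro h1
    rw [h1, inv_one, mul_one, cb_of_mem hR.2.2.1] at key
    have h2 := cb_eq_iff.mp key
    rw [inv_inv, cb_of_mem hu] at h2
    exact h.ne h2
  refine ⟨hne, fun b₂ hb₂ => ?_⟩
  apply sr_B_inj h hu (mul_mem hb₂.2.2.1 (inv_mem hR.2.2.1))
  rw [key, ← cb_cb, ← hb₂.2.2.2.2, cb_cb]
  have e : b * b₂⁻¹ = (b₂ * b⁻¹)⁻¹ := by group
  rw [e]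

/-- The statement `b(a^m)^m = b(a)`. -/
def SrP (A B : Subgroup G) (m : ℕ) : Prop :=
  ∀ a b d : G, R1Rel A B a b → R1Rel A B (a ^ m) d → d ^ m = b

theorem sr_step {A B : Subgroup G} (hs : IsSpecialRankOnePair A B) (hA : IsMulCommutative A)
    (m : ℕ) (h1 : SrP A B m) (h2 : SrP B A m) : SrP A B (m + 1) := by
  intro a b d hab hd
  have h := hs.1
  obtain ⟨hbraid, hn1, hn2, hn3⟩ := sr_weyl hs hab
  have hpow : ∀ j : ℕ, (a * b⁻¹ * a)⁻¹ * a ^ j * (a * b⁻¹ * a) = (b⁻¹) ^ j := by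
    intro j
    rw [sr_conj_pow, hn3]
  by_cases hm1 : a ^ m = 1
  · have e : a ^ (m + 1) = a := by rw [pow_succ, hm1, one_mul]
    rw [e] at hd
    have hdb : d = b := sr_unique_right h hd hab
    have hbm : b ^ m = 1 := by
      have := hpow m
      rw [hm1, mul_one, inv_mul_cancel] at this
      rw [← inv_eq_one, ← inv_pow]; exact this.symm
    rw [hdb, pow_succ, hbm, one_mul]
  · have hxa : a ^ (m + 1) ≠ a := by
      intro e
      apply hm1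
      rw [pow_succ] at e
      exact mul_eq_right.mp e
    have hdb : d * b⁻¹ ≠ 1 := by
      intro e
      have : d = b := mul_inv_eq_one.mp e
      rw [this] at hd
      exact hxa (sr_unique_left h hd hab)
    obtain ⟨y₁, hy₁⟩ := sr_exists_left h (mul_mem hd.2.2.1 (inv_mem hab.2.2.1)) hdb
    obtain ⟨hne, hform⟩ := sr_formula hs hab hd hy₁
    obtain ⟨b₂, hb₂⟩ := sr_exists_right h (mul_mem hy₁.1 hab.1) hne
    have hf := hform b₂ hb₂
    rw [hpow] at hf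
    have hb₂eq : b₂ = (b⁻¹) ^ m := by
      have : b₂ = (b⁻¹) ^ (m + 1) * b := by rw [hf]; group
      rw [this, pow_succ, inv_mul_cancel_right]
    -- apply `h2`
    have hRi := sr_inv hs hab
    have hb₂' : R1Rel B A ((b⁻¹) ^ m) (y₁ * a) := by
      rw [← hb₂eq]; exact sr_symm hb₂
    have e1 : (y₁ * a) ^ m = a⁻¹ := h2 b⁻¹ a⁻¹ (y₁ * a) (sr_symm hRi) hb₂'
    have hcomm : Commute y₁ a := sr_comm hA hy₁.1 hab.1
    rw [hcomm.mul_pow] at e1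
    have e2 : y₁ ^ m = (a ^ (m + 1))⁻¹ := by
      have : y₁ ^ m = (y₁ ^ m * a ^ m) * (a ^ m)⁻¹ := by group
      rw [this, e1, pow_succ]; group
    have hdi := sr_inv hs hd
    rw [← e2] at hdi
    have e3 : (d⁻¹) ^ m = d * b⁻¹ := h1 y₁ (d * b⁻¹) d⁻¹ hy₁ hdi
    have e4 : b⁻¹ = (d⁻¹) ^ (m + 1) := by
      rw [pow_succ', e3]; group
    rw [← inv_inj, e4, inv_pow]

theorem sr_all {A B : Subgroup G} (hs : IsSpecialRankOnePair A B)
    (hab : HasAbelianUnipotents A B) : ∀ m : ℕ, 1 ≤ m → SrP A B m ∧ SrP B A m := by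
  intro m hm
  induction m, hm using Nat.le_induction with
  | base =>
    constructor
    · intro a b d h1 h2
      rw [pow_one] at h2 ⊢
      exact sr_unique_right hs.1 h2 h1
    · intro a b d h1 h2
      rw [pow_one] at h2 ⊢
      exact sr_unique_right (RankOnePair_symm hs.1) h2 h1
  | succ m _ ih =>
    exact ⟨sr_step hs hab.1 m ih.1 ih.2, sr_step (sr_special_symm hs) hab.2 m ih.2 ih.1⟩

theorem sr_exists_prime_order {x : G} (hx1 : x ≠ 1) (hfin : IsOfFinOrder x) :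
    ∃ p : ℕ, p.Prime ∧ ∃ m : ℕ, x ^ m ≠ 1 ∧ (x ^ m) ^ p = 1 := by
  have hn1 : orderOf x ≠ 1 := fun h1 => hx1 (orderOf_eq_one_iff.mp h1)
  have hn0 : orderOf x ≠ 0 := hfin.orderOf_pos.ne'
  obtain ⟨p, hp, hpn⟩ := Nat.exists_prime_and_dvd hn1
  obtain ⟨m, hm⟩ := hpn
  have hm0 : m ≠ 0 := by rintro rfl; exact hn0 (by rw [hm, mul_zero])
  have hord : orderOf (x ^ m) = p := by
    rw [orderOf_pow_of_dvd hm0 (Dvd.intro_left p hm.symm), hm,
      Nat.mul_div_cancel _ (Nat.pos_of_ne_zero hm0)]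
  refine ⟨p, hp, m, ?_, ?_⟩
  · intro h1; rw [h1, orderOf_one] at hord; exact hp.ne_one hord.symm
  · rw [← hord]; exact pow_orderOf_eq_one _

/-- S5021: in a special rank one group with abelian unipotent subgroups, `A` is elementary
abelian or torsion free and divisible. -/
theorem sr_elementary_or_divisible {A B : Subgroup G} (hs : IsSpecialRankOnePair A B)
    (hab : HasAbelianUnipotents A B) :
    (∃ p : ℕ, p.Prime ∧ IsElementaryAbelian p A) ∨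
    ((∀ a ∈ A, a ≠ 1 → ¬ IsOfFinOrder a) ∧ ∀ a ∈ A, ∀ n : ℕ, 0 < n → ∃ c ∈ A, c ^ n = a) := by
  have h := hs.1
  by_cases htf : ∀ a ∈ A, a ≠ 1 → ¬ IsOfFinOrder a
  · right
    refine ⟨htf, fun a ha n hn => ?_⟩
    by_cases ha1 : a = 1
    · exact ⟨1, one_mem _, by rw [one_pow, ha1]⟩
    obtain ⟨b, hR⟩ := sr_exists_right h ha ha1
    obtain ⟨-, -, -, hn3⟩ := sr_weyl hs hR
    have hbn : b ^ n ≠ 1 := by
      intro hb
      apply htf a ha ha1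
      rw [isOfFinOrder_iff_pow_eq_one]
      refine ⟨n, hn, ?_⟩
      have e := sr_conj_pow (a * b⁻¹ * a) a n
      rw [hn3, inv_pow, hb, inv_one] at e
      have : a ^ n = (a * b⁻¹ * a) * ((a * b⁻¹ * a)⁻¹ * a ^ n * (a * b⁻¹ * a)) * (a * b⁻¹ * a)⁻¹ := by
        group
      rw [this, e]; group
    obtain ⟨c, hc⟩ := sr_exists_left h (pow_mem hR.2.2.1 n) hbn
    exact ⟨c, hc.1, (sr_all hs hab n hn).2 b a c (sr_symm hR) (sr_symm hc)⟩
  · left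
    push_neg at htf
    obtain ⟨a₁, ha₁, ha₁1, hfin⟩ := htf
    obtain ⟨p, hp, m, hm1, hmp⟩ := sr_exists_prime_order ha₁1 hfin
    have ha₀ : a₁ ^ m ∈ A := pow_mem ha₁ m
    refine ⟨p, hp, hab.1, fun a' ha' => ?_⟩
    by_contra hne
    have hcomm : Commute (a₁ ^ m) a' := sr_comm hab.1 ha₀ ha'
    have hpow : (a₁ ^ m * a') ^ p = a' ^ p := by rw [hcomm.mul_pow, hmp, one_mul]
    have ha'1 : a' ≠ 1 := by rintro rfl; exact hne (one_pow p)
    have hprod1 : a₁ ^ m * a' ≠ 1 := by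
      intro h1; rw [h1, one_pow] at hpow; exact hne hpow.symm
    obtain ⟨b', hb'⟩ := sr_exists_right h ha' ha'1
    obtain ⟨b'', hb''⟩ := sr_exists_right h (mul_mem ha₀ ha') hprod1
    obtain ⟨d, hd⟩ := sr_exists_right h (pow_mem ha' p) hne
    have hP := (sr_all hs hab p hp.one_lt.le).1
    have e1 := hP a' b' d hb' hd
    have e2 := hP (a₁ ^ m * a') b'' d hb'' (by rw [hpow]; exact hd)
    rw [← e1, e2] at hb'
    have := sr_unique_left h hb' hb''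
    exact hm1 (mul_eq_right.mp this.symm)

end Cfsg.Agent.Lib.Helper6
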