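import Cfsg.Agent.Lib.Helper6.ConjMod
import Cfsg.Agent.Lib.Helper6.RootLine
import Cfsg.Agent.Lib.Helper6.SpecialR1

set_option autoImplicit false
set_option linter.style.haveILetI false
set_option linter.unusedVariables false
set_option linter.unusedSimpArgs false

namespace Cfsg.Agent.Lib.Helper6

open Cfsg
open scoped commutatorElement

section modlemmas

variable {M : Type*} [AddCommGroup M]

/-- module form of the exclusion argument -/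
theorem sl_mod_excl (β δ φ : M →+ M)
    (hstar : ∀ x, β (δ x) - δ (β x) = φ x + δ (φ x) + β (φ x) + δ (β (φ x)))
    (hφβ : ∀ x, φ (β x) = β (φ x)) (hφδ : ∀ x, φ (δ x) = δ (φ x)) (hδδ : ∀ x, δ (δ x) = 0)
    (c : M) (hβc : β c = 0) (hφφ : φ (φ c) = 0) : β (δ (β (δ c))) = 0 := by
  have hβφ : β (φ c) = 0 := by rw [← hφβ, hβc, map_zero]
  have h1 : β (δ c) = φ c + δ (φ c) := by
    have := hstar c
    rw [hβc, hβφ] at this
    simpa using this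
  have h2 : δ (β (δ c)) = δ (φ c) := by rw [h1, map_add, hδδ, add_zero]
  have h3 : φ c = β (δ c) - δ (β (δ c)) := by rw [h2, h1]; abel
  have e1 : φ (β (δ c)) = β (δ (φ c)) := by rw [hφβ, hφδ]
  have e2 : φ (δ (β (δ c))) = δ (β (δ (φ c))) := by rw [hφδ, hφβ, hφδ]
  have h4 : φ (φ c) = β (δ (β (δ c))) - δ (β (δ (β (δ c)))) := by
    have : φ (φ c) = φ (β (δ c) - δ (β (δ c))) := by rw [← h3]
    rw [this, map_sub, e1, e2, ← h2]
  have h5 : β (δ (β (δ c))) = δ (β (δ (β (δ c)))) := by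
    rw [hφφ] at h4; exact sub_eq_zero.mp h4.symm
  have h6 : δ (β (δ (β (δ c)))) = 0 := by
    have := congrArg δ h5
    rw [hδδ] at this
    exact this
  rw [h5, h6]

end modlemmas

section ringlemma

variable {R : Type*} [Ring R]

theorem sl_ring_idem {β δ β₀ : R} (hββ : β * β = 0) (hδδ : δ * δ = 0) (hββ₀ : β * β₀ = 0)
    (hR : (1 - β) * (1 + δ) * (1 + β) = (1 - δ) * (1 + β₀) * (1 + δ)) :
    β * δ * β * δ = β * δ * β * δ * β * δ := by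
  have z1 : ∀ x, β * (β * x) = 0 := fun x => by rw [← mul_assoc, hββ, zero_mul]
  have z2 : ∀ x, δ * (δ * x) = 0 := fun x => by rw [← mul_assoc, hδδ, zero_mul]
  have z3 : ∀ x, β * (β₀ * x) = 0 := fun x => by rw [← mul_assoc, hββ₀, zero_mul]
  have e1 : β * (δ * (β * δ)) = -(β * (δ * (β₀ * δ))) := by
    have e := congrArg (fun t => β * t * δ) hR
    simp only [mul_add, add_mul, sub_eq_add_neg, neg_mul, mul_neg, mul_one, one_mul, mul_assoc,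
      hββ, hδδ, hββ₀, z1, z2, z3, mul_zero, zero_mul, add_zero, zero_add, neg_zero, neg_neg] at e
    linear_combination (norm := abel) e
  have e2 : β * (δ * (β₀ * δ)) = -(β * (δ * (β * (δ * (β * δ))))) := by
    have e := congrArg (fun t => β * δ * (1 + δ) * t * δ) hR
    simp only [mul_add, add_mul, sub_eq_add_neg, neg_mul, mul_neg, mul_one, one_mul, mul_assoc,
      hββ, hδδ, hββ₀, z1, z2, z3, mul_zero, zero_mul, add_zero, zero_add, neg_zero, neg_neg] at e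
    linear_combination (norm := abel) -e
  calc β * δ * β * δ = β * (δ * (β * δ)) := by simp only [mul_assoc]
    _ = -(β * (δ * (β₀ * δ))) := e1
    _ = β * (δ * (β * (δ * (β * δ)))) := by rw [e2, neg_neg]
    _ = β * δ * β * δ * β * δ := by simp only [mul_assoc]

end ringlemma

section config

variable {G : Type*} [Group G]

/-- The `SL₂` configuration: `C = [A, B]`, `A = [D, C]`. -/
structure Sl2Config (S : Set (Subgroup G)) (A B C D : Subgroup G) : Prop where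
  hS : IsRootSubgroupSet S
  hA : A ∈ S
  hB : B ∈ S
  hC : C ∈ S
  hD : D ∈ S
  hAB : ⁅A, B⁆ = C
  hDC : ⁅D, C⁆ = A

variable {S : Set (Subgroup G)} {A B C D : Subgroup G}

theorem Sl2Config.symm (h : Sl2Config S A B C D) : Sl2Config S C D A B :=
  ⟨h.hS, h.hC, h.hD, h.hA, h.hB, by rw [Subgroup.commutator_comm]; exact h.hDC,
    by rw [Subgroup.commutator_comm]; exact h.hAB⟩

theorem Sl2Config.ccAB (h : Sl2Config S A B C D) : RootCommutatorCase S A B :=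
  rl_comm_case h.hS h.hA h.hB (by rw [h.hAB]; exact h.hC)

theorem Sl2Config.cA (h : Sl2Config S A B C D) {c a : G} (hc : c ∈ C) (ha : a ∈ A) :
    c * a = a * c :=
  h.ccAB.2.1 c (by rw [h.hAB]; exact hc) a (Subgroup.mem_sup_left ha)

theorem Sl2Config.cB (h : Sl2Config S A B C D) {c b : G} (hc : c ∈ C) (hb : b ∈ B) :
    c * b = b * c :=
  h.ccAB.2.1 c (by rw [h.hAB]; exact hc) b (Subgroup.mem_sup_right hb)

theorem Sl2Config.comm_mem (h : Sl2Config S A B C D) {b a : G} (hb : b ∈ B) (ha : a ∈ A) :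
    b * a * b⁻¹ * a⁻¹ ∈ C := by
  have := Subgroup.commutator_mem_commutator (H₁ := B) (H₂ := A) hb ha
  rw [Subgroup.commutator_comm, h.hAB, commutatorElement_def] at this
  exact this

theorem Sl2Config.decomp (h : Sl2Config S A B C D) :
    ∀ n ∈ A ⊔ C, ∃ a ∈ A, ∃ c ∈ C, n = a * c := by
  apply cb_sup_induction
  · intro a ha; exact ⟨a, ha, 1, one_mem _, (mul_one a).symm⟩
  · intro c hc; exact ⟨1, one_mem _, c, hc, (one_mul c).symm⟩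
  · exact ⟨1, one_mem _, 1, one_mem _, (mul_one 1).symm⟩
  · rintro x y ⟨a, ha, c, hc, rfl⟩ ⟨a', ha', c', hc', rfl⟩
    refine ⟨a * a', mul_mem ha ha', c * c', mul_mem hc hc', ?_⟩
    have := h.cA hc ha'
    calc a * c * (a' * c') = a * (c * a') * c' := by group
      _ = a * (a' * c) * c' := by rw [this]
      _ = a * a' * (c * c') := by group

theorem Sl2Config.comm_C (h : Sl2Config S A B C D) {b c : G} (hb : b ∈ B) (hc : c ∈ C) :
    b * c * b⁻¹ * c⁻¹ = 1 := by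
  rw [← h.cB hc hb]; group

theorem Sl2Config.comm_N (h : Sl2Config S A B C D) {b n : G} (hb : b ∈ B) (hn : n ∈ A ⊔ C) :
    b * n * b⁻¹ * n⁻¹ ∈ C := by
  obtain ⟨a, ha, c, hc, rfl⟩ := h.decomp n hn
  have h1 := h.comm_C hb hc
  have e : b * (a * c) * b⁻¹ * (a * c)⁻¹ = b * a * b⁻¹ * a⁻¹ := by
    calc b * (a * c) * b⁻¹ * (a * c)⁻¹
        = b * a * b⁻¹ * (b * c * b⁻¹ * c⁻¹) * a⁻¹ := by group
      _ = b * a * b⁻¹ * a⁻¹ := by rw [h1, mul_one]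
  rw [e]; exact h.comm_mem hb ha

theorem Sl2Config.N_comm (h : Sl2Config S A B C D) : IsMulCommutative ↥(A ⊔ C) := by
  have key : ∀ x ∈ A ⊔ C, ∀ y ∈ A ⊔ C, x * y = y * x := by
    intro x hx y hy
    obtain ⟨a, ha, c, hc, rfl⟩ := h.decomp x hx
    obtain ⟨a', ha', c', hc', rfl⟩ := h.decomp y hy
    have e1 := sr_comm (h.hS.commutative A h.hA) ha ha'
    have e2 := sr_comm (h.hS.commutative C h.hC) hc hc'
    have e3 := h.cA hc ha'
    have e4 := h.cA hc' ha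
    calc a * c * (a' * c') = a * (c * a') * c' := by group
      _ = a * (a' * c) * c' := by rw [e3]
      _ = (a * a') * (c * c') := by group
      _ = (a' * a) * (c' * c) := by rw [e1, e2]
      _ = a' * (a * c') * c := by group
      _ = a' * (c' * a) * c := by rw [e4]
      _ = a' * c' * (a * c) := by group
  exact ⟨⟨fun x y => Subtype.ext (key x x.2 y y.2)⟩⟩

theorem Sl2Config.B_le (h : Sl2Config S A B C D) :
    B ≤ Subgroup.normalizer ((A ⊔ C : Subgroup G) : Set G) := by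
  have key : ∀ b ∈ B, conjBy (A ⊔ C) b ≤ A ⊔ C := by
    intro b hb x hx
    rw [cb_mem] at hx
    have e : x = (b * (b⁻¹ * x * b) * b⁻¹ * (b⁻¹ * x * b)⁻¹) * (b⁻¹ * x * b) := by group
    rw [e]
    exact mul_mem (Subgroup.mem_sup_right (h.comm_N hb hx)) hx
  intro b hb
  apply cb_eq_self_iff.mp
  apply le_antisymm (key b hb)
  intro x hx
  rw [cb_mem]
  have := key b⁻¹ (inv_mem hb) (cb_mem' (g := b⁻¹) hx)
  rwa [inv_inv] at this

theorem Sl2Config.D_le (h : Sl2Config S A B C D) :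
    D ≤ Subgroup.normalizer ((A ⊔ C : Subgroup G) : Set G) := by
  have := h.symm.B_le
  rwa [sup_comm] at this

/-- `a ↦ [b, a]` maps `A` onto `C` for `b ≠ 1`. -/
theorem Sl2Config.surj_A (h : Sl2Config S A B C D) {b : G} (hb : b ∈ B) (hb1 : b ≠ 1) {c : G}
    (hc : c ∈ C) : ∃ a ∈ A, b * a * b⁻¹ * a⁻¹ = c := by
  have hgen := h.ccAB.2.2.2 b hb hb1
  rw [h.hAB] at hgen
  have hinv : ∀ a ∈ A, b * a⁻¹ * b⁻¹ * a⁻¹⁻¹ = a * b * a⁻¹ * b⁻¹ := by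
    intro a ha
    have hz := h.comm_mem hb (inv_mem ha)
    have hz' := h.cA hz ha
    calc b * a⁻¹ * b⁻¹ * a⁻¹⁻¹ = (b * a⁻¹ * b⁻¹ * a⁻¹⁻¹ * a) * a⁻¹ := by group
      _ = (a * (b * a⁻¹ * b⁻¹ * a⁻¹⁻¹)) * a⁻¹ := by rw [hz']
      _ = a * b * a⁻¹ * b⁻¹ := by group
  have key : ∀ c ∈ Subgroup.closure ((fun a : G => a * b * a⁻¹ * b⁻¹) '' (A : Set G)),
      ∃ a ∈ A, b * a * b⁻¹ * a⁻¹ = c := by
    intro c hc
    induction hc using Subgroup.closure_induction with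
    | mem y hy =>
      obtain ⟨a, ha, rfl⟩ := hy
      exact ⟨a⁻¹, inv_mem ha, hinv a ha⟩
    | one => exact ⟨1, one_mem _, by group⟩
    | mul x y _ _ hx hy =>
      obtain ⟨a₁, ha₁, rfl⟩ := hx
      obtain ⟨a₂, ha₂, rfl⟩ := hy
      refine ⟨a₁ * a₂, mul_mem ha₁ ha₂, ?_⟩
      have hz2 := h.cA (h.comm_mem hb ha₂) (inv_mem ha₁)
      calc b * (a₁ * a₂) * b⁻¹ * (a₁ * a₂)⁻¹
          = b * a₁ * b⁻¹ * ((b * a₂ * b⁻¹ * a₂⁻¹) * a₁⁻¹) := by group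
        _ = b * a₁ * b⁻¹ * (a₁⁻¹ * (b * a₂ * b⁻¹ * a₂⁻¹)) := by rw [hz2]
        _ = (b * a₁ * b⁻¹ * a₁⁻¹) * (b * a₂ * b⁻¹ * a₂⁻¹) := by group
    | inv x _ hx =>
      obtain ⟨a, ha, rfl⟩ := hx
      refine ⟨a⁻¹, inv_mem ha, ?_⟩
      rw [hinv a ha]; group
  exact key c (by rw [hgen]; exact hc)

/-- `b ↦ [b, a]` maps `B` onto `C` for `a ≠ 1`. -/
theorem Sl2Config.surj_B (h : Sl2Config S A B C D) {a : G} (ha : a ∈ A) (ha1 : a ≠ 1) {c : G}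
    (hc : c ∈ C) : ∃ b ∈ B, b * a * b⁻¹ * a⁻¹ = c := by
  have hgen := h.ccAB.2.2.1 a ha ha1
  rw [h.hAB] at hgen
  have hinv : ∀ b ∈ B, b⁻¹ * a * b⁻¹⁻¹ * a⁻¹ = a * b * a⁻¹ * b⁻¹ := by
    intro b hb
    have hz := h.comm_mem (inv_mem hb) ha
    have hz' := h.cB hz hb
    calc b⁻¹ * a * b⁻¹⁻¹ * a⁻¹ = b * (b⁻¹ * (b⁻¹ * a * b⁻¹⁻¹ * a⁻¹)) := by group
      _ = b * (b⁻¹ * (b⁻¹ * a * b⁻¹⁻¹ * a⁻¹ * b) * b⁻¹) := by group
      _ = b * (b⁻¹ * (b * (b⁻¹ * a * b⁻¹⁻¹ * a⁻¹)) * b⁻¹) := by rw [hz']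
      _ = a * b * a⁻¹ * b⁻¹ := by group
  have key : ∀ c ∈ Subgroup.closure ((fun b : G => a * b * a⁻¹ * b⁻¹) '' (B : Set G)),
      ∃ b ∈ B, b * a * b⁻¹ * a⁻¹ = c := by
    intro c hc
    induction hc using Subgroup.closure_induction with
    | mem y hy =>
      obtain ⟨b, hb, rfl⟩ := hy
      exact ⟨b⁻¹, inv_mem hb, hinv b hb⟩
    | one => exact ⟨1, one_mem _, by group⟩
    | mul x y _ _ hx hy =>
      obtain ⟨b₁, hb₁, rfl⟩ := hx
      obtain ⟨b₂, hb₂, rfl⟩ := hy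
      refine ⟨b₂ * b₁, mul_mem hb₂ hb₁, ?_⟩
      have hz1 := h.cB (h.comm_mem hb₁ ha) hb₂
      calc b₂ * b₁ * a * (b₂ * b₁)⁻¹ * a⁻¹
          = b₂ * (b₁ * a * b₁⁻¹ * a⁻¹) * a * b₂⁻¹ * a⁻¹ := by group
        _ = ((b₁ * a * b₁⁻¹ * a⁻¹) * b₂) * a * b₂⁻¹ * a⁻¹ := by rw [hz1]
        _ = (b₁ * a * b₁⁻¹ * a⁻¹) * (b₂ * a * b₂⁻¹ * a⁻¹) := by group
    | inv x _ hx =>
      obtain ⟨b, hb, rfl⟩ := hx
      refine ⟨b⁻¹, inv_mem hb, ?_⟩
      rw [hinv b hb]; group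
  exact key c (by rw [hgen]; exact hc)

/-- The normalizer of `A ⊔ C` as a group. -/
abbrev slK (A C : Subgroup G) : Type _ := ↥(Subgroup.normalizer ((A ⊔ C : Subgroup G) : Set G))

/-- a chain of preimages -/
theorem Sl2Config.chain (h : Sl2Config S A B C D) [IsMulCommutative ↥(A ⊔ C)]
    (kb kd : slK A C) (hb : (kb : G) ∈ B) (hb1 : (kb : G) ≠ 1) (hd : (kd : G) ∈ D)
    (hd1 : (kd : G) ≠ 1) {c : G} (hc : c ∈ C) :
    ∃ m₂ m : CMod (A ⊔ C), cmVal m₂ ∈ C ∧ cmVal m = c ∧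
      (qmRho (slK A C) (CMod (A ⊔ C)) kb - 1) ((qmRho (slK A C) (CMod (A ⊔ C)) kd - 1)
        ((qmRho (slK A C) (CMod (A ⊔ C)) kb - 1) ((qmRho (slK A C) (CMod (A ⊔ C)) kd - 1) m₂))) = m := by
  obtain ⟨a₁, ha₁, e₁⟩ := h.surj_A hb hb1 hc
  obtain ⟨c₁, hc₁, e₂⟩ := h.symm.surj_A hd hd1 ha₁
  obtain ⟨a₂, ha₂, e₃⟩ := h.surj_A hb hb1 hc₁
  obtain ⟨c₂, hc₂, e₄⟩ := h.symm.surj_A hd hd1 ha₂
  refine ⟨cmOf ⟨c₂, Subgroup.mem_sup_right hc₂⟩, cmOf ⟨c, Subgroup.mem_sup_right hc⟩, hc₂, rfl, ?_⟩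
  apply cmVal_injective
  rw [cm_val_sub_one, cm_val_sub_one, cm_val_sub_one, cm_val_sub_one, cmVal_cmOf, cmVal_cmOf]
  show (kb : G) * ((kd : G) * ((kb : G) * ((kd : G) * c₂ * (kd : G)⁻¹ * c₂⁻¹) * (kb : G)⁻¹ *
    ((kd : G) * c₂ * (kd : G)⁻¹ * c₂⁻¹)⁻¹) * (kd : G)⁻¹ *
    ((kb : G) * ((kd : G) * c₂ * (kd : G)⁻¹ * c₂⁻¹) * (kb : G)⁻¹ *
    ((kd : G) * c₂ * (kd : G)⁻¹ * c₂⁻¹)⁻¹)⁻¹) * (kb : G)⁻¹ * _ = c
  rw [e₄, e₃, e₂, e₁]

theorem Sl2Config.quadB (h : Sl2Config S A B C D) [IsMulCommutative ↥(A ⊔ C)]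
    (kb kb' : slK A C) (hb : (kb : G) ∈ B) (hb' : (kb' : G) ∈ B) :
    (qmRho (slK A C) (CMod (A ⊔ C)) kb - 1) * (qmRho (slK A C) (CMod (A ⊔ C)) kb' - 1) = 0 :=
  cm_prod_zero (A ⊔ C) kb kb' C (fun n hn => h.comm_N hb' hn) (fun p hp => h.comm_C hb hp)

theorem Sl2Config.quadD (h : Sl2Config S A B C D) [IsMulCommutative ↥(A ⊔ C)]
    (kd kd' : slK A C) (hd : (kd : G) ∈ D) (hd' : (kd' : G) ∈ D) :
    (qmRho (slK A C) (CMod (A ⊔ C)) kd - 1) * (qmRho (slK A C) (CMod (A ⊔ C)) kd' - 1) = 0 :=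
  cm_prod_zero (A ⊔ C) kd kd' A
    (fun n hn => h.symm.comm_N hd' (by rw [sup_comm]; exact hn)) (fun p hp => h.symm.comm_C hd hp)

/-- `(B, D)` is not in the commutator case. -/
theorem Sl2Config.excl (h : Sl2Config S A B C D) : ¬ RootCommutatorCase S B D := by
  intro hcc
  obtain ⟨hF, hFcen, -, -⟩ := hcc
  have hS := h.hS
  haveI : IsMulCommutative ↥(A ⊔ C) := h.N_comm
  have hFle : ⁅B, D⁆ ≤ Subgroup.normalizer ((A ⊔ C : Subgroup G) : Set G) :=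
    rl_comm_le.trans (sup_le h.B_le h.D_le)
  have hBC : ⁅B, C⁆ = ⊥ := by
    rw [Subgroup.commutator_eq_bot_iff_le_centralizer]
    intro b hb
    rw [Subgroup.mem_centralizer_iff]
    intro c hc
    exact h.cB hc hb
  have hFC : ⁅⁅B, D⁆, C⁆ ≠ ⊥ := by
    intro h0
    have h1 : ⁅⁅D, B⁆, C⁆ = ⊥ := by rw [Subgroup.commutator_comm D B]; exact h0
    have h2 : ⁅⁅B, C⁆, D⁆ = ⊥ := by rw [hBC, Subgroup.commutator_bot_left]
    have h3 := Subgroup.commutator_commutator_eq_bot_of_rotate h1 h2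
    rw [Subgroup.commutator_comm C D, h.hDC, h.hAB] at h3
    exact hS.ne_bot C h.hC h3
  have hnr : ¬ IsRankOnePair ⁅B, D⁆ C := by
    intro hr
    obtain ⟨f, hf0⟩ := (Subgroup.ne_bot_iff_exists_ne_one).mp (hS.ne_bot _ hF)
    have hf1 : (f : G) ≠ 1 := fun h' => hf0 (Subtype.ext h')
    obtain ⟨c, hc, hc1, hR⟩ := hr.cond_left f f.2 hf1
    have hle : conjBy C (f : G)⁻¹ ≤ A ⊔ C := by
      have h1 : conjBy C (f : G)⁻¹ ≤ conjBy (A ⊔ C) (f : G)⁻¹ := Subgroup.map_mono le_sup_right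
      rw [cb_eq_self_iff.mpr (inv_mem (hFle f.2))] at h1
      exact h1
    have hfN : (f : G) ∈ A ⊔ C := by
      have h1 : c⁻¹ * (f : G) * c ∈ conjBy ⁅B, D⁆ c⁻¹ := by
        have := cb_mem' (A := ⁅B, D⁆) (g := c⁻¹) f.2
        rwa [inv_inv] at this
      rw [hR] at h1
      have h2 := hle h1
      have e : (f : G) = c * (c⁻¹ * f * c) * c⁻¹ := by group
      rw [e]
      exact mul_mem (mul_mem (Subgroup.mem_sup_right hc) h2)
        (inv_mem (Subgroup.mem_sup_right hc))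
    have hcomm : (f : G) * c = c * f :=
      congrArg Subtype.val (h.N_comm.is_comm.comm ⟨f, hfN⟩ ⟨c, Subgroup.mem_sup_right hc⟩)
    exact r1_no_commute hr f.2 hf1 hc hc1 hcomm
  have hccFC : RootCommutatorCase S ⁅B, D⁆ C := by
    rcases hS.pair _ hF C h.hC with h1 | h1 | h1
    · exact absurd h1 hFC
    · exact absurd h1 hnr
    · exact h1
  obtain ⟨hE, hEcen, -, -⟩ := hccFC
  obtain ⟨b, hb0⟩ := (Subgroup.ne_bot_iff_exists_ne_one).mp (hS.ne_bot B h.hB)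
  have hb1 : (b : G) ≠ 1 := fun h' => hb0 (Subtype.ext h')
  obtain ⟨d, hd0⟩ := (Subgroup.ne_bot_iff_exists_ne_one).mp (hS.ne_bot D h.hD)
  have hd1 : (d : G) ≠ 1 := fun h' => hd0 (Subtype.ext h')
  have hf : (b : G)⁻¹ * (d : G)⁻¹ * b * d ∈ ⁅B, D⁆ := by
    have := Subgroup.commutator_mem_commutator (H₁ := B) (H₂ := D) (inv_mem b.2) (inv_mem d.2)
    rwa [commutatorElement_def, inv_inv, inv_inv] at this
  obtain ⟨kb, hkb⟩ : ∃ k : slK A C, (k : G) = b := ⟨⟨b, h.B_le b.2⟩, rfl⟩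
  obtain ⟨kd, hkd⟩ : ∃ k : slK A C, (k : G) = d := ⟨⟨d, h.D_le d.2⟩, rfl⟩
  obtain ⟨kf, hkf⟩ : ∃ k : slK A C, (k : G) = (b : G)⁻¹ * (d : G)⁻¹ * b * d :=
    ⟨⟨_, hFle hf⟩, rfl⟩
  have hkbB : (kb : G) ∈ B := by rw [hkb]; exact b.2
  have hkdD : (kd : G) ∈ D := by rw [hkd]; exact d.2
  have hkrel : kb * kd = kd * kb * kf := by
    apply Subtype.ext
    show (kb : G) * (kd : G) = (kd : G) * (kb : G) * (kf : G)
    rw [hkb, hkd, hkf]; group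
  have hkfb : kf * kb = kb * kf := by
    apply Subtype.ext
    show (kf : G) * (kb : G) = (kb : G) * (kf : G)
    rw [hkb, hkf]
    exact hFcen _ hf b (Subgroup.mem_sup_left b.2)
  have hkfd : kf * kd = kd * kf := by
    apply Subtype.ext
    show (kf : G) * (kd : G) = (kd : G) * (kf : G)
    rw [hkd, hkf]
    exact hFcen _ hf d (Subgroup.mem_sup_right d.2)
  obtain ⟨β, hβ⟩ : ∃ β, β = qmRho (slK A C) (CMod (A ⊔ C)) kb - 1 := ⟨_, rfl⟩
  obtain ⟨δ, hδ⟩ : ∃ δ, δ = qmRho (slK A C) (CMod (A ⊔ C)) kd - 1 := ⟨_, rfl⟩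
  obtain ⟨φ, hφ⟩ : ∃ φ, φ = qmRho (slK A C) (CMod (A ⊔ C)) kf - 1 := ⟨_, rfl⟩
  have rb : qmRho (slK A C) (CMod (A ⊔ C)) kb = 1 + β := by rw [hβ]; abel
  have rd : qmRho (slK A C) (CMod (A ⊔ C)) kd = 1 + δ := by rw [hδ]; abel
  have rf : qmRho (slK A C) (CMod (A ⊔ C)) kf = 1 + φ := by rw [hφ]; abel
  have e1 : (1 + β) * (1 + δ) = (1 + δ) * (1 + β) * (1 + φ) := by
    rw [← rb, ← rd, ← rf, ← map_mul, ← map_mul, ← map_mul, hkrel]
  have e2 : β * δ - δ * β = φ + δ * φ + β * φ + δ * β * φ := by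
    have e := e1
    simp only [mul_add, add_mul, mul_one, one_mul, mul_assoc] at e
    simp only [mul_assoc]
    linear_combination (norm := abel) e
  have hφβ' : φ * β = β * φ := by
    have e : (1 + φ) * (1 + β) = (1 + β) * (1 + φ) := by
      rw [← rb, ← rf, ← map_mul, ← map_mul, hkfb]
    simp only [mul_add, add_mul, mul_one, one_mul] at e
    linear_combination (norm := abel) e
  have hφδ' : φ * δ = δ * φ := by
    have e : (1 + φ) * (1 + δ) = (1 + δ) * (1 + φ) := by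
      rw [← rd, ← rf, ← map_mul, ← map_mul, hkfd]
    simp only [mul_add, add_mul, mul_one, one_mul] at e
    linear_combination (norm := abel) e
  have hδδ' : δ * δ = 0 := by rw [hδ]; exact h.quadD kd kd hkdD hkdD
  have hstar : ∀ x, β (δ x) - δ (β x) = φ x + δ (φ x) + β (φ x) + δ (β (φ x)) :=
    fun x => congrArg (fun t : AddMonoid.End (CMod (A ⊔ C)) => t x) e2
  have hφβ : ∀ x, φ (β x) = β (φ x) :=
    fun x => congrArg (fun t : AddMonoid.End (CMod (A ⊔ C)) => t x) hφβ'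
  have hφδ : ∀ x, φ (δ x) = δ (φ x) :=
    fun x => congrArg (fun t : AddMonoid.End (CMod (A ⊔ C)) => t x) hφδ'
  have hδδ : ∀ x, δ (δ x) = 0 :=
    fun x => congrArg (fun t : AddMonoid.End (CMod (A ⊔ C)) => t x) hδδ'
  have vβ : ∀ m : CMod (A ⊔ C), cmVal (β m) = (b : G) * cmVal m * (b : G)⁻¹ * (cmVal m)⁻¹ := by
    intro m; subst hβ; rw [cm_val_sub_one, hkb]
  have vφ : ∀ m : CMod (A ⊔ C), cmVal (φ m) = ((b : G)⁻¹ * (d : G)⁻¹ * b * d) * cmVal m *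
      ((b : G)⁻¹ * (d : G)⁻¹ * b * d)⁻¹ * (cmVal m)⁻¹ := by
    intro m; subst hφ; rw [cm_val_sub_one, hkf]
  have key : ∀ m : CMod (A ⊔ C), cmVal m ∈ C → β (δ (β (δ m))) = 0 := by
    intro m hm
    apply sl_mod_excl β δ φ hstar hφβ hφδ hδδ
    · apply cmVal_injective
      exact (vβ m).trans (h.comm_C b.2 hm)
    · apply cmVal_injective
      refine (vφ (φ m)).trans ?_
      rw [vφ m]
      show _ = (1 : G)
      have he : ((b : G)⁻¹ * (d : G)⁻¹ * b * d) * cmVal m * ((b : G)⁻¹ * (d : G)⁻¹ * b * d)⁻¹ *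
          (cmVal m)⁻¹ ∈ ⁅⁅B, D⁆, C⁆ := by
        have := Subgroup.commutator_mem_commutator (H₁ := ⁅B, D⁆) (H₂ := C) hf hm
        rwa [commutatorElement_def] at this
      have hc := hEcen _ he _ (Subgroup.mem_sup_left hf)
      rw [← hc]
      group
  -- contradiction with surjectivity
  obtain ⟨c₀, hc0⟩ := (Subgroup.ne_bot_iff_exists_ne_one).mp (hS.ne_bot C h.hC)
  have hc1 : (c₀ : G) ≠ 1 := fun h' => hc0 (Subtype.ext h')
  obtain ⟨m₂, m, hm₂, hm, hchain⟩ := h.chain kb kd hkbB (by rw [hkb]; exact hb1) hkdD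
    (by rw [hkd]; exact hd1) c₀.2
  apply hc1
  rw [← hm, ← hchain, ← hβ, ← hδ, key m₂ hm₂]
  rfl

theorem Sl2Config.BC_bot (h : Sl2Config S A B C D) : ⁅B, C⁆ = ⊥ := by
  rw [Subgroup.commutator_eq_bot_iff_le_centralizer]
  intro b hb
  rw [Subgroup.mem_centralizer_iff]
  intro c hc
  exact h.cB hc hb

/-- `(B, D)` is a rank one pair. -/
theorem Sl2Config.rank_one (h : Sl2Config S A B C D) : IsRankOnePair B D := by
  rcases h.hS.pair B h.hB D h.hD with h1 | h1 | h1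
  · exfalso
    have h1' : ⁅⁅D, B⁆, C⁆ = ⊥ := by
      rw [Subgroup.commutator_comm D B, h1, Subgroup.commutator_bot_left]
    have h2 : ⁅⁅B, C⁆, D⁆ = ⊥ := by rw [h.BC_bot, Subgroup.commutator_bot_left]
    have h3 := Subgroup.commutator_commutator_eq_bot_of_rotate h1' h2
    rw [Subgroup.commutator_comm C D, h.hDC, h.hAB] at h3
    exact h.hS.ne_bot C h.hC h3
  · exact h1
  · exact absurd h1 h.excl

/-- The key identity `[b, [d, c]] = c` for matching `b`, `d`. -/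
theorem Sl2Config.bij (h : Sl2Config S A B C D) {b d : G} (hb : b ∈ B) (hb1 : b ≠ 1)
    (hd : d ∈ D) (hd1 : d ≠ 1) (hbd : conjBy B d⁻¹ = conjBy D b⁻¹) {c : G} (hc : c ∈ C) :
    b * (d * c * d⁻¹ * c⁻¹) * b⁻¹ * (d * c * d⁻¹ * c⁻¹)⁻¹ = c := by
  haveI : IsMulCommutative ↥(A ⊔ C) := h.N_comm
  have hb₀ : d * b⁻¹ * d * b * d⁻¹ ∈ B := by
    have h1 : b⁻¹ * d * b⁻¹⁻¹ ∈ conjBy D b⁻¹ := cb_mem' hd
    rw [← hbd, cb_mem, inv_inv, inv_inv] at h1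
    have e : d * b⁻¹ * d * b * d⁻¹ = d * (b⁻¹ * d * b) * d⁻¹ := by group
    rw [e]; exact h1
  obtain ⟨kb, hkb⟩ : ∃ k : slK A C, (k : G) = b := ⟨⟨b, h.B_le hb⟩, rfl⟩
  obtain ⟨kd, hkd⟩ : ∃ k : slK A C, (k : G) = d := ⟨⟨d, h.D_le hd⟩, rfl⟩
  obtain ⟨kb₀, hkb₀⟩ : ∃ k : slK A C, (k : G) = d * b⁻¹ * d * b * d⁻¹ :=
    ⟨⟨_, h.B_le hb₀⟩, rfl⟩
  have hkbB : (kb : G) ∈ B := by rw [hkb]; exact hb
  have hkdD : (kd : G) ∈ D := by rw [hkd]; exact hd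
  have hkb₀B : (kb₀ : G) ∈ B := by rw [hkb₀]; exact hb₀
  have hkrel : kb⁻¹ * kd * kb = kd⁻¹ * kb₀ * kd := by
    apply Subtype.ext
    show (kb : G)⁻¹ * (kd : G) * (kb : G) = (kd : G)⁻¹ * (kb₀ : G) * (kd : G)
    rw [hkb, hkd, hkb₀]; group
  obtain ⟨β, hβ⟩ : ∃ β, β = qmRho (slK A C) (CMod (A ⊔ C)) kb - 1 := ⟨_, rfl⟩
  obtain ⟨δ, hδ⟩ : ∃ δ, δ = qmRho (slK A C) (CMod (A ⊔ C)) kd - 1 := ⟨_, rfl⟩
  obtain ⟨β₀, hβ₀⟩ : ∃ β₀, β₀ = qmRho (slK A C) (CMod (A ⊔ C)) kb₀ - 1 := ⟨_, rfl⟩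
  have rb : qmRho (slK A C) (CMod (A ⊔ C)) kb = 1 + β := by rw [hβ]; abel
  have rd : qmRho (slK A C) (CMod (A ⊔ C)) kd = 1 + δ := by rw [hδ]; abel
  have rb₀ : qmRho (slK A C) (CMod (A ⊔ C)) kb₀ = 1 + β₀ := by rw [hβ₀]; abel
  have hββ : β * β = 0 := by rw [hβ]; exact h.quadB kb kb hkbB hkbB
  have hδδ : δ * δ = 0 := by rw [hδ]; exact h.quadD kd kd hkdD hkdD
  have hββ₀ : β * β₀ = 0 := by rw [hβ, hβ₀]; exact h.quadB kb kb₀ hkbB hkb₀B
  have rbi : qmRho (slK A C) (CMod (A ⊔ C)) kb⁻¹ = 1 - β := by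
    rw [hβ]; exact qm_inv (by rw [← hβ]; exact hββ)
  have rdi : qmRho (slK A C) (CMod (A ⊔ C)) kd⁻¹ = 1 - δ := by
    rw [hδ]; exact qm_inv (by rw [← hδ]; exact hδδ)
  have hR : (1 - β) * (1 + δ) * (1 + β) = (1 - δ) * (1 + β₀) * (1 + δ) := by
    rw [← rbi, ← rd, ← rb, ← rdi, ← rb₀, ← map_mul, ← map_mul, ← map_mul, ← map_mul, hkrel]
  have hid := sl_ring_idem hββ hδδ hββ₀ hR
  obtain ⟨m₂, m, hm₂, hm, hchain⟩ := h.chain kb kd hkbB (by rw [hkb]; exact hb1) hkdD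
    (by rw [hkd]; exact hd1) hc
  have vβ : ∀ m : CMod (A ⊔ C), cmVal (β m) = b * cmVal m * b⁻¹ * (cmVal m)⁻¹ := by
    intro m; subst hβ; rw [cm_val_sub_one, hkb]
  have vδ : ∀ m : CMod (A ⊔ C), cmVal (δ m) = d * cmVal m * d⁻¹ * (cmVal m)⁻¹ := by
    intro m; subst hδ; rw [cm_val_sub_one, hkd]
  rw [← hβ, ← hδ] at hchain
  have e1 : β (δ m) = m := by
    have e := congrArg (fun t : AddMonoid.End (CMod (A ⊔ C)) => t m₂) hid
    have e' : β (δ (β (δ m₂))) = β (δ (β (δ (β (δ m₂))))) := e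
    rw [hchain] at e'
    exact e'.symm
  have e2 := congrArg cmVal e1
  rw [vβ, vδ, hm] at e2
  exact e2

/-- The key identity `[d, [b, a]] = a` for matching `b`, `d`. -/
theorem Sl2Config.bij' (h : Sl2Config S A B C D) {b d : G} (hb : b ∈ B) (hb1 : b ≠ 1)
    (hd : d ∈ D) (hd1 : d ≠ 1) (hbd : conjBy B d⁻¹ = conjBy D b⁻¹) {a : G} (ha : a ∈ A) :
    d * (b * a * b⁻¹ * a⁻¹) * d⁻¹ * (b * a * b⁻¹ * a⁻¹)⁻¹ = a := by
  obtain ⟨c, hc, rfl⟩ := h.symm.surj_A hd hd1 ha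
  rw [h.bij hb hb1 hd hd1 hbd hc]

theorem Sl2Config.conj_elt (h : Sl2Config S A B C D) {b d : G} (hb : b ∈ B) (hb1 : b ≠ 1)
    (hd : d ∈ D) (hd1 : d ≠ 1) (hbd : conjBy B d⁻¹ = conjBy D b⁻¹) {a : G} (ha : a ∈ A) :
    b * a * b⁻¹ = d * (b * a * b⁻¹ * a⁻¹) * d⁻¹ := by
  have hc := h.comm_mem hb ha
  have e := h.bij' hb hb1 hd hd1 hbd ha
  calc b * a * b⁻¹ = (b * a * b⁻¹ * a⁻¹) * a := by group
    _ = a * (b * a * b⁻¹ * a⁻¹) := h.cA hc ha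
    _ = (d * (b * a * b⁻¹ * a⁻¹) * d⁻¹ * (b * a * b⁻¹ * a⁻¹)⁻¹) * (b * a * b⁻¹ * a⁻¹) := by
        rw [e]
    _ = d * (b * a * b⁻¹ * a⁻¹) * d⁻¹ := by group

theorem Sl2Config.conj_elt' (h : Sl2Config S A B C D) {b d : G} (hb : b ∈ B) (hb1 : b ≠ 1)
    (hd : d ∈ D) (hd1 : d ≠ 1) (hbd : conjBy B d⁻¹ = conjBy D b⁻¹) {c : G} (hc : c ∈ C) :
    d * c * d⁻¹ = b * (d * c * d⁻¹ * c⁻¹) * b⁻¹ := by
  have ha := h.symm.comm_mem hd hc
  have e := h.bij hb hb1 hd hd1 hbd hc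
  calc d * c * d⁻¹ = (d * c * d⁻¹ * c⁻¹) * c := by group
    _ = c * (d * c * d⁻¹ * c⁻¹) := (h.cA hc ha).symm
    _ = (b * (d * c * d⁻¹ * c⁻¹) * b⁻¹ * (d * c * d⁻¹ * c⁻¹)⁻¹) * (d * c * d⁻¹ * c⁻¹) := by
        rw [e]
    _ = b * (d * c * d⁻¹ * c⁻¹) * b⁻¹ := by group

theorem Sl2Config.conj_eq (h : Sl2Config S A B C D) {b d : G} (hb : b ∈ B) (hb1 : b ≠ 1)
    (hd : d ∈ D) (hd1 : d ≠ 1) (hbd : conjBy B d⁻¹ = conjBy D b⁻¹) :
    conjBy A b = conjBy C d := by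
  apply le_antisymm
  · intro x hx
    rw [cb_mem] at hx
    have e : x = b * (b⁻¹ * x * b) * b⁻¹ := by group
    rw [e, h.conj_elt hb hb1 hd hd1 hbd hx]
    exact cb_mem' (h.comm_mem hb hx)
  · intro x hx
    rw [cb_mem] at hx
    have e : x = d * (d⁻¹ * x * d) * d⁻¹ := by group
    rw [e, h.conj_elt' hb hb1 hd hd1 hbd hx]
    exact cb_mem' (h.symm.comm_mem hd hx)

theorem Sl2Config.inj (h : Sl2Config S A B C D) {b a : G} (hb : b ∈ B) (hb1 : b ≠ 1)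
    (ha : a ∈ A) (e : b * a * b⁻¹ * a⁻¹ = 1) : a = 1 := by
  obtain ⟨d, hd, hd1, hbd⟩ := h.rank_one.cond_left b hb hb1
  have := h.bij' hb hb1 hd hd1 hbd ha
  rw [e] at this
  rw [← this]; group

theorem Sl2Config.inf_bot (h : Sl2Config S A B C D) {x : G} (hxA : x ∈ A) (hxC : x ∈ C) :
    x = 1 := by
  obtain ⟨b, hb0⟩ := (Subgroup.ne_bot_iff_exists_ne_one).mp (h.hS.ne_bot B h.hB)
  have hb1 : (b : G) ≠ 1 := fun h' => hb0 (Subtype.ext h')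
  exact h.inj b.2 hb1 hxA (h.comm_C b.2 hxC)

theorem Sl2Config.T_eq (h : Sl2Config S A B C D) :
    (fun b : G => conjBy A b) '' (B : Set G) ∪ {C} =
      (fun d : G => conjBy C d) '' (D : Set G) ∪ {A} := by
  have hr := h.rank_one
  ext E
  constructor
  · rintro (⟨b, hb, rfl⟩ | rfl)
    · by_cases hb1 : b = 1
      · right
        show conjBy A b = A
        rw [hb1]; exact cb_one A
      · left
        obtain ⟨d, hd, hd1, hbd⟩ := hr.cond_left b hb hb1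
        exact ⟨d, hd, (h.conj_eq hb hb1 hd hd1 hbd).symm⟩
    · left; exact ⟨1, one_mem _, cb_one _⟩
  · rintro (⟨d, hd, rfl⟩ | rfl)
    · by_cases hd1 : d = 1
      · right
        show conjBy C d = C
        rw [hd1]; exact cb_one C
      · left
        obtain ⟨b, hb, hb1, hdb⟩ := hr.cond_right d hd hd1
        exact ⟨b, hb, h.conj_eq hb hb1 hd hd1 hdb.symm⟩
    · left; exact ⟨1, one_mem _, cb_one _⟩

theorem Sl2Config.T_inv (h : Sl2Config S A B C D) :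
    ∀ x ∈ B ⊔ D, ∀ E ∈ (fun b : G => conjBy A b) '' (B : Set G) ∪ {C},
      conjBy E x ∈ (fun b : G => conjBy A b) '' (B : Set G) ∪ {C} := by
  apply cb_sup_induction
  · intro b' hb' E hE
    rcases hE with ⟨b, hb, rfl⟩ | rfl
    · left; exact ⟨b' * b, mul_mem hb' hb, (cb_cb A b b').symm⟩
    · right
      exact cb_of_centralizes (fun c hc => h.cB hc hb')
  · intro d' hd' E hE
    rw [h.T_eq] at hE ⊢
    rcases hE with ⟨d, hd, rfl⟩ | rfl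
    · left; exact ⟨d' * d, mul_mem hd' hd, (cb_cb C d d').symm⟩
    · right
      exact cb_of_centralizes (fun a ha => h.symm.cB ha hd')
  · intro E hE
    rw [cb_one]; exact hE
  · intro x y hx hy E hE
    rw [← cb_cb]
    exact hx _ (hy E hE)

theorem Sl2Config.orbit_eq (h : Sl2Config S A B C D) :
    {E | ∃ x ∈ B ⊔ D, E = conjBy A x} = (fun b : G => conjBy A b) '' (B : Set G) ∪ {C} := by
  have hr := h.rank_one
  ext E
  constructor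
  · rintro ⟨x, hx, rfl⟩
    exact h.T_inv x hx A (Or.inl ⟨1, one_mem _, cb_one A⟩)
  · rintro (⟨b, hb, rfl⟩ | rfl)
    · exact ⟨b, Subgroup.mem_sup_left hb, rfl⟩
    · obtain ⟨d, hd0⟩ := (Subgroup.ne_bot_iff_exists_ne_one).mp (h.hS.ne_bot D h.hD)
      have hd1 : (d : G) ≠ 1 := fun h' => hd0 (Subtype.ext h')
      obtain ⟨b, hb, hb1, hdb⟩ := hr.cond_right d d.2 hd1
      refine ⟨(d : G)⁻¹ * b, mul_mem (Subgroup.mem_sup_right (inv_mem d.2))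
        (Subgroup.mem_sup_left hb), ?_⟩
      show E = conjBy A ((d : G)⁻¹ * b)
      rw [← cb_cb, h.conj_eq hb hb1 d.2 hd1 hdb.symm, cb_cb, inv_mul_cancel, cb_one]

theorem Sl2Config.partition (h : Sl2Config S A B C D) :
    IsSubgroupPartition (A ⊔ C) ((fun b : G => conjBy A b) '' (B : Set G) ∪ {C}) := by
  have hle : ∀ b ∈ B, conjBy A b ≤ A ⊔ C := by
    intro b hb x hx
    rw [cb_mem] at hx
    have e : x = (b * (b⁻¹ * x * b) * b⁻¹ * (b⁻¹ * x * b)⁻¹) * (b⁻¹ * x * b) := by group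
    rw [e]
    exact mul_mem (Subgroup.mem_sup_right (h.comm_mem hb hx)) (Subgroup.mem_sup_left hx)
  have hAC : ∀ b ∈ B, conjBy A b ⊓ C = ⊥ := by
    intro b hb
    rw [eq_bot_iff]
    intro x hx
    obtain ⟨hx1, hx2⟩ := Subgroup.mem_inf.mp hx
    rw [cb_mem] at hx1
    have e : b⁻¹ * x * b = x := by
      have := h.cB hx2 hb
      rw [mul_assoc, this]; group
    rw [e] at hx1
    exact Subgroup.mem_bot.mpr (h.inf_bot hx1 hx2)
  refine ⟨?_, ?_, ?_⟩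
  · rintro E (⟨b, hb, rfl⟩ | rfl)
    · exact hle b hb
    · exact le_sup_right
  · intro x hx hx1
    obtain ⟨a, ha, c, hc, rfl⟩ := h.decomp x hx
    by_cases ha1 : a = 1
    · refine ⟨C, Or.inr rfl, ?_⟩
      rw [ha1, one_mul]; exact hc
    · obtain ⟨b, hb, e⟩ := h.surj_B ha ha1 hc
      refine ⟨conjBy A b, Or.inl ⟨b, hb, rfl⟩, ?_⟩
      have e' : a * c = b * a * b⁻¹ := by
        rw [← h.cA hc ha, ← e]; group
      rw [e']; exact cb_mem' ha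
  · rintro E₁ (⟨b₁, hb₁, rfl⟩ | rfl) E₂ (⟨b₂, hb₂, rfl⟩ | rfl) hne
    · rw [eq_bot_iff]
      intro x hx
      obtain ⟨hx1, hx2⟩ := Subgroup.mem_inf.mp hx
      rw [cb_mem] at hx1 hx2
      have hc₁ := h.comm_mem hb₁ hx1
      have hc₂ := h.comm_mem hb₂ hx2
      have e12 : (b₁⁻¹ * x * b₁) * (b₂⁻¹ * x * b₂)⁻¹ = 1 := by
        apply h.inf_bot (mul_mem hx1 (inv_mem hx2))
        have e : (b₁⁻¹ * x * b₁) * (b₂⁻¹ * x * b₂)⁻¹ =
            (b₁ * (b₁⁻¹ * x * b₁) * b₁⁻¹ * (b₁⁻¹ * x * b₁)⁻¹)⁻¹ *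
              (b₂ * (b₂⁻¹ * x * b₂) * b₂⁻¹ * (b₂⁻¹ * x * b₂)⁻¹) := by group
        rw [e]; exact mul_mem (inv_mem hc₁) hc₂
      have e12' : b₁⁻¹ * x * b₁ = b₂⁻¹ * x * b₂ := by rwa [mul_inv_eq_one] at e12
      have hb12 : b₂⁻¹ * b₁ ≠ 1 := by
        intro h0
        apply hne
        have : b₁ = b₂ := by rw [inv_mul_eq_one] at h0; exact h0.symm
        rw [this]
      have ecomm : (b₂⁻¹ * b₁) * (b₁⁻¹ * x * b₁) * (b₂⁻¹ * b₁)⁻¹ * (b₁⁻¹ * x * b₁)⁻¹ = 1 := by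
        have e : (b₂⁻¹ * b₁) * (b₁⁻¹ * x * b₁) * (b₂⁻¹ * b₁)⁻¹ * (b₁⁻¹ * x * b₁)⁻¹ =
            (b₂⁻¹ * x * b₂) * (b₁⁻¹ * x * b₁)⁻¹ := by group
        rw [e, e12', mul_inv_cancel]
      have ha1 := h.inj (mul_mem (inv_mem hb₂) hb₁) hb12 hx1 ecomm
      rw [Subgroup.mem_bot]
      have e : x = b₁ * (b₁⁻¹ * x * b₁) * b₁⁻¹ := by group
      rw [e, ha1]; group
    · exact hAC b₁ hb₁
    · rw [inf_comm]; exact hAC b₂ hb₂
    · exact absurd rfl hne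

theorem Sl2Config.cent_B (h : Sl2Config S A B C D) {x : G} (hx : x ∈ B ⊔ D)
    (hxN : ∀ n ∈ A ⊔ C, n * x = x * n) : ∀ b ∈ B, x * b = b * x := by
  have hr := h.rank_one
  have hBx : conjBy B x = B := by
    have hmem : conjBy B x ∈ unipotentSubgroups B D := r1_conj_mem (r1_C_mem B D) hx
    rcases r1_orbit' hr hmem with h1 | ⟨b', hb', h1⟩
    · exact h1
    · exfalso
      obtain ⟨d, hd0⟩ := (Subgroup.ne_bot_iff_exists_ne_one).mp (h.hS.ne_bot D h.hD)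
      obtain ⟨c, hc0⟩ := (Subgroup.ne_bot_iff_exists_ne_one).mp (h.hS.ne_bot C h.hC)
      have hd1 : (d : G) ≠ 1 := fun h' => hd0 (Subtype.ext h')
      have hc1 : (c : G) ≠ 1 := fun h' => hc0 (Subtype.ext h')
      have h2 : b' * d * b'⁻¹ ∈ conjBy B x := by rw [h1]; exact cb_mem' d.2
      rw [cb_mem] at h2
      have e1 := h.cB c.2 h2
      have e2 := hxN c (Subgroup.mem_sup_right c.2)
      have e3 := h.cB c.2 hb'
      have hZ : ∀ g : G, (c : G) * g = g * c → g ∈ Subgroup.centralizer ({(c : G)} : Set G) := by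
        intro g hg
        rw [Subgroup.mem_centralizer_iff]
        rintro _ rfl
        exact hg
      have hd' : (d : G) ∈ Subgroup.centralizer ({(c : G)} : Set G) := by
        have e : (d : G) = b'⁻¹ * x * (x⁻¹ * (b' * d * b'⁻¹) * x) * x⁻¹ * b' := by group
        rw [e]
        exact mul_mem (mul_mem (mul_mem (mul_mem (inv_mem (hZ _ e3)) (hZ _ e2)) (hZ _ e1))
          (inv_mem (hZ _ e2))) (hZ _ e3)
      have e5 : (c : G) * d = d * c := Subgroup.mem_centralizer_iff.mp hd' c rfl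
      have e4 : (d : G) * c * (d : G)⁻¹ * (c : G)⁻¹ = 1 := by
        rw [← e5]; group
      exact hc1 (h.symm.inj d.2 hd1 c.2 e4)
  intro b hb
  have hy : x * b * x⁻¹ ∈ B := by
    have := cb_mem' (A := B) (g := x) hb
    rwa [hBx] at this
  obtain ⟨a, ha0⟩ := (Subgroup.ne_bot_iff_exists_ne_one).mp (h.hS.ne_bot A h.hA)
  have ha1 : (a : G) ≠ 1 := fun h' => ha0 (Subtype.ext h')
  have hbaN : b * a * b⁻¹ ∈ A ⊔ C :=
    (Subgroup.mem_normalizer_iff.mp (h.B_le hb) _).mp (Subgroup.mem_sup_left a.2)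
  have hcomm : (b⁻¹ * (x * b * x⁻¹)) * a * (b⁻¹ * (x * b * x⁻¹))⁻¹ * (a : G)⁻¹ = 1 := by
    have e1 := hxN a (Subgroup.mem_sup_left a.2)
    have e2 := hxN (b * a * b⁻¹) hbaN
    calc (b⁻¹ * (x * b * x⁻¹)) * a * (b⁻¹ * (x * b * x⁻¹))⁻¹ * (a : G)⁻¹
        = b⁻¹ * x * b * (x⁻¹ * (a * x)) * b⁻¹ * x⁻¹ * b * (a : G)⁻¹ := by group
      _ = b⁻¹ * x * b * (x⁻¹ * (x * a)) * b⁻¹ * x⁻¹ * b * (a : G)⁻¹ := by rw [e1]
      _ = b⁻¹ * (x * (b * a * b⁻¹)) * x⁻¹ * b * (a : G)⁻¹ := by group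
      _ = b⁻¹ * ((b * a * b⁻¹) * x) * x⁻¹ * b * (a : G)⁻¹ := by rw [e2]
      _ = 1 := by group
  by_contra hne
  have hne' : b⁻¹ * (x * b * x⁻¹) ≠ 1 := by
    intro h0
    apply hne
    have : x * b * x⁻¹ = b := by rw [inv_mul_eq_one] at h0; exact h0.symm
    calc x * b = (x * b * x⁻¹) * x := by group
      _ = b * x := by rw [this]
  exact ha1 (h.inj (mul_mem (inv_mem hb) hy) hne' a.2 hcomm)

/-- The full statement for an `SL₂` configuration. -/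
theorem Sl2Config.main (h : Sl2Config S A B C D) :
    IsRankOnePair B D ∧
    {E | ∃ x ∈ B ⊔ D, E = conjBy A x} = {E | ∃ x ∈ B ⊔ D, E = conjBy C x} ∧
    {E | ∃ x ∈ B ⊔ D, E = conjBy A x} = (fun b : G => conjBy A b) '' (B : Set G) ∪ {C} ∧
    {E | ∃ x ∈ B ⊔ D, E = conjBy A x} = (fun d : G => conjBy C d) '' (D : Set G) ∪ {A} ∧
    IsSubgroupPartition (A ⊔ C) {E | ∃ x ∈ B ⊔ D, E = conjBy A x} ∧
    ∀ x ∈ (B ⊔ D) ⊓ Subgroup.centralizer ((A ⊔ C : Subgroup G) : Set G),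
      ∀ y ∈ B ⊔ D, x * y = y * x := by
  have e1 := h.orbit_eq
  have e2 := h.T_eq
  have e3 := h.symm.orbit_eq
  refine ⟨h.rank_one, ?_, e1, e1.trans e2, ?_, ?_⟩
  · rw [e1, e2, ← e3, sup_comm]
  · rw [e1]; exact h.partition
  · intro x hx
    obtain ⟨hx, hxc⟩ := Subgroup.mem_inf.mp hx
    have hxN : ∀ n ∈ A ⊔ C, n * x = x * n :=
      fun n hn => Subgroup.mem_centralizer_iff.mp hxc n hn
    apply cb_sup_induction
    · exact h.cent_B hx hxN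
    · exact h.symm.cent_B (by rw [sup_comm]; exact hx)
        (fun n hn => hxN n (by rw [sup_comm]; exact hn))
    · rw [mul_one, one_mul]
    · intro y z hy hz
      rw [← mul_assoc, hy, mul_assoc, hz, mul_assoc]

end config

end Cfsg.Agent.Lib.Helper6
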