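import Cfsg.Agent.Lib.Helper6.RootConn

set_option autoImplicit false
set_option linter.style.haveILetI false
set_option linter.unusedVariables false
set_option linter.unusedSimpArgs false

namespace Cfsg.Agent.Lib.Helper6

open Cfsg
open scoped commutatorElement

variable {G : Type*} [Group G] {S : Set (Subgroup G)} {A B C D : Subgroup G}

/-- For matching `b`, `d` the elements `d⁻¹ b d` and `b⁻¹ d⁻¹ b` act in the same way on `A C`. -/
theorem Sl2Config.conj_agree (h : Sl2Config S A B C D) {b d : G} (hb : b ∈ B) (hb1 : b ≠ 1)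
    (hd : d ∈ D) (hd1 : d ≠ 1) (hbd : conjBy B d⁻¹ = conjBy D b⁻¹) :
    ∀ n ∈ A ⊔ C, (d⁻¹ * b * d) * n * (d⁻¹ * b * d)⁻¹ =
      (b⁻¹ * d⁻¹ * b) * n * (b⁻¹ * d⁻¹ * b)⁻¹ := by
  haveI : IsMulCommutative ↥(A ⊔ C) := h.N_comm
  obtain ⟨kb, hkb⟩ : ∃ k : slK A C, (k : G) = b := ⟨⟨b, h.B_le hb⟩, rfl⟩
  obtain ⟨kd, hkd⟩ : ∃ k : slK A C, (k : G) = d := ⟨⟨d, h.D_le hd⟩, rfl⟩
  have hkbB : (kb : G) ∈ B := by rw [hkb]; exact hb
  have hkdD : (kd : G) ∈ D := by rw [hkd]; exact hd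
  obtain ⟨β, hβ⟩ : ∃ β, β = qmRho (slK A C) (CMod (A ⊔ C)) kb - 1 := ⟨_, rfl⟩
  obtain ⟨δ, hδ⟩ : ∃ δ, δ = qmRho (slK A C) (CMod (A ⊔ C)) kd - 1 := ⟨_, rfl⟩
  have rb : qmRho (slK A C) (CMod (A ⊔ C)) kb = 1 + β := by rw [hβ]; abel
  have rd : qmRho (slK A C) (CMod (A ⊔ C)) kd = 1 + δ := by rw [hδ]; abel
  have hββ : β * β = 0 := by rw [hβ]; exact h.quadB kb kb hkbB hkbB
  have hδδ : δ * δ = 0 := by rw [hδ]; exact h.quadD kd kd hkdD hkdD
  have rbi : qmRho (slK A C) (CMod (A ⊔ C)) kb⁻¹ = 1 - β := by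
    rw [hβ]; exact qm_inv (by rw [← hβ]; exact hββ)
  have rdi : qmRho (slK A C) (CMod (A ⊔ C)) kd⁻¹ = 1 - δ := by
    rw [hδ]; exact qm_inv (by rw [← hδ]; exact hδδ)
  have vβ : ∀ m : CMod (A ⊔ C), cmVal (β m) = b * cmVal m * b⁻¹ * (cmVal m)⁻¹ := by
    intro m; subst hβ; rw [cm_val_sub_one, hkb]
  have vδ : ∀ m : CMod (A ⊔ C), cmVal (δ m) = d * cmVal m * d⁻¹ * (cmVal m)⁻¹ := by
    intro m; subst hδ; rw [cm_val_sub_one, hkd]
  have hβC : ∀ m : CMod (A ⊔ C), cmVal (β m) ∈ C := by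
    intro m; rw [vβ]; exact h.comm_N hb (cmVal_mem m)
  have hδA : ∀ m : CMod (A ⊔ C), cmVal (δ m) ∈ A := by
    intro m; rw [vδ]; exact h.symm.comm_N hd (by rw [sup_comm]; exact cmVal_mem m)
  have hβδ : ∀ m : CMod (A ⊔ C), cmVal m ∈ C → β (δ m) = m := by
    intro m hm
    apply cmVal_injective
    rw [vβ, vδ]
    exact h.bij hb hb1 hd hd1 hbd hm
  have hδβ : ∀ m : CMod (A ⊔ C), cmVal m ∈ A → δ (β m) = m := by
    intro m hm
    apply cmVal_injective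
    rw [vδ, vβ]
    exact h.bij' hb hb1 hd hd1 hbd hm
  have h1 : β * (δ * β) = β := by
    ext m
    exact hβδ (β m) (hβC m)
  have h2 : δ * (β * δ) = δ := by
    ext m
    exact hδβ (δ m) (hδA m)
  have hρ : qmRho (slK A C) (CMod (A ⊔ C)) (kd⁻¹ * kb * kd) =
      qmRho (slK A C) (CMod (A ⊔ C)) (kb⁻¹ * kd⁻¹ * kb) := by
    rw [map_mul, map_mul, map_mul, map_mul, rbi, rdi, rb, rd]
    simp only [mul_add, add_mul, sub_eq_add_neg, neg_mul, mul_neg, mul_one, one_mul, mul_assoc,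
      hββ, hδδ, h1, h2, neg_neg, add_zero, neg_zero]
    abel
  intro n hn
  have e := congrArg (fun t : AddMonoid.End (CMod (A ⊔ C)) => cmVal (t (cmOf ⟨n, hn⟩))) hρ
  have e' : ((kd⁻¹ * kb * kd : slK A C) : G) * n * ((kd⁻¹ * kb * kd : slK A C) : G)⁻¹ =
      ((kb⁻¹ * kd⁻¹ * kb : slK A C) : G) * n * ((kb⁻¹ * kd⁻¹ * kb : slK A C) : G)⁻¹ := e
  have c1 : ((kd⁻¹ * kb * kd : slK A C) : G) = d⁻¹ * b * d := by rw [← hkb, ← hkd]; rfl
  have c2 : ((kb⁻¹ * kd⁻¹ * kb : slK A C) : G) = b⁻¹ * d⁻¹ * b := by rw [← hkb, ← hkd]; rfl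
  rw [c1, c2] at e'
  exact e'

theorem Sl2Config.central_one (h : Sl2Config S A B C D) {g b d : G} (hb : b ∈ B) (hd : d ∈ D)
    (hbd : conjBy B d⁻¹ = conjBy D b⁻¹) (hg : g ∈ conjBy B d⁻¹) (hgX : g ∈ B ⊔ D)
    (hgN : g ∈ Subgroup.centralizer ((A ⊔ C : Subgroup G) : Set G)) : g = 1 := by
  have hr := h.rank_one
  have hcen := h.main.2.2.2.2.2 g (Subgroup.mem_inf.mpr ⟨hgX, hgN⟩)
  have hgB : g ∈ B := by
    have h1 := hg
    rw [cb_mem, inv_inv] at h1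
    have h2 := hcen d (Subgroup.mem_sup_right hd)
    have : d * g * d⁻¹ = g := by rw [← h2]; group
    rwa [this] at h1
  have hgD : g ∈ D := by
    have h1 := hg
    rw [hbd, cb_mem, inv_inv] at h1
    have h2 := hcen b (Subgroup.mem_sup_left hb)
    have : b * g * b⁻¹ = g := by rw [← h2]; group
    rwa [this] at h1
  have hinf : B ⊓ D = ⊥ := by
    rcases rs_inf_eq_bot h.hS (rl_not_isolated_of_rankOne h.hB h.hD hr) h.hB D h.hD with h' | h'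
    · exact h'
    · exact absurd h' hr.ne
  have : g ∈ B ⊓ D := Subgroup.mem_inf.mpr ⟨hgB, hgD⟩
  rwa [hinf, Subgroup.mem_bot] at this

/-- The rank one pair `(B, D)` of an `SL₂`-configuration is special. -/
theorem Sl2Config.special (h : Sl2Config S A B C D) : IsSpecialRankOnePair B D := by
  refine ⟨h.rank_one, ?_⟩
  intro b hb hb1 d hd hd1 hbd
  have hagree := h.conj_agree hb hb1 hd hd1 hbd
  have hx1 : d⁻¹ * b * d ∈ conjBy B d⁻¹ := by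
    have := cb_mem' (A := B) (g := d⁻¹) hb
    rwa [inv_inv] at this
  have hx2 : b⁻¹ * d⁻¹ * b ∈ conjBy B d⁻¹ := by
    have := cb_mem' (A := D) (g := b⁻¹) (inv_mem hd)
    rw [inv_inv, ← hbd] at this
    exact this
  have hg : (d⁻¹ * b * d)⁻¹ * (b⁻¹ * d⁻¹ * b) ∈ conjBy B d⁻¹ := mul_mem (inv_mem hx1) hx2
  have hb' : b ∈ B ⊔ D := Subgroup.mem_sup_left hb
  have hd' : d ∈ B ⊔ D := Subgroup.mem_sup_right hd
  have hgX : (d⁻¹ * b * d)⁻¹ * (b⁻¹ * d⁻¹ * b) ∈ B ⊔ D :=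
    mul_mem (inv_mem (mul_mem (mul_mem (inv_mem hd') hb') hd'))
      (mul_mem (mul_mem (inv_mem hb') (inv_mem hd')) hb')
  have hgN : (d⁻¹ * b * d)⁻¹ * (b⁻¹ * d⁻¹ * b) ∈
      Subgroup.centralizer ((A ⊔ C : Subgroup G) : Set G) := by
    rw [Subgroup.mem_centralizer_iff]
    intro n hn
    have e := hagree n hn
    calc n * ((d⁻¹ * b * d)⁻¹ * (b⁻¹ * d⁻¹ * b))
        = (d⁻¹ * b * d)⁻¹ * ((d⁻¹ * b * d) * n * (d⁻¹ * b * d)⁻¹) * (b⁻¹ * d⁻¹ * b) := by group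
      _ = (d⁻¹ * b * d)⁻¹ * ((b⁻¹ * d⁻¹ * b) * n * (b⁻¹ * d⁻¹ * b)⁻¹) * (b⁻¹ * d⁻¹ * b) := by
          rw [e]
      _ = (d⁻¹ * b * d)⁻¹ * (b⁻¹ * d⁻¹ * b) * n := by group
  have hg1 := h.central_one hb hd hbd hg hgX hgN
  exact inv_mul_eq_one.mp hg1

theorem s31_ne_bot (hS : IsRootSubgroupSet S) {L : Subgroup G} (hA : A ∈ S) (hC : C ∈ S)
    (hAC : IsRankOnePair A C) (hAB : ⁅A, B⁆ = ⊥) (hL : L ∈ S) {a b : G} (ha : a ∈ A)
    (ha1 : a ≠ 1) (hb : b ∈ B) (hb1 : b ≠ 1) (hab1 : a * b ≠ 1) (hab : a * b ∈ L) :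
    ⁅B, C⁆ ≠ ⊥ := by
  have hcomm : ∀ a' ∈ A, ∀ b' ∈ B, a' * b' = b' * a' :=
    fun a' ha' b' hb' => cc_comm_of_bot hAB ha' hb'
  intro h0
  have hbC : ∀ c' ∈ C, b * c' = c' * b := fun c' hc' => cc_comm_of_bot h0 hb hc'
  have key : ∀ x ∈ A ⊔ C, x * b = b * x := by
    apply cb_sup_induction (P := fun x => x * b = b * x)
    · intro a' ha'; exact hcomm a' ha' b hb
    · intro c' hc'; exact (hbC c' hc').symm
    · rw [one_mul, mul_one]
    · intro x y hx hy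
      show x * y * b = b * (x * y)
      rw [mul_assoc, hy, ← mul_assoc, hx, mul_assoc]
  have hz : b ∈ Subgroup.centralizer ((A ⊔ C : Subgroup G) : Set G) :=
    Subgroup.mem_centralizer_iff.mpr (fun x hx => key x hx)
  have hno := rs_coset_no_root hS hA hC hAC hz hb1 a ha ha1
  apply hno
  refine ⟨?_, L, hL, ?_⟩
  · rw [← hcomm a ha b hb]; exact hab1
  · rw [← hcomm a ha b hb]; exact hab

theorem rl_line_partner (hS : IsRootSubgroupSet S) {T : Subgroup G}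
    (hAni : ¬ IsIsolatedIn (FAdj S) S A) (hA : A ∈ S) (hT : T ∈ S) (hC : ⁅A, T⁆ ∈ S) :
    ⁅A, T⁆ ∈ linePartners S A := by
  have hl := rl_line hS hAni hA hT hC
  exact ⟨⟨hC, fun h' => hl.2.2.1.1.2.1 h'.symm,
    by rw [Subgroup.commutator_comm A ⁅A, T⁆]; exact hl.2.2.1.1.2.2⟩, hl.2.1⟩

/-- Given a rank one pair `(A, B)` and a line partner `Q` of `A`, some member `L` commuting with
`A` has `[L, B] ∈ S`. -/
theorem s34_exists_L (hS : IsRootSubgroupSet S) {Q : Subgroup G} (hA : A ∈ S) (hB : B ∈ S)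
    (hAB : IsRankOnePair A B) (hQ : Q ∈ linePartners S A) :
    ∃ L ∈ S, ⁅A, L⁆ = ⊥ ∧ ⁅L, B⁆ ∈ S := by
  obtain ⟨⟨hQS, hQA, hAQ⟩, hpart⟩ := hQ
  have hcomm : ∀ a ∈ A, ∀ q ∈ Q, a * q = q * a := fun a ha q hq => cc_comm_of_bot hAQ ha hq
  have hAni : ¬ IsIsolatedIn (FAdj S) S A := rl_not_isolated_of_rankOne hA hB hAB
  have hinf : A ⊓ Q = ⊥ := by
    rcases rs_inf_eq_bot hS hAni hA Q hQS with h | h
    · exact h
    · exact absurd h.symm hQA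
  obtain ⟨a, ha0⟩ := (Subgroup.ne_bot_iff_exists_ne_one).mp (hS.ne_bot A hA)
  have ha1 : (a : G) ≠ 1 := fun h' => ha0 (Subtype.ext h')
  have hprod : ∀ q ∈ Q, q ≠ 1 → ∀ a' ∈ A, a' * q ≠ 1 := by
    intro q hq hq1 a' ha' h
    have hqA : q ∈ A := by
      have : q = a'⁻¹ := eq_inv_of_mul_eq_one_right h
      rw [this]; exact inv_mem ha'
    have : q ∈ A ⊓ Q := Subgroup.mem_inf.mpr ⟨hqA, hq⟩
    rw [hinf, Subgroup.mem_bot] at this
    exact hq1 this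
  rcases hS.pair Q hQS B hB with h | h | h
  · exfalso
    obtain ⟨q, hq0⟩ := (Subgroup.ne_bot_iff_exists_ne_one).mp (hS.ne_bot Q hQS)
    have hq1 : (q : G) ≠ 1 := fun h' => hq0 (Subtype.ext h')
    have haq1 := hprod q q.2 hq1 a a.2
    obtain ⟨L, ⟨hL, hLle⟩, haqL⟩ := hpart.2.1 _
      (mul_mem (Subgroup.mem_sup_left a.2) (Subgroup.mem_sup_right q.2)) haq1
    exact s31_ne_bot hS hA hB hAB hAQ hL a.2 ha1 q.2 hq1 haq1 haqL h
  · obtain ⟨b, hb, hb1, hab⟩ := hAB.cond_left a a.2 ha1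
    obtain ⟨q', hq', hq'1, hbq⟩ := h.cond_right b hb hb1
    have hc1 : ⁅conjBy B (a : G)⁻¹, conjBy B q'⁻¹⁆ = ⊥ := by
      rw [← hab, hbq, ← Subgroup.map_commutator, hAQ, Subgroup.map_bot]
    have hc2 : ⁅conjBy B (q' * (a : G)⁻¹), B⁆ = ⊥ := by
      have : conjBy ⁅conjBy B (a : G)⁻¹, conjBy B q'⁻¹⁆ q' = ⁅conjBy B (q' * (a : G)⁻¹), B⁆ := by
        rw [conjBy, Subgroup.map_commutator]
        show ⁅conjBy (conjBy B (a : G)⁻¹) q', conjBy (conjBy B q'⁻¹) q'⁆ = _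
        rw [cb_cb, cb_cb, mul_inv_cancel, cb_one]
      rw [← this, hc1]; exact Subgroup.map_bot _
    have hw : q' * (a : G)⁻¹ ∈ A ⊔ Q :=
      mul_mem (Subgroup.mem_sup_right hq') (Subgroup.mem_sup_left (inv_mem a.2))
    have hw1 : q' * (a : G)⁻¹ ≠ 1 := by
      rw [← hcomm _ (inv_mem a.2) q' hq']
      exact hprod q' hq' hq'1 _ (inv_mem a.2)
    obtain ⟨L, ⟨hL, hLle⟩, hwL⟩ := hpart.2.1 _ hw hw1
    refine ⟨L, hL, ?_, ?_⟩
    · apply cc_bot_of_comm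
      intro a' ha' l hl
      obtain ⟨a₁, ha₁, q₁, hq₁, rfl⟩ := cc_decomp hcomm l (hLle hl)
      have e1 := sr_comm (hS.commutative A hA) ha' ha₁
      have e2 := hcomm a' ha' q₁ hq₁
      calc a' * (a₁ * q₁) = (a' * a₁) * q₁ := by group
        _ = (a₁ * a') * q₁ := by rw [e1]
        _ = a₁ * (a' * q₁) := by group
        _ = a₁ * (q₁ * a') := by rw [e2]
        _ = a₁ * q₁ * a' := by group
    · rcases hS.pair L hL B hB with h' | h' | h'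
      · exfalso
        have hBw : conjBy B (q' * (a : G)⁻¹) = B :=
          cb_of_centralizes (fun x hx => (cc_comm_of_bot h' hwL hx).symm)
        rw [← cb_cb] at hBw
        have h3 : conjBy B (a : G)⁻¹ = conjBy B q'⁻¹ := cb_eq_iff.mp hBw
        rw [← hab, hbq] at h3
        exact hQA (cb_inj h3).symm
      · exfalso
        have hne1 : B ≠ conjBy B (q' * (a : G)⁻¹) := by
          intro h3
          have hmem : q' * (a : G)⁻¹ ∈ L ⊓ Subgroup.normalizer (B : Set G) :=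
            Subgroup.mem_inf.mpr ⟨hwL, cb_eq_self_iff.mp h3.symm⟩
          rw [r1_normalizer_left h', Subgroup.mem_bot] at hmem
          exact hw1 hmem
        obtain ⟨x, hx, hx1, hx2⟩ := r1_two_transitive h' (r1_C_mem L B) (r1_D_mem h')
          (r1_D_mem h') (r1_B_mem h' hwL) h'.ne hne1
        have hpair : IsRankOnePair B (conjBy B (q' * (a : G)⁻¹)) := by
          have := rl_conj_rankOne h' x
          rwa [hx1, hx2] at this
        obtain ⟨b₀, hb₀⟩ := (Subgroup.ne_bot_iff_exists_ne_one).mp (hS.ne_bot B hB)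
        have hb₀1 : (b₀ : G) ≠ 1 := fun h' => hb₀ (Subtype.ext h')
        have hy : (q' * (a : G)⁻¹) * b₀ * (q' * (a : G)⁻¹)⁻¹ ∈ conjBy B (q' * (a : G)⁻¹) :=
          cb_mem' b₀.2
        have hy1 : (q' * (a : G)⁻¹) * b₀ * (q' * (a : G)⁻¹)⁻¹ ≠ 1 := by
          intro h4
          apply hb₀1
          have : (b₀ : G) = (q' * (a : G)⁻¹)⁻¹ *
              ((q' * (a : G)⁻¹) * b₀ * (q' * (a : G)⁻¹)⁻¹) * (q' * (a : G)⁻¹) := by group
          rw [this, h4]; group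
        exact r1_no_commute hpair b₀.2 hb₀1 hy hy1 (cc_comm_of_bot hc2 hy b₀.2).symm
      · exact h'.1
  · exact ⟨Q, hQS, hAQ, h.1⟩

/-- S5034. -/
theorem s34_main (hS : IsRootSubgroupClass S) (hnd : IsNondegenerateRootSet S)
    (hA : A ∈ S) (hB : B ∈ rankOnePartners S A) :
    (∃ C ∈ linePartners S A, C ∈ commutatorPartners S B) ∧ IsSpecialRankOnePair A B := by
  obtain ⟨hBS, hAB⟩ := hB
  have hS' := hS.1
  have hAni := rl_not_isolated_of_rankOne hA hBS hAB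
  obtain ⟨A₁, hA₁, B₁, hB₁, hcc⟩ := hnd.2.2
  obtain ⟨g, hg⟩ := hS.2.2 A₁ hA₁ A hA
  have hP : conjBy B₁ g ∈ S := hS'.conj_mem _ hB₁ g
  have hQS : ⁅A, conjBy B₁ g⁆ ∈ S := by
    rw [hg, ← Subgroup.map_commutator]; exact hS'.conj_mem _ hcc.1 g
  have hQ := rl_line_partner hS' hAni hA hP hQS
  obtain ⟨L, hL, hAL, hLB⟩ := s34_exists_L hS' hA hBS hAB hQ
  have cfg := kl_config hS' hA hL hBS hAB hAL hLB
  have hK : ⁅A, ⁅L, B⁆⁆ ∈ S := by rw [Subgroup.commutator_comm A ⁅L, B⁆]; exact cfg.hA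
  refine ⟨⟨⁅A, ⁅L, B⁆⁆, rl_line_partner hS' hAni hA hLB hK, hK, ?_⟩, cfg.symm.special⟩
  rw [Subgroup.commutator_comm B ⁅A, ⁅L, B⁆⁆, Subgroup.commutator_comm A ⁅L, B⁆, cfg.hAB]
  exact hLB

end Cfsg.Agent.Lib.Helper6
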