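import Cfsg.Agent.Lib.Helper6.RankOne2

set_option autoImplicit false
set_option linter.style.haveILetI false

namespace Cfsg.Agent.Lib.Helper6

open Cfsg

variable {G : Type*} [Group G]

theorem cb_of_centralizes {A : Subgroup G} {z : G} (h : ∀ x ∈ A, x * z = z * x) :
    conjBy A z = A := by
  ext x
  rw [cb_mem]
  constructor
  · intro hx
    have h1 := h _ hx
    have h2 : z⁻¹ * x * z = x := by
      have h3 : z⁻¹ * x * z * z = x * z := by rw [h1]; group
      exact mul_right_cancel h3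
    rwa [h2] at hx
  · intro hx
    have h1 := h x hx
    rw [mul_assoc, h1, inv_mul_cancel_left]
    exact hx

theorem cb_of_centralizes_inv {A : Subgroup G} {z : G} (h : ∀ x ∈ A, x * z = z * x) :
    conjBy A z⁻¹ = A := by
  have h1 := cb_of_centralizes h
  exact (cb_eq_iff.mp h1).symm

/-- Non-identity elements of the two unipotent subgroups of a rank one pair never commute. -/
theorem r1_no_commute {A B : Subgroup G} (h : IsRankOnePair A B) {a b : G} (ha : a ∈ A)
    (ha1 : a ≠ 1) (hb : b ∈ B) (hb1 : b ≠ 1) (hab : a * b = b * a) : False := by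
  have ha1' : a⁻¹ ≠ 1 := by simpa using ha1
  obtain ⟨b₁, hb₁, -, h1⟩ := h.cond_left a⁻¹ (inv_mem ha) ha1'
  rw [inv_inv] at h1
  have hbm : b ∈ conjBy A b₁⁻¹ := by
    rw [h1, cb_mem]
    have : a⁻¹ * b * a = b := by rw [mul_assoc, ← hab, inv_mul_cancel_left]
    rw [this]; exact hb
  have h2 : conjBy (conjBy A b₁⁻¹) b = conjBy A b₁⁻¹ := cb_of_mem hbm
  have h3 : conjBy A (b₁ * b * b₁⁻¹) = A := by
    have e : conjBy A (b₁ * b * b₁⁻¹) = conjBy (conjBy (conjBy A b₁⁻¹) b) b₁ := by
      rw [cb_cb, cb_cb, mul_assoc]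
    rw [e, h2, cb_cb, mul_inv_cancel, cb_one]
  have h4 : b₁ * b * b₁⁻¹ ∈ B ⊓ Subgroup.normalizer (A : Set G) :=
    Subgroup.mem_inf.mpr ⟨mul_mem (mul_mem hb₁ hb) (inv_mem hb₁), cb_eq_self_iff.mp h3⟩
  rw [r1_normalizer_left (RankOnePair_symm h), Subgroup.mem_bot] at h4
  apply hb1
  have : b = b₁⁻¹ * (b₁ * b * b₁⁻¹) * b₁ := by group
  rw [this, h4]; group

/-- Core lemma on root subgroups meeting a coset `zA#` of a rank one pair `(A, C)` with `z` central
in `⟨A, C⟩`. -/
theorem rs_core {S : Set (Subgroup G)} {A C B' : Subgroup G} (hAC : IsRankOnePair A C)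
    (hAc : IsMulCommutative A) {a z : G} (ha : a ∈ A) (ha1 : a ≠ 1)
    (hz : z ∈ Subgroup.centralizer ((A ⊔ C : Subgroup G) : Set G)) (hza : z * a ∈ B')
    (hpair : ⁅B', C⁆ = ⊥ ∨ IsRankOnePair B' C ∨ RootCommutatorCase S B' C) : B' = A := by
  have hzK : ∀ x ∈ A ⊔ C, x * z = z * x := fun x hx => Subgroup.mem_centralizer_iff.mp hz x hx
  have hzA : ∀ x ∈ A, x * z = z * x := fun x hx => hzK x (Subgroup.mem_sup_left hx)
  have hzC : ∀ x ∈ C, x * z = z * x := fun x hx => hzK x (Subgroup.mem_sup_right hx)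
  have haN : a ∉ Subgroup.normalizer (C : Set G) := by
    intro h
    have : a ∈ A ⊓ Subgroup.normalizer (C : Set G) := Subgroup.mem_inf.mpr ⟨ha, h⟩
    rw [r1_normalizer_left hAC, Subgroup.mem_bot] at this
    exact ha1 this
  have hCa : conjBy C a ≠ C := fun h => haN (cb_eq_self_iff.mp h)
  have hCaK : conjBy C a ≤ A ⊔ C := cb_le_sup le_sup_right (Subgroup.mem_sup_left ha)
  have hCza : conjBy C (z * a) = conjBy C a := by
    rw [← cb_cb]
    exact cb_of_centralizes (fun x hx => hzK x (hCaK hx))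
  have hCza' : conjBy C (z * a)⁻¹ = conjBy C a⁻¹ := by
    rw [mul_inv_rev, ← cb_cb, cb_of_centralizes_inv hzC]
  rcases hpair with h1 | h1 | h1
  · exfalso
    rw [Subgroup.commutator_eq_bot_iff_le_centralizer] at h1
    have h2 := h1 hza
    apply hCa
    rw [← hCza]
    exact cb_of_centralizes (fun x hx => Subgroup.mem_centralizer_iff.mp h2 x hx)
  · have hza1 : z * a ≠ 1 := by
      intro h
      rw [h, cb_one] at hCza
      exact hCa hCza.symm
    obtain ⟨c', hc', -, h2⟩ := h1.cond_left (z * a) hza hza1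
    obtain ⟨c, hc, -, h3⟩ := hAC.cond_left a ha ha1
    rw [hCza', ← h3] at h2
    have hB' : B' = conjBy A (c' * c⁻¹) := by
      rw [← cb_cb, ← h2, cb_cb, mul_inv_cancel, cb_one]
    rcases r1_conj_A_by_B hAC (mul_mem hc' (inv_mem hc)) with h4 | ⟨a₂, ha₂, h4⟩
    · rw [hB', h4]
    · exfalso
      rw [hB', h4, cb_mem] at hza
      have e : a₂⁻¹ * (z * a) * a₂ = z * a := by
        have e1 : a₂ * a = a * a₂ :=
          congrArg Subtype.val (hAc.is_comm.comm ⟨a₂, ha₂⟩ ⟨a, ha⟩)
        have e2 := hzA a₂ ha₂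
        calc a₂⁻¹ * (z * a) * a₂ = a₂⁻¹ * z * (a * a₂) := by group
          _ = a₂⁻¹ * z * (a₂ * a) := by rw [e1]
          _ = a₂⁻¹ * (z * a₂) * a := by group
          _ = a₂⁻¹ * (a₂ * z) * a := by rw [e2]
          _ = z * a := by group
      rw [e] at hza
      apply hCa
      rw [← hCza]
      exact cb_of_mem hza
  · exfalso
    obtain ⟨-, hcen, -, -⟩ := h1
    have hsub : ∀ c ∈ C, a * c * a⁻¹ ∈ Subgroup.normalizer (C : Set G) := by
      intro c hc
      have hf : (z * a) * c * (z * a)⁻¹ * c⁻¹ ∈ ⁅B', C⁆ := Subgroup.commutator_mem_commutator hza hc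
      have e : (z * a) * c * (z * a)⁻¹ * c⁻¹ = a * c * a⁻¹ * c⁻¹ := by
        have e1 : a * c * a⁻¹ ∈ A ⊔ C :=
          mul_mem (mul_mem (Subgroup.mem_sup_left ha) (Subgroup.mem_sup_right hc))
            (Subgroup.mem_sup_left (inv_mem ha))
        have e2 := hzK _ e1
        calc (z * a) * c * (z * a)⁻¹ * c⁻¹ = z * (a * c * a⁻¹) * z⁻¹ * c⁻¹ := by group
          _ = (a * c * a⁻¹) * z * z⁻¹ * c⁻¹ := by rw [← e2]
          _ = a * c * a⁻¹ * c⁻¹ := by group
      rw [e] at hf
      have hfN : a * c * a⁻¹ * c⁻¹ ∈ Subgroup.normalizer (C : Set G) := by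
        apply cb_eq_self_iff.mp
        apply cb_of_centralizes
        intro x hx
        exact (hcen _ hf x (Subgroup.mem_sup_right hx)).symm
      have e3 : a * c * a⁻¹ = (a * c * a⁻¹ * c⁻¹) * c := by group
      rw [e3]
      exact mul_mem hfN (Subgroup.le_normalizer hc)
    have ha1' : a⁻¹ ≠ 1 := by simpa using ha1
    obtain ⟨c₁, hc₁, -, h4⟩ := hAC.cond_left a⁻¹ (inv_mem ha) ha1'
    rw [inv_inv] at h4
    apply haN
    have h5 : c₁⁻¹ * a * c₁⁻¹⁻¹ ∈ conjBy C a := by
      rw [← h4]; exact cb_mem' ha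
    rw [cb_mem] at h5
    have h6 := hsub _ h5
    have e4 : a * (a⁻¹ * (c₁⁻¹ * a * c₁⁻¹⁻¹) * a) * a⁻¹ = c₁⁻¹ * a * c₁ := by group
    rw [e4] at h6
    have e5 : a = c₁ * (c₁⁻¹ * a * c₁) * c₁⁻¹ := by group
    rw [e5]
    exact mul_mem (mul_mem (Subgroup.le_normalizer hc₁) h6) (inv_mem (Subgroup.le_normalizer hc₁))

/-- If `z ≠ 1` centralizes the rank one group `⟨A, B⟩`, then `zA#` contains no root element. -/
theorem rs_coset_no_root {S : Set (Subgroup G)} (hS : IsRootSubgroupSet S) {A B : Subgroup G}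
    (hA : A ∈ S) (hB : B ∈ S) (hAB : IsRankOnePair A B) {z : G}
    (hz : z ∈ Subgroup.centralizer ((A ⊔ B : Subgroup G) : Set G)) (hz1 : z ≠ 1) :
    ∀ a ∈ A, a ≠ 1 → z * a ∉ rootElements S := by
  intro a ha ha1 hza
  obtain ⟨-, E, hE, hzaE⟩ := hza
  have hEA := rs_core hAB (hS.commutative A hA) ha ha1 hz hzaE (hS.pair E hE B hB)
  rw [hEA] at hzaE
  have hzA : z ∈ A := by
    have : z = (z * a) * a⁻¹ := by group
    rw [this]; exact mul_mem hzaE (inv_mem ha)
  have hzN : z ∈ A ⊓ Subgroup.normalizer (B : Set G) := by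
    refine Subgroup.mem_inf.mpr ⟨hzA, cb_eq_self_iff.mp (cb_of_centralizes ?_)⟩
    intro x hx
    exact Subgroup.mem_centralizer_iff.mp hz x (Subgroup.mem_sup_right hx)
  rw [r1_normalizer_left hAB, Subgroup.mem_bot] at hzN
  exact hz1 hzN

theorem rs_not_isolated {S : Set (Subgroup G)} {A : Subgroup G}
    (hA : ¬ IsIsolatedIn (FAdj S) S A) (hAS : A ∈ S) : ∃ C ∈ S, IsRankOnePair A C := by
  unfold IsIsolatedIn at hA
  push_neg at hA
  obtain ⟨C, hC⟩ := hA hAS
  by_cases h1 : FAdj S A C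
  · exact ⟨C, h1.2.1, h1.2.2⟩
  · have h2 := hC h1
    exact ⟨C, h2.1, RankOnePair_symm h2.2.2⟩

theorem rs_inf_eq_bot {S : Set (Subgroup G)} (hS : IsRootSubgroupSet S) {A : Subgroup G}
    (hA : ¬ IsIsolatedIn (FAdj S) S A) (hAS : A ∈ S) : ∀ B ∈ S, A ⊓ B = ⊥ ∨ A = B := by
  intro B hB
  obtain ⟨C, hC, hAC⟩ := rs_not_isolated hA hAS
  by_cases h : A ⊓ B = ⊥
  · left; exact h
  · right
    obtain ⟨x, hx1⟩ := (Subgroup.ne_bot_iff_exists_ne_one).mp h
    obtain ⟨hxA, hxB⟩ := Subgroup.mem_inf.mp x.2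
    have hx1' : (x : G) ≠ 1 := fun h' => hx1 (Subtype.ext h')
    have := rs_core (S := S) (z := 1) hAC (hS.commutative A hAS) hxA hx1' (one_mem _)
      (by rw [one_mul]; exact hxB) (hS.pair B hB C hC)
    exact this.symm

theorem rs_ucs_two {S : Set (Subgroup G)} (hS : IsRootSubgroupSet S)
    (hF : ∀ A ∈ S, ¬ IsIsolatedIn (FAdj S) S A) :
    Subgroup.upperCentralSeries G 2 = Subgroup.center G := by
  apply le_antisymm
  · intro z hz
    have hzc : ∀ w : G, z * w * z⁻¹ * w⁻¹ ∈ Subgroup.center G := by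
      intro w
      have := (Subgroup.mem_upperCentralSeries_succ_iff (n := 1)).mp hz w
      rwa [Subgroup.upperCentralSeries_one, commutatorElement_def] at this
    have hall : ∀ A ∈ S, A ≤ Subgroup.centralizer ({z} : Set G) := by
      intro A hA a ha
      rw [Subgroup.mem_centralizer_singleton_iff]
      by_cases ha1 : a = 1
      · rw [ha1]; simp
      obtain ⟨C, hC, hAC⟩ := rs_not_isolated (hF A hA) hA
      have hw := hzc a
      have hwcen : z * a * z⁻¹ * a⁻¹ ∈ Subgroup.centralizer ((A ⊔ C : Subgroup G) : Set G) := by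
        rw [Subgroup.mem_centralizer_iff]
        intro x _
        exact Subgroup.mem_center_iff.mp hw x
      have hmem : (z * a * z⁻¹ * a⁻¹) * a ∈ conjBy A z := by
        have : (z * a * z⁻¹ * a⁻¹) * a = z * a * z⁻¹ := by group
        rw [this]; exact cb_mem' ha
      have hEA := rs_core hAC (hS.commutative A hA) ha ha1 hwcen hmem
        (hS.pair _ (hS.conj_mem A hA z) C hC)
      rw [hEA] at hmem
      have hwA : z * a * z⁻¹ * a⁻¹ ∈ A := by
        have : z * a * z⁻¹ * a⁻¹ = ((z * a * z⁻¹ * a⁻¹) * a) * a⁻¹ := by group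
        rw [this]; exact mul_mem hmem (inv_mem ha)
      have hwN : z * a * z⁻¹ * a⁻¹ ∈ A ⊓ Subgroup.normalizer (C : Set G) := by
        refine Subgroup.mem_inf.mpr ⟨hwA, cb_eq_self_iff.mp (cb_of_centralizes ?_)⟩
        intro x _
        exact Subgroup.mem_center_iff.mp hw x
      rw [r1_normalizer_left hAC, Subgroup.mem_bot] at hwN
      have : a * z = (z * a * z⁻¹ * a⁻¹)⁻¹ * (z * a) := by group
      rw [this, hwN]; group
    have htop : (⨆ A ∈ S, A) ≤ Subgroup.centralizer ({z} : Set G) := iSup₂_le hall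
    rw [hS.generates] at htop
    rw [Subgroup.mem_center_iff]
    intro g
    have := htop (Subgroup.mem_top g)
    rw [Subgroup.mem_centralizer_singleton_iff] at this
    exact this
  · rw [← Subgroup.upperCentralSeries_one]
    exact Subgroup.upperCentralSeries_mono G one_le_two

theorem rs_centralizer_zpowers {E : Subgroup G} {x : G} :
    E ≤ Subgroup.centralizer ((Subgroup.zpowers x : Subgroup G) : Set G) ↔
      ∀ e ∈ E, e * x = x * e := by
  constructor
  · intro h e he
    exact (Subgroup.mem_centralizer_iff.mp (h he) x (Subgroup.mem_zpowers x)).symm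
  · intro h e he
    rw [Subgroup.mem_centralizer_iff]
    intro y hy
    obtain ⟨k, rfl⟩ := Subgroup.mem_zpowers_iff.mp hy
    have hc : Commute x e := (h e he).symm
    exact (hc.zpow_left k).eq

/-- For abstract transvection groups: `C_Σ(ab) = C_Σ(a) ∩ C_Σ(b)` for commuting root elements
with `ab ≠ 1`. -/
theorem rs_centralizer_prod {S : Set (Subgroup G)} (hS : IsRootSubgroupSet S)
    (hdeg : IsDegenerateRootSet S) {a b : G} (ha : a ∈ rootElements S) (hb : b ∈ rootElements S)
    (hab : a * b = b * a) (hab1 : a * b ≠ 1) :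
    centralizingMembers S (Subgroup.zpowers (a * b)) =
      centralizingMembers S (Subgroup.zpowers a) ∩ centralizingMembers S (Subgroup.zpowers b) := by
  obtain ⟨ha1, A, hA, haA⟩ := ha
  obtain ⟨hb1, B, hB, hbB⟩ := hb
  have hABc : ∀ x ∈ A, ∀ y ∈ B, x * y = y * x := by
    rcases hS.pair A hA B hB with h | h | h
    · rw [Subgroup.commutator_eq_bot_iff_le_centralizer] at h
      intro x hx y hy
      exact (Subgroup.mem_centralizer_iff.mp (h hx) y hy).symm
    · exact (r1_no_commute h haA ha1 hbB hb1 hab).elim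
    · exact absurd h (hdeg A hA B hB)
  ext E
  simp only [centralizingMembers, Set.mem_setOf_eq, Set.mem_inter_iff, rs_centralizer_zpowers]
  constructor
  · rintro ⟨hE, hEab⟩
    have hEa : ∀ e ∈ E, e * a = a * e := by
      rcases hS.pair A hA E hE with h | h | h
      · rw [Subgroup.commutator_eq_bot_iff_le_centralizer] at h
        intro e he
        exact Subgroup.mem_centralizer_iff.mp (h haA) e he
      · exfalso
        have hz : a * b ∈ Subgroup.centralizer ((A ⊔ E : Subgroup G) : Set G) := by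
          rw [Subgroup.mem_centralizer_iff]
          apply cb_sup_induction
          · intro x hx
            have e1 : x * a = a * x :=
              congrArg Subtype.val ((hS.commutative A hA).is_comm.comm ⟨x, hx⟩ ⟨a, haA⟩)
            have e2 := hABc x hx b hbB
            rw [← mul_assoc, e1, mul_assoc, e2, ← mul_assoc]
          · intro x hx; exact hEab x hx
          · simp
          · intro x y hx hy
            rw [mul_assoc, hy, ← mul_assoc, hx, mul_assoc]
        have h3 := rs_coset_no_root hS hA hE h hz hab1 a⁻¹ (inv_mem haA) (by simpa using ha1)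
        apply h3
        have e : a * b * a⁻¹ = b := by rw [hab]; group
        rw [e]
        exact ⟨hb1, B, hB, hbB⟩
      · exact absurd h (hdeg A hA E hE)
    refine ⟨⟨hE, hEa⟩, hE, ?_⟩
    intro e he
    have h1 := hEa e he
    have h2 := hEab e he
    have h3 : e * a⁻¹ = a⁻¹ * e := (show Commute e a from h1).inv_right.eq
    calc e * b = e * a⁻¹ * (a * b) := by group
      _ = a⁻¹ * e * (a * b) := by rw [h3]
      _ = a⁻¹ * (e * (a * b)) := by group
      _ = a⁻¹ * ((a * b) * e) := by rw [h2]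
      _ = b * e := by group
  · rintro ⟨⟨hE, hEa⟩, -, hEb⟩
    refine ⟨hE, ?_⟩
    intro e he
    rw [← mul_assoc, hEa e he, mul_assoc, hEb e he, ← mul_assoc]

end Cfsg.Agent.Lib.Helper6
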