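import Cfsg.Agent.Lib.Helper6.RootSub

set_option autoImplicit false
set_option linter.style.haveILetI false

namespace Cfsg.Agent.Lib.Helper6

open Cfsg

variable {G : Type*} [Group G]

theorem r1_D_mem {C D : Subgroup G} (h : IsRankOnePair C D) : D ∈ unipotentSubgroups C D := by
  have := r1_B_mem h (one_mem C)
  rwa [cb_one] at this

theorem r1_C_mem (C D : Subgroup G) : C ∈ unipotentSubgroups C D :=
  ⟨1, one_mem _, (cb_one C).symm⟩

/-- In a rank one group `⟨C, D⟩` with `C` abelian, `C_Y(C) = C Z(Y)`. -/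
theorem r1_centralizer {C D : Subgroup G} (h : IsRankOnePair C D) (hc : IsMulCommutative C)
    {x : G} (hx : x ∈ C ⊔ D) (hxC : ∀ c ∈ C, c * x = x * c) :
    ∃ c ∈ C, c⁻¹ * x ∈ Subgroup.centralizer ((C ⊔ D : Subgroup G) : Set G) := by
  have hDx : conjBy D x ∈ unipotentSubgroups C D := r1_conj_mem (r1_D_mem h) hx
  rcases r1_orbit' h hDx with h1 | ⟨c, hc', h1⟩
  · exfalso
    have h2 : D = conjBy C x⁻¹ := cb_eq_iff.mp h1
    rw [cb_of_centralizes_inv hxC] at h2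
    exact h.ne h2.symm
  · refine ⟨c, hc', ?_⟩
    have hgC : ∀ c' ∈ C, c' * (c⁻¹ * x) = (c⁻¹ * x) * c' := by
      intro c' hc''
      have e1 : c' * c⁻¹ = c⁻¹ * c' :=
        congrArg Subtype.val (hc.is_comm.comm ⟨c', hc''⟩ ⟨c⁻¹, inv_mem hc'⟩)
      rw [← mul_assoc, e1, mul_assoc, hxC c' hc'', mul_assoc]
    have hgD : conjBy D (c⁻¹ * x) = D := by
      rw [← cb_cb, h1, cb_cb, inv_mul_cancel, cb_one]
    have hgDc : ∀ c' ∈ C, conjBy (conjBy D c') (c⁻¹ * x) = conjBy D c' := by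
      intro c' hc''
      rw [cb_cb, ← hgC c' hc'', ← cb_cb, hgD]
    have hgDcomm : ∀ d ∈ D, d * (c⁻¹ * x) = (c⁻¹ * x) * d := by
      intro d hd
      have h2 : (c⁻¹ * x) * d * (c⁻¹ * x)⁻¹ * d⁻¹ ∈ D ⊓ Subgroup.normalizer (C : Set G) := by
        refine Subgroup.mem_inf.mpr ⟨mul_mem ?_ (inv_mem hd), ?_⟩
        · have := cb_mem' (A := D) (g := c⁻¹ * x) hd
          rwa [hgD] at this
        · apply cb_eq_self_iff.mp
          have e : conjBy C ((c⁻¹ * x) * d * (c⁻¹ * x)⁻¹ * d⁻¹) =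
              conjBy (conjBy (conjBy (conjBy C d⁻¹) (c⁻¹ * x)⁻¹) d) (c⁻¹ * x) := by
            rw [cb_cb, cb_cb, cb_cb]
          rw [e]
          have h3 : conjBy (conjBy C d⁻¹) (c⁻¹ * x)⁻¹ = conjBy C d⁻¹ := by
            rcases r1_conj_A_by_B h (inv_mem hd) with h4 | ⟨c', hc'', h4⟩
            · rw [h4]; exact cb_of_centralizes_inv hgC
            · rw [h4]; exact (cb_eq_iff.mp (hgDc c' hc'')).symm
          have h5 : conjBy (conjBy C d⁻¹) d = C := by rw [cb_cb, mul_inv_cancel, cb_one]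
          rw [h3, h5]
          exact cb_of_centralizes hgC
      rw [r1_normalizer_left (RankOnePair_symm h), Subgroup.mem_bot] at h2
      have e2 : (c⁻¹ * x) * d = ((c⁻¹ * x) * d * (c⁻¹ * x)⁻¹ * d⁻¹) * (d * (c⁻¹ * x)) := by group
      rw [e2, h2, one_mul]
    rw [Subgroup.mem_centralizer_iff]
    apply cb_sup_induction
    · exact hgC
    · exact hgDcomm
    · simp
    · intro x y hx hy
      rw [mul_assoc, hy, ← mul_assoc, hx, mul_assoc]

/-- A root subgroup inside a rank one group `⟨C, D⟩` is never in the commutator case with `C`. -/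
theorem rs_no_comm_case {S : Set (Subgroup G)} (hS : IsRootSubgroupSet S) {A C D : Subgroup G}
    (hA : A ∈ S) (hC : C ∈ S) (hD : D ∈ S) (hCD : IsRankOnePair C D) (hle : A ≤ C ⊔ D) :
    ¬ RootCommutatorCase S A C := by
  rintro ⟨hF, hcen, hgen, -⟩
  obtain ⟨a₀, ha₀⟩ := (Subgroup.ne_bot_iff_exists_ne_one).mp (hS.ne_bot A hA)
  have ha₀1 : (a₀ : G) ≠ 1 := fun h' => ha₀ (Subtype.ext h')
  have hgen₀ := hgen a₀ a₀.2 ha₀1
  have hex : ∃ c₀ ∈ C, (a₀ : G) * c₀ * (a₀ : G)⁻¹ * c₀⁻¹ ≠ 1 := by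
    by_contra hno
    push_neg at hno
    apply hS.ne_bot _ hF
    rw [← hgen₀, Subgroup.closure_eq_bot_iff]
    rintro _ ⟨c, hc, rfl⟩
    exact hno c hc
  obtain ⟨c₀, hc₀, hf₀⟩ := hex
  have hf₀F : (a₀ : G) * c₀ * (a₀ : G)⁻¹ * c₀⁻¹ ∈ ⁅A, C⁆ := by
    rw [← hgen₀]
    exact Subgroup.subset_closure ⟨c₀, hc₀, rfl⟩
  have hf₀Y : (a₀ : G) * c₀ * (a₀ : G)⁻¹ * c₀⁻¹ ∈ C ⊔ D :=
    mul_mem (mul_mem (mul_mem (hle a₀.2) (Subgroup.mem_sup_left hc₀)) (inv_mem (hle a₀.2)))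
      (Subgroup.mem_sup_left (inv_mem hc₀))
  have hf₀C : ∀ c ∈ C, c * ((a₀ : G) * c₀ * (a₀ : G)⁻¹ * c₀⁻¹) =
      ((a₀ : G) * c₀ * (a₀ : G)⁻¹ * c₀⁻¹) * c :=
    fun c hc => (hcen _ hf₀F c (Subgroup.mem_sup_right hc)).symm
  obtain ⟨c, hc, hh⟩ := r1_centralizer hCD (hS.commutative C hC) hf₀Y hf₀C
  have hc₀1 : c₀ ≠ 1 := by
    rintro rfl
    apply hf₀; group
  by_cases hc1 : c = 1
  · -- `f₀` is central in `⟨C, D⟩`
    rw [hc1, inv_one, one_mul] at hh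
    apply rs_coset_no_root hS hC hD hCD hh hf₀ c₀ hc₀ hc₀1
    have e : (a₀ : G) * c₀ * (a₀ : G)⁻¹ * c₀⁻¹ * c₀ = (a₀ : G) * c₀ * (a₀ : G)⁻¹ := by group
    rw [e]
    refine ⟨?_, conjBy C a₀, hS.conj_mem C hC a₀, cb_mem' hc₀⟩
    intro h'
    apply hc₀1
    have : c₀ = (a₀ : G)⁻¹ * ((a₀ : G) * c₀ * (a₀ : G)⁻¹) * (a₀ : G) := by group
    rw [this, h']; group
  · by_cases hh1 : c⁻¹ * ((a₀ : G) * c₀ * (a₀ : G)⁻¹ * c₀⁻¹) = 1
    · -- `f₀ = c ∈ C ∩ F`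
      have hfc : (a₀ : G) * c₀ * (a₀ : G)⁻¹ * c₀⁻¹ = c := by
        have := congrArg (fun t => c * t) hh1
        simpa using this
      rw [hfc] at hf₀F
      have hFC : ⁅A, C⁆ = C :=
        rs_core (S := S) (z := 1) hCD (hS.commutative C hC) hc hc1 (one_mem _)
          (by rw [one_mul]; exact hf₀F) (hS.pair _ hF D hD)
      apply hf₀
      have hc₀F : c₀ ∈ ⁅A, C⁆ := by rw [hFC]; exact hc₀
      have h5 := hcen c₀ hc₀F a₀ (Subgroup.mem_sup_left a₀.2)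
      rw [← h5]; group
    · apply rs_coset_no_root hS hC hD hCD hh hh1 c hc hc1
      have e : c⁻¹ * ((a₀ : G) * c₀ * (a₀ : G)⁻¹ * c₀⁻¹) * c = (a₀ : G) * c₀ * (a₀ : G)⁻¹ * c₀⁻¹ := by
        rw [mul_assoc, ← hf₀C c hc, inv_mul_cancel_left]
      rw [e]
      exact ⟨hf₀, _, hF, hf₀F⟩

/-- A root subgroup with a rank one partner, inside a rank one group `⟨C, D⟩`, is a unipotent
subgroup of it. -/
theorem rs_mem_unipotent {S : Set (Subgroup G)} (hS : IsRootSubgroupSet S) {A B C D : Subgroup G}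
    (hA : A ∈ S) (hAB : IsRankOnePair A B) (hC : C ∈ S) (hD : D ∈ S) (hCD : IsRankOnePair C D)
    (hle : A ⊔ B ≤ C ⊔ D) : A ∈ unipotentSubgroups C D := by
  have hAle : A ≤ C ⊔ D := le_sup_left.trans hle
  have hBle : B ≤ C ⊔ D := le_sup_right.trans hle
  have key : ∀ E ∈ unipotentSubgroups C D, IsRankOnePair A E → A ∈ unipotentSubgroups C D := by
    intro E hE hAE
    obtain ⟨a₀, ha₀⟩ := (Subgroup.ne_bot_iff_exists_ne_one).mp (hS.ne_bot A hA)
    have ha₀1 : (a₀ : G) ≠ 1 := fun h' => ha₀ (Subtype.ext h')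
    obtain ⟨e, he, -, h1⟩ := hAE.cond_left a₀ a₀.2 ha₀1
    have hEle : E ≤ C ⊔ D := by
      obtain ⟨y, hy, rfl⟩ := hE
      exact cb_le_sup le_sup_left hy
    have h2 : A = conjBy (conjBy E (a₀ : G)⁻¹) e := by
      rw [← h1, cb_cb, mul_inv_cancel, cb_one]
    rw [h2]
    exact r1_conj_mem (r1_conj_mem hE (inv_mem (hAle a₀.2))) (hEle he)
  rcases hS.pair A hA C hC with h1 | h1 | h1
  · rcases hS.pair A hA D hD with h2 | h2 | h2
    · exfalso
      rw [Subgroup.commutator_eq_bot_iff_le_centralizer] at h1 h2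
      obtain ⟨a₀, ha₀⟩ := (Subgroup.ne_bot_iff_exists_ne_one).mp (hS.ne_bot A hA)
      have ha₀1 : (a₀ : G) ≠ 1 := fun h' => ha₀ (Subtype.ext h')
      have hall : ∀ g ∈ C ⊔ D, g * (a₀ : G) = (a₀ : G) * g := by
        apply cb_sup_induction
        · intro x hx; exact Subgroup.mem_centralizer_iff.mp (h1 a₀.2) x hx
        · intro x hx; exact Subgroup.mem_centralizer_iff.mp (h2 a₀.2) x hx
        · simp
        · intro x y hx hy
          rw [mul_assoc, hy, ← mul_assoc, hx, mul_assoc]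
      have hN : (a₀ : G) ∈ A ⊓ Subgroup.normalizer (B : Set G) := by
        refine Subgroup.mem_inf.mpr ⟨a₀.2, cb_eq_self_iff.mp (cb_of_centralizes ?_)⟩
        intro x hx
        exact hall x (hBle hx)
      rw [r1_normalizer_left hAB, Subgroup.mem_bot] at hN
      exact ha₀1 hN
    · exact key D (r1_D_mem hCD) h2
    · exfalso
      refine rs_no_comm_case hS hA hD hC (RankOnePair_symm hCD) ?_ h2
      rw [sup_comm]; exact hAle
  · exact key C (r1_C_mem C D) h1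
  · exact absurd h1 (rs_no_comm_case hS hA hC hD hCD hAle)

theorem rs_rank_one_le {S : Set (Subgroup G)} (hS : IsRootSubgroupSet S) {A B C D : Subgroup G}
    (hA : A ∈ S) (hB : B ∈ S) (hAB : IsRankOnePair A B) (hC : C ∈ S) (hD : D ∈ S)
    (hCD : IsRankOnePair C D) (hle : A ⊔ B ≤ C ⊔ D) :
    A ⊔ B = C ⊔ D ∧ C ∈ unipotentSubgroups A B ∧ D ∈ unipotentSubgroups A B := by
  have hAm := rs_mem_unipotent hS hA hAB hC hD hCD hle
  have hBm := rs_mem_unipotent hS hB (RankOnePair_symm hAB) hC hD hCD (by rw [sup_comm]; exact hle)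
  obtain ⟨y, hy, hy1, hy2⟩ :=
    r1_two_transitive hCD (r1_C_mem C D) (r1_D_mem hCD) hAm hBm hCD.ne hAB.ne
  have heq : A ⊔ B = C ⊔ D := by
    rw [← hy1, ← hy2]
    have : conjBy C y ⊔ conjBy D y = conjBy (C ⊔ D) y := (Subgroup.map_sup C D _).symm
    rw [this]
    exact cb_of_mem hy
  have hyAB : y⁻¹ ∈ A ⊔ B := heq ▸ inv_mem hy
  refine ⟨heq, ?_, ?_⟩
  · refine ⟨y⁻¹, hyAB, ?_⟩
    rw [← hy1, cb_cb, inv_mul_cancel, cb_one]
  · have hD' : D = conjBy B y⁻¹ := by rw [← hy2, cb_cb, inv_mul_cancel, cb_one]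
    rw [hD']
    exact r1_conj_mem (r1_D_mem hAB) hyAB

end Cfsg.Agent.Lib.Helper6
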