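import Cfsg.Agent.Lib.Helper6.RootELine

set_option autoImplicit false
set_option linter.style.haveILetI false
set_option linter.unusedVariables false
set_option linter.unusedSimpArgs false

namespace Cfsg.Agent.Lib.Helper6

open Cfsg
open scoped commutatorElement

variable {G : Type*} [Group G] {S : Set (Subgroup G)} {A B C D : Subgroup G}

theorem cc_comm_sup {y : G} (hA : ∀ a ∈ A, a * y = y * a) (hB : ∀ b ∈ B, b * y = y * b) :
    ∀ x ∈ A ⊔ B, x * y = y * x := by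
  apply cb_sup_induction (P := fun x => x * y = y * x)
  · exact hA
  · exact hB
  · rw [one_mul, mul_one]
  · intro x z hx hz
    show x * z * y = y * (x * z)
    rw [mul_assoc, hz, ← mul_assoc, hx, mul_assoc]

theorem cc_comm_conj {z d a : G} (hd : d * z = z * d) (ha : a * z = z * a) :
    (d * a * d⁻¹) * z = z * (d * a * d⁻¹) := by
  have e0 : d⁻¹ * z * d = z := cc_conj_eq hd.symm
  calc d * a * d⁻¹ * z = d * a * (d⁻¹ * z * d) * d⁻¹ := by group
    _ = d * (a * z) * d⁻¹ := by rw [e0]; group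
    _ = d * (z * a) * d⁻¹ := by rw [ha]
    _ = (d * z) * a * d⁻¹ := by group
    _ = (z * d) * a * d⁻¹ := by rw [hd]
    _ = z * (d * a * d⁻¹) := by group

theorem norm_of_conj_le {K T : Subgroup G} (h : ∀ t ∈ T, conjBy K t ≤ K) :
    T ≤ Subgroup.normalizer (K : Set G) := by
  intro t ht
  apply cb_eq_self_iff.mp
  apply le_antisymm (h t ht)
  intro x hx
  rw [cb_mem]
  have := h t⁻¹ (inv_mem ht) (cb_mem' (g := t⁻¹) hx)
  rwa [inv_inv] at this

/-- A pair whose commutator is a member is not a rank one pair. -/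
theorem rl_not_rankOne (hS : IsRootSubgroupSet S) (hA : A ∈ S) (hB : B ∈ S) (hC : ⁅A, B⁆ ∈ S) :
    ¬ IsRankOnePair A B := by
  intro h1
  have hcc := rl_comm_case hS hA hB hC
  obtain ⟨a, ha0⟩ := (Subgroup.ne_bot_iff_exists_ne_one).mp (hS.ne_bot A hA)
  have ha1 : (a : G) ≠ 1 := fun h' => ha0 (Subtype.ext h')
  obtain ⟨b, hb, hb1, hR⟩ := h1.cond_left a a.2 ha1
  have hb' : (a : G) * b⁻¹ * a * b * (a : G)⁻¹ ∈ B := by
    have h2 : b⁻¹ * (a : G) * b ∈ conjBy A b⁻¹ := by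
      have := cb_mem' (A := A) (g := b⁻¹) a.2
      rwa [inv_inv] at this
    rw [hR, cb_mem, inv_inv] at h2
    have e : (a : G) * (b⁻¹ * a * b) * (a : G)⁻¹ = a * b⁻¹ * a * b * (a : G)⁻¹ := by group
    rwa [e] at h2
  have hz : (a : G)⁻¹ * b⁻¹ * a * b ∈ ⁅A, B⁆ := by
    have := Subgroup.commutator_mem_commutator (H₁ := A) (H₂ := B) (inv_mem a.2) (inv_mem hb)
    rwa [commutatorElement_def, inv_inv, inv_inv] at this
  have hza : (a : G) * ((a : G)⁻¹ * b⁻¹ * a * b) = ((a : G)⁻¹ * b⁻¹ * a * b) * a :=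
    (hcc.2.1 _ hz a (Subgroup.mem_sup_left a.2)).symm
  have e : (a : G) * b⁻¹ * a * b * (a : G)⁻¹ = a * ((a : G)⁻¹ * b⁻¹ * a * b) := by
    calc (a : G) * b⁻¹ * a * b * (a : G)⁻¹
        = a * (a * ((a : G)⁻¹ * b⁻¹ * a * b)) * (a : G)⁻¹ := by group
      _ = a * (((a : G)⁻¹ * b⁻¹ * a * b) * a) * (a : G)⁻¹ := by rw [hza]
      _ = a * ((a : G)⁻¹ * b⁻¹ * a * b) := by group
  have hcomm : (a : G) * ((a : G) * b⁻¹ * a * b * (a : G)⁻¹) =
      ((a : G) * b⁻¹ * a * b * (a : G)⁻¹) * a := by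
    calc (a : G) * ((a : G) * b⁻¹ * a * b * (a : G)⁻¹)
        = a * (a * ((a : G)⁻¹ * b⁻¹ * a * b)) := by rw [e]
      _ = a * (((a : G)⁻¹ * b⁻¹ * a * b) * a) := by rw [hza]
      _ = (a * ((a : G)⁻¹ * b⁻¹ * a * b)) * a := by group
      _ = ((a : G) * b⁻¹ * a * b * (a : G)⁻¹) * a := by rw [e]
  have hb'1 : (a : G) * b⁻¹ * a * b * (a : G)⁻¹ ≠ 1 := by
    intro h2
    apply ha1
    have : (a : G) = b * ((a : G)⁻¹ * ((a : G) * b⁻¹ * a * b * (a : G)⁻¹) * a) * b⁻¹ := by group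
    rw [this, h2]; group
  exact r1_no_commute h1 a.2 ha1 hb' hb'1 hcomm

/-- In a rank one pair `(A, D)`, `A` and a conjugate `A^d` generate `⟨A, D⟩`. -/
theorem r1_sup_conj (hAD : IsRankOnePair A D) {d : G} (hd : d ∈ D) (hd1 : d ≠ 1) :
    A ⊔ conjBy A d = A ⊔ D := by
  have hne : A ≠ conjBy A d := by
    intro h3
    have hmem : d ∈ D ⊓ Subgroup.normalizer (A : Set G) :=
      Subgroup.mem_inf.mpr ⟨hd, cb_eq_self_iff.mp h3.symm⟩
    rw [r1_normalizer_left (RankOnePair_symm hAD), Subgroup.mem_bot] at hmem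
    exact hd1 hmem
  obtain ⟨x, hx, hx1, hx2⟩ := r1_two_transitive hAD (r1_C_mem A D) (r1_D_mem hAD)
    (r1_C_mem A D) ⟨d, Subgroup.mem_sup_right hd, rfl⟩ hAD.ne hne
  have h1 : conjBy (A ⊔ D) x = A ⊔ D := cb_of_mem hx
  have h2 : conjBy (A ⊔ D) x = conjBy A x ⊔ conjBy D x := Subgroup.map_sup _ _ _
  rw [hx1, hx2] at h2
  rw [← h2, h1]

/-- Lemma K: `[[M, D], A] = M` for a rank one pair `(A, D)` and `M` on a line through `A`. -/
theorem lk_eq (hS : IsRootSubgroupSet S) {M : Subgroup G} (hA : A ∈ S) (hD : D ∈ S) (hM : M ∈ S)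
    (hAD : IsRankOnePair A D) (hAM : ⁅A, M⁆ = ⊥) (hMni : ¬ IsIsolatedIn (FAdj S) S M)
    (hroot : ∀ a ∈ A, ∀ m ∈ M, a * m ≠ 1 → a * m ∈ rootElements S)
    (hT : ⁅M, D⁆ ∈ S) : ⁅⁅M, D⁆, A⁆ = M := by
  have cfg := kl_config hS hA hM hD hAD hAM hT
  have hK := cfg.hA
  have hAni := rl_not_isolated_of_rankOne hA hD hAD
  have hccMD : RootCommutatorCase S M D := rl_comm_case hS hM hD hT
  have hccKD : RootCommutatorCase S ⁅⁅M, D⁆, A⁆ D := cfg.ccAB
  have hKA : ∀ k ∈ ⁅⁅M, D⁆, A⁆, ∀ a ∈ A, k * a = a * k := fun k hk a ha => cfg.symm.cB hk ha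
  have hKK : ∀ k ∈ ⁅⁅M, D⁆, A⁆, ∀ k' ∈ ⁅⁅M, D⁆, A⁆, k * k' = k' * k :=
    fun k hk k' hk' => sr_comm (hS.commutative _ hK) hk hk'
  have hMK : ∀ m ∈ M, ∀ k ∈ ⁅⁅M, D⁆, A⁆, k * m = m * k := by
    intro m hm k hk
    exact cc_comm_sup (fun t ht => hccMD.2.1 t ht m (Subgroup.mem_sup_left hm))
      (fun a ha => cc_comm_of_bot hAM ha hm) k (rl_comm_le hk)
  have hMA : A ≠ M := by
    intro h
    rw [← h] at hT
    exact rl_not_rankOne hS hA hD hT hAD
  have hinfM : A ⊓ M = ⊥ := by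
    rcases rs_inf_eq_bot hS hAni hA M hM with h | h
    · exact h
    · exact absurd h hMA
  have hAK : A ≠ ⁅⁅M, D⁆, A⁆ := by
    have := rl_ne hS (rl_comm_case hS hA hT
      (by rw [Subgroup.commutator_comm A ⁅M, D⁆]; exact hK))
    rwa [Subgroup.commutator_comm A ⁅M, D⁆] at this
  have hinfK : A ⊓ ⁅⁅M, D⁆, A⁆ = ⊥ := by
    rcases rs_inf_eq_bot hS hAni hA _ hK with h | h
    · exact h
    · exact absurd h hAK
  have hprod : ∀ {Y : Subgroup G}, A ⊓ Y = ⊥ → ∀ a ∈ A, a ≠ 1 → ∀ y ∈ Y, a * y ≠ 1 := by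
    intro Y hY a ha ha1 y hy h
    have haY : a ∈ Y := by
      have : a = y⁻¹ := eq_inv_of_mul_eq_one_left h
      rw [this]; exact inv_mem hy
    have : a ∈ A ⊓ Y := Subgroup.mem_inf.mpr ⟨ha, haY⟩
    rw [hY, Subgroup.mem_bot] at this
    exact ha1 this
  have hKline : ⁅⁅M, D⁆, A⁆ ∈ linePartners S A := by
    have := rl_line_partner hS hAni hA hT (by rw [Subgroup.commutator_comm A ⁅M, D⁆]; exact hK)
    rwa [Subgroup.commutator_comm A ⁅M, D⁆] at this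
  have hle : M ≤ ⁅⁅M, D⁆, A⁆ := by
    intro m hm
    by_contra hmK
    obtain ⟨d, hd0⟩ := (Subgroup.ne_bot_iff_exists_ne_one).mp (hS.ne_bot D hD)
    have hd1 : (d : G) ≠ 1 := fun h' => hd0 (Subtype.ext h')
    obtain ⟨a, ha0⟩ := (Subgroup.ne_bot_iff_exists_ne_one).mp (hS.ne_bot A hA)
    have ha1 : (a : G) ≠ 1 := fun h' => ha0 (Subtype.ext h')
    have hmd : m * d * m⁻¹ * (d : G)⁻¹ ∈ ⁅⁅⁅M, D⁆, A⁆, D⁆ := by
      rw [cfg.hAB]; exact cc_comm_mem hm d.2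
    obtain ⟨k, hk, hkd⟩ := cc_surj_left hccKD d.2 hd1 hmd
    have hz1 : k⁻¹ * m ≠ 1 := by
      intro h
      apply hmK
      have : m = k := by
        have := inv_mul_eq_one.mp h
        exact this.symm
      rw [this]; exact hk
    have hzd : (d : G) * (k⁻¹ * m) = (k⁻¹ * m) * d := by
      calc (d : G) * (k⁻¹ * m) = k⁻¹ * (k * d * k⁻¹ * (d : G)⁻¹) * d * m := by group
        _ = k⁻¹ * (m * d * m⁻¹ * (d : G)⁻¹) * d * m := by rw [hkd]
        _ = (k⁻¹ * m) * d := by group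
    have hzA : ∀ a' ∈ A, a' * (k⁻¹ * m) = (k⁻¹ * m) * a' := by
      intro a' ha'
      have e1 := hKA k⁻¹ (inv_mem hk) a' ha'
      have e2 := cc_comm_of_bot hAM ha' hm
      calc a' * (k⁻¹ * m) = (a' * k⁻¹) * m := by group
        _ = (k⁻¹ * a') * m := by rw [e1]
        _ = k⁻¹ * (a' * m) := by group
        _ = k⁻¹ * (m * a') := by rw [e2]
        _ = k⁻¹ * m * a' := by group
    have hzAd : ∀ x ∈ conjBy A (d : G), x * (k⁻¹ * m) = (k⁻¹ * m) * x := by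
      intro x hx
      rw [cb_mem] at hx
      have e1 := hzA _ hx
      have ex : x = (d : G) * ((d : G)⁻¹ * x * d) * (d : G)⁻¹ := by group
      rw [ex]
      exact cc_comm_conj hzd e1
    have hzAD : ∀ y ∈ A ⊔ D, y * (k⁻¹ * m) = (k⁻¹ * m) * y := by
      rw [← r1_sup_conj hAD d.2 hd1]
      exact cc_comm_sup hzA hzAd
    have hzK : ∀ k' ∈ ⁅⁅M, D⁆, A⁆, k' * (k⁻¹ * m) = (k⁻¹ * m) * k' := by
      intro k' hk'
      have e1 := hKK k' hk' k⁻¹ (inv_mem hk)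
      have e2 := hMK m hm k' hk'
      calc k' * (k⁻¹ * m) = (k' * k⁻¹) * m := by group
        _ = (k⁻¹ * k') * m := by rw [e1]
        _ = k⁻¹ * (k' * m) := by group
        _ = k⁻¹ * (m * k') := by rw [e2]
        _ = k⁻¹ * m * k' := by group
    have hak1 : (a : G) * k ≠ 1 := hprod hinfK a a.2 ha1 k hk
    have ham1 : (a : G) * m ≠ 1 := hprod hinfM a a.2 ha1 m hm
    -- a rank one partner `L'` of `D` containing `a k`
    have hex : ∃ L' ∈ S, L' ≤ A ⊔ ⁅⁅M, D⁆, A⁆ ∧ (a : G) * k ∈ L' ∧ IsRankOnePair L' D := by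
      by_cases hk1 : k = 1
      · refine ⟨A, hA, le_sup_left, ?_, hAD⟩
        rw [hk1, mul_one]; exact a.2
      · obtain ⟨L', ⟨hL', hL'le⟩, hakL'⟩ := hKline.2.2.1 _
          (mul_mem (Subgroup.mem_sup_left a.2) (Subgroup.mem_sup_right hk)) hak1
        have hKD : ¬ IsRankOnePair ⁅⁅M, D⁆, A⁆ D :=
          rl_not_rankOne hS hK hD (by rw [cfg.hAB]; exact hT)
        have := s31_rank_one hS hA hK hD hL' hAD hKline.1.2.2 hKD a.2 ha1 hk hk1 hL'le hakL'
        exact ⟨L', hL', hL'le, hakL', RankOnePair_symm this⟩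
    obtain ⟨L', hL', hL'le, hakL', hL'D⟩ := hex
    have hz : k⁻¹ * m ∈ Subgroup.centralizer ((L' ⊔ D : Subgroup G) : Set G) := by
      rw [Subgroup.mem_centralizer_iff]
      intro y hy
      have hy' : y ∈ L' ⊔ D := hy
      refine cc_comm_sup (fun l hl => ?_) (fun d' hd' => hzAD d' (Subgroup.mem_sup_right hd'))
        y hy'
      exact cc_comm_sup hzA hzK l (hL'le hl)
    have hno := rs_coset_no_root hS hL' hD hL'D hz hz1 _ hakL' hak1
    apply hno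
    have e : k⁻¹ * m * ((a : G) * k) = a * m := by
      have e1 := hKA k hk a a.2
      have e2 := hMK m hm k hk
      have e3 := cc_comm_of_bot hAM a.2 hm
      calc k⁻¹ * m * ((a : G) * k) = k⁻¹ * (m * a) * k := by group
        _ = k⁻¹ * (a * m) * k := by rw [e3]
        _ = k⁻¹ * a * (m * k) := by group
        _ = k⁻¹ * a * (k * m) := by rw [e2]
        _ = k⁻¹ * (a * k) * m := by group
        _ = k⁻¹ * (k * a) * m := by rw [e1]
        _ = a * m := by group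
    rw [e]
    exact hroot a a.2 m hm ham1
  rcases rs_inf_eq_bot hS hMni hM _ hK with h | h
  · exfalso
    apply hS.ne_bot M hM
    rw [← inf_eq_left.mpr hle, h]
  · exact h.symm

end Cfsg.Agent.Lib.Helper6
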