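import Cfsg.Agent.Lib.Helper6.RootTrans

set_option autoImplicit false
set_option linter.style.haveILetI false
set_option linter.unusedVariables false
set_option linter.unusedSimpArgs false

namespace Cfsg.Agent.Lib.Helper6

open Cfsg
open scoped commutatorElement

variable {G : Type*} [Group G] {S : Set (Subgroup G)} {A B C D : Subgroup G}

/-- Refined version of `s34_exists_L`: the member `L` lies on the line `A Q` and meets `Q A`. -/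
theorem s38_exists_L (hS : IsRootSubgroupSet S) {Q : Subgroup G} (hA : A ∈ S) (hB : B ∈ S)
    (hAB : IsRankOnePair A B) (hQ : Q ∈ linePartners S A) :
    ∃ L ∈ S, L ≤ A ⊔ Q ∧ ⁅A, L⁆ = ⊥ ∧ ⁅L, B⁆ ∈ S ∧ ∃ q ∈ Q, q ≠ 1 ∧ ∃ a ∈ A, q * a ∈ L := by
  obtain ⟨⟨hQS, hQA, hAQ⟩, hpart⟩ := hQ
  have hcomm : ∀ a ∈ A, ∀ q ∈ Q, a * q = q * a := fun a ha q hq => cc_comm_of_bot hAQ ha hq
  have hAni : ¬ IsIsolatedIn (FAdj S) S A := rl_not_isolated_of_rankOne hA hB hAB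
  have hinf : A ⊓ Q = ⊥ := by
    rcases rs_inf_eq_bot hS hAni hA Q hQS with h | h
    · exact h
    · exact absurd h.symm hQA
  obtain ⟨a, ha0⟩ := (Subgroup.ne_bot_iff_exists_ne_one).mp (hS.ne_bot A hA)
  have ha1 : (a : G) ≠ 1 := fun h' => ha0 (Subtype.ext h')
  obtain ⟨q₀, hq₀0⟩ := (Subgroup.ne_bot_iff_exists_ne_one).mp (hS.ne_bot Q hQS)
  have hq₀1 : (q₀ : G) ≠ 1 := fun h' => hq₀0 (Subtype.ext h')
  have hprod : ∀ q ∈ Q, q ≠ 1 → ∀ a' ∈ A, a' * q ≠ 1 := by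
    intro q hq hq1 a' ha' h
    have hqA : q ∈ A := by
      have : q = a'⁻¹ := eq_inv_of_mul_eq_one_right h
      rw [this]; exact inv_mem ha'
    have : q ∈ A ⊓ Q := Subgroup.mem_inf.mpr ⟨hqA, hq⟩
    rw [hinf, Subgroup.mem_bot] at this
    exact hq1 this
  rcases hS.pair Q hQS B hB with h | h | h
  · exfalso
    have haq1 := hprod q₀ q₀.2 hq₀1 a a.2
    obtain ⟨L, ⟨hL, hLle⟩, haqL⟩ := hpart.2.1 _
      (mul_mem (Subgroup.mem_sup_left a.2) (Subgroup.mem_sup_right q₀.2)) haq1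
    exact s31_ne_bot hS hA hB hAB hAQ hL a.2 ha1 q₀.2 hq₀1 haq1 haqL h
  · obtain ⟨b, hb, hb1, hab⟩ := hAB.cond_left a a.2 ha1
    obtain ⟨q', hq', hq'1, hbq⟩ := h.cond_right b hb hb1
    have hc1 : ⁅conjBy B (a : G)⁻¹, conjBy B q'⁻¹⁆ = ⊥ := by
      rw [← hab, hbq, ← Subgroup.map_commutator, hAQ, Subgroup.map_bot]
    have hc2 : ⁅conjBy B (q' * (a : G)⁻¹), B⁆ = ⊥ := by
      have : conjBy ⁅conjBy B (a : G)⁻¹, conjBy B q'⁻¹⁆ q' = ⁅conjBy B (q' * (a : G)⁻¹), B⁆ := by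
        rw [conjBy, Subgroup.map_commutator]
        show ⁅conjBy (conjBy B (a : G)⁻¹) q', conjBy (conjBy B q'⁻¹) q'⁆ = _
        rw [cb_cb, cb_cb, mul_inv_cancel, cb_one]
      rw [← this, hc1]; exact Subgroup.map_bot _
    have hw : q' * (a : G)⁻¹ ∈ A ⊔ Q :=
      mul_mem (Subgroup.mem_sup_right hq') (Subgroup.mem_sup_left (inv_mem a.2))
    have hw1 : q' * (a : G)⁻¹ ≠ 1 := by
      rw [← hcomm _ (inv_mem a.2) q' hq']
      exact hprod q' hq' hq'1 _ (inv_mem a.2)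
    obtain ⟨L, ⟨hL, hLle⟩, hwL⟩ := hpart.2.1 _ hw hw1
    refine ⟨L, hL, hLle, ?_, ?_, q', hq', hq'1, (a : G)⁻¹, inv_mem a.2, hwL⟩
    · apply cc_bot_of_comm
      intro a' ha' l hl
      obtain ⟨a₁, ha₁, q₁, hq₁, rfl⟩ := cc_decomp hcomm l (hLle hl)
      have e1 := sr_comm (hS.commutative A hA) ha' ha₁
      have e2 := hcomm a' ha' q₁ hq₁
      calc a' * (a₁ * q₁) = (a' * a₁) * q₁ := by group
        _ = (a₁ * a') * q₁ := by rw [e1]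
        _ = a₁ * (a' * q₁) := by group
        _ = a₁ * (q₁ * a') := by rw [e2]
        _ = a₁ * q₁ * a' := by group
    · rcases hS.pair L hL B hB with h' | h' | h'
      · exfalso
        have hBw : conjBy B (q' * (a : G)⁻¹) = B :=
          cb_of_centralizes (fun x hx => (cc_comm_of_bot h' hwL hx).symm)
        rw [← cb_cb] at hBw
        have h3 : conjBy B (a : G)⁻¹ = conjBy B q'⁻¹ := cb_eq_iff.mp hBw
        rw [← hab, hbq] at h3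
        exact hQA (cb_inj h3).symm
      · exfalso
        have hne1 : B ≠ conjBy B (q' * (a : G)⁻¹) := by
          intro h3
          have hmem : q' * (a : G)⁻¹ ∈ L ⊓ Subgroup.normalizer (B : Set G) :=
            Subgroup.mem_inf.mpr ⟨hwL, cb_eq_self_iff.mp h3.symm⟩
          rw [r1_normalizer_left h', Subgroup.mem_bot] at hmem
          exact hw1 hmem
        obtain ⟨x, hx, hx1, hx2⟩ := r1_two_transitive h' (r1_C_mem L B) (r1_D_mem h')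
          (r1_D_mem h') (r1_B_mem h' hwL) h'.ne hne1
        have hpair : IsRankOnePair B (conjBy B (q' * (a : G)⁻¹)) := by
          have := rl_conj_rankOne h' x
          rwa [hx1, hx2] at this
        obtain ⟨b₀, hb₀⟩ := (Subgroup.ne_bot_iff_exists_ne_one).mp (hS.ne_bot B hB)
        have hb₀1 : (b₀ : G) ≠ 1 := fun h' => hb₀ (Subtype.ext h')
        have hy : (q' * (a : G)⁻¹) * b₀ * (q' * (a : G)⁻¹)⁻¹ ∈ conjBy B (q' * (a : G)⁻¹) :=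
          cb_mem' b₀.2
        have hy1 : (q' * (a : G)⁻¹) * b₀ * (q' * (a : G)⁻¹)⁻¹ ≠ 1 := by
          intro h4
          apply hb₀1
          have : (b₀ : G) = (q' * (a : G)⁻¹)⁻¹ *
              ((q' * (a : G)⁻¹) * b₀ * (q' * (a : G)⁻¹)⁻¹) * (q' * (a : G)⁻¹) := by group
          rw [this, h4]; group
        exact r1_no_commute hpair b₀.2 hb₀1 hy hy1 (cc_comm_of_bot hc2 hy b₀.2).symm
      · exact h'.1
  · refine ⟨Q, hQS, le_sup_right, hAQ, h.1, q₀, q₀.2, hq₀1, 1, one_mem _, ?_⟩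
    rw [mul_one]; exact q₀.2

/-- Every line through `A` is of the form `A [A, T]`. -/
theorem s38_step (hS : IsRootSubgroupSet S) (hF : ∀ X ∈ S, ¬ IsIsolatedIn (FAdj S) S X)
    (hA : A ∈ S) (hB : B ∈ linePartners S A) :
    ∃ L ∈ S, ∃ T ∈ S, L ≤ A ⊔ B ∧ ⁅A, T⁆ = L ∧ A ⊔ L = A ⊔ B := by
  obtain ⟨D, hD, hAD⟩ := rs_not_isolated (hF A hA) hA
  obtain ⟨L, hL, hLle, hAL, hLD, q, hq, hq1, a, ha, hqa⟩ := s38_exists_L hS hA hD hAD hB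
  obtain ⟨⟨hBS, hBA, hAB⟩, hpart⟩ := hB
  have hroot : ∀ a ∈ A, ∀ l ∈ L, a * l ≠ 1 → a * l ∈ rootElements S := by
    intro a' ha' l hl hne
    obtain ⟨M', ⟨hM', -⟩, hmem⟩ := hpart.2.1 (a' * l)
      (mul_mem (Subgroup.mem_sup_left ha') (hLle hl)) hne
    exact ⟨hne, M', hM', hmem⟩
  have hK := lk_eq hS hA hD hL hAD hAL (hF L hL) hroot hLD
  have hATL : ⁅A, ⁅L, D⁆⁆ = L := by rw [Subgroup.commutator_comm A ⁅L, D⁆]; exact hK
  refine ⟨L, hL, ⁅L, D⁆, hLD, hLle, hATL, ?_⟩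
  apply le_antisymm (sup_le le_sup_left hLle)
  apply sup_le le_sup_left
  have hATS : ⁅A, ⁅L, D⁆⁆ ∈ S := by rw [hATL]; exact hL
  have hl := rl_line hS (hF A hA) hA hLD hATS
  rw [hATL] at hl
  have hqAL : q ∈ A ⊔ L := by
    have : q = (q * a) * a⁻¹ := by group
    rw [this]
    exact mul_mem (Subgroup.mem_sup_right hqa) (Subgroup.mem_sup_left (inv_mem ha))
  obtain ⟨M', ⟨hM', hM'le⟩, hqM'⟩ := hl.2.1.2.1 q hqAL hq1
  rcases rs_inf_eq_bot hS (hF B hBS) hBS M' hM' with h | h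
  · exfalso
    have : q ∈ B ⊓ M' := Subgroup.mem_inf.mpr ⟨hq, hqM'⟩
    rw [h, Subgroup.mem_bot] at this
    exact hq1 this
  · rw [h]; exact hM'le

/-- Abstract double transitivity from two point stabilizers. -/
theorem two_trans_of_two {Ω : Set (Subgroup G)} {H L L₂ A T T₂ : Subgroup G}
    (hTH : T ≤ H) (hT₂H : T₂ ≤ H)
    (hinv : ∀ x ∈ H, ∀ M ∈ Ω, conjBy M x ∈ Ω)
    (hL₂Ω : L₂ ∈ Ω)
    (hTfix : ∀ t ∈ T, conjBy L t = L)
    (hTtr : ∀ M ∈ Ω, M ≠ L → ∃ t ∈ T, M = conjBy A t)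
    (hT₂tr : ∀ M ∈ Ω, M ≠ L₂ → ∃ t ∈ T₂, M = conjBy L t)
    (hTne : ∃ t ∈ T, conjBy L₂ t ≠ L₂) :
    ∀ C₁ ∈ Ω, ∀ C₂ ∈ Ω, ∀ D₁ ∈ Ω, ∀ D₂ ∈ Ω, C₁ ≠ C₂ → D₁ ≠ D₂ →
      ∃ x ∈ H, conjBy C₁ x = D₁ ∧ conjBy C₂ x = D₂ := by
  have toL : ∀ M ∈ Ω, ∃ x ∈ H, conjBy M x = L := by
    intro M hM
    by_cases hM2 : M = L₂
    · obtain ⟨t, ht, hne'⟩ := hTne
      obtain ⟨t₂, ht₂, hM'⟩ := hT₂tr _ (hinv t (hTH ht) L₂ hL₂Ω) hne'
      refine ⟨t₂⁻¹ * t, mul_mem (inv_mem (hT₂H ht₂)) (hTH ht), ?_⟩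
      rw [hM2, ← cb_cb, hM', cb_cb, inv_mul_cancel, cb_one]
    · obtain ⟨t₂, ht₂, hM'⟩ := hT₂tr M hM hM2
      refine ⟨t₂⁻¹, inv_mem (hT₂H ht₂), ?_⟩
      rw [hM', cb_cb, inv_mul_cancel, cb_one]
  have pair : ∀ C₁ ∈ Ω, ∀ C₂ ∈ Ω, C₁ ≠ C₂ →
      ∃ x ∈ H, conjBy C₁ x = L ∧ conjBy C₂ x = A := by
    intro C₁ hC₁ C₂ hC₂ hne
    obtain ⟨x₁, hx₁, h1⟩ := toL C₁ hC₁
    have h2 : conjBy C₂ x₁ ≠ L := by
      intro h
      rw [← h1] at h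
      exact hne (cb_inj h).symm
    obtain ⟨t₁, ht₁, h3⟩ := hTtr _ (hinv x₁ hx₁ C₂ hC₂) h2
    refine ⟨t₁⁻¹ * x₁, mul_mem (inv_mem (hTH ht₁)) hx₁, ?_, ?_⟩
    · rw [← cb_cb, h1]; exact hTfix _ (inv_mem ht₁)
    · rw [← cb_cb, h3, cb_cb, inv_mul_cancel, cb_one]
  intro C₁ hC₁ C₂ hC₂ D₁ hD₁ D₂ hD₂ hC hD
  obtain ⟨x, hx, hx1, hx2⟩ := pair C₁ hC₁ C₂ hC₂ hC
  obtain ⟨y, hy, hy1, hy2⟩ := pair D₁ hD₁ D₂ hD₂ hD
  refine ⟨y⁻¹ * x, mul_mem (inv_mem hy) hx, ?_, ?_⟩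
  · rw [← cb_cb, hx1, ← hy1, cb_cb, inv_mul_cancel, cb_one]
  · rw [← cb_cb, hx2, ← hy2, cb_cb, inv_mul_cancel, cb_one]

/-- S5038. -/
theorem s38_main (hS : IsRootSubgroupSet S) (hF : ∀ X ∈ S, ¬ IsIsolatedIn (FAdj S) S X)
    (hA : A ∈ S) (hB : B ∈ linePartners S A) :
    ∀ C₁ ∈ membersIn S (A ⊔ B), ∀ C₂ ∈ membersIn S (A ⊔ B), ∀ D₁ ∈ membersIn S (A ⊔ B),
      ∀ D₂ ∈ membersIn S (A ⊔ B), C₁ ≠ C₂ → D₁ ≠ D₂ →
        ∃ x ∈ ⨆ E ∈ normalizingMembers S (A ⊔ B), E, conjBy C₁ x = D₁ ∧ conjBy C₂ x = D₂ := by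
  obtain ⟨L, hL, T, hT, hLle, hATL, hsup⟩ := s38_step hS hF hA hB
  have hATS : ⁅A, T⁆ ∈ S := by rw [hATL]; exact hL
  have hccAT := rl_comm_case hS hA hT hATS
  have hl := rl_line hS (hF A hA) hA hT hATS
  rw [hATL] at hl
  obtain ⟨L₂, hL₂, T₂, hT₂, hL₂le, hLTL₂, hsup₂⟩ := s38_step hS hF hL hl.2.2.1
  have hLT₂S : ⁅L, T₂⁆ ∈ S := by rw [hLTL₂]; exact hL₂
  have hccLT₂ := rl_comm_case hS hL hT₂ hLT₂S
  have hl₂ := rl_line hS (hF L hL) hL hT₂ hLT₂S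
  rw [hLTL₂] at hl₂
  have hN₂ : L ⊔ L₂ = A ⊔ B := by rw [hsup₂, sup_comm, hsup]
  rw [hsup] at hl
  rw [hN₂] at hl₂
  have hLL₂ : L ≠ L₂ := by
    have := rl_ne hS hccLT₂
    rwa [hLTL₂] at this
  have hAL : A ≠ L := by
    have := rl_ne hS hccAT
    rwa [hATL] at this
  -- `T` and `T₂` normalize `A ⊔ B`
  have hTfix : ∀ t ∈ T, conjBy L t = L := by
    intro t ht
    apply cb_of_centralizes
    intro l hl'
    exact hccAT.2.1 l (by rw [hATL]; exact hl') t (Subgroup.mem_sup_right ht)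
  have hT₂fix : ∀ t ∈ T₂, conjBy L₂ t = L₂ := by
    intro t ht
    apply cb_of_centralizes
    intro l hl'
    exact hccLT₂.2.1 l (by rw [hLTL₂]; exact hl') t (Subgroup.mem_sup_right ht)
  have hTN : T ≤ Subgroup.normalizer ((A ⊔ B : Subgroup G) : Set G) := by
    apply norm_of_conj_le
    intro t ht
    rw [← hsup]
    have h2 : conjBy (A ⊔ L) t = conjBy A t ⊔ conjBy L t := Subgroup.map_sup _ _ _
    rw [h2, hTfix t ht, hsup]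
    refine sup_le ?_ (hsup ▸ le_sup_right)
    have hmem : conjBy A t ∈ membersIn S (A ⊔ B) := by
      rw [hl.1]; exact Or.inl ⟨t, ht, rfl⟩
    exact hmem.2
  have hT₂N : T₂ ≤ Subgroup.normalizer ((A ⊔ B : Subgroup G) : Set G) := by
    apply norm_of_conj_le
    intro t ht
    rw [← hN₂]
    have h2 : conjBy (L ⊔ L₂) t = conjBy L t ⊔ conjBy L₂ t := Subgroup.map_sup _ _ _
    rw [h2, hT₂fix t ht, hN₂]
    refine sup_le ?_ (hN₂ ▸ le_sup_right)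
    have hmem : conjBy L t ∈ membersIn S (A ⊔ B) := by
      rw [hl₂.1]; exact Or.inl ⟨t, ht, rfl⟩
    exact hmem.2
  have hTle : T ≤ ⨆ E ∈ normalizingMembers S (A ⊔ B), E :=
    le_biSup (fun E => E) (show T ∈ normalizingMembers S (A ⊔ B) from ⟨hT, hTN⟩)
  have hT₂le : T₂ ≤ ⨆ E ∈ normalizingMembers S (A ⊔ B), E :=
    le_biSup (fun E => E) (show T₂ ∈ normalizingMembers S (A ⊔ B) from ⟨hT₂, hT₂N⟩)
  have hHN : (⨆ E ∈ normalizingMembers S (A ⊔ B), E) ≤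
      Subgroup.normalizer ((A ⊔ B : Subgroup G) : Set G) :=
    iSup₂_le (fun E hE => hE.2)
  have hinv : ∀ x ∈ ⨆ E ∈ normalizingMembers S (A ⊔ B), E, ∀ M ∈ membersIn S (A ⊔ B),
      conjBy M x ∈ membersIn S (A ⊔ B) := by
    intro x hx M hM
    refine ⟨hS.conj_mem M hM.1 x, ?_⟩
    have h1 : conjBy M x ≤ conjBy (A ⊔ B) x := Subgroup.map_mono hM.2
    rwa [cb_eq_self_iff.mpr (hHN hx)] at h1
  have hL₂Ω : L₂ ∈ membersIn S (A ⊔ B) := ⟨hL₂, hN₂ ▸ le_sup_right⟩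
  have hTtr : ∀ M ∈ membersIn S (A ⊔ B), M ≠ L → ∃ t ∈ T, M = conjBy A t := by
    intro M hM hne
    rw [hl.1] at hM
    rcases hM with ⟨t, ht, rfl⟩ | h
    · exact ⟨t, ht, rfl⟩
    · exact absurd h hne
  have hT₂tr : ∀ M ∈ membersIn S (A ⊔ B), M ≠ L₂ → ∃ t ∈ T₂, M = conjBy L t := by
    intro M hM hne
    rw [hl₂.1] at hM
    rcases hM with ⟨t, ht, rfl⟩ | h
    · exact ⟨t, ht, rfl⟩
    · exact absurd h hne
  have hTne : ∃ t ∈ T, conjBy L₂ t ≠ L₂ := by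
    obtain ⟨t, ht0⟩ := (Subgroup.ne_bot_iff_exists_ne_one).mp (hS.ne_bot T hT)
    have ht1 : (t : G) ≠ 1 := fun h' => ht0 (Subtype.ext h')
    refine ⟨t, t.2, ?_⟩
    intro h
    obtain ⟨t₀, ht₀, hL₂eq⟩ := hTtr L₂ hL₂Ω (fun h' => hLL₂ h'.symm)
    rw [hL₂eq, cb_cb] at h
    have e : (t : G) * t₀ = t₀ * t := sr_comm (hS.commutative T hT) t.2 ht₀
    rw [e, ← cb_cb] at h
    have hAt : conjBy A (t : G) = A := cb_inj h
    obtain ⟨a, ha0⟩ := (Subgroup.ne_bot_iff_exists_ne_one).mp (hS.ne_bot A hA)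
    have ha1 : (a : G) ≠ 1 := fun h' => ha0 (Subtype.ext h')
    have h1 : (t : G) * a * (t : G)⁻¹ ∈ A := by
      have := cb_mem' (A := A) (g := (t : G)) a.2
      rwa [hAt] at this
    have h2 : (a : G) * t * (a : G)⁻¹ * (t : G)⁻¹ ∈ ⁅A, T⁆ := cc_comm_mem a.2 t.2
    have h3 : (a : G) * t * (a : G)⁻¹ * (t : G)⁻¹ ∈ A := by
      have e2 : (a : G) * t * (a : G)⁻¹ * (t : G)⁻¹ = a * ((t : G) * a * (t : G)⁻¹)⁻¹ := by group
      rw [e2]; exact mul_mem a.2 (inv_mem h1)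
    have hinf : A ⊓ L = ⊥ := by
      rcases rs_inf_eq_bot hS (hF A hA) hA L hL with h' | h'
      · exact h'
      · exact absurd h' hAL
    have h4 : (a : G) * t * (a : G)⁻¹ * (t : G)⁻¹ ∈ A ⊓ L :=
      Subgroup.mem_inf.mpr ⟨h3, by rw [← hATL]; exact h2⟩
    rw [hinf, Subgroup.mem_bot] at h4
    apply rl_no_commute hS (hF A hA) hA hccAT a.2 ha1 t.2 ht1
    calc (a : G) * t = ((a : G) * t * (a : G)⁻¹ * (t : G)⁻¹) * (t * a) := by group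
      _ = t * a := by rw [h4, one_mul]
  exact two_trans_of_two hTle hT₂le hinv hL₂Ω hTfix hTtr hT₂tr hTne

end Cfsg.Agent.Lib.Helper6
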