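import Cfsg.Agent.Lib.Helper6.RootSub
import Cfsg.Agent.Lib.Helper1.SLGen

set_option autoImplicit false
set_option linter.style.haveILetI false

namespace Cfsg.Agent.Lib.Helper6

open Cfsg Matrix

theorem gl_nilpotent_of_comm {H : Type*} [Group H] (h : ∀ a b : H, a * b = b * a) :
    Group.IsNilpotent H :=
  ⟨⟨1, by
    rw [Subgroup.upperCentralSeries_one, eq_top_iff]
    intro x _
    rw [Subgroup.mem_center_iff]
    intro g
    exact h g x⟩⟩

section

variable {k : Type*} [Field k]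

/-- Lower unitriangular matrix. -/
def slL (t : k) : Matrix.SpecialLinearGroup (Fin 2) k :=
  ⟨!![1, 0; t, 1], by simp [Matrix.det_fin_two]⟩

/-- Upper unitriangular matrix. -/
def slU (t : k) : Matrix.SpecialLinearGroup (Fin 2) k :=
  ⟨!![1, t; 0, 1], by simp [Matrix.det_fin_two]⟩

theorem slL_coe (t : k) : (slL t : Matrix (Fin 2) (Fin 2) k) = !![1, 0; t, 1] := rfl
theorem slU_coe (t : k) : (slU t : Matrix (Fin 2) (Fin 2) k) = !![1, t; 0, 1] := rfl

theorem slL_mul (s t : k) : slL s * slL t = slL (s + t) := by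
  apply Subtype.ext
  rw [Matrix.SpecialLinearGroup.coe_mul, slL_coe, slL_coe, slL_coe]
  ext i j
  fin_cases i <;> fin_cases j <;> simp [Matrix.mul_apply, Fin.sum_univ_two] <;> ring

theorem slU_mul (s t : k) : slU s * slU t = slU (s + t) := by
  apply Subtype.ext
  rw [Matrix.SpecialLinearGroup.coe_mul, slU_coe, slU_coe, slU_coe]
  ext i j
  fin_cases i <;> fin_cases j <;> simp [Matrix.mul_apply, Fin.sum_univ_two] <;> ring

theorem slL_zero : slL (0 : k) = 1 := by
  apply Subtype.ext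
  rw [slL_coe]
  ext i j
  fin_cases i <;> fin_cases j <;> simp

theorem slU_zero : slU (0 : k) = 1 := by
  apply Subtype.ext
  rw [slU_coe]
  ext i j
  fin_cases i <;> fin_cases j <;> simp

theorem slL_inv (t : k) : (slL t)⁻¹ = slL (-t) := by
  apply inv_eq_of_mul_eq_one_right
  rw [slL_mul, add_neg_cancel, slL_zero]

theorem slU_inv (t : k) : (slU t)⁻¹ = slU (-t) := by
  apply inv_eq_of_mul_eq_one_right
  rw [slU_mul, add_neg_cancel, slU_zero]

theorem slL_injective {s t : k} (h : slL s = slL t) : s = t := by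
  have h1 := congrArg (fun g : Matrix.SpecialLinearGroup (Fin 2) k =>
    (g : Matrix (Fin 2) (Fin 2) k) 1 0) h
  simpa [slL_coe] using h1

theorem slU_injective {s t : k} (h : slU s = slU t) : s = t := by
  have h1 := congrArg (fun g : Matrix.SpecialLinearGroup (Fin 2) k =>
    (g : Matrix (Fin 2) (Fin 2) k) 0 1) h
  simpa [slU_coe] using h1

theorem sl_mem_lower {g : Matrix.SpecialLinearGroup (Fin 2) k} :
    g ∈ lowerUnipotentSL2 k ↔ ∃ t : k, g = slL t := by
  constructor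
  · intro hg
    unfold lowerUnipotentSL2 at hg
    induction hg using Subgroup.closure_induction with
    | mem x hx =>
      obtain ⟨h0, h1, h2⟩ := hx
      refine ⟨(x : Matrix (Fin 2) (Fin 2) k) 1 0, ?_⟩
      apply Subtype.ext
      rw [slL_coe]
      ext i j
      fin_cases i <;> fin_cases j <;> simp [h0, h1, h2]
    | one => exact ⟨0, slL_zero.symm⟩
    | mul x y _ _ hx hy =>
      obtain ⟨s, rfl⟩ := hx
      obtain ⟨t, rfl⟩ := hy
      exact ⟨s + t, slL_mul s t⟩
    | inv x _ hx =>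
      obtain ⟨s, rfl⟩ := hx
      exact ⟨-s, slL_inv s⟩
  · rintro ⟨t, rfl⟩
    apply Subgroup.subset_closure
    simp [slL_coe]

theorem sl_mem_upper {g : Matrix.SpecialLinearGroup (Fin 2) k} :
    g ∈ upperUnipotentSL2 k ↔ ∃ t : k, g = slU t := by
  constructor
  · intro hg
    unfold upperUnipotentSL2 at hg
    induction hg using Subgroup.closure_induction with
    | mem x hx =>
      obtain ⟨h0, h1, h2⟩ := hx
      refine ⟨(x : Matrix (Fin 2) (Fin 2) k) 0 1, ?_⟩
      apply Subtype.ext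
      rw [slU_coe]
      ext i j
      fin_cases i <;> fin_cases j <;> simp [h0, h1, h2]
    | one => exact ⟨0, slU_zero.symm⟩
    | mul x y _ _ hx hy =>
      obtain ⟨s, rfl⟩ := hx
      obtain ⟨t, rfl⟩ := hy
      exact ⟨s + t, slU_mul s t⟩
    | inv x _ hx =>
      obtain ⟨s, rfl⟩ := hx
      exact ⟨-s, slU_inv s⟩
  · rintro ⟨t, rfl⟩
    apply Subgroup.subset_closure
    simp [slU_coe]

theorem sl_conj_LU {t : k} (ht : t ≠ 0) (u : k) :
    (slL t * slU (-t⁻¹)) * slL u * (slL t * slU (-t⁻¹))⁻¹ = slU (-u * t⁻¹ ^ 2) := by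
  rw [_root_.mul_inv_rev, slL_inv, slU_inv]
  apply Subtype.ext
  simp only [Matrix.SpecialLinearGroup.coe_mul, slL_coe, slU_coe]
  ext i j
  fin_cases i <;> fin_cases j <;> simp [Matrix.mul_apply, Fin.sum_univ_two] <;> field_simp <;> ring

theorem sl_conj_UL {t : k} (ht : t ≠ 0) (v : k) :
    (slL t * slU (-t⁻¹))⁻¹ * slU v * (slL t * slU (-t⁻¹)) = slL (-v * t ^ 2) := by
  rw [_root_.mul_inv_rev, slL_inv, slU_inv]
  apply Subtype.ext
  simp only [Matrix.SpecialLinearGroup.coe_mul, slL_coe, slU_coe]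
  ext i j
  fin_cases i <;> fin_cases j <;> simp [Matrix.mul_apply, Fin.sum_univ_two] <;> field_simp <;> ring

/-- The key conjugation identity: `b⁻¹ A b = a⁻¹ B a` for `a = L(t)`, `b = U(t⁻¹)`. -/
theorem sl_conj_eq {t : k} (ht : t ≠ 0) :
    conjBy (lowerUnipotentSL2 k) (slU t⁻¹)⁻¹ = conjBy (upperUnipotentSL2 k) (slL t)⁻¹ := by
  have h : conjBy (lowerUnipotentSL2 k) (slL t * slU (-t⁻¹)) = upperUnipotentSL2 k := by
    ext x
    rw [cb_mem]
    constructor
    · intro hx
      obtain ⟨u, hu⟩ := sl_mem_lower.mp hx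
      have e : x = (slL t * slU (-t⁻¹)) * slL u * (slL t * slU (-t⁻¹))⁻¹ := by
        rw [← hu]; group
      rw [e, sl_conj_LU ht]
      exact sl_mem_upper.mpr ⟨_, rfl⟩
    · intro hx
      obtain ⟨v, rfl⟩ := sl_mem_upper.mp hx
      rw [sl_conj_UL ht]
      exact sl_mem_lower.mpr ⟨_, rfl⟩
  rw [slU_inv]
  rw [← cb_cb] at h
  exact cb_eq_iff.mp h

theorem sl_lower_comm : ∀ a b : lowerUnipotentSL2 k, a * b = b * a := by
  intro a b
  obtain ⟨s, hs⟩ := sl_mem_lower.mp a.2
  obtain ⟨t, ht⟩ := sl_mem_lower.mp b.2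
  apply Subtype.ext
  show (a : Matrix.SpecialLinearGroup (Fin 2) k) * b = b * a
  rw [hs, ht, slL_mul, slL_mul, add_comm]

theorem sl_upper_comm : ∀ a b : upperUnipotentSL2 k, a * b = b * a := by
  intro a b
  obtain ⟨s, hs⟩ := sl_mem_upper.mp a.2
  obtain ⟨t, ht⟩ := sl_mem_upper.mp b.2
  apply Subtype.ext
  show (a : Matrix.SpecialLinearGroup (Fin 2) k) * b = b * a
  rw [hs, ht, slU_mul, slU_mul, add_comm]

theorem sl_LU_ne (s t : k) (ht : t ≠ 0) : slL t ≠ slU s := by
  intro h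
  have h1 := congrArg (fun g : Matrix.SpecialLinearGroup (Fin 2) k =>
    (g : Matrix (Fin 2) (Fin 2) k) 1 0) h
  simp [slL_coe, slU_coe] at h1
  exact ht h1

theorem sl_rankOnePair : IsRankOnePair (lowerUnipotentSL2 k) (upperUnipotentSL2 k) := by
  refine ⟨?_, gl_nilpotent_of_comm sl_lower_comm, gl_nilpotent_of_comm sl_upper_comm, ?_, ?_⟩
  · intro h
    have h1 : slL (1 : k) ∈ upperUnipotentSL2 k := h ▸ sl_mem_lower.mpr ⟨1, rfl⟩
    obtain ⟨s, hs⟩ := sl_mem_upper.mp h1
    exact sl_LU_ne s 1 one_ne_zero hs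
  · intro a ha ha1
    obtain ⟨t, rfl⟩ := sl_mem_lower.mp ha
    have ht : t ≠ 0 := by
      rintro rfl
      exact ha1 slL_zero
    refine ⟨slU t⁻¹, sl_mem_upper.mpr ⟨_, rfl⟩, ?_, sl_conj_eq ht⟩
    intro h
    rw [← slU_zero] at h
    exact inv_ne_zero ht (slU_injective h)
  · intro b hb hb1
    obtain ⟨s, rfl⟩ := sl_mem_upper.mp hb
    have hs : s ≠ 0 := by
      rintro rfl
      exact hb1 slU_zero
    refine ⟨slL s⁻¹, sl_mem_lower.mpr ⟨_, rfl⟩, ?_, ?_⟩
    · intro h
      rw [← slL_zero] at h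
      exact inv_ne_zero hs (slL_injective h)
    · have := sl_conj_eq (inv_ne_zero hs)
      rw [inv_inv] at this
      exact this.symm

theorem sl_sup_eq_top : lowerUnipotentSL2 k ⊔ upperUnipotentSL2 k = ⊤ := by
  rw [eq_top_iff, ← Cfsg.Agent.Lib.Helper1.closure_transvections (ι := Fin 2) (F := k),
    Subgroup.closure_le]
  rintro _ ⟨i, j, hij, a, rfl⟩
  fin_cases i <;> fin_cases j
  · exact absurd rfl hij
  · apply Subgroup.mem_sup_right
    apply Subgroup.subset_closure
    refine ⟨?_, ?_, ?_⟩ <;>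
      simp [Matrix.SpecialLinearGroup.transvection, Matrix.transvection, Matrix.single_apply,
        Matrix.one_apply]
  · apply Subgroup.mem_sup_left
    apply Subgroup.subset_closure
    refine ⟨?_, ?_, ?_⟩ <;>
      simp [Matrix.SpecialLinearGroup.transvection, Matrix.transvection, Matrix.single_apply,
        Matrix.one_apply]
  · exact absurd rfl hij

theorem sl_special {t : k} (ht : t ≠ 0) :
    (slU t⁻¹)⁻¹ * slL t * slU t⁻¹ = (slL t)⁻¹ * (slU t⁻¹)⁻¹ * slL t := by
  rw [slL_inv, slU_inv]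
  apply Subtype.ext
  simp only [Matrix.SpecialLinearGroup.coe_mul, slL_coe, slU_coe]
  ext i j
  fin_cases i <;> fin_cases j <;> simp [Matrix.mul_apply, Fin.sum_univ_two, ht]
  all_goals (field_simp; ring)

theorem sl_specialPair : IsSpecialRankOnePair (lowerUnipotentSL2 k) (upperUnipotentSL2 k) := by
  refine ⟨sl_rankOnePair, ?_⟩
  intro a ha ha1 b hb hb1 hab
  obtain ⟨t, rfl⟩ := sl_mem_lower.mp ha
  have ht : t ≠ 0 := by
    rintro rfl
    exact ha1 slL_zero
  have hb' : b = slU t⁻¹ :=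
    r1_unique_right sl_rankOnePair hb (sl_mem_upper.mpr ⟨_, rfl⟩) hab (sl_conj_eq ht)
  rw [hb']
  exact sl_special ht

end

end Cfsg.Agent.Lib.Helper6
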