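import Cfsg.Agent.Lib.Helper6.SimpleTools3

set_option autoImplicit false
set_option linter.style.haveILetI false

namespace Cfsg.Agent.Lib.Helper6

open Subgroup

section

variable {G : Type*} [Group G] [Finite G] [IsSimpleGroup G]

theorem s168_not_comm (h : Nat.card G = 168) : ¬ IsMulCommutative G :=
  st_not_comm (by rw [h]; norm_num)

theorem s168_sylow7 (h : Nat.card G = 168) :
    Nat.card (Sylow 7 G) = 8 ∧ ∀ P : Sylow 7 G, Nat.card (P : Subgroup G) = 7 ∧
      Nat.card (normalizer ((P : Subgroup G) : Set G)) = 7 * 3 := by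
  haveI : Fact (Nat.Prime 7) := ⟨by norm_num⟩
  obtain ⟨j, hj0, hn, hdvd, hfact, hP⟩ := st_sylow_data (G := G) 7 1 24
    (h.trans (by norm_num)) (by norm_num) (by norm_num) (by norm_num)
  have hj : j ≤ 3 := by
    have := Nat.le_of_dvd (by norm_num) hdvd
    omega
  interval_cases j
  all_goals try omega
  refine ⟨by omega, fun P => ?_⟩
  obtain ⟨h1, h2⟩ := hP P
  norm_num only at h1 h2
  exact ⟨h1, by omega⟩

theorem s168_sylow3 (h : Nat.card G = 168) :
    Nat.card (Sylow 3 G) = 28 ∧ ∀ P : Sylow 3 G, Nat.card (P : Subgroup G) = 3 ∧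
      Nat.card (normalizer ((P : Subgroup G) : Set G)) = 3 * 2 := by
  haveI : Fact (Nat.Prime 3) := ⟨by norm_num⟩
  haveI : Fact (Nat.Prime 7) := ⟨by norm_num⟩
  have hnc := s168_not_comm h
  obtain ⟨j, hj0, hn, hdvd, hfact, hP⟩ := st_sylow_data (G := G) 3 1 56
    (h.trans (by norm_num)) (by norm_num) (by norm_num) (by norm_num)
  have hj : j ≤ 18 := by
    have := Nat.le_of_dvd (by norm_num) hdvd
    omega
  interval_cases j
  all_goals try omega
  · exfalso
    revert hfact
    decide
  · exfalso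
    obtain ⟨h7n, h7P⟩ := s168_sylow7 h
    obtain ⟨P7⟩ : Nonempty (Sylow 7 G) := inferInstance
    obtain ⟨hP7c, hN7c⟩ := h7P P7
    obtain ⟨y, hy⟩ := exists_prime_orderOf_dvd_card' 3
      (by rw [hN7c]; norm_num : 3 ∣ Nat.card (normalizer ((P7 : Subgroup G) : Set G)))
    have hy' : orderOf (y : G) = 3 := by rw [Subgroup.orderOf_coe]; exact hy
    have hyp : IsPGroup 3 (zpowers (y : G)) :=
      sy_isPGroup_zpowers _ 1 (by rw [pow_one, ← hy', pow_orderOf_eq_one])
    obtain ⟨Q₀, hQ₀⟩ := hyp.exists_le_sylow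
    have hQ₀c : Nat.card (Q₀ : Subgroup G) = 3 := by
      have := (hP Q₀).1
      norm_num only at this
      exact this
    have hQ₀z : zpowers (y : G) = Q₀ :=
      Subgroup.eq_of_le_of_card_ge hQ₀ (by rw [Nat.card_zpowers, hy', hQ₀c])
    have hQ₀N : (Q₀ : Subgroup G) ≤ normalizer ((P7 : Subgroup G) : Set G) := by
      rw [← hQ₀z]
      exact zpowers_le.mpr y.2
    have hNQ : Nat.card (normalizer ((Q₀ : Subgroup G) : Set G)) = 24 := by
      have := (hP Q₀).2
      norm_num only at this
      omega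
    have horb : Nat.card (MulAction.orbit ↥(P7 : Subgroup G) Q₀) = 7 := by
      have h1 : Nat.card (MulAction.orbit ↥(P7 : Subgroup G) Q₀) ∣ 7 := by
        have := Subgroup.index_dvd_card (MulAction.stabilizer ↥(P7 : Subgroup G) Q₀)
        rw [hP7c] at this
        rw [Nat.card_coe_set_eq, ← MulAction.index_stabilizer]
        exact this
      rcases (Nat.dvd_prime (by norm_num : Nat.Prime 7)).mp h1 with h1 | h1
      · exfalso
        have hsub := (Nat.card_eq_one_iff_unique.mp h1).1
        have hle : (P7 : Subgroup G) ≤ normalizer ((Q₀ : Subgroup G) : Set G) := by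
          intro x hx
          have h2 : (⟨(⟨x, hx⟩ : (P7 : Subgroup G)) • Q₀, MulAction.mem_orbit _ _⟩ :
              MulAction.orbit ↥(P7 : Subgroup G) Q₀) = ⟨Q₀, MulAction.mem_orbit_self _⟩ :=
            Subsingleton.elim _ _
          have h3 : (⟨x, hx⟩ : (P7 : Subgroup G)) • Q₀ = Q₀ := congrArg Subtype.val h2
          have h0 : (⟨x, hx⟩ : (P7 : Subgroup G)) • Q₀ = x • Q₀ := rfl
          rw [h0, Sylow.smul_eq_iff_mem_normalizer] at h3
          exact h3
        have := Subgroup.card_dvd_of_le hle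
        rw [hP7c, hNQ] at this
        omega
      · exact h1
    have hall : ∀ Q : Sylow 3 G, (Q : Subgroup G) ≤ normalizer ((P7 : Subgroup G) : Set G) := by
      intro Q
      have hbij : Function.Bijective
          (Subtype.val : MulAction.orbit ↥(P7 : Subgroup G) Q₀ → Sylow 3 G) := by
        rw [Nat.bijective_iff_injective_and_card]
        exact ⟨Subtype.val_injective, by rw [horb, hn]⟩
      obtain ⟨⟨Q', x, hx⟩, rfl⟩ := hbij.2 Q
      intro z hz
      have hx' : (x : G) • Q₀ = Q' := hx
      have hz' : z ∈ (((x : G) • Q₀ : Sylow 3 G) : Subgroup G) := by rw [hx']; exact hz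
      have h1 := hQ₀N ((sy_mem_smul_iff (x : G) Q₀ z).mp hz')
      have hxN : (x : G) ∈ normalizer ((P7 : Subgroup G) : Set G) := le_normalizer x.2
      have h2 := Subgroup.mul_mem _ (Subgroup.mul_mem _ hxN h1) (Subgroup.inv_mem _ hxN)
      have e : (x : G) * ((x : G)⁻¹ * z * (x : G)) * (x : G)⁻¹ = z := by group
      rwa [e] at h2
    have hncl : normalClosure ((Q₀ : Subgroup G) : Set G) ≤
        normalizer ((P7 : Subgroup G) : Set G) := by
      rw [normalClosure, Subgroup.closure_le]
      intro a ha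
      obtain ⟨b, hb, hab⟩ := Group.mem_conjugatesOfSet_iff.mp ha
      obtain ⟨c, hc⟩ := isConj_iff.mp hab
      apply hall (c • Q₀)
      rw [sy_mem_smul_iff, ← hc]
      have e : c⁻¹ * (c * b * c⁻¹) * c = b := by group
      rw [e]
      exact hb
    rcases (Subgroup.normalClosure_normal (s := ((Q₀ : Subgroup G) : Set G))).eq_bot_or_eq_top
      with hb | ht
    · have : (Q₀ : Subgroup G) ≤ ⊥ := by
        rw [← hb]
        exact Subgroup.le_normalClosure
      have h1 : (Q₀ : Subgroup G) = ⊥ := le_bot_iff.mp this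
      rw [h1, Subgroup.card_bot] at hQ₀c
      omega
    · rw [ht] at hncl
      have h1 : normalizer ((P7 : Subgroup G) : Set G) = ⊤ := top_le_iff.mp hncl
      rw [h1, Subgroup.card_top, h] at hN7c
      omega
  · refine ⟨by omega, fun P => ?_⟩
    obtain ⟨h1, h2⟩ := hP P
    norm_num only at h1 h2
    exact ⟨h1, by omega⟩

theorem s168_centralizer3 (h : Nat.card G = 168) (x : G) (hx : orderOf x = 3) :
    Nat.card (centralizer ({x} : Set G)) = 3 := by
  haveI : Fact (Nat.Prime 3) := ⟨by norm_num⟩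
  exact st_centralizer_singleton_card (r := 2) Nat.prime_two (s168_not_comm h) (s168_sylow3 h).2 x hx

theorem s168_centralizer7 (h : Nat.card G = 168) (x : G) (hx : orderOf x = 7) :
    Nat.card (centralizer ({x} : Set G)) = 7 := by
  haveI : Fact (Nat.Prime 7) := ⟨by norm_num⟩
  exact st_centralizer_singleton_card (r := 3) Nat.prime_three (s168_not_comm h) (s168_sylow7 h).2 x hx

theorem s168_order_cases (h : Nat.card G = 168) (g : G) :
    orderOf g = 7 ∨ orderOf g = 3 ∨ orderOf g ∣ 2 ^ 3 := by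
  by_cases h7 : orderOf g = 7
  · exact Or.inl h7
  by_cases h3 : orderOf g = 3
  · exact Or.inr (Or.inl h3)
  right; right
  have hdvd : orderOf g ∣ 168 := h ▸ orderOf_dvd_natCard g
  have h3' : ¬ 3 ∣ orderOf g := fun hd =>
    h3 (st_order_eq_of_dvd Nat.prime_three (s168_centralizer3 h) g hd)
  have h7' : ¬ 7 ∣ orderOf g := fun hd =>
    h7 (st_order_eq_of_dvd (by norm_num) (s168_centralizer7 h) g hd)
  have c3 : Nat.Coprime (orderOf g) 3 :=
    Nat.Coprime.symm ((Nat.Prime.coprime_iff_not_dvd Nat.prime_three).mpr h3')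
  have c7 : Nat.Coprime (orderOf g) 7 :=
    Nat.Coprime.symm ((Nat.Prime.coprime_iff_not_dvd (by norm_num)).mpr h7')
  have hcop : Nat.Coprime (orderOf g) (3 * 7) := Nat.Coprime.mul_right c3 c7
  have h168 : orderOf g ∣ 2 ^ 3 * (3 * 7) := by
    norm_num
    exact hdvd
  exact hcop.dvd_of_dvd_mul_right h168

theorem s168_card_order7 (h : Nat.card G = 168) : Nat.card {g : G // orderOf g = 7} = 48 := by
  haveI : Fact (Nat.Prime 7) := ⟨by norm_num⟩
  rw [sc_card_order_p (G := G) 7 (fun P => ((s168_sylow7 h).2 P).1), (s168_sylow7 h).1]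

theorem s168_card_order3 (h : Nat.card G = 168) : Nat.card {g : G // orderOf g = 3} = 56 := by
  haveI : Fact (Nat.Prime 3) := ⟨by norm_num⟩
  rw [sc_card_order_p (G := G) 3 (fun P => ((s168_sylow3 h).2 P).1), (s168_sylow3 h).1]

theorem s168_card_2elements_ge (h : Nat.card G = 168) :
    64 ≤ Nat.card {g : G // orderOf g ∣ 2 ^ 3} := by
  classical
  have hcov : ∀ g : G, ¬ orderOf g = 7 → ¬ orderOf g = 3 → orderOf g ∣ 2 ^ 3 := by
    intro g h7 h3
    rcases s168_order_cases h g with h' | h' | h'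
    · exact absurd h' h7
    · exact absurd h' h3
    · exact h'
  have hle : Nat.card G ≤ Nat.card ({g : G // orderOf g = 7} ⊕
      ({g : G // orderOf g = 3} ⊕ {g : G // orderOf g ∣ 2 ^ 3})) := by
    apply Nat.card_le_card_of_injective (fun g : G =>
      if h7 : orderOf g = 7 then Sum.inl ⟨g, h7⟩
      else if h3 : orderOf g = 3 then Sum.inr (Sum.inl ⟨g, h3⟩)
      else Sum.inr (Sum.inr ⟨g, hcov g h7 h3⟩))
    apply Function.LeftInverse.injective
      (g := fun s => Sum.elim (fun x => x.1) (Sum.elim (fun x => x.1) (fun x => x.1)) s)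
    intro g
    by_cases h7 : orderOf g = 7
    · simp [h7]
    · by_cases h3 : orderOf g = 3
      · simp [h3]
      · simp [h7, h3]
  rw [Nat.card_sum, Nat.card_sum, s168_card_order3 h, s168_card_order7 h, h] at hle
  omega

theorem s168_sylow2 (h : Nat.card G = 168) :
    Nat.card (Sylow 2 G) = 21 ∧ ∀ T : Sylow 2 G, Nat.card (T : Subgroup G) = 8 ∧
      normalizer ((T : Subgroup G) : Set G) = T := by
  haveI : Fact (Nat.Prime 2) := ⟨by norm_num⟩
  obtain ⟨j, hj0, hn, hdvd, hfact, hP⟩ := st_sylow_data (G := G) 2 3 21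
    (h.trans (by norm_num)) (by norm_num) (by norm_num) (by norm_num)
  have hj : j ≤ 10 := by
    have := Nat.le_of_dvd (by norm_num) hdvd
    omega
  have hTc : ∀ T : Sylow 2 G, Nat.card (T : Subgroup G) = 8 := by
    intro T
    have := (hP T).1
    norm_num only at this
    exact this
  interval_cases j
  all_goals try omega
  · exfalso
    revert hfact
    decide
  · exfalso
    have hup := st_card_pelements_le (G := G) 2 3 8 hTc
    have hlo := s168_card_2elements_ge h
    rw [hn] at hup
    omega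
  · refine ⟨by omega, fun T => ⟨hTc T, ?_⟩⟩
    have h2 := (hP T).2
    norm_num only at h2
    symm
    apply Subgroup.eq_of_le_of_card_ge le_normalizer
    rw [hTc T]
    omega

theorem s168_sylow_counts (h : Nat.card G = 168) :
    Nat.card (Sylow 2 G) = 21 ∧ Nat.card (Sylow 3 G) = 28 ∧ Nat.card (Sylow 7 G) = 8 :=
  ⟨(s168_sylow2 h).1, (s168_sylow3 h).1, (s168_sylow7 h).1⟩

end

end Cfsg.Agent.Lib.Helper6
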