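import Cfsg.Agent.Lib.Helper6.SimpleTools3
import Cfsg.Agent.Lib.Lead.CharBurnside

set_option autoImplicit false
set_option linter.style.haveILetI false

namespace Cfsg.Agent.Lib.Helper6

open Subgroup

section

variable {G : Type*} [Group G] [Finite G] [IsSimpleGroup G]

/-- A non-abelian simple group has no normal subgroup complementing a nontrivial proper subgroup. -/
theorem st_no_normal_complement (H N : Subgroup G) (hN : N.Normal) (hc : N.IsComplement' H)
    (h1 : Nat.card H ≠ 1) (h2 : Nat.card H ≠ Nat.card G) : False := by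
  have hcard := hc.card_mul_card
  rcases hN.eq_bot_or_eq_top with h | h
  · rw [h, Subgroup.card_bot, one_mul] at hcard
    exact h2 hcard
  · rw [h, Subgroup.card_top] at hcard
    have hpos : 0 < Nat.card G := Nat.card_pos
    have : Nat.card G * Nat.card H = Nat.card G * 1 := by rw [hcard, mul_one]
    exact h1 (Nat.eq_of_mul_eq_mul_left hpos this)

theorem st_p2qr_aux (hnc : ¬ IsMulCommutative G) (p q r : ℕ) (hp : p.Prime) (hq : q.Prime)
    (hr : r.Prime) (hpq : p ≠ q) (hpr : p ≠ r) (hqr : q < r) (hG : Nat.card G = p ^ 2 * q * r) :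
    Nat.card G = 60 := by
  haveI : Fact p.Prime := ⟨hp⟩
  haveI : Fact q.Prime := ⟨hq⟩
  haveI : Fact r.Prime := ⟨hr⟩
  have hp2 := hp.two_le
  have hq2 := hq.two_le
  have hr2 := hr.two_le
  -- prime divisors of |G|
  have hdiv : ∀ s : ℕ, s.Prime → s ∣ Nat.card G → s = p ∨ s = q ∨ s = r := by
    intro s hs hsG
    rw [hG] at hsG
    rcases (Nat.Prime.dvd_mul hs).mp hsG with h | h
    · rcases (Nat.Prime.dvd_mul hs).mp h with h | h
      · exact Or.inl ((Nat.prime_dvd_prime_iff_eq hs hp).mp (hs.dvd_of_dvd_pow h))
      · exact Or.inr (Or.inl ((Nat.prime_dvd_prime_iff_eq hs hq).mp h))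
    · exact Or.inr (Or.inr ((Nat.prime_dvd_prime_iff_eq hs hr).mp h))
  have hGpos : 0 < Nat.card G := Nat.card_pos
  rcases Nat.lt_or_ge q p with hqp | hpq'
  · -- `q` is the smallest prime: cyclic Sylow `q`-subgroup, normal complement
    exfalso
    obtain ⟨Q⟩ : Nonempty (Sylow q G) := inferInstance
    have hqn : ¬ q ∣ p ^ 2 * r := by
      intro h
      rcases (Nat.Prime.dvd_mul hq).mp h with h | h
      · have := (Nat.prime_dvd_prime_iff_eq hq hp).mp (hq.dvd_of_dvd_pow h); omega
      · have := (Nat.prime_dvd_prime_iff_eq hq hr).mp h; omega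
    have hQ : Nat.card (Q : Subgroup G) = q := by
      have := sy_card_eq Q 1 (p ^ 2 * r) (by rw [hG]; ring) hqn
      rwa [pow_one] at this
    obtain ⟨N, hN, hNc⟩ := sy_npc_of_prime_order Q hQ (by
      intro s hs hsG hsq
      have h1 : s ≤ q - 1 := Nat.le_of_dvd (by omega) hsq
      rcases hdiv s hs hsG with h | h | h <;> omega)
    refine st_no_normal_complement (Q : Subgroup G) N hN hNc (by rw [hQ]; omega) ?_
    rw [hQ, hG]
    intro h
    have h8 : 8 ≤ p ^ 2 * r := by nlinarith
    have h9 : q * 8 ≤ q * (p ^ 2 * r) := Nat.mul_le_mul_left q h8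
    have h10 : p ^ 2 * q * r = q * (p ^ 2 * r) := by ring
    omega
  · have hpq'' : p < q := lt_of_le_of_ne hpq' hpq
    obtain ⟨P⟩ : Nonempty (Sylow p G) := inferInstance
    have hpn : ¬ p ∣ q * r := by
      intro h
      rcases (Nat.Prime.dvd_mul hp).mp h with h | h
      · have := (Nat.prime_dvd_prime_iff_eq hp hq).mp h; omega
      · have := (Nat.prime_dvd_prime_iff_eq hp hr).mp h; omega
    have hP : Nat.card (P : Subgroup G) = p ^ 2 :=
      sy_card_eq P 2 (q * r) (by rw [hG]; ring) hpn
    have hPc : IsMulCommutative (P : Subgroup G) :=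
      ⟨⟨IsPGroup.commutative_of_card_eq_prime_sq hP⟩⟩
    have hp2q : p = 2 ∧ q = 3 := by
      rcases Cfsg.Agent.Lib.Helper2.normalComplement_or_exists_prime P hPc with
        ⟨N, hN, hNc⟩ | ⟨s, hs, hsp, hsG, F, hF, hmod⟩
      · exfalso
        refine st_no_normal_complement (P : Subgroup G) N hN hNc (by rw [hP]; nlinarith) ?_
        rw [hP, hG]
        intro h
        have h6 : 6 ≤ q * r := by nlinarith
        have h9 : p ^ 2 * 6 ≤ p ^ 2 * (q * r) := Nat.mul_le_mul_left _ h6
        have h10 : p ^ 2 * q * r = p ^ 2 * (q * r) := by ring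
        have h4 : 4 ≤ p ^ 2 := by nlinarith
        omega
      · have hsq : q ≤ s := by
          rcases hdiv s hs hsG with h | h | h <;> omega
        have hFd : Nat.card F ∣ p ^ 2 := by
          rw [← hP]; exact Subgroup.card_subgroup_dvd_card F
        obtain ⟨i, hi, hFi⟩ := (Nat.dvd_prime_pow hp).mp hFd
        rw [hP, hFi] at hmod
        have hi2 : i ≠ 2 := by
          rintro rfl
          apply hF
          apply Subgroup.eq_top_of_card_eq
          rw [hFi, hP]
        have hdvd : s ∣ p ^ 2 - p ^ i :=
          (Nat.modEq_iff_dvd' (Nat.pow_le_pow_right hp.pos hi)).mp hmod.symm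
        have hp1 : ¬ s ∣ p - 1 := by
          intro h
          have := Nat.le_of_dvd (by omega) h
          omega
        interval_cases i
        · -- `s ∣ p^2 - 1`
          have he : p ^ 2 - p ^ 0 = (p - 1) * (p + 1) := by
            obtain ⟨t, rfl⟩ : ∃ t, p = t + 1 := ⟨p - 1, by omega⟩
            apply Nat.sub_eq_of_eq_add
            simp only [Nat.add_sub_cancel, pow_zero]
            ring
          rw [he] at hdvd
          rcases (Nat.Prime.dvd_mul hs).mp hdvd with h | h
          · exact absurd h hp1
          · have h1 := Nat.le_of_dvd (by omega) h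
            have hsp1 : s = p + 1 := by omega
            rcases hp.eq_two_or_odd with h2 | hodd
            · subst h2
              have : q ≤ 3 := by omega
              exact ⟨rfl, by omega⟩
            · exfalso
              rcases hs.eq_two_or_odd with h2 | hodd'
              · omega
              · omega
        · -- `s ∣ p^2 - p`
          exfalso
          have he : p ^ 2 - p ^ 1 = p * (p - 1) := by
            obtain ⟨t, rfl⟩ : ∃ t, p = t + 1 := ⟨p - 1, by omega⟩
            apply Nat.sub_eq_of_eq_add
            simp only [Nat.add_sub_cancel, pow_one]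
            ring
          rw [he] at hdvd
          rcases (Nat.Prime.dvd_mul hs).mp hdvd with h | h
          · exact hsp ((Nat.prime_dvd_prime_iff_eq hs hp).mp h)
          · exact hp1 h
        · exact absurd rfl hi2
    obtain ⟨rfl, rfl⟩ := hp2q
    have hr5 : 5 ≤ r := by
      by_contra hlt
      have : r = 4 := by omega
      subst this
      revert hr; decide
    have hrn : ¬ r ∣ 12 := by
      intro h
      have := Nat.le_of_dvd (by norm_num) h
      have h12 : (12 : ℕ) = 2 ^ 2 * 3 := by norm_num
      rw [h12] at h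
      rcases (Nat.Prime.dvd_mul hr).mp h with h | h
      · have := (Nat.prime_dvd_prime_iff_eq hr Nat.prime_two).mp (hr.dvd_of_dvd_pow h); omega
      · have := (Nat.prime_dvd_prime_iff_eq hr Nat.prime_three).mp h; omega
    have hG' : Nat.card G = r ^ 1 * 12 := by rw [hG]; ring
    obtain ⟨j, hj, -, hjd, -, hR⟩ := st_sylow_data (G := G) r 1 12 hG' hrn (by norm_num) (by norm_num)
    obtain ⟨R⟩ : Nonempty (Sylow r G) := inferInstance
    obtain ⟨hRc, hRn⟩ := hR R
    rw [pow_one] at hRc hRn
    have hle := Nat.le_of_dvd (by norm_num) hjd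
    have hr11 : r ≤ 11 := by nlinarith
    have hj2 : j ≤ 2 := by nlinarith
    interval_cases j
    · interval_cases r
      · rw [hG]; norm_num
      · exfalso; revert hjd; decide
      · exfalso; revert hjd; decide
      · exfalso; revert hjd; decide
      · exfalso; revert hjd; decide
      · exfalso; revert hjd; decide
      · exfalso
        have hN : Nat.card (normalizer ((R : Subgroup G) : Set G)) = 11 * 1 := by omega
        exact st_burnside_prime hnc R hRc 1 hN (by norm_num)
    · exfalso
      interval_cases r <;> revert hjd <;> decide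

/-- A finite simple group of order `p^2 q r` has order `60`. -/
theorem st_p2qr (p q r : ℕ) (hp : p.Prime) (hq : q.Prime) (hr : r.Prime)
    (hG : Nat.card G = p ^ 2 * q * r) : Nat.card G = 60 := by
  have hp2 := hp.two_le
  have hq2 := hq.two_le
  have hr2 := hr.two_le
  have hnp : ¬ (Nat.card G).Prime := by
    rw [hG]
    have : p ^ 2 * q * r = p * (p * q * r) := by ring
    rw [this]
    apply Nat.not_prime_mul (by omega)
    have : 1 < p * q * r := by
      have : 4 ≤ p * q := by nlinarith
      nlinarith
    omega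
  have hnc := st_not_comm hnp
  have hns : ¬ IsSolvable G := by
    intro hs
    apply hnc
    exact ⟨⟨IsSimpleGroup.comm_iff_isSolvable.mpr hs⟩⟩
  have hpq : p ≠ q := by
    rintro rfl
    apply hns
    exact Cfsg.Agent.Lib.Lead.burnside_paqb p r 3 1 hp hr (by rw [hG]; ring)
  have hpr : p ≠ r := by
    rintro rfl
    apply hns
    exact Cfsg.Agent.Lib.Lead.burnside_paqb p q 3 1 hp hq (by rw [hG]; ring)
  have hqr : q ≠ r := by
    rintro rfl
    apply hns
    exact Cfsg.Agent.Lib.Lead.burnside_paqb p q 2 2 hp hq (by rw [hG]; ring)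
  rcases Nat.lt_or_ge q r with h | h
  · exact st_p2qr_aux hnc p q r hp hq hr hpq hpr h hG
  · exact st_p2qr_aux hnc p r q hp hr hq hpr hpq (lt_of_le_of_ne h (Ne.symm hqr)) (by rw [hG]; ring)

end

end Cfsg.Agent.Lib.Helper6
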