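import Cfsg.Agent.Lib.Helper6.Simple168
import Cfsg.Agent.Lib.Helper6.SimpleP2QR
import Cfsg.Agent.Lib.Helper6.Order8
import Cfsg.Agent.Lib.Helper2.Frobenius
import Cfsg.Agent.S0206

set_option autoImplicit false
set_option linter.style.haveILetI false

namespace Cfsg.Agent.Lib.Helper6

open Subgroup

section

variable {G : Type*} [Group G] [Finite G] [IsSimpleGroup G]

/-- Centralizers of non-identity `2`-elements are `2`-groups. -/
theorem s168_centralizer_two (h : Nat.card G = 168) (z : G) (hz1 : z ≠ 1)
    (hz : orderOf z ∣ 2 ^ 3) : Nat.card (centralizer ({z} : Set G)) ∣ 8 := by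
  have hd : Nat.card (centralizer ({z} : Set G)) ∣ 168 := h ▸ Subgroup.card_subgroup_dvd_card _
  have h3 : ¬ 3 ∣ Nat.card (centralizer ({z} : Set G)) := by
    intro hd3
    haveI : Fact (Nat.Prime 3) := ⟨Nat.prime_three⟩
    obtain ⟨g, hg⟩ := exists_prime_orderOf_dvd_card' 3 hd3
    have hg' : orderOf (g : G) = 3 := by rw [Subgroup.orderOf_coe]; exact hg
    have hzc : z ∈ centralizer ({(g : G)} : Set G) := by
      rw [Subgroup.mem_centralizer_singleton_iff]
      have := g.2
      rw [Subgroup.mem_centralizer_singleton_iff] at this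
      exact this.symm
    have h1 : orderOf z ∣ 3 := by
      rw [← s168_centralizer3 h (g : G) hg']
      exact Subgroup.orderOf_dvd_natCard _ hzc
    have h2 : orderOf z ∣ Nat.gcd 3 (2 ^ 3) := Nat.dvd_gcd h1 hz
    have h4 : Nat.gcd 3 (2 ^ 3) = 1 := by decide
    rw [h4, Nat.dvd_one, orderOf_eq_one_iff] at h2
    exact hz1 h2
  have h7 : ¬ 7 ∣ Nat.card (centralizer ({z} : Set G)) := by
    intro hd7
    haveI : Fact (Nat.Prime 7) := ⟨by norm_num⟩
    obtain ⟨g, hg⟩ := exists_prime_orderOf_dvd_card' 7 hd7
    have hg' : orderOf (g : G) = 7 := by rw [Subgroup.orderOf_coe]; exact hg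
    have hzc : z ∈ centralizer ({(g : G)} : Set G) := by
      rw [Subgroup.mem_centralizer_singleton_iff]
      have := g.2
      rw [Subgroup.mem_centralizer_singleton_iff] at this
      exact this.symm
    have h1 : orderOf z ∣ 7 := by
      rw [← s168_centralizer7 h (g : G) hg']
      exact Subgroup.orderOf_dvd_natCard _ hzc
    have h2 : orderOf z ∣ Nat.gcd 7 (2 ^ 3) := Nat.dvd_gcd h1 hz
    have h4 : Nat.gcd 7 (2 ^ 3) = 1 := by decide
    rw [h4, Nat.dvd_one, orderOf_eq_one_iff] at h2
    exact hz1 h2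
  have hcop : Nat.Coprime (Nat.card (centralizer ({z} : Set G))) (3 * 7) := by
    have c3 := Nat.Coprime.symm ((Nat.Prime.coprime_iff_not_dvd Nat.prime_three).mpr h3)
    have c7 := Nat.Coprime.symm ((Nat.Prime.coprime_iff_not_dvd (by norm_num : Nat.Prime 7)).mpr h7)
    exact Nat.Coprime.mul_right c3 c7
  have h168 : Nat.card (centralizer ({z} : Set G)) ∣ 8 * (3 * 7) := by
    norm_num
    exact hd
  exact hcop.dvd_of_dvd_mul_right h168

theorem s168_sylow2_not_comm (h : Nat.card G = 168) (T : Sylow 2 G) :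
    ¬ IsMulCommutative (T : Subgroup G) := by
  intro hc
  haveI : Fact (Nat.Prime 2) := ⟨Nat.prime_two⟩
  apply sy_not_normalizer_le_centralizer (s168_not_comm h) (by rw [h]; norm_num) T
  rw [((s168_sylow2 h).2 T).2]
  intro a ha
  rw [Subgroup.mem_centralizer_iff]
  intro b hb
  exact congrArg Subtype.val (hc.is_comm.comm ⟨b, hb⟩ ⟨a, ha⟩)

theorem s168_mem_sylow2_order (h : Nat.card G = 168) (T : Sylow 2 G) (t : G)
    (ht : t ∈ (T : Subgroup G)) : orderOf t ∣ 2 ^ 3 := by
  have := Subgroup.orderOf_dvd_natCard _ ht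
  rw [((s168_sylow2 h).2 T).1] at this
  exact this

/-- The centralizer of a central non-identity element of a Sylow `2`-subgroup `T` is `T`. -/
theorem s168_central (h : Nat.card G = 168) (T : Sylow 2 G) (z : G) (hz : z ∈ (T : Subgroup G))
    (hz1 : z ≠ 1) (hcen : ∀ t ∈ (T : Subgroup G), t * z = z * t) :
    centralizer ({z} : Set G) = T := by
  symm
  apply Subgroup.eq_of_le_of_card_ge
  · intro t ht
    rw [Subgroup.mem_centralizer_singleton_iff]
    exact hcen t ht
  · rw [((s168_sylow2 h).2 T).1]
    exact Nat.le_of_dvd (by norm_num)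
      (s168_centralizer_two h z hz1 (s168_mem_sylow2_order h T z hz))

/-- Structure of a Sylow `2`-subgroup: it is dihedral with rotation `u`. -/
theorem s168_sylow2_structure (h : Nat.card G = 168) (T : Sylow 2 G) :
    ∃ u ∈ (T : Subgroup G), orderOf u = 4 ∧ (∃ e ∈ (T : Subgroup G), e ∉ zpowers u) ∧
      (∀ e ∈ (T : Subgroup G), e ∉ zpowers u → e * u * e⁻¹ = u⁻¹ ∧ e * e = 1) := by
  obtain ⟨u, huT, hu, hex, hconj, hD | hQ⟩ := o8_subgroup (T : Subgroup G)
    ((s168_sylow2 h).2 T).1 (s168_sylow2_not_comm h T)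
  · exact ⟨u, huT, hu, hex, fun e he hne => ⟨hconj e he hne, hD e he hne⟩⟩
  · exfalso
    have huniq : ∀ t ∈ (T : Subgroup G), orderOf t = 2 → t = u * u := by
      intro t ht ht2
      by_cases hk : t ∈ zpowers u
      · rcases o8_zpowers_four u hu t hk with h' | h' | h' | h'
        · rw [h'] at ht2; simp at ht2
        · rw [h', hu] at ht2; omega
        · exact h'
        · rw [h', orderOf_inv, hu] at ht2; omega
      · exfalso
        have h1 : t * t = 1 := by rw [← pow_two, ← ht2]; exact pow_orderOf_eq_one t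
        have h2 := hQ t ht hk
        rw [h1] at h2
        exact o8_sq_ne_one u hu h2.symm
    have hzT : u * u ∈ (T : Subgroup G) := mul_mem huT huT
    have hzcen : ∀ t ∈ (T : Subgroup G), t * (u * u) = (u * u) * t := by
      intro t ht
      have h1 : orderOf (t * (u * u) * t⁻¹) = 2 := by
        have h' := (MulAut.conj t).orderOf_eq (u * u)
        rw [MulAut.conj_apply] at h'
        rw [h', o8_orderOf_sq u hu]
      have h2 := huniq _ (mul_mem (mul_mem ht hzT) (inv_mem ht)) h1
      calc t * (u * u) = t * (u * u) * t⁻¹ * t := by group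
        _ = u * u * t := by rw [h2]
    have hC := s168_central h T (u * u) hzT (o8_sq_ne_one u hu) hzcen
    haveI : Fact (Nat.Prime 2) := ⟨Nat.prime_two⟩
    have hF : Cfsg.Agent.Lib.Helper2.FrobCond 2 G := by
      apply Cfsg.Agent.Lib.Helper2.frobCond_of_sylow T
      intro Q hQT g hg hgc
      by_cases hQb : Q = ⊥
      · rw [hQb, Subgroup.mem_centralizer_iff]
        intro x hx
        rw [SetLike.mem_coe, Subgroup.mem_bot] at hx
        rw [hx]; simp
      · have h2Q : 2 ∣ Nat.card Q := by
          have hd : Nat.card Q ∣ 2 ^ 3 := by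
            have := Subgroup.card_dvd_of_le hQT
            rw [((s168_sylow2 h).2 T).1] at this; exact this
          obtain ⟨i, hi, hQi⟩ := (Nat.dvd_prime_pow Nat.prime_two).mp hd
          have hi0 : i ≠ 0 := by
            rintro rfl
            exact hQb (Subgroup.card_eq_one.mp (by rw [hQi]; rfl))
          rw [hQi]; exact dvd_pow_self 2 hi0
        obtain ⟨t, ht⟩ := exists_prime_orderOf_dvd_card' 2 h2Q
        have ht' : orderOf (t : G) = 2 := by rw [Subgroup.orderOf_coe]; exact ht
        have htz : (t : G) = u * u := huniq _ (hQT t.2) ht'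
        have hgz : g * (u * u) * g⁻¹ = u * u := by
          have hmem : g * (u * u) * g⁻¹ ∈ Q := by
            rw [← htz]
            exact (Subgroup.mem_normalizer_iff.mp hg (t : G)).mp t.2
          have ho : orderOf (g * (u * u) * g⁻¹) = 2 := by
            have h' := (MulAut.conj g).orderOf_eq (u * u)
            rw [MulAut.conj_apply] at h'
            rw [h', o8_orderOf_sq u hu]
          exact huniq _ (hQT hmem) ho
        have hgC : g ∈ centralizer ({u * u} : Set G) := by
          rw [Subgroup.mem_centralizer_singleton_iff]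
          calc g * (u * u) = g * (u * u) * g⁻¹ * g := by group
            _ = u * u * g := by rw [hgz]
        rw [hC] at hgC
        have hg8 : orderOf g ∣ 2 ^ 3 := s168_mem_sylow2_order h T g hgC
        have hg1 : orderOf g = 1 :=
          Nat.Coprime.eq_one_of_dvd (Nat.Coprime.pow_right 3 hgc) hg8
        rw [orderOf_eq_one_iff.mp hg1]
        exact one_mem _
    obtain ⟨P, N, hN, hNc⟩ := Cfsg.Agent.Lib.Helper2.frobenius hF
    refine st_no_normal_complement (P : Subgroup G) N hN hNc ?_ ?_
    · rw [((s168_sylow2 h).2 P).1]; norm_num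
    · rw [((s168_sylow2 h).2 P).1, h]; norm_num

/-- A Sylow `2`-subgroup of a simple group of order 168 is dihedral of order 8. -/
theorem s168_sylow2_dihedral (h : Nat.card G = 168) (T : Sylow 2 G) :
    Nonempty (↥(T : Subgroup G) ≃* DihedralGroup 4) := by
  obtain ⟨u, huT, hu, ⟨e, heT, hne⟩, hD⟩ := s168_sylow2_structure h T
  obtain ⟨hconj, he2⟩ := hD e heT hne
  have he1 : e ≠ 1 := by rintro rfl; exact hne (one_mem _)
  have hx : orderOf e = 2 := orderOf_eq_prime (by rw [pow_two]; exact he2) he1
  have hyT : e * u ∈ (T : Subgroup G) := mul_mem heT huT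
  have hyne : e * u ∉ zpowers u := by
    intro hmem
    apply hne
    have := mul_mem hmem (inv_mem (mem_zpowers u))
    simpa using this
  have hy2 : (e * u) * (e * u) = 1 := (hD _ hyT hyne).2
  have hy1 : e * u ≠ 1 := by intro h1; exact hyne (h1 ▸ one_mem _)
  have hy : orderOf (e * u) = 2 := orderOf_eq_prime (by rw [pow_two]; exact hy2) hy1
  have hxy : e ≠ e * u := by
    intro h'
    have hu1 : u = 1 := by simpa using h'.symm
    rw [hu1] at hu; simp at hu
  obtain ⟨φ⟩ := Cfsg.Agent.S0206.result e (e * u) hx hy hxy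
  have hprod : e * (e * u) = u := by rw [← mul_assoc, he2, one_mul]
  rw [hprod, hu] at φ
  have hcl : closure ({e, e * u} : Set G) = T := by
    apply Subgroup.eq_of_le_of_card_ge
    · rw [closure_le]
      intro x hx'
      rcases hx' with rfl | rfl
      · exact heT
      · exact hyT
    · rw [((s168_sylow2 h).2 T).1, Nat.card_congr φ.toEquiv, DihedralGroup.nat_card]
  exact ⟨(MulEquiv.subgroupCongr hcl).symm.trans φ⟩

end

end Cfsg.Agent.Lib.Helper6
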