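import Cfsg.Agent.Lib.Helper6.Simple168b

set_option autoImplicit false
set_option linter.style.haveILetI false

namespace Cfsg.Agent.Lib.Helper6

open Subgroup

/-- A conjugacy class contained in a set of no larger cardinality is the whole set. -/
theorem cc_all_conj {G : Type*} [Group G] [Finite G] (P : G → Prop) (x : G)
    (hsub : ∀ g, IsConj x g → P g)
    (hcard : Nat.card {g : G // P g} ≤ Nat.card {g : G // IsConj x g}) :
    ∀ g, P g → IsConj x g := by
  intro g hg
  let ι : {g : G // IsConj x g} → {g : G // P g} := fun y => ⟨y.1, hsub y.1 y.2⟩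
  have hinj : Function.Injective ι := by
    intro a b hab
    apply Subtype.ext
    have h1 : (ι a).1 = (ι b).1 := congrArg Subtype.val hab
    exact h1
  have hbij := Function.Injective.bijective_of_nat_card_le hinj hcard
  obtain ⟨y, hy⟩ := hbij.2 ⟨g, hg⟩
  have : y.1 = g := congrArg Subtype.val hy
  exact this ▸ y.2

theorem cc_card_class_le {G : Type*} [Group G] [Finite G] (P : G → Prop) (x : G)
    (hsub : ∀ g, IsConj x g → P g) :
    Nat.card {g : G // IsConj x g} ≤ Nat.card {g : G // P g} := by
  apply Nat.card_le_card_of_injective (fun y : {g : G // IsConj x g} => (⟨y.1, hsub y.1 y.2⟩ : {g : G // P g}))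
  intro a b hab
  apply Subtype.ext
  have h1 := congrArg (fun z : {g : G // P g} => z.1) hab
  exact h1

section

variable {G : Type*} [Group G] [Finite G] [IsSimpleGroup G]

theorem s168_order4_structure (h : Nat.card G = 168) (T : Sylow 2 G) (v : G)
    (hvT : v ∈ (T : Subgroup G)) (hv : orderOf v = 4) :
    ∀ e ∈ (T : Subgroup G), e ∉ zpowers v → e * v * e⁻¹ = v⁻¹ ∧ e * e = 1 := by
  obtain ⟨u, huT, hu, -, hD⟩ := s168_sylow2_structure h T
  have hvu : v ∈ zpowers u := by
    by_contra hne
    have h2 := (hD v hvT hne).2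
    have : orderOf v ∣ 2 := orderOf_dvd_of_pow_eq_one (by rw [pow_two]; exact h2)
    rw [hv] at this; omega
  rcases o8_zpowers_four u hu v hvu with h' | h' | h' | h'
  · rw [h'] at hv; simp at hv
  · rw [h']; exact hD
  · rw [h', o8_orderOf_sq u hu] at hv; omega
  · intro e he hne
    rw [h'] at hne ⊢
    rw [zpowers_inv] at hne
    obtain ⟨h1, h2⟩ := hD e he hne
    refine ⟨?_, h2⟩
    calc e * u⁻¹ * e⁻¹ = (e * u * e⁻¹)⁻¹ := by group
      _ = u⁻¹⁻¹ := by rw [h1]

theorem s168_exists_sylow2 (v : G) (hv : orderOf v ∣ 2 ^ 3) :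
    ∃ T : Sylow 2 G, v ∈ (T : Subgroup G) := by
  have hp : IsPGroup 2 (zpowers v) := sy_isPGroup_zpowers v 3 (orderOf_dvd_iff_pow_eq_one.mp hv)
  obtain ⟨T, hT⟩ := hp.exists_le_sylow
  exact ⟨T, hT (mem_zpowers v)⟩

/-- Element orders in a simple group of order 168. -/
theorem s168_orders (h : Nat.card G = 168) (g : G) :
    orderOf g = 1 ∨ orderOf g = 2 ∨ orderOf g = 3 ∨ orderOf g = 4 ∨ orderOf g = 7 := by
  rcases s168_order_cases h g with h7 | h3 | h8
  · right; right; right; right; exact h7
  · right; right; left; exact h3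
  · obtain ⟨i, hi, hgi⟩ := (Nat.dvd_prime_pow Nat.prime_two).mp h8
    interval_cases i
    · left; simpa using hgi
    · right; left; simpa using hgi
    · right; right; right; left; rw [hgi]; norm_num
    · exfalso
      obtain ⟨T, hT⟩ := s168_exists_sylow2 g h8
      have hTc := ((s168_sylow2 h).2 T).1
      have hz : zpowers g = T := by
        apply Subgroup.eq_of_le_of_card_ge (zpowers_le.mpr hT)
        rw [Nat.card_zpowers, hgi, hTc]; norm_num
      apply s168_sylow2_not_comm h T
      rw [← hz]
      exact IsCyclic.commutative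

theorem s168_order4_data (h : Nat.card G = 168) (v : G) (hv : orderOf v = 4) :
    Nat.card (centralizer ({v * v} : Set G)) = 8 ∧ Nat.card (centralizer ({v} : Set G)) = 4 := by
  obtain ⟨T, hvT⟩ := s168_exists_sylow2 v (by rw [hv]; norm_num)
  have hS := s168_order4_structure h T v hvT hv
  have hzcen : ∀ t ∈ (T : Subgroup G), t * (v * v) = (v * v) * t := by
    intro t ht
    by_cases hk : t ∈ zpowers v
    · obtain ⟨j, rfl⟩ := Subgroup.mem_zpowers_iff.mp hk
      have : Commute (v ^ j) (v * v) :=
        ((Commute.refl v).zpow_left j).mul_right ((Commute.refl v).zpow_left j)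
      exact this.eq
    · obtain ⟨h1, -⟩ := hS t ht hk
      have h2 : t * (v * v) * t⁻¹ = v * v := by
        calc t * (v * v) * t⁻¹ = (t * v * t⁻¹) * (t * v * t⁻¹) := by group
          _ = v⁻¹ * v⁻¹ := by rw [h1]
          _ = v * v := by
            rw [← mul_inv_rev]; exact inv_eq_of_mul_eq_one_left (o8_sq_sq v hv)
      calc t * (v * v) = t * (v * v) * t⁻¹ * t := by group
        _ = v * v * t := by rw [h2]
  have hC := s168_central h T (v * v) (mul_mem hvT hvT) (o8_sq_ne_one v hv) hzcen
  refine ⟨by rw [hC]; exact ((s168_sylow2 h).2 T).1, ?_⟩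
  have hCv : centralizer ({v} : Set G) = zpowers v := by
    apply le_antisymm
    · intro t ht
      rw [Subgroup.mem_centralizer_singleton_iff] at ht
      have htT : t ∈ (T : Subgroup G) := by
        rw [← hC, Subgroup.mem_centralizer_singleton_iff]
        calc t * (v * v) = (t * v) * v := by group
          _ = (v * t) * v := by rw [ht]
          _ = v * (t * v) := by group
          _ = v * (v * t) := by rw [ht]
          _ = v * v * t := by group
      by_contra hk
      obtain ⟨h1, -⟩ := hS t htT hk
      apply o8_ne_inv v hv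
      calc v = t * v * t⁻¹ := by rw [ht]; group
        _ = v⁻¹ := h1
    · rw [zpowers_le, Subgroup.mem_centralizer_singleton_iff]
  rw [hCv, Nat.card_zpowers, hv]

theorem s168_count (h : Nat.card G = 168) :
    Nat.card {g : G // orderOf g = 2} + Nat.card {g : G // orderOf g = 4} = 63 := by
  classical
  letI : Fintype G := Fintype.ofFinite G
  have hsum := Finset.card_eq_sum_card_fiberwise (s := (Finset.univ : Finset G))
    (t := ({1, 2, 3, 4, 7} : Finset ℕ)) (f := orderOf) (by
    intro g _
    rcases s168_orders h g with h' | h' | h' | h' | h' <;> simp [h'])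
  have hconv : ∀ b : ℕ, (Finset.univ.filter fun g : G => orderOf g = b).card =
      Nat.card {g : G // orderOf g = b} := by
    intro b
    rw [Nat.card_eq_fintype_card, Fintype.card_subtype]
  have h1 : Nat.card {g : G // orderOf g = 1} = 1 := by
    rw [Nat.card_eq_one_iff_unique]
    refine ⟨⟨fun a b => Subtype.ext ?_⟩, ⟨⟨1, orderOf_one⟩⟩⟩
    rw [orderOf_eq_one_iff.mp a.2, orderOf_eq_one_iff.mp b.2]
  rw [Finset.card_univ, ← Nat.card_eq_fintype_card, h, Finset.sum_insert (by decide),
    Finset.sum_insert (by decide), Finset.sum_insert (by decide), Finset.sum_insert (by decide),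
    Finset.sum_singleton, hconv, hconv, hconv, hconv, hconv, h1, s168_card_order3 h,
    s168_card_order7 h] at hsum
  omega

/-- Involutions and elements of order 4 in a simple group of order 168. -/
theorem s168_involutions (h : Nat.card G = 168) :
    Nat.card {g : G // orderOf g = 2} = 21 ∧ Nat.card {g : G // orderOf g = 4} = 42 ∧
    (∀ s t : G, orderOf s = 2 → orderOf t = 2 → IsConj s t) ∧
    (∀ s t : G, orderOf s = 4 → orderOf t = 4 → IsConj s t) := by
  haveI : Fact (Nat.Prime 2) := ⟨Nat.prime_two⟩
  obtain ⟨T⟩ : Nonempty (Sylow 2 G) := inferInstance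
  obtain ⟨v, hvT, hv, -, -⟩ := s168_sylow2_structure h T
  obtain ⟨hC2, hC4⟩ := s168_order4_data h v hv
  have hcl4 := cc_card_class_mul_card_centralizer v
  have hcl2 := cc_card_class_mul_card_centralizer (v * v)
  rw [hC4, h] at hcl4
  rw [hC2, h] at hcl2
  have hsub4 : ∀ g, IsConj v g → orderOf g = 4 := by
    intro g hg
    obtain ⟨c, hc⟩ := isConj_iff.mp hg
    rw [← hc, gl_orderOf_conj, hv]
  have hsub2 : ∀ g, IsConj (v * v) g → orderOf g = 2 := by
    intro g hg
    obtain ⟨c, hc⟩ := isConj_iff.mp hg
    rw [← hc, gl_orderOf_conj, o8_orderOf_sq v hv]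
  have hle4 := cc_card_class_le (fun g => orderOf g = 4) v hsub4
  have hle2 := cc_card_class_le (fun g => orderOf g = 2) (v * v) hsub2
  have hcount := s168_count h
  have h42 : Nat.card {g : G // IsConj v g} = 42 := by omega
  have h21 : Nat.card {g : G // IsConj (v * v) g} = 21 := by omega
  have hN2 : Nat.card {g : G // orderOf g = 2} = 21 := by omega
  have hN4 : Nat.card {g : G // orderOf g = 4} = 42 := by omega
  refine ⟨hN2, hN4, ?_, ?_⟩
  · intro s t hs ht
    have h1 := cc_all_conj (fun g => orderOf g = 2) (v * v) hsub2 (by rw [hN2, h21]) s hs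
    have h2 := cc_all_conj (fun g => orderOf g = 2) (v * v) hsub2 (by rw [hN2, h21]) t ht
    exact h1.symm.trans h2
  · intro s t hs ht
    have h1 := cc_all_conj (fun g => orderOf g = 4) v hsub4 (by rw [hN4, h42]) s hs
    have h2 := cc_all_conj (fun g => orderOf g = 4) v hsub4 (by rw [hN4, h42]) t ht
    exact h1.symm.trans h2

theorem s168_order3_conj (h : Nat.card G = 168) (s t : G) (hs : orderOf s = 3)
    (ht : orderOf t = 3) : IsConj s t := by
  have hcl := cc_card_class_mul_card_centralizer s
  rw [s168_centralizer3 h s hs, h] at hcl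
  have hsub : ∀ g, IsConj s g → orderOf g = 3 := by
    intro g hg
    obtain ⟨c, hc⟩ := isConj_iff.mp hg
    rw [← hc, gl_orderOf_conj, hs]
  have h56 : Nat.card {g : G // IsConj s g} = 56 := by omega
  exact cc_all_conj (fun g => orderOf g = 3) s hsub (by rw [s168_card_order3 h, h56]) t ht

theorem s168_order7_class (h : Nat.card G = 168) (x : G) (hx : orderOf x = 7) :
    Nat.card {g : G // IsConj x g} = 24 := by
  have hcl := cc_card_class_mul_card_centralizer x
  rw [s168_centralizer7 h x hx, h] at hcl
  omega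

theorem s168_order7_not_conj_inv (h : Nat.card G = 168) (x : G) (hx : orderOf x = 7) :
    ¬ IsConj x x⁻¹ := by
  intro hc
  obtain ⟨g, hg⟩ := isConj_iff.mp hc
  haveI : Fact (Nat.Prime 7) := ⟨by norm_num⟩
  have hp : IsPGroup 7 (zpowers x) :=
    sy_isPGroup_zpowers x 1 (by rw [pow_one, ← hx]; exact pow_orderOf_eq_one x)
  obtain ⟨P, hP⟩ := hp.exists_le_sylow
  obtain ⟨hPc, hNc⟩ := (s168_sylow7 h).2 P
  have hPz : zpowers x = P := by
    apply Subgroup.eq_of_le_of_card_ge hP
    rw [Nat.card_zpowers, hx, hPc]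
  have hgN : g ∈ normalizer ((P : Subgroup G) : Set G) := by
    apply sy_mem_normalizer_of_conj_le
    intro y hy
    rw [← hPz] at hy ⊢
    obtain ⟨k, rfl⟩ := Subgroup.mem_zpowers_iff.mp hy
    rw [fp_conj_zpow, hg]
    exact zpow_mem (inv_mem (mem_zpowers x)) k
  have hodd : orderOf g ∣ 21 := by
    have := Subgroup.orderOf_dvd_natCard _ hgN
    rw [hNc] at this; exact this
  have h21 : g ^ 21 = 1 := orderOf_dvd_iff_pow_eq_one.mp hodd
  have e1 : g * x = x⁻¹ * g := by
    calc g * x = g * x * g⁻¹ * g := by group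
      _ = x⁻¹ * g := by rw [hg]
  have e2 : g * x⁻¹ = x * g := by
    calc g * x⁻¹ = (g * x * g⁻¹)⁻¹ * g := by group
      _ = x * g := by rw [hg, inv_inv]
  have hg2 : Commute (g * g) x := by
    show g * g * x = x * (g * g)
    calc g * g * x = g * (g * x) := by group
      _ = g * (x⁻¹ * g) := by rw [e1]
      _ = (g * x⁻¹) * g := by group
      _ = x * g * g := by rw [e2]
      _ = x * (g * g) := by group
  have hg22 : (g * g) ^ 11 = g := by
    have : (g * g) ^ 11 = g ^ 21 * g := by rw [← pow_two, ← pow_mul, ← pow_succ]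
    rw [this, h21, one_mul]
  have hgx : Commute g x := by
    have := hg2.pow_left 11
    rwa [hg22] at this
  have hxx : x = x⁻¹ := by
    calc x = g * x * g⁻¹ := by rw [hgx.eq]; group
      _ = x⁻¹ := hg
  have hx2 : x * x = 1 := by
    calc x * x = x * x⁻¹ := by rw [← hxx]
      _ = 1 := mul_inv_cancel x
  have : orderOf x ∣ 2 := orderOf_dvd_of_pow_eq_one (by rw [pow_two]; exact hx2)
  rw [hx] at this; omega

end

end Cfsg.Agent.Lib.Helper6
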