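import Cfsg.Agent.Lib.Helper6.SimpleTools

set_option autoImplicit false
set_option linter.style.haveILetI false

namespace Cfsg.Agent.Lib.Helper6

open Subgroup

theorem gl_le_normalizer_of_comm {G : Type*} [Group G] {A D : Subgroup G}
    (hA : ∀ x ∈ A, ∀ y ∈ A, x * y = y * x) (hD : D ≤ A) : A ≤ normalizer (D : Set G) := by
  refine le_trans ?_ (Subgroup.centralizer_le_normalizer (D : Set G))
  intro a ha
  rw [Subgroup.mem_centralizer_iff]
  intro d hd
  exact hA d (hD hd) a ha

section

variable {G : Type*} [Group G] [Finite G] [IsSimpleGroup G]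

/-- Two distinct Sylow `p`-subgroups inside a proper subgroup `M` of a simple group of order
`p^k m`: the index `i` of `M` satisfies `i (p+1) ≤ m` and `|G|` divides `i!`. -/
theorem st_two_sylows {p : ℕ} [Fact p.Prime] (k m : ℕ) (hG : Nat.card G = p ^ k * m)
    (hm : ¬ p ∣ m) (P R : Sylow p G) (hPR : P ≠ R) (M : Subgroup G)
    (hPM : (P : Subgroup G) ≤ M) (hRM : (R : Subgroup G) ≤ M) (hM : M ≠ ⊤) :
    ∃ i, i * (p + 1) ≤ m ∧ Nat.card G ∣ i.factorial := by
  have hp : p.Prime := Fact.out
  refine ⟨M.index, ?_, st_card_dvd_factorial_index M hM⟩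
  have hne : P.subtype hPM ≠ R.subtype hRM := by
    intro h
    apply hPR
    apply Sylow.ext
    have h1 : (P : Subgroup G).subgroupOf M = (R : Subgroup G).subgroupOf M := by
      have := congrArg (fun S : Sylow p M => (S : Subgroup M)) h
      simpa [Sylow.coe_subtype] using this
    rw [Subgroup.subgroupOf_inj, inf_eq_left.mpr hPM, inf_eq_left.mpr hRM] at h1
    exact h1
  have hnt : 1 < Nat.card (Sylow p M) :=
    Finite.one_lt_card_iff_nontrivial.mpr ⟨⟨_, _, hne⟩⟩
  have hmod := card_sylow_modEq_one p M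
  have hge : p + 1 ≤ Nat.card (Sylow p M) := by
    have h2 := Nat.div_add_mod (Nat.card (Sylow p M)) p
    unfold Nat.ModEq at hmod
    rw [Nat.mod_eq_of_lt hp.one_lt] at hmod
    rw [hmod] at h2
    have h3 : 0 < Nat.card (Sylow p M) / p := by
      by_contra h0
      have h00 : Nat.card (Sylow p M) / p = 0 := Nat.eq_zero_of_not_pos h0
      rw [h00, mul_zero] at h2
      omega
    have h4 : p * 1 ≤ p * (Nat.card (Sylow p M) / p) := Nat.mul_le_mul_left p h3
    omega
  have hdvd := Sylow.card_dvd_index (P.subtype hPM)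
  have hidx := ((P.subtype hPM : Sylow p M) : Subgroup M).index_mul_card
  have hPc : Nat.card ((P.subtype hPM : Sylow p M) : Subgroup M) = p ^ k := by
    rw [Sylow.coe_subtype, sy_card_subgroupOf, inf_eq_left.mpr hPM]
    exact sy_card_eq P k m hG hm
  rw [hPc] at hidx
  have hM2 := M.index_mul_card
  rw [hG, ← hidx] at hM2
  have hpos : 0 < ((P.subtype hPM : Sylow p M) : Subgroup M).index := by
    rcases Nat.eq_zero_or_pos ((P.subtype hPM : Sylow p M) : Subgroup M).index with h0 | h0
    · rw [h0, zero_mul] at hidx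
      have : 0 < Nat.card M := Nat.card_pos
      omega
    · exact h0
  have hle : Nat.card (Sylow p M) ≤ ((P.subtype hPM : Sylow p M) : Subgroup M).index :=
    Nat.le_of_dvd hpos hdvd
  have h5 : M.index * ((P.subtype hPM : Sylow p M) : Subgroup M).index = m := by
    have h6 : p ^ k * (M.index * ((P.subtype hPM : Sylow p M) : Subgroup M).index) = p ^ k * m := by
      rw [← hM2]; ring
    exact Nat.eq_of_mul_eq_mul_left (pow_pos hp.pos k) h6
  calc M.index * (p + 1) ≤ M.index * ((P.subtype hPM : Sylow p M) : Subgroup M).index :=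
        Nat.mul_le_mul_left _ (hge.trans hle)
    _ = m := h5

/-- A nontrivial proper subgroup of a simple group has a proper normalizer. -/
theorem st_normalizer_ne_top (D : Subgroup G) (h1 : D ≠ ⊥) (h2 : D ≠ ⊤) :
    normalizer (D : Set G) ≠ ⊤ := by
  intro h
  have hDn : D.Normal := Subgroup.normalizer_eq_top_iff.mp h
  rcases hDn.eq_bot_or_eq_top with h | h
  · exact h1 h
  · exact h2 h

end

end Cfsg.Agent.Lib.Helper6
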