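import Cfsg.Agent.Lib.Helper6.SimpleTools2

set_option autoImplicit false
set_option linter.style.haveILetI false

namespace Cfsg.Agent.Lib.Helper6

open Subgroup

theorem st_centralizer_singleton_eq {G : Type*} [Group G] [Finite G] {p : ℕ} (hp : p.Prime)
    (H : Subgroup G) (hH : Nat.card H = p) (x : G) (hx : x ∈ H) (hx1 : x ≠ 1) :
    centralizer ({x} : Set G) = centralizer (H : Set G) := by
  ext c
  rw [Subgroup.mem_centralizer_singleton_iff, Subgroup.mem_centralizer_iff]
  constructor
  · intro hc h hh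
    rw [← sc_zpowers_eq hp H hH x hx hx1] at hh
    obtain ⟨k, rfl⟩ := Subgroup.mem_zpowers_iff.mp hh
    exact ((Commute.zpow_right (show Commute c x from hc) k)).eq.symm
  · intro hc
    exact (hc x hx).symm

section

variable {G : Type*} [Group G] [Finite G] [IsSimpleGroup G]

theorem st_centralizer_card_prime {p r : ℕ} [Fact p.Prime] (hr : r.Prime)
    (hG : ¬ IsMulCommutative G) (P : Sylow p G) (hP : Nat.card (P : Subgroup G) = p)
    (hN : Nat.card (normalizer ((P : Subgroup G) : Set G)) = p * r) :
    Nat.card (centralizer ((P : Subgroup G) : Set G)) = p := by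
  have hp : p.Prime := Fact.out
  have hpG : p ∣ Nat.card G := by
    rw [← hP]; exact Subgroup.card_subgroup_dvd_card _
  have hNC := sy_not_normalizer_le_centralizer hG hpG P
  have hcommI := sy_comm_of_prime_card (P : Subgroup G) hP
  have hPC : (P : Subgroup G) ≤ centralizer ((P : Subgroup G) : Set G) := by
    intro a ha
    rw [Subgroup.mem_centralizer_iff]
    intro b hb
    exact congrArg Subtype.val (hcommI.is_comm.comm ⟨b, hb⟩ ⟨a, ha⟩)
  have hCN : centralizer ((P : Subgroup G) : Set G) ≤ normalizer ((P : Subgroup G) : Set G) :=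
    Subgroup.centralizer_le_normalizer _
  have h1 : p ∣ Nat.card (centralizer ((P : Subgroup G) : Set G)) := by
    have := Subgroup.card_dvd_of_le hPC
    rwa [hP] at this
  have h2 : Nat.card (centralizer ((P : Subgroup G) : Set G)) ∣ p * r := by
    have := Subgroup.card_dvd_of_le hCN
    rwa [hN] at this
  obtain ⟨c, hc⟩ := h1
  rw [hc] at h2
  have h3 : c ∣ r := Nat.dvd_of_mul_dvd_mul_left hp.pos h2
  rcases (Nat.dvd_prime hr).mp h3 with h | h
  · rw [hc, h, mul_one]
  · exfalso
    apply hNC
    have h4 : centralizer ((P : Subgroup G) : Set G) = normalizer ((P : Subgroup G) : Set G) :=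
      Subgroup.eq_of_le_of_card_ge hCN (by rw [hN, hc, h])
    rw [h4]

theorem st_centralizer_singleton_card {p r : ℕ} [Fact p.Prime] (hr : r.Prime)
    (hG : ¬ IsMulCommutative G)
    (hall : ∀ P : Sylow p G, Nat.card (P : Subgroup G) = p ∧
      Nat.card (normalizer ((P : Subgroup G) : Set G)) = p * r)
    (x : G) (hx : orderOf x = p) : Nat.card (centralizer ({x} : Set G)) = p := by
  have hp : p.Prime := Fact.out
  have hxp : IsPGroup p (zpowers x) :=
    sy_isPGroup_zpowers x 1 (by rw [pow_one, ← hx, pow_orderOf_eq_one])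
  obtain ⟨P, hP⟩ := hxp.exists_le_sylow
  have hx1 : x ≠ 1 := by
    intro h
    rw [h, orderOf_one] at hx
    exact hp.ne_one hx.symm
  rw [st_centralizer_singleton_eq hp (P : Subgroup G) (hall P).1 x (hP (mem_zpowers x)) hx1]
  exact st_centralizer_card_prime hr hG P (hall P).1 (hall P).2

end

theorem st_order_eq_of_dvd {G : Type*} [Group G] [Finite G] {p : ℕ} (hp : p.Prime)
    (hC : ∀ x : G, orderOf x = p → Nat.card (centralizer ({x} : Set G)) = p) (g : G)
    (h : p ∣ orderOf g) : orderOf g = p := by
  have h0 : orderOf g ≠ 0 := (orderOf_pos g).ne'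
  have h1 := orderOf_pow_orderOf_div h0 h
  have h2 : g ∈ centralizer ({g ^ (orderOf g / p)} : Set G) := by
    rw [Subgroup.mem_centralizer_singleton_iff]
    exact ((Commute.pow_right (Commute.refl g) _)).eq
  have h3 := Subgroup.orderOf_dvd_natCard _ h2
  rw [hC _ h1] at h3
  exact Nat.dvd_antisymm h3 h

/-- The elements of `2`-power order lie in the union of the Sylow `2`-subgroups. -/
theorem st_card_pelements_le {G : Type*} [Group G] [Finite G] (p k : ℕ) [Fact p.Prime] (c : ℕ)
    (hc : ∀ P : Sylow p G, Nat.card (P : Subgroup G) = c) :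
    Nat.card {g : G // orderOf g ∣ p ^ k} ≤ Nat.card (Sylow p G) * c := by
  classical
  letI : Fintype (Sylow p G) := Fintype.ofFinite _
  have hex : ∀ g : {g : G // orderOf g ∣ p ^ k}, ∃ P : Sylow p G, g.1 ∈ (P : Subgroup G) := by
    intro g
    have : IsPGroup p (zpowers g.1) :=
      sy_isPGroup_zpowers g.1 k (orderOf_dvd_iff_pow_eq_one.mp g.2)
    obtain ⟨P, hP'⟩ := this.exists_le_sylow
    exact ⟨P, hP' (mem_zpowers _)⟩
  have h1 : Nat.card {g : G // orderOf g ∣ p ^ k} ≤ Nat.card (Σ P : Sylow p G, (P : Subgroup G)) := by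
    apply Nat.card_le_card_of_injective
      (fun g => (⟨Classical.choose (hex g), ⟨g.1, Classical.choose_spec (hex g)⟩⟩ :
        Σ P : Sylow p G, (P : Subgroup G)))
    intro a b hab
    apply Subtype.ext
    have h2 := congrArg (fun s : (Σ P : Sylow p G, (P : Subgroup G)) => (s.2 : G)) hab
    exact h2
  rw [Nat.card_sigma] at h1
  simp only [hc, Finset.sum_const, Finset.card_univ, smul_eq_mul, ← Nat.card_eq_fintype_card] at h1
  exact h1

end Cfsg.Agent.Lib.Helper6
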