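import Cfsg.Agent.Lib.Helper6.SpecialR1
import Mathlib.GroupTheory.Abelianization.Defs

set_option autoImplicit false
set_option linter.style.haveILetI false
set_option linter.unusedVariables false
set_option linter.unusedSimpArgs false

namespace Cfsg.Agent.Lib.Helper6

open Cfsg
open scoped commutatorElement

variable {G : Type*} [Group G]

/-- `f (b(a)) = f(a)⁻¹` for a homomorphism to a commutative group. -/
theorem sp_f1 {A B : Subgroup G} (hs : IsSpecialRankOnePair A B) {Q : Type*} [CommGroup Q]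
    (f : ↥(A ⊔ B) →* Q) {a b : G} (hR : R1Rel A B a b) :
    f ⟨b, Subgroup.mem_sup_right hR.2.2.1⟩ = (f ⟨a, Subgroup.mem_sup_left hR.1⟩)⁻¹ := by
  obtain ⟨-, -, -, hw⟩ := sr_weyl hs hR
  have e : ((⟨a, Subgroup.mem_sup_left hR.1⟩ : ↥(A ⊔ B)) *
      (⟨b, Subgroup.mem_sup_right hR.2.2.1⟩ : ↥(A ⊔ B))⁻¹ * ⟨a, Subgroup.mem_sup_left hR.1⟩)⁻¹ *
      ⟨a, Subgroup.mem_sup_left hR.1⟩ * (⟨a, Subgroup.mem_sup_left hR.1⟩ *
      (⟨b, Subgroup.mem_sup_right hR.2.2.1⟩ : ↥(A ⊔ B))⁻¹ * ⟨a, Subgroup.mem_sup_left hR.1⟩) =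
      (⟨b, Subgroup.mem_sup_right hR.2.2.1⟩ : ↥(A ⊔ B))⁻¹ := Subtype.ext hw
  have e2 := congrArg f e
  simp only [map_mul, map_inv] at e2
  rw [inv_mul_cancel_comm] at e2
  rw [e2, inv_inv]

theorem sp_alg {Q : Type*} [CommGroup Q] {α ξ β δ η β₂ : Q} (h1 : β = α⁻¹) (h2 : δ = ξ⁻¹)
    (h3 : δ * β⁻¹ = η⁻¹) (h4 : β₂ = (η * α)⁻¹) (h5 : ξ = β₂ * β⁻¹) : ξ * ξ = α := by
  subst h1 h2
  rw [inv_inv] at h3 h5
  rw [h4, mul_inv, inv_mul_cancel_right, ← h3] at h5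
  exact eq_inv_mul_iff_mul_eq.mp h5

/-- Modulo the commutator subgroup, `x² = a` for different non-identity `a, x ∈ A`. -/
theorem sp_sq {A B : Subgroup G} (hs : IsSpecialRankOnePair A B) {Q : Type*} [CommGroup Q]
    (f : ↥(A ⊔ B) →* Q) {a x : G} (ha : a ∈ A) (ha1 : a ≠ 1) (hx : x ∈ A) (hx1 : x ≠ 1)
    (hxa : x ≠ a) :
    f ⟨x, Subgroup.mem_sup_left hx⟩ * f ⟨x, Subgroup.mem_sup_left hx⟩ =
      f ⟨a, Subgroup.mem_sup_left ha⟩ := by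
  have h := hs.1
  obtain ⟨b, hR⟩ := sr_exists_right h ha ha1
  obtain ⟨d, hX⟩ := sr_exists_right h hx hx1
  have hdb : d * b⁻¹ ≠ 1 := by
    intro h'
    have hdb' : d = b := mul_inv_eq_one.mp h'
    rw [hdb'] at hX
    exact hxa (sr_unique_left h hX hR)
  have hdbB : d * b⁻¹ ∈ B := mul_mem hX.2.2.1 (inv_mem hR.2.2.1)
  obtain ⟨y₁, hY⟩ := sr_exists_left h hdbB hdb
  obtain ⟨hne, hform⟩ := sr_formula hs hR hX hY
  have hyA : y₁ * a ∈ A := mul_mem hY.1 ha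
  obtain ⟨b₂, hB₂⟩ := sr_exists_right h hyA hne
  have hF := hform b₂ hB₂
  have h1 := sp_f1 hs f hR
  have h2 := sp_f1 hs f hX
  have h3 := sp_f1 hs f hY
  have h4 := sp_f1 hs f hB₂
  have e3 : f ⟨d * b⁻¹, Subgroup.mem_sup_right hY.2.2.1⟩ =
      f ⟨d, Subgroup.mem_sup_right hX.2.2.1⟩ * (f ⟨b, Subgroup.mem_sup_right hR.2.2.1⟩)⁻¹ := by
    rw [← map_inv, ← map_mul]; rfl
  have e4 : f ⟨y₁ * a, Subgroup.mem_sup_left hB₂.1⟩ =
      f ⟨y₁, Subgroup.mem_sup_left hY.1⟩ * f ⟨a, Subgroup.mem_sup_left hR.1⟩ := by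
    rw [← map_mul]; rfl
  have e5 : f ⟨x, Subgroup.mem_sup_left hX.1⟩ =
      f ⟨b₂, Subgroup.mem_sup_right hB₂.2.2.1⟩ * (f ⟨b, Subgroup.mem_sup_right hR.2.2.1⟩)⁻¹ := by
    have e : ((⟨a, Subgroup.mem_sup_left hR.1⟩ : ↥(A ⊔ B)) *
        (⟨b, Subgroup.mem_sup_right hR.2.2.1⟩ : ↥(A ⊔ B))⁻¹ * ⟨a, Subgroup.mem_sup_left hR.1⟩)⁻¹ *
        ⟨x, Subgroup.mem_sup_left hX.1⟩ * (⟨a, Subgroup.mem_sup_left hR.1⟩ *
        (⟨b, Subgroup.mem_sup_right hR.2.2.1⟩ : ↥(A ⊔ B))⁻¹ * ⟨a, Subgroup.mem_sup_left hR.1⟩) =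
        ⟨b₂, Subgroup.mem_sup_right hB₂.2.2.1⟩ *
          (⟨b, Subgroup.mem_sup_right hR.2.2.1⟩ : ↥(A ⊔ B))⁻¹ := Subtype.ext hF
    have e2 := congrArg f e
    simp only [map_mul, map_inv] at e2
    rw [inv_mul_cancel_comm] at e2
    exact e2
  rw [e3] at h3
  rw [e4] at h4
  exact sp_alg h1 h2 h3 h4 e5

theorem sp_exists_ne {s : Set G} (h : 3 < s.encard) (u v w : G) :
    ∃ x ∈ s, x ≠ u ∧ x ≠ v ∧ x ≠ w := by
  by_contra hc
  push_neg at hc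
  have hsub : s ⊆ {u, v, w} := by
    intro x hx
    by_cases h1 : x = u
    · exact Or.inl h1
    by_cases h2 : x = v
    · exact Or.inr (Or.inl h2)
    exact Or.inr (Or.inr (hc x hx h1 h2))
  have h1 := Set.encard_le_encard hsub
  have h2 : ({u, v, w} : Set G).encard ≤ 3 := by
    calc ({u, v, w} : Set G).encard ≤ ({v, w} : Set G).encard + 1 := Set.encard_insert_le _ _
      _ ≤ (({w} : Set G).encard + 1) + 1 := add_le_add (Set.encard_insert_le _ _) le_rfl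
      _ = 3 := by rw [Set.encard_singleton]; norm_num
  exact absurd (h1.trans h2) (not_le.mpr h)

/-- A special rank one group whose unipotent subgroups have more than three elements is perfect:
`A ≤ ⟨A, B⟩'`. -/
theorem sp_perfect {A B : Subgroup G} (hs : IsSpecialRankOnePair A B) (hcard : 3 < ENat.card A) :
    A ≤ ⁅A ⊔ B, A ⊔ B⁆ := by
  intro a ha
  by_cases ha1 : a = 1
  · rw [ha1]; exact one_mem _
  have hc : 3 < (A : Set G).encard := hcard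
  obtain ⟨x₁, hx₁, hx₁1, hx₁a, -⟩ := sp_exists_ne hc 1 a a
  obtain ⟨x₂, hx₂, hx₂1, hx₂a, hx₂x⟩ := sp_exists_ne hc 1 a x₁
  have e1 := sp_sq hs (Abelianization.of (G := ↥(A ⊔ B))) ha ha1 hx₁ hx₁1 hx₁a
  have e2 := sp_sq hs (Abelianization.of (G := ↥(A ⊔ B))) hx₁ hx₁1 ha ha1 (Ne.symm hx₁a)
  have e3 := sp_sq hs (Abelianization.of (G := ↥(A ⊔ B))) hx₂ hx₂1 ha ha1 (Ne.symm hx₂a)
  have e4 := sp_sq hs (Abelianization.of (G := ↥(A ⊔ B))) hx₂ hx₂1 hx₁ hx₁1 (Ne.symm hx₂x)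
  have h12 := e2.symm.trans e3
  rw [← h12] at e4
  have h1 : Abelianization.of (G := ↥(A ⊔ B)) ⟨x₁, Subgroup.mem_sup_left hx₁⟩ = 1 := by
    simpa using e4
  rw [h1, mul_one] at e1
  have hk : (⟨a, Subgroup.mem_sup_left ha⟩ : ↥(A ⊔ B)) ∈ commutator ↥(A ⊔ B) := by
    rw [← Abelianization.ker_of, MonoidHom.mem_ker]; exact e1.symm
  have := Subgroup.mem_map_of_mem (A ⊔ B).subtype hk
  rw [Subgroup.map_subtype_commutator] at this
  exact this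

end Cfsg.Agent.Lib.Helper6
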