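import Mathlib
import Cfsg.Prelude
import Cfsg.Agent.Lib.Helper6.ConjBy

set_option autoImplicit false

namespace Cfsg.Agent.Lib.Helper6

open Cfsg

section
variable {k : Type*} [Field k] {M : Type*} [AddCommGroup M] [Module k M]

/-- endomorphisms shifting a chain of subspaces by `j` steps -/
def shiftBy (F : ℕ → Submodule k M) (j : ℕ) : Submodule k (M →ₗ[k] M) where
  carrier := {x | ∀ i, ∀ v ∈ F i, x v ∈ F (i + j)}
  add_mem' := by
    intro x y hx hy i v hv
    rw [LinearMap.add_apply]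
    exact add_mem (hx i v hv) (hy i v hv)
  zero_mem' := by
    intro i v _
    rw [LinearMap.zero_apply]
    exact zero_mem _
  smul_mem' := by
    intro c x hx i v hv
    rw [LinearMap.smul_apply]
    exact (F (i + j)).smul_mem c (hx i v hv)

theorem mem_shiftBy {F : ℕ → Submodule k M} {j : ℕ} {x : M →ₗ[k] M} :
    x ∈ shiftBy F j ↔ ∀ i, ∀ v ∈ F i, x v ∈ F (i + j) := Iff.rfl

theorem shift_mul {F : ℕ → Submodule k M} {i j : ℕ} {x y : M →ₗ[k] M}
    (hx : x ∈ shiftBy F i) (hy : y ∈ shiftBy F j) : x * y ∈ shiftBy F (i + j) := by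
  intro l v hv
  have h1 := hy l v hv
  have h2 := hx (l + j) (y v) h1
  have e : l + j + i = l + (i + j) := by omega
  rw [e] at h2
  exact h2

theorem shift_anti {F : ℕ → Submodule k M} (hF : ∀ i, F (i + 1) ≤ F i) {j j' : ℕ} (h : j ≤ j') :
    shiftBy F j' ≤ shiftBy F j := by
  intro x hx i v hv
  have hanti : Antitone F := antitone_nat_of_succ_le hF
  exact hanti (by omega : i + j ≤ i + j') (hx i v hv)

theorem shift_eq_zero {F : ℕ → Submodule k M} {n : ℕ} (h0 : F 0 = ⊤) (hn : F n = ⊥) {x : M →ₗ[k] M}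
    (hx : x ∈ shiftBy F n) : x = 0 := by
  ext v
  have := hx 0 v (by rw [h0]; trivial)
  rw [zero_add, hn] at this
  simpa using this

theorem one_mem_shift_zero (F : ℕ → Submodule k M) : (1 : M →ₗ[k] M) ∈ shiftBy F 0 := by
  intro i v hv; simpa using hv

/-- the group of all invertible maps acting trivially on the factors of the chain -/
def fuGroup (F : ℕ → Submodule k M) (hF : ∀ i, F (i + 1) ≤ F i) :
    Subgroup (LinearMap.GeneralLinearGroup k M) where
  carrier := {g | (g : M →ₗ[k] M) - 1 ∈ shiftBy F 1 ∧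
    ((g⁻¹ : LinearMap.GeneralLinearGroup k M) : M →ₗ[k] M) - 1 ∈ shiftBy F 1}
  mul_mem' := by
    rintro g h ⟨hg, hg'⟩ ⟨hh, hh'⟩
    have key : ∀ a b : M →ₗ[k] M, a - 1 ∈ shiftBy F 1 → b - 1 ∈ shiftBy F 1 →
        a * b - 1 ∈ shiftBy F 1 := by
      intro a b ha hb
      have e : a * b - 1 = (a - 1) * (b - 1) + (a - 1) + (b - 1) := by noncomm_ring
      rw [e]
      exact add_mem (add_mem (shift_anti hF (by norm_num) (shift_mul ha hb)) ha) hb
    refine ⟨?_, ?_⟩
    · rw [Units.val_mul]; exact key _ _ hg hh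
    · rw [mul_inv_rev, Units.val_mul]; exact key _ _ hh' hg'
  one_mem' := by
    refine ⟨?_, ?_⟩
    · rw [Units.val_one, sub_self]; exact zero_mem _
    · rw [inv_one, Units.val_one, sub_self]; exact zero_mem _
  inv_mem' := by
    rintro g ⟨hg, hg'⟩
    refine ⟨hg', ?_⟩
    rw [inv_inv]; exact hg

theorem mem_fuGroup {F : ℕ → Submodule k M} {hF : ∀ i, F (i + 1) ≤ F i}
    {g : LinearMap.GeneralLinearGroup k M} : g ∈ fuGroup F hF ↔
      (g : M →ₗ[k] M) - 1 ∈ shiftBy F 1 ∧
        ((g⁻¹ : LinearMap.GeneralLinearGroup k M) : M →ₗ[k] M) - 1 ∈ shiftBy F 1 := Iff.rfl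

theorem le_fuGroup_of {F : ℕ → Submodule k M} {hF : ∀ i, F (i + 1) ≤ F i}
    {A : Subgroup (LinearMap.GeneralLinearGroup k M)}
    (h : ∀ a ∈ A, (a : M →ₗ[k] M) - 1 ∈ shiftBy F 1) : A ≤ fuGroup F hF :=
  fun a ha => ⟨h a ha, h a⁻¹ (inv_mem ha)⟩

/-- the product of the maps `g - 1` along a list -/
def dprod (l : List (LinearMap.GeneralLinearGroup k M)) : M →ₗ[k] M :=
  (l.map (fun g : LinearMap.GeneralLinearGroup k M => (g.val - 1 : M →ₗ[k] M))).prod

theorem dprod_nil : dprod ([] : List (LinearMap.GeneralLinearGroup k M)) = 1 := rfl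

theorem dprod_cons (g : LinearMap.GeneralLinearGroup k M) (l : List (LinearMap.GeneralLinearGroup k M)) :
    dprod (g :: l) = (g.val - 1) * dprod l := by
  unfold dprod; rw [List.map_cons, List.prod_cons]

theorem dprod_append (l₁ l₂ : List (LinearMap.GeneralLinearGroup k M)) :
    dprod (l₁ ++ l₂) = dprod l₁ * dprod l₂ := by
  unfold dprod; rw [List.map_append, List.prod_append]

theorem dprod_bridge (l : List (LinearMap.GeneralLinearGroup k M)) :
    (l.map fun g => (g : M →ₗ[k] M) - 1) =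
      l.map (fun g : LinearMap.GeneralLinearGroup k M => (g.val - 1 : M →ₗ[k] M)) := by
  simp only [List.pure_def, List.bind_eq_flatMap]
  induction l with
  | nil => rfl
  | cons g l ih => simp only [List.flatMap_cons, List.map_cons, List.singleton_append, ih]

theorem unip_iff (H : Subgroup (LinearMap.GeneralLinearGroup k M)) : IsUnipotentOn H ↔
    ∃ n : ℕ, ∀ l : List (LinearMap.GeneralLinearGroup k M), (∀ g ∈ l, g ∈ H) → l.length = n →
      dprod l = 0 := by
  unfold IsUnipotentOn dprod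
  simp only [dprod_bridge]

/-- the canonical commutator chain of a group of linear maps -/
def cflag (H : Subgroup (LinearMap.GeneralLinearGroup k M)) (i : ℕ) : Submodule k M :=
  ⨆ (l : List (LinearMap.GeneralLinearGroup k M)) (_ : (∀ g ∈ l, g ∈ H) ∧ l.length = i),
    LinearMap.range (dprod l)

theorem cflag_zero (H : Subgroup (LinearMap.GeneralLinearGroup k M)) : cflag H 0 = ⊤ := by
  apply top_unique
  have h : LinearMap.range
      (dprod ([] : List (LinearMap.GeneralLinearGroup k M))) ≤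
      cflag H 0 :=
    le_iSup₂_of_le (f := fun (l : List (LinearMap.GeneralLinearGroup k M))
        (_ : (∀ g ∈ l, g ∈ H) ∧ l.length = 0) =>
        LinearMap.range (dprod l)) [] ⟨by simp, rfl⟩ le_rfl
  have e : LinearMap.range (1 : M →ₗ[k] M) = ⊤ := LinearMap.range_id
  rw [dprod_nil, e] at h
  exact h

theorem cflag_succ_le (H : Subgroup (LinearMap.GeneralLinearGroup k M)) (i : ℕ) :
    cflag H (i + 1) ≤ cflag H i := by
  apply iSup₂_le
  rintro l ⟨hl, hlen⟩
  have hne : l ≠ [] := by rintro rfl; simp at hlen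
  obtain ⟨l', g, rfl⟩ : ∃ l' g, l = l' ++ [g] :=
    ⟨l.dropLast, l.getLast hne, (List.dropLast_append_getLast hne).symm⟩
  rw [dprod_append]
  refine le_trans (LinearMap.range_comp_le_range _ _) ?_
  exact le_iSup₂_of_le (f := fun (l : List (LinearMap.GeneralLinearGroup k M))
        (_ : (∀ g ∈ l, g ∈ H) ∧ l.length = i) =>
        LinearMap.range (dprod l)) l'
    ⟨fun g hg => hl g (by simp [hg]), by simpa using hlen⟩ le_rfl

theorem cflag_map_le (H : Subgroup (LinearMap.GeneralLinearGroup k M))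
    {g : LinearMap.GeneralLinearGroup k M} (hg : g ∈ H) (i : ℕ) :
    (cflag H i).map ((g : M →ₗ[k] M) - 1) ≤ cflag H (i + 1) := by
  unfold cflag
  rw [Submodule.map_iSup]
  apply iSup_le; intro l
  rw [Submodule.map_iSup]
  apply iSup_le; rintro ⟨hl, hlen⟩
  rw [← LinearMap.range_comp]
  refine le_iSup₂_of_le (f := fun (l : List (LinearMap.GeneralLinearGroup k M))
        (_ : (∀ g ∈ l, g ∈ H) ∧ l.length = i + 1) =>
        LinearMap.range (dprod l)) (g :: l) ⟨?_, by simp [hlen]⟩ ?_
  · intro h hh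
    rcases List.mem_cons.mp hh with rfl | hh
    · exact hg
    · exact hl h hh
  · rw [dprod_cons]
    exact le_rfl

theorem cflag_bot {H : Subgroup (LinearMap.GeneralLinearGroup k M)} {n : ℕ}
    (h : ∀ l : List (LinearMap.GeneralLinearGroup k M), (∀ g ∈ l, g ∈ H) → l.length = n →
      dprod l = 0) : cflag H n = ⊥ := by
  apply bot_unique
  apply iSup₂_le
  rintro l ⟨hl, hlen⟩
  rw [h l hl hlen, LinearMap.range_zero]

theorem le_fuGroup_cflag (H : Subgroup (LinearMap.GeneralLinearGroup k M)) :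
    H ≤ fuGroup (cflag H) (cflag_succ_le H) := by
  apply le_fuGroup_of
  intro g hg i v hv
  exact cflag_map_le H hg i (Submodule.mem_map_of_mem hv)

theorem unip_of_le_fuGroup {F : ℕ → Submodule k M} {hF : ∀ i, F (i + 1) ≤ F i} {n : ℕ}
    (h0 : F 0 = ⊤) (hn : F n = ⊥) {H : Subgroup (LinearMap.GeneralLinearGroup k M)}
    (hH : H ≤ fuGroup F hF) : IsUnipotentOn H := by
  rw [unip_iff]
  refine ⟨n, fun l hl hlen => ?_⟩
  have key : ∀ l : List (LinearMap.GeneralLinearGroup k M), (∀ g ∈ l, g ∈ H) →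
      dprod l ∈ shiftBy F l.length := by
    intro l
    induction l with
    | nil => intro _; rw [dprod_nil]; exact one_mem_shift_zero F
    | cons g l ih =>
      intro hl
      rw [dprod_cons, List.length_cons, add_comm]
      exact shift_mul (hH (hl g (by simp))).1 (ih (fun h hh => hl h (by simp [hh])))
  have := key l hl
  rw [hlen] at this
  exact shift_eq_zero h0 hn this

theorem exists_cflag_bot {H : Subgroup (LinearMap.GeneralLinearGroup k M)} (h : IsUnipotentOn H) :
    ∃ n, cflag H n = ⊥ := by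
  obtain ⟨n, hn⟩ := (unip_iff H).mp h
  exact ⟨n, cflag_bot hn⟩

theorem unip_mono {H H' : Subgroup (LinearMap.GeneralLinearGroup k M)} (h : H ≤ H')
    (hU : IsUnipotentOn H') : IsUnipotentOn H := by
  obtain ⟨n, hn⟩ := (unip_iff H').mp hU
  exact (unip_iff H).mpr ⟨n, fun l hl hlen => hn l (fun g hg => h (hl g hg)) hlen⟩

theorem prod_conj (p : LinearMap.GeneralLinearGroup k M) (l : List (LinearMap.GeneralLinearGroup k M)) :
    (p : M →ₗ[k] M) * dprod l =
      dprod (l.map fun g => p * g * p⁻¹) * (p : M →ₗ[k] M) := by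
  induction l with
  | nil => simp [dprod_nil]
  | cons g l ih =>
    rw [List.map_cons, dprod_cons, dprod_cons]
    have e : (p : M →ₗ[k] M) * ((g : M →ₗ[k] M) - 1) =
        (((p * g * p⁻¹ : LinearMap.GeneralLinearGroup k M) : M →ₗ[k] M) - 1) * (p : M →ₗ[k] M) := by
      rw [Units.val_mul, Units.val_mul, sub_mul, one_mul, mul_assoc, mul_assoc, Units.inv_mul, mul_one,
        mul_sub, mul_one]
    rw [← mul_assoc, e, mul_assoc, ih]
    exact (mul_assoc _ _ _).symm

theorem cflag_conj {H : Subgroup (LinearMap.GeneralLinearGroup k M)}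
    {p : LinearMap.GeneralLinearGroup k M} (hp : ∀ h ∈ H, p * h * p⁻¹ ∈ H) (i : ℕ) :
    (cflag H i).map (p : M →ₗ[k] M) ≤ cflag H i := by
  unfold cflag
  rw [Submodule.map_iSup]; apply iSup_le; intro l
  rw [Submodule.map_iSup]; apply iSup_le; rintro ⟨hl, hlen⟩
  rw [← LinearMap.range_comp]
  have e := prod_conj p l
  have e' : (p : M →ₗ[k] M) ∘ₗ dprod l =
      dprod (l.map fun g => p * g * p⁻¹) ∘ₗ (p : M →ₗ[k] M) := e
  rw [e']
  refine le_trans (LinearMap.range_comp_le_range _ _) ?_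
  exact le_iSup₂_of_le (f := fun (l : List (LinearMap.GeneralLinearGroup k M))
        (_ : (∀ g ∈ l, g ∈ H) ∧ l.length = i) =>
        LinearMap.range (dprod l)) (l.map fun g => p * g * p⁻¹)
    ⟨by
      intro g hg
      obtain ⟨g', hg', rfl⟩ := List.mem_map.mp hg
      exact hp g' (hl g' hg'), by simpa using hlen⟩ le_rfl

end

end Cfsg.Agent.Lib.Helper6
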