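import Mathlib
import Cfsg.Prelude
import Cfsg.Agent.Lib.Helper6.Unip

set_option autoImplicit false

namespace Cfsg.Agent.Lib.Helper6

open Cfsg

section
variable {k : Type*} [Field k] {M : Type*} [AddCommGroup M] [Module k M]

theorem shift_mul_zl {F : ℕ → Submodule k M} {j : ℕ} {x y : M →ₗ[k] M}
    (hx : x ∈ shiftBy F 0) (hy : y ∈ shiftBy F j) : x * y ∈ shiftBy F j := by
  have h := shift_mul hx hy
  rwa [zero_add] at h

theorem shift_mul_zr {F : ℕ → Submodule k M} {j : ℕ} {x y : M →ₗ[k] M}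
    (hx : x ∈ shiftBy F j) (hy : y ∈ shiftBy F 0) : x * y ∈ shiftBy F j := by
  have h := shift_mul hx hy
  rwa [add_zero] at h

/-- the elements acting on the commutator chain of `D` like elements of `P`, modulo one step -/
def phiGroup (D P : Subgroup (LinearMap.GeneralLinearGroup k M))
    (hP : ∀ p ∈ P, ∀ d ∈ D, p * d * p⁻¹ ∈ D) : Subgroup (LinearMap.GeneralLinearGroup k M) where
  carrier := {g | g.val ∈ shiftBy (cflag D) 0 ∧
    (g⁻¹ : LinearMap.GeneralLinearGroup k M).val ∈ shiftBy (cflag D) 0 ∧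
    ∃ p ∈ P, g.val - p.val ∈ shiftBy (cflag D) 1}
  mul_mem' := by
    rintro g h ⟨hg, hg', pg, hpg, hgp⟩ ⟨hh, hh', ph, hph, hhp⟩
    have hph0 : ph.val ∈ shiftBy (cflag D) 0 := by
      intro i v hv
      exact cflag_conj (hP ph hph) i (Submodule.mem_map_of_mem hv)
    refine ⟨?_, ?_, pg * ph, mul_mem hpg hph, ?_⟩
    · rw [Units.val_mul]; exact shift_mul_zl hg hh
    · rw [mul_inv_rev, Units.val_mul]; exact shift_mul_zl hh' hg'
    · have e : (g * h).val - (pg * ph).val = g.val * (h.val - ph.val) + (g.val - pg.val) * ph.val := by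
        rw [Units.val_mul, Units.val_mul]; noncomm_ring
      rw [e]
      exact add_mem (shift_mul_zl hg hhp) (shift_mul_zr hgp hph0)
  one_mem' := by
    refine ⟨one_mem_shift_zero _, ?_, 1, one_mem _, ?_⟩
    · rw [inv_one]; exact one_mem_shift_zero _
    · rw [sub_self]; exact zero_mem _
  inv_mem' := by
    rintro g ⟨hg, hg', p, hp, hgp⟩
    have hp0 : (p⁻¹ : LinearMap.GeneralLinearGroup k M).val ∈ shiftBy (cflag D) 0 := by
      intro i v hv
      exact cflag_conj (hP p⁻¹ (inv_mem hp)) i (Submodule.mem_map_of_mem hv)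
    refine ⟨hg', ?_, p⁻¹, inv_mem hp, ?_⟩
    · rw [inv_inv]; exact hg
    · have e : (g⁻¹ : LinearMap.GeneralLinearGroup k M).val -
          (p⁻¹ : LinearMap.GeneralLinearGroup k M).val =
          (g⁻¹ : LinearMap.GeneralLinearGroup k M).val * (-(g.val - p.val)) *
            (p⁻¹ : LinearMap.GeneralLinearGroup k M).val := by
        have h1 : (g⁻¹ : LinearMap.GeneralLinearGroup k M).val * g.val = 1 := Units.inv_mul g
        have h2 : p.val * (p⁻¹ : LinearMap.GeneralLinearGroup k M).val = 1 := Units.mul_inv p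
        rw [neg_sub, mul_sub, sub_mul, h1, one_mul, mul_assoc, h2, mul_one]
      rw [e]
      exact shift_mul_zr (shift_mul_zl hg' (neg_mem hgp)) hp0

theorem unip_sup {D P : Subgroup (LinearMap.GeneralLinearGroup k M)} (hD : IsUnipotentOn D)
    (hPU : IsUnipotentOn P) (hP : ∀ p ∈ P, ∀ d ∈ D, p * d * p⁻¹ ∈ D) : IsUnipotentOn (D ⊔ P) := by
  obtain ⟨m, hm⟩ := exists_cflag_bot hD
  obtain ⟨n₂, hn₂⟩ := (unip_iff P).mp hPU
  have hp0 : ∀ p ∈ P, p.val ∈ shiftBy (cflag D) 0 := by
    intro p hp i v hv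
    exact cflag_conj (hP p hp) i (Submodule.mem_map_of_mem hv)
  have hd1 : ∀ d ∈ D, d.val - 1 ∈ shiftBy (cflag D) 1 := fun d hd => (le_fuGroup_cflag D hd).1
  have hd0 : ∀ d ∈ D, d.val ∈ shiftBy (cflag D) 0 := by
    intro d hd
    have e : d.val = (d.val - 1) + 1 := by abel
    rw [e]
    exact add_mem (shift_anti (cflag_succ_le D) (by norm_num) (hd1 d hd)) (one_mem_shift_zero _)
  have hle : D ⊔ P ≤ phiGroup D P hP := by
    apply sup_le
    · intro d hd
      exact ⟨hd0 d hd, hd0 d⁻¹ (inv_mem hd), 1, one_mem _, hd1 d hd⟩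
    · intro p hp
      refine ⟨hp0 p hp, hp0 p⁻¹ (inv_mem hp), p, hp, ?_⟩
      rw [sub_self]; exact zero_mem _
  have claimA : ∀ l : List (LinearMap.GeneralLinearGroup k M), (∀ g ∈ l, g ∈ phiGroup D P hP) →
      ∃ lp : List (LinearMap.GeneralLinearGroup k M), (∀ p ∈ lp, p ∈ P) ∧ lp.length = l.length ∧
        dprod l ∈ shiftBy (cflag D) 0 ∧ dprod lp ∈ shiftBy (cflag D) 0 ∧
        dprod l - dprod lp ∈ shiftBy (cflag D) 1 := by
    intro l
    induction l with
    | nil =>
      intro _
      refine ⟨[], by simp, rfl, ?_, ?_, ?_⟩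
      · rw [dprod_nil]; exact one_mem_shift_zero _
      · rw [dprod_nil]; exact one_mem_shift_zero _
      · rw [sub_self]; exact zero_mem _
    | cons g l ih =>
      intro hl
      obtain ⟨lp, hlp, hlen, hx, hy, hxy⟩ := ih (fun h hh => hl h (by simp [hh]))
      obtain ⟨hg0, _, p, hp, hgp⟩ := hl g (by simp)
      have hg1 : g.val - 1 ∈ shiftBy (cflag D) 0 := sub_mem hg0 (one_mem_shift_zero _)
      have hp1 : p.val - 1 ∈ shiftBy (cflag D) 0 := sub_mem (hp0 p hp) (one_mem_shift_zero _)
      refine ⟨p :: lp, ?_, by simp [hlen], ?_, ?_, ?_⟩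
      · intro q hq
        rcases List.mem_cons.mp hq with rfl | hq
        · exact hp
        · exact hlp q hq
      · rw [dprod_cons]; exact shift_mul_zl hg1 hx
      · rw [dprod_cons]; exact shift_mul_zl hp1 hy
      · rw [dprod_cons, dprod_cons]
        have e : (g.val - 1) * dprod l - (p.val - 1) * dprod lp =
            (g.val - 1) * (dprod l - dprod lp) + (g.val - p.val) * dprod lp := by noncomm_ring
        rw [e]
        exact add_mem (shift_mul_zl hg1 hxy) (shift_mul_zr hgp hy)
  have claimB : ∀ l : List (LinearMap.GeneralLinearGroup k M), (∀ g ∈ l, g ∈ phiGroup D P hP) →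
      l.length = n₂ → dprod l ∈ shiftBy (cflag D) 1 := by
    intro l hl hlen
    obtain ⟨lp, hlp, hlen', _, _, hxy⟩ := claimA l hl
    rw [hn₂ lp hlp (hlen'.trans hlen), sub_zero] at hxy
    exact hxy
  have claimC : ∀ j : ℕ, ∀ l : List (LinearMap.GeneralLinearGroup k M),
      (∀ g ∈ l, g ∈ phiGroup D P hP) → l.length = j * n₂ → dprod l ∈ shiftBy (cflag D) j := by
    intro j
    induction j with
    | zero =>
      intro l _ hlen
      rw [zero_mul] at hlen
      rw [List.length_eq_zero_iff.mp hlen, dprod_nil]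
      exact one_mem_shift_zero _
    | succ j ih =>
      intro l hl hlen
      have e : l = l.take n₂ ++ l.drop n₂ := (List.take_append_drop n₂ l).symm
      rw [e, dprod_append]
      have h1 : (l.take n₂).length = n₂ := by
        rw [List.length_take, hlen]
        have : n₂ ≤ (j + 1) * n₂ := by nlinarith
        omega
      have h2 : (l.drop n₂).length = j * n₂ := by
        rw [List.length_drop, hlen]
        have : (j + 1) * n₂ = j * n₂ + n₂ := by ring
        omega
      have h3 := claimB (l.take n₂) (fun g hg => hl g (List.mem_of_mem_take hg)) h1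
      have h4 := ih (l.drop n₂) (fun g hg => hl g (List.mem_of_mem_drop hg)) h2
      have h5 := shift_mul h3 h4
      rw [add_comm] at h5
      exact h5
  rw [unip_iff]
  refine ⟨m * n₂, fun l hl hlen => ?_⟩
  exact shift_eq_zero (cflag_zero D) hm (claimC m l (fun g hg => hle (hl g hg)) hlen)

end

end Cfsg.Agent.Lib.Helper6
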