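import Mathlib
import Cfsg.Prelude
import Cfsg.Agent.Lib.Helper6.Unip2

set_option autoImplicit false

namespace Cfsg.Agent.Lib.Helper6

open Cfsg

section
variable {k : Type*} [Field k] {M : Type*} [AddCommGroup M] [Module k M]

/-- the span of the maps `a - 1` for `a` in members of `T` -/
def lspan (T : Set (Subgroup (LinearMap.GeneralLinearGroup k M))) : Submodule k (M →ₗ[k] M) :=
  Submodule.span k {x | ∃ A ∈ T, ∃ a ∈ A, x = a.val - 1}

theorem mem_lspan {T : Set (Subgroup (LinearMap.GeneralLinearGroup k M))}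
    {A : Subgroup (LinearMap.GeneralLinearGroup k M)} (hA : A ∈ T)
    {a : LinearMap.GeneralLinearGroup k M} (ha : a ∈ A) : a.val - 1 ∈ lspan T :=
  Submodule.subset_span ⟨A, hA, a, ha, rfl⟩

theorem lspan_mono {T T' : Set (Subgroup (LinearMap.GeneralLinearGroup k M))} (h : T ⊆ T') :
    lspan T ≤ lspan T' :=
  Submodule.span_mono (by rintro x ⟨A, hA, a, ha, rfl⟩; exact ⟨A, h hA, a, ha, rfl⟩)

/-- the members of `T` generate a unipotent group -/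
def isU (T : Set (Subgroup (LinearMap.GeneralLinearGroup k M))) : Prop :=
  IsUnipotentOn (⨆ A ∈ T, A)

theorem le_biSup' {T : Set (Subgroup (LinearMap.GeneralLinearGroup k M))}
    {A : Subgroup (LinearMap.GeneralLinearGroup k M)} (hA : A ∈ T) : A ≤ ⨆ X ∈ T, X :=
  le_iSup₂ (f := fun (X : Subgroup (LinearMap.GeneralLinearGroup k M)) (_ : X ∈ T) => X) A hA

theorem lspan_le_shift {T : Set (Subgroup (LinearMap.GeneralLinearGroup k M))}
    {F : ℕ → Submodule k M} {hF : ∀ i, F (i + 1) ≤ F i}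
    (h : (⨆ A ∈ T, A) ≤ fuGroup F hF) : lspan T ≤ shiftBy F 1 := by
  apply Submodule.span_le.mpr
  rintro x ⟨A, hA, a, ha, rfl⟩
  exact (h (le_biSup' hA ha)).1

theorem isU_of_lspan {T T' : Set (Subgroup (LinearMap.GeneralLinearGroup k M))} (hT : isU T)
    (h : ∀ A ∈ T', ∀ a ∈ A, a.val - 1 ∈ lspan T) : isU T' := by
  obtain ⟨n, hn⟩ := exists_cflag_bot hT
  have h1 := lspan_le_shift (le_fuGroup_cflag (⨆ A ∈ T, A))
  have h2 : (⨆ A ∈ T', A) ≤ fuGroup (cflag (⨆ A ∈ T, A)) (cflag_succ_le _) :=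
    iSup₂_le fun A hA => le_fuGroup_of fun a ha => h1 (h A hA a ha)
  exact unip_of_le_fuGroup (cflag_zero _) hn h2

/-- `T` is a maximal subset of `W` generating a unipotent group -/
def isMax (W T : Set (Subgroup (LinearMap.GeneralLinearGroup k M))) : Prop :=
  T ⊆ W ∧ isU T ∧ ∀ T', T' ⊆ W → isU T' → T ⊆ T' → T' = T

theorem max_of_flag {W T : Set (Subgroup (LinearMap.GeneralLinearGroup k M))} (hT : isMax W T)
    {A : Subgroup (LinearMap.GeneralLinearGroup k M)} (hA : A ∈ W)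
    {F : ℕ → Submodule k M} {hF : ∀ i, F (i + 1) ≤ F i} {n : ℕ} (h0 : F 0 = ⊤) (hn : F n = ⊥)
    (h1 : (⨆ X ∈ T, X) ≤ fuGroup F hF) (h2 : A ≤ fuGroup F hF) : A ∈ T := by
  have hU : isU (insert A T) := by
    apply unip_of_le_fuGroup h0 hn
    apply iSup₂_le
    intro X hX
    rcases Set.mem_insert_iff.mp hX with rfl | hX
    · exact h2
    · exact (le_biSup' hX).trans h1
  have := hT.2.2 (insert A T) (Set.insert_subset hA hT.1) hU (Set.subset_insert A T)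
  rw [← this]; exact Set.mem_insert A T

theorem max_of_lspan {W T : Set (Subgroup (LinearMap.GeneralLinearGroup k M))} (hT : isMax W T)
    {A : Subgroup (LinearMap.GeneralLinearGroup k M)} (hA : A ∈ W)
    (h : ∀ a ∈ A, a.val - 1 ∈ lspan T) : A ∈ T := by
  obtain ⟨n, hn⟩ := exists_cflag_bot hT.2.1
  have h1 := lspan_le_shift (le_fuGroup_cflag (⨆ A ∈ T, A))
  exact max_of_flag hT hA (cflag_zero _) hn (le_fuGroup_cflag _)
    (le_fuGroup_of fun a ha => h1 (h a ha))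

theorem max_exists [FiniteDimensional k M] {W T₁ : Set (Subgroup (LinearMap.GeneralLinearGroup k M))}
    (h1W : T₁ ⊆ W) (h1U : isU T₁) : ∃ T, isMax W T ∧ T₁ ⊆ T := by
  classical
  let S : Set ℕ := {m | ∃ T₂ : Set (Subgroup (LinearMap.GeneralLinearGroup k M)),
    T₂ ⊆ W ∧ isU T₂ ∧ T₁ ⊆ T₂ ∧ Module.finrank k (lspan T₂) = m}
  have hne : S.Nonempty := ⟨_, T₁, h1W, h1U, subset_rfl, rfl⟩
  have hbdd : BddAbove S := ⟨Module.finrank k (M →ₗ[k] M), by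
    rintro m ⟨T₂, _, _, _, rfl⟩; exact Submodule.finrank_le _⟩
  obtain ⟨T₂, h2W, h2U, h12, h2m⟩ := Nat.sSup_mem hne hbdd
  have hmax : ∀ T₃ : Set (Subgroup (LinearMap.GeneralLinearGroup k M)), T₃ ⊆ W → isU T₃ → T₁ ⊆ T₃ →
      Module.finrank k (lspan T₃) ≤ Module.finrank k (lspan T₂) := by
    intro T₃ h3W h3U h13
    rw [h2m]; exact le_csSup hbdd ⟨T₃, h3W, h3U, h13, rfl⟩
  refine ⟨{A | A ∈ W ∧ ∀ a ∈ A, a.val - 1 ∈ lspan T₂}, ⟨fun A hA => hA.1, ?_, ?_⟩, ?_⟩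
  · exact isU_of_lspan h2U (fun A hA => hA.2)
  · intro T' hT'W hT'U hsub
    have h2T' : T₂ ⊆ T' := fun A hA => hsub ⟨h2W hA, fun a ha => mem_lspan hA ha⟩
    have hle : lspan T₂ ≤ lspan T' := lspan_mono h2T'
    have heq : lspan T₂ = lspan T' :=
      Submodule.eq_of_le_of_finrank_le hle (hmax T' hT'W hT'U (h12.trans h2T'))
    apply Set.Subset.antisymm
    · intro A hA
      exact ⟨hT'W hA, fun a ha => by rw [heq]; exact mem_lspan hA ha⟩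
    · exact hsub
  · intro A hA
    exact ⟨h1W hA, fun a ha => mem_lspan (h12 hA) ha⟩

theorem kmul {F : ℕ → Submodule k M} (hF : ∀ i, F (i + 1) ≤ F i) {Q : Submodule k (M →ₗ[k] M)}
    (hQ : ∀ x ∈ Q, ∀ y ∈ Q, x * y ∈ Q) {j : ℕ} (hj : 1 ≤ j) {x y : M →ₗ[k] M}
    (hx : x ∈ (Q ⊓ shiftBy F 1) ⊔ shiftBy F j) (hy : y ∈ (Q ⊓ shiftBy F 1) ⊔ shiftBy F (j + 1)) :
    x * y ∈ (Q ⊓ shiftBy F 1) ⊔ shiftBy F (j + 1) ∧ y * x ∈ (Q ⊓ shiftBy F 1) ⊔ shiftBy F (j + 1) := by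
  obtain ⟨q, hq, p, hp, rfl⟩ := Submodule.mem_sup.mp hx
  obtain ⟨q', hq', p', hp', rfl⟩ := Submodule.mem_sup.mp hy
  have hq1 : q ∈ shiftBy F 1 := hq.2
  have hq1' : q' ∈ shiftBy F 1 := hq'.2
  constructor
  · have e : (q + p) * (q' + p') = q * q' + (q * p' + p * q' + p * p') := by noncomm_ring
    rw [e]
    apply Submodule.add_mem_sup
    · exact ⟨hQ q hq.1 q' hq'.1, shift_anti hF (by omega) (shift_mul hq1 hq1')⟩
    · exact add_mem (add_mem (shift_anti hF (by omega) (shift_mul hq1 hp')) (shift_mul hp hq1'))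
        (shift_anti hF (by omega) (shift_mul hp hp'))
  · have e : (q' + p') * (q + p) = q' * q + (q' * p + p' * q + p' * p) := by noncomm_ring
    rw [e]
    apply Submodule.add_mem_sup
    · exact ⟨hQ q' hq'.1 q hq.1, shift_anti hF (by omega) (shift_mul hq1' hq1)⟩
    · exact add_mem (add_mem (shift_anti hF (by omega) (shift_mul hq1' hp))
        (shift_anti hF (by omega) (shift_mul hp' hq1))) (shift_anti hF (by omega) (shift_mul hp' hp))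

theorem kconj {F : ℕ → Submodule k M} (hF : ∀ i, F (i + 1) ≤ F i) {Q : Submodule k (M →ₗ[k] M)}
    (hQ : ∀ x ∈ Q, ∀ y ∈ Q, x * y ∈ Q) {j : ℕ} (hj : 1 ≤ j) {a b : LinearMap.GeneralLinearGroup k M}
    (ha : a.val - 1 ∈ (Q ⊓ shiftBy F 1) ⊔ shiftBy F j)
    (ha' : (a⁻¹ : LinearMap.GeneralLinearGroup k M).val - 1 ∈ (Q ⊓ shiftBy F 1) ⊔ shiftBy F j)
    (hb : b.val - 1 ∈ (Q ⊓ shiftBy F 1) ⊔ shiftBy F (j + 1)) :
    (a * b * a⁻¹ : LinearMap.GeneralLinearGroup k M).val - 1 ∈ (Q ⊓ shiftBy F 1) ⊔ shiftBy F (j + 1) := by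
  have e : (a * b * a⁻¹ : LinearMap.GeneralLinearGroup k M).val - 1 =
      (b.val - 1) + (a.val - 1) * (b.val - 1) +
        (b.val - 1) * ((a⁻¹ : LinearMap.GeneralLinearGroup k M).val - 1) +
        ((a.val - 1) * (b.val - 1)) * ((a⁻¹ : LinearMap.GeneralLinearGroup k M).val - 1) := by
    have h1 : a.val * (a⁻¹ : LinearMap.GeneralLinearGroup k M).val = 1 := Units.mul_inv a
    rw [Units.val_mul, Units.val_mul]
    have h2 : a.val * b.val * (a⁻¹ : LinearMap.GeneralLinearGroup k M).val - 1 =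
        a.val * (b.val - 1) * (a⁻¹ : LinearMap.GeneralLinearGroup k M).val := by
      rw [mul_sub, sub_mul, mul_one, h1]
    rw [h2]; noncomm_ring
  rw [e]
  have k1 := (kmul hF hQ hj ha hb).1
  have k2 := (kmul hF hQ hj ha' hb).2
  have k3 := (kmul hF hQ hj ha' k1).2
  exact add_mem (add_mem (add_mem hb k1) k2) k3

theorem norm_exists {G : Subgroup (LinearMap.GeneralLinearGroup k M)}
    {W : Set (Subgroup (LinearMap.GeneralLinearGroup k M))} (hWG : ∀ A ∈ W, A ≤ G)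
    (hWconj : ∀ A ∈ W, ∀ g ∈ G, conjBy A g ∈ W)
    {T T' : Set (Subgroup (LinearMap.GeneralLinearGroup k M))} (hT : isMax W T) (hT' : isMax W T')
    {A₀ : Subgroup (LinearMap.GeneralLinearGroup k M)} (hA₀ : A₀ ∈ T) (hA₀' : A₀ ∉ T') :
    ∃ A ∈ T, A ∉ T' ∧ ∀ a ∈ A, ∀ X ∈ T, X ∈ T' → conjBy X a ∈ T ∧ conjBy X a ∈ T' := by
  classical
  obtain ⟨n, hn⟩ := exists_cflag_bot hT.2.1
  obtain ⟨n', hn'⟩ := exists_cflag_bot hT'.2.1
  have hF : ∀ i, cflag (⨆ X ∈ T, X) (i + 1) ≤ cflag (⨆ X ∈ T, X) i := cflag_succ_le _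
  have hF' : ∀ i, cflag (⨆ X ∈ T', X) (i + 1) ≤ cflag (⨆ X ∈ T', X) i := cflag_succ_le _
  have hQ : ∀ x ∈ shiftBy (cflag (⨆ X ∈ T', X)) 1, ∀ y ∈ shiftBy (cflag (⨆ X ∈ T', X)) 1,
      x * y ∈ shiftBy (cflag (⨆ X ∈ T', X)) 1 :=
    fun x hx y hy => shift_anti hF' (by norm_num) (shift_mul hx hy)
  have hTF : ∀ X ∈ T, ∀ b ∈ X, b.val - 1 ∈ shiftBy (cflag (⨆ X ∈ T, X)) 1 :=
    fun X hX b hb => (le_fuGroup_cflag _ (le_biSup' hX hb)).1
  have hT'F' : ∀ X ∈ T', ∀ b ∈ X, b.val - 1 ∈ shiftBy (cflag (⨆ X ∈ T', X)) 1 :=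
    fun X hX b hb => (le_fuGroup_cflag _ (le_biSup' hX hb)).1
  let S : Set ℕ := {j | 1 ≤ j ∧ ∃ A ∈ T, A ∉ T' ∧ ∀ a ∈ A, a.val - 1 ∈
    (shiftBy (cflag (⨆ X ∈ T', X)) 1 ⊓ shiftBy (cflag (⨆ X ∈ T, X)) 1) ⊔
      shiftBy (cflag (⨆ X ∈ T, X)) j}
  have h1S : 1 ∈ S := ⟨le_rfl, A₀, hA₀, hA₀', fun a ha => Submodule.mem_sup_right (hTF A₀ hA₀ a ha)⟩
  have hbdd : ∀ j ∈ S, j < n := by
    rintro j ⟨_, A, hA, hA', hAK⟩
    by_contra hjn
    push_neg at hjn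
    apply hA'
    apply max_of_flag hT' (hT.1 hA) (cflag_zero _) hn' (le_fuGroup_cflag _)
    apply le_fuGroup_of
    intro a ha
    obtain ⟨q, hq, p, hp, e⟩ := Submodule.mem_sup.mp (hAK a ha)
    have hp0 : p = 0 := shift_eq_zero (cflag_zero _) hn (shift_anti hF hjn hp)
    rw [← e, hp0, add_zero]
    exact hq.1
  have hbdd' : BddAbove S := ⟨n, fun j hj => (hbdd j hj).le⟩
  have hjS : sSup S ∈ S := Nat.sSup_mem ⟨1, h1S⟩ hbdd'
  have hjmax : ∀ j' ∈ S, j' ≤ sSup S := fun j' hj' => le_csSup hbdd' hj'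
  obtain ⟨hj1, A, hA, hA', hAK⟩ := hjS
  refine ⟨A, hA, hA', fun a ha X hX hX' => ?_⟩
  have hXK : ∀ c ∈ conjBy X a, c.val - 1 ∈
      (shiftBy (cflag (⨆ X ∈ T', X)) 1 ⊓ shiftBy (cflag (⨆ X ∈ T, X)) 1) ⊔
        shiftBy (cflag (⨆ X ∈ T, X)) (sSup S + 1) := by
    intro c hc
    have hb : a⁻¹ * c * a ∈ X := cb_mem.mp hc
    have e : c = a * (a⁻¹ * c * a) * a⁻¹ := by group
    rw [e]
    exact kconj hF hQ hj1 (hAK a ha) (hAK a⁻¹ (inv_mem ha))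
      (Submodule.mem_sup_left ⟨hT'F' X hX' _ hb, hTF X hX _ hb⟩)
  have hK1 : (shiftBy (cflag (⨆ X ∈ T', X)) 1 ⊓ shiftBy (cflag (⨆ X ∈ T, X)) 1) ⊔
      shiftBy (cflag (⨆ X ∈ T, X)) (sSup S + 1) ≤ shiftBy (cflag (⨆ X ∈ T, X)) 1 :=
    sup_le inf_le_right (shift_anti hF (by omega))
  have hXW : conjBy X a ∈ W := hWconj X (hT.1 hX) a (hWG A (hT.1 hA) ha)
  have hXT : conjBy X a ∈ T := max_of_flag hT hXW (cflag_zero _) hn (le_fuGroup_cflag _)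
    (le_fuGroup_of fun c hc => hK1 (hXK c hc))
  have hXT' : conjBy X a ∈ T' := by
    by_contra hcon
    have := hjmax (sSup S + 1) ⟨by omega, conjBy X a, hXT, hcon, hXK⟩
    omega
  exact ⟨hXT, hXT'⟩

end

end Cfsg.Agent.Lib.Helper6
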