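import Mathlib
import Cfsg.Prelude
import Cfsg.Agent.Lib.Helper6.Unip3

set_option autoImplicit false

namespace Cfsg.Agent.Lib.Helper6

open Cfsg

section
variable {k : Type*} [Field k] {M : Type*} [AddCommGroup M] [Module k M] [FiniteDimensional k M]

theorem max_unique {G : Subgroup (LinearMap.GeneralLinearGroup k M)}
    {W : Set (Subgroup (LinearMap.GeneralLinearGroup k M))} (hWG : ∀ A ∈ W, A ≤ G)
    (hWW : ∀ A ∈ W, ∀ B ∈ W, IsUnipotentOn (A ⊔ B))
    (hWconj : ∀ A ∈ W, ∀ g ∈ G, conjBy A g ∈ W)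
    {T T' : Set (Subgroup (LinearMap.GeneralLinearGroup k M))} (hT : isMax W T) (hT' : isMax W T') :
    T = T' := by
  classical
  by_contra hne
  let S : Set ℕ := {m | ∃ T T' : Set (Subgroup (LinearMap.GeneralLinearGroup k M)),
    isMax W T ∧ isMax W T' ∧ T ≠ T' ∧ Module.finrank k (lspan (T ∩ T')) = m}
  have hSne : S.Nonempty := ⟨_, T, T', hT, hT', hne, rfl⟩
  have hbdd : BddAbove S := ⟨Module.finrank k (M →ₗ[k] M), by
    rintro m ⟨T₂, T₃, _, _, _, rfl⟩; exact Submodule.finrank_le _⟩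
  obtain ⟨T, T', hT, hT', hne, hm⟩ := Nat.sSup_mem hSne hbdd
  have hmax : ∀ T₂ T₃ : Set (Subgroup (LinearMap.GeneralLinearGroup k M)), isMax W T₂ → isMax W T₃ →
      T₂ ≠ T₃ → Module.finrank k (lspan (T₂ ∩ T₃)) ≤ Module.finrank k (lspan (T ∩ T')) := by
    intro T₂ T₃ h2 h3 h23
    rw [hm]; exact le_csSup hbdd ⟨T₂, T₃, h2, h3, h23, rfl⟩
  have hne1 : ∃ A ∈ T, A ∉ T' := by
    by_contra hcon
    push_neg at hcon
    exact hne (hT.2.2 T' hT'.1 hT'.2.1 hcon).symm
  have hne2 : ∃ B ∈ T', B ∉ T := by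
    by_contra hcon
    push_neg at hcon
    exact hne (hT'.2.2 T hT.1 hT.2.1 hcon)
  obtain ⟨A₀, hA₀, hA₀'⟩ := hne1
  obtain ⟨B₀, hB₀, hB₀'⟩ := hne2
  obtain ⟨A, hA, hA', hAn⟩ := norm_exists hWG hWconj hT hT' hA₀ hA₀'
  obtain ⟨B, hB, hB', hBn⟩ := norm_exists hWG hWconj hT' hT hB₀ hB₀'
  have hDU : isU (T ∩ T') := unip_mono (iSup₂_le fun X hX => le_biSup' hX.1) hT.2.1
  have hPU : IsUnipotentOn (A ⊔ B) := hWW A (hT.1 hA) B (hT'.1 hB)
  have hconj : ∀ p : LinearMap.GeneralLinearGroup k M, (∀ X ∈ T ∩ T', conjBy X p ∈ T ∩ T') →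
      ∀ d ∈ (⨆ X ∈ T ∩ T', X), p * d * p⁻¹ ∈ (⨆ X ∈ T ∩ T', X) := by
    intro p hp d hd
    have h1 : conjBy (⨆ X ∈ T ∩ T', X) p ≤ ⨆ X ∈ T ∩ T', X := by
      show Subgroup.map _ _ ≤ _
      simp only [Subgroup.map_iSup]
      exact iSup₂_le fun X hX => le_biSup' (hp X hX)
    exact h1 (cb_mem' hd)
  have hnorm : ∀ p ∈ A ⊔ B, ∀ d ∈ (⨆ X ∈ T ∩ T', X), p * d * p⁻¹ ∈ (⨆ X ∈ T ∩ T', X) := by
    have hle : A ⊔ B ≤ Subgroup.normalizer
        ((⨆ X ∈ T ∩ T', X : Subgroup (LinearMap.GeneralLinearGroup k M)) : Set _) := by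
      apply sup_le
      · intro a ha
        rw [Subgroup.mem_normalizer_iff]
        intro d
        constructor
        · exact hconj a (fun X hX => hAn a ha X hX.1 hX.2) d
        · intro hd
          have := hconj a⁻¹ (fun X hX => hAn a⁻¹ (inv_mem ha) X hX.1 hX.2) _ hd
          have e : a⁻¹ * (a * d * a⁻¹) * a⁻¹⁻¹ = d := by group
          rwa [e] at this
      · intro b hb
        rw [Subgroup.mem_normalizer_iff]
        intro d
        constructor
        · exact hconj b (fun X hX => ⟨(hBn b hb X hX.2 hX.1).2, (hBn b hb X hX.2 hX.1).1⟩) d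
        · intro hd
          have := hconj b⁻¹ (fun X hX => ⟨(hBn b⁻¹ (inv_mem hb) X hX.2 hX.1).2,
            (hBn b⁻¹ (inv_mem hb) X hX.2 hX.1).1⟩) _ hd
          have e : b⁻¹ * (b * d * b⁻¹) * b⁻¹⁻¹ = d := by group
          rwa [e] at this
    intro p hp d hd
    exact (Subgroup.mem_normalizer_iff.mp (hle hp) d).mp hd
  have hDP := unip_sup hDU hPU hnorm
  have h3U : isU (insert A (insert B (T ∩ T'))) := by
    refine unip_mono ?_ hDP
    apply iSup₂_le
    intro X hX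
    rcases Set.mem_insert_iff.mp hX with rfl | hX
    · exact le_sup_left.trans le_sup_right
    · rcases Set.mem_insert_iff.mp hX with rfl | hX
      · exact le_sup_right.trans le_sup_right
      · exact (le_biSup' hX).trans le_sup_left
  have h3W : insert A (insert B (T ∩ T')) ⊆ W :=
    Set.insert_subset (hT.1 hA) (Set.insert_subset (hT'.1 hB) (fun X hX => hT.1 hX.1))
  obtain ⟨T'', hT'', h3⟩ := max_exists h3W h3U
  have hA'' : A ∈ T'' := h3 (Set.mem_insert _ _)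
  have hB'' : B ∈ T'' := h3 (Set.mem_insert_of_mem _ (Set.mem_insert _ _))
  have hne'' : T'' ≠ T := by
    rintro rfl
    exact hB' hB''
  have hle : lspan (T ∩ T') ≤ lspan (T'' ∩ T) :=
    lspan_mono (fun X hX => ⟨h3 (Set.mem_insert_of_mem _ (Set.mem_insert_of_mem _ hX)), hX.1⟩)
  have heq : lspan (T ∩ T') = lspan (T'' ∩ T) :=
    Submodule.eq_of_le_of_finrank_le hle (hmax T'' T hT'' hT hne'')
  apply hA'
  apply max_of_lspan hT' (hT.1 hA)
  intro a ha
  have h1 : a.val - 1 ∈ lspan (T'' ∩ T) := mem_lspan (T := T'' ∩ T) (Set.mem_inter hA'' hA) ha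
  rw [← heq] at h1
  exact lspan_mono Set.inter_subset_right h1

theorem unip_main {G : Subgroup (LinearMap.GeneralLinearGroup k M)}
    {W : Set (Subgroup (LinearMap.GeneralLinearGroup k M))} (hWG : ∀ A ∈ W, A ≤ G)
    (hWW : ∀ A ∈ W, ∀ B ∈ W, IsUnipotentOn (A ⊔ B))
    (hWconj : ∀ A ∈ W, ∀ g ∈ G, conjBy A g ∈ W) : IsUnipotentOn (⨆ A ∈ W, A) := by
  have h0 : isU (∅ : Set (Subgroup (LinearMap.GeneralLinearGroup k M))) := by
    have : (⨆ A ∈ (∅ : Set (Subgroup (LinearMap.GeneralLinearGroup k M))), A) = ⊥ := by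
      apply bot_unique
      exact iSup₂_le fun X hX => absurd hX (Set.notMem_empty X)
    show IsUnipotentOn _
    rw [this, unip_iff]
    refine ⟨1, fun l hl hlen => ?_⟩
    obtain ⟨g, rfl⟩ := List.length_eq_one_iff.mp hlen
    have hg : g = 1 := Subgroup.mem_bot.mp (hl g (by simp))
    rw [dprod_cons, hg, Units.val_one, sub_self, zero_mul]
  obtain ⟨T, hT, _⟩ := max_exists (Set.empty_subset W) h0
  have hWT : W ⊆ T := by
    intro A hA
    have hAU : isU {A} := by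
      refine unip_mono ?_ (hWW A hA A hA)
      apply iSup₂_le
      intro X hX
      rw [Set.mem_singleton_iff.mp hX]
      exact le_sup_left
    obtain ⟨TA, hTA, hsub⟩ := max_exists (Set.singleton_subset_iff.mpr hA) hAU
    rw [max_unique hWG hWW hWconj hT hTA]
    exact hsub (Set.mem_singleton A)
  have : T = W := Set.Subset.antisymm hT.1 hWT
  rw [← this]; exact hT.2.1

end

end Cfsg.Agent.Lib.Helper6
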